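import Cfsg.Agent.Lib.helper28.TernGolay

set_option autoImplicit false

namespace Cfsg.Agent.Lib.helper28.TG

open Cfsg

theorem mem_tsupp (x : ArrayPt → ZMod 3) (r : ArrayPt) : r ∈ ternarySupport x ↔ x r ≠ 0 := by
  unfold ternarySupport
  rw [Finset.mem_filter]
  exact ⟨fun hh => hh.2, fun hh => ⟨Finset.mem_univ _, hh⟩⟩

theorem tsupp_neg (x : ArrayPt → ZMod 3) : ternarySupport (-x) = ternarySupport x := by
  ext r
  rw [mem_tsupp, mem_tsupp, Pi.neg_apply, neg_ne_zero]

/-- A word of the code of weight at most 4 is zero. -/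
theorem eq_zero_of_wt_le {x : ArrayPt → ZMod 3} (hx : x ∈ ternaryGolayCode)
    (h : (ternarySupport x).card ≤ 4) : x = 0 := by
  rcases wt_code x hx with h0 | h0 | h0 | h0
  · exact eq_zero_of_wt h0
  · omega
  · omega
  · omega

/-- Two words of weight 6 whose supports share five points are equal or opposite. -/
theorem hexad_unique {x y : ArrayPt → ZMod 3} (hx : x ∈ ternaryGolayCode)
    (hy : y ∈ ternaryGolayCode) (hwx : (ternarySupport x).card = 6)
    (hwy : (ternarySupport y).card = 6) (s : Finset ArrayPt) (hs : s.card = 5)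
    (hsx : s ⊆ ternarySupport x) (hsy : s ⊆ ternarySupport y) : y = x ∨ y = -x := by
  classical
  have hU : (ternarySupport x ∪ ternarySupport y).card ≤ 7 := by
    have h1 := Finset.card_union_add_card_inter (ternarySupport x) (ternarySupport y)
    have h2 : s.card ≤ (ternarySupport x ∩ ternarySupport y).card :=
      Finset.card_le_card (Finset.subset_inter hsx hsy)
    omega
  have hsplit := Finset.card_filter_add_card_filter_not (s := s) (fun p => x p = y p)
  have hsU : s ⊆ ternarySupport x ∪ ternarySupport y := hsx.trans Finset.subset_union_left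
  by_cases hA : 3 ≤ (s.filter (fun p => x p = y p)).card
  · left
    have hsub : ternarySupport (x - y) ⊆
        (ternarySupport x ∪ ternarySupport y) \ s.filter (fun p => x p = y p) := by
      intro r hr
      rw [mem_tsupp, Pi.sub_apply] at hr
      rw [Finset.mem_sdiff, Finset.mem_union, mem_tsupp, mem_tsupp, Finset.mem_filter]
      constructor
      · by_contra hn
        push Not at hn
        apply hr
        rw [hn.1, hn.2, sub_zero]
      · rintro ⟨-, he⟩
        apply hr
        rw [he, sub_self]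
    have hc := Finset.card_le_card hsub
    rw [Finset.card_sdiff_of_subset ((Finset.filter_subset _ _).trans hsU)] at hc
    have := eq_zero_of_wt_le (sub_mem hx hy) (by omega)
    exact (sub_eq_zero.mp this).symm
  · right
    have hB : 3 ≤ (s.filter (fun p => ¬ x p = y p)).card := by omega
    have hz3 : ∀ a b : ZMod 3, a ≠ 0 → b ≠ 0 → a ≠ b → a + b = 0 := by decide
    have hsub : ternarySupport (x + y) ⊆
        (ternarySupport x ∪ ternarySupport y) \ s.filter (fun p => ¬ x p = y p) := by
      intro r hr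
      rw [mem_tsupp, Pi.add_apply] at hr
      rw [Finset.mem_sdiff, Finset.mem_union, mem_tsupp, mem_tsupp, Finset.mem_filter]
      constructor
      · by_contra hn
        push Not at hn
        apply hr
        rw [hn.1, hn.2, add_zero]
      · rintro ⟨hrs, he⟩
        apply hr
        exact hz3 _ _ ((mem_tsupp x r).mp (hsx hrs)) ((mem_tsupp y r).mp (hsy hrs)) he
    have hc := Finset.card_le_card hsub
    rw [Finset.card_sdiff_of_subset ((Finset.filter_subset _ _).trans hsU)] at hc
    have := eq_zero_of_wt_le (add_mem hx hy) (by omega)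
    exact (neg_eq_of_add_eq_zero_right this).symm ▸ rfl

/-- The leading parameter. -/
def lead (p : P6) : ZMod 3 :=
  if p.1 ≠ 0 then p.1 else if p.2.1 ≠ 0 then p.2.1 else if p.2.2.1 ≠ 0 then p.2.2.1 else
    if p.2.2.2.1 ≠ 0 then p.2.2.2.1 else if p.2.2.2.2.1 ≠ 0 then p.2.2.2.2.1 else p.2.2.2.2.2

theorem lead_neg : ∀ p : P6, lead p = 1 → lead (-p) ≠ 1 := by decide +kernel

theorem lead_or : ∀ p : P6, p ≠ 0 → lead p = 1 ∨ lead (-p) = 1 := by decide +kernel

theorem encP_neg : ∀ p : P6, ∀ q : ArrayPt, encP (-p) q = -encP p q := by decide +kernel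

theorem encP_neg' (p : P6) : encP (-p) = -encP p := by
  funext q
  exact encP_neg p q

theorem encP_zero : ∀ q : ArrayPt, encP 0 q = 0 := by decide +kernel

/-- The normalised parameters of words of weight 6. -/
def hexP : Finset P6 :=
  Finset.univ.filter (fun p : P6 => (ternarySupport (encP p)).card = 6 ∧ lead p = 1)

theorem card_hexP : hexP.card = 132 := by
  unfold hexP
  decide +kernel

/-- The supports of the words of weight 6. -/
def hexF : Finset (Finset ArrayPt) := hexP.image (fun p => ternarySupport (encP p))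

theorem hexF_injOn : Set.InjOn (fun p => ternarySupport (encP p)) (↑hexP : Set P6) := by
  intro p hp p' hp' h
  unfold hexP at hp hp'
  rw [Finset.mem_coe, Finset.mem_filter] at hp hp'
  have hx : encP p ∈ ternaryGolayCode := (mem_code_iff _).mpr ⟨p, rfl⟩
  have hy : encP p' ∈ ternaryGolayCode := (mem_code_iff _).mpr ⟨p', rfl⟩
  obtain ⟨s, hs1, hs2⟩ := Finset.exists_subset_card_eq (s := ternarySupport (encP p)) (n := 5)
    (by rw [hp.2.1]; norm_num)
  have h' : ternarySupport (encP p) = ternarySupport (encP p') := h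
  rcases hexad_unique hx hy hp.2.1 hp'.2.1 s hs2 hs1 (h' ▸ hs1) with h1 | h1
  · exact (encP_injective h1).symm
  · exfalso
    rw [← encP_neg'] at h1
    have := encP_injective h1
    rw [this] at hp'
    exact lead_neg p hp.2.2 hp'.2.2

theorem card_hexF : hexF.card = 132 := by
  unfold hexF
  rw [Finset.card_image_of_injOn hexF_injOn, card_hexP]

theorem mem_hexF (h : Finset ArrayPt) :
    h ∈ hexF ↔ ∃ x ∈ ternaryGolayCode, ternarySupport x = h ∧ h.card = 6 := by
  unfold hexF hexP
  rw [Finset.mem_image]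
  constructor
  · rintro ⟨p, hp, rfl⟩
    rw [Finset.mem_filter] at hp
    exact ⟨encP p, (mem_code_iff _).mpr ⟨p, rfl⟩, rfl, hp.2.1⟩
  · rintro ⟨x, hx, rfl, hc⟩
    obtain ⟨p, rfl⟩ := (mem_code_iff x).mp hx
    have hp0 : p ≠ 0 := by
      rintro rfl
      have : encP 0 = 0 := funext encP_zero
      rw [this] at hc
      unfold ternarySupport at hc
      simp at hc
    rcases lead_or p hp0 with h1 | h1
    · exact ⟨p, Finset.mem_filter.mpr ⟨Finset.mem_univ _, hc, h1⟩, rfl⟩
    · refine ⟨-p, Finset.mem_filter.mpr ⟨Finset.mem_univ _, ?_, h1⟩, ?_⟩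
      · rw [encP_neg', tsupp_neg]; exact hc
      · show ternarySupport (encP (-p)) = _
        rw [encP_neg', tsupp_neg]

theorem card_of_mem_hexF {h : Finset ArrayPt} (hh : h ∈ hexF) : h.card = 6 := by
  obtain ⟨x, -, -, hc⟩ := (mem_hexF h).mp hh
  exact hc

/-- Two hexads sharing five points are equal. -/
theorem hexF_unique {b b' : Finset ArrayPt} (hb : b ∈ hexF) (hb' : b' ∈ hexF)
    (s : Finset ArrayPt) (hs : s.card = 5) (hsb : s ⊆ b) (hsb' : s ⊆ b') : b' = b := by
  obtain ⟨x, hx, rfl, hc⟩ := (mem_hexF b).mp hb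
  obtain ⟨y, hy, rfl, hc'⟩ := (mem_hexF b').mp hb'
  rcases hexad_unique hx hy hc hc' s hs hsb hsb' with h1 | h1
  · rw [h1]
  · rw [h1, tsupp_neg]

theorem card_array : Fintype.card ArrayPt = 12 := by
  simp only [Fintype.card_prod, ZMod.card, Fintype.card_fin]

/-- Every five points lie in a hexad. -/
theorem hexF_exists (s : Finset ArrayPt) (hs : s.card = 5) : ∃ b ∈ hexF, s ⊆ b := by
  classical
  have hdc := Finset.sum_card_bipartiteAbove_eq_sum_card_bipartiteBelow
    (s := Finset.powersetCard 5 (Finset.univ : Finset ArrayPt)) (t := hexF)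
    (fun (s : Finset ArrayPt) (b : Finset ArrayPt) => s ⊆ b)
  have hR : ∀ b ∈ hexF, ((Finset.powersetCard 5 (Finset.univ : Finset ArrayPt)).bipartiteBelow
      (fun (s : Finset ArrayPt) (b : Finset ArrayPt) => s ⊆ b) b).card = 6 := by
    intro b hb
    have he : (Finset.powersetCard 5 (Finset.univ : Finset ArrayPt)).bipartiteBelow
        (fun (s : Finset ArrayPt) (b : Finset ArrayPt) => s ⊆ b) b = Finset.powersetCard 5 b := by
      ext t
      rw [Finset.mem_bipartiteBelow, Finset.mem_powersetCard, Finset.mem_powersetCard]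
      exact ⟨fun hh => ⟨hh.2, hh.1.2⟩, fun hh => ⟨⟨Finset.subset_univ _, hh.2⟩, hh.1⟩⟩
    rw [he, Finset.card_powersetCard, card_of_mem_hexF hb]
    rfl
  rw [Finset.sum_congr rfl hR, Finset.sum_const, card_hexF] at hdc
  have hL : ∀ t ∈ Finset.powersetCard 5 (Finset.univ : Finset ArrayPt),
      (hexF.bipartiteAbove (fun (s : Finset ArrayPt) (b : Finset ArrayPt) => s ⊆ b) t).card ≤ 1 := by
    intro t ht
    rw [Finset.mem_powersetCard] at ht
    rw [Finset.card_le_one]
    intro b hb b' hb'
    rw [Finset.mem_bipartiteAbove] at hb hb'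
    exact (hexF_unique hb.1 hb'.1 t ht.2 hb.2 hb'.2).symm
  have hcard : (Finset.powersetCard 5 (Finset.univ : Finset ArrayPt)).card = 792 := by
    rw [Finset.card_powersetCard, Finset.card_univ, card_array]
    rfl
  have hsum : ∑ t ∈ Finset.powersetCard 5 (Finset.univ : Finset ArrayPt),
      (hexF.bipartiteAbove (fun (s : Finset ArrayPt) (b : Finset ArrayPt) => s ⊆ b) t).card =
      ∑ _t ∈ Finset.powersetCard 5 (Finset.univ : Finset ArrayPt), 1 := by
    rw [hdc, Finset.sum_const, hcard]
    rfl
  have hall := (Finset.sum_eq_sum_iff_of_le hL).mp hsum s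
    (Finset.mem_powersetCard.mpr ⟨Finset.subset_univ _, hs⟩)
  have hpos : 0 < (hexF.bipartiteAbove (fun (s : Finset ArrayPt) (b : Finset ArrayPt) => s ⊆ b)
      s).card := by rw [hall]; norm_num
  obtain ⟨b, hb⟩ := Finset.card_pos.mp hpos
  rw [Finset.mem_bipartiteAbove] at hb
  exact ⟨b, hb.1, hb.2⟩

/-- Statement S1592. -/
theorem hexads_steiner :
    IsSteinerSystem 5 6 {h : Finset ArrayPt | ∃ x ∈ ternaryGolayCode,
      ternarySupport x = h ∧ h.card = 6} ∧
    {h : Finset ArrayPt | ∃ x ∈ ternaryGolayCode, ternarySupport x = h ∧ h.card = 6}.ncard =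
      132 := by
  have hB : {h : Finset ArrayPt | ∃ x ∈ ternaryGolayCode, ternarySupport x = h ∧ h.card = 6} =
      ↑hexF := by
    ext h
    rw [Finset.mem_coe, mem_hexF]
    rfl
  rw [hB]
  refine ⟨⟨fun b hb => card_of_mem_hexF (Finset.mem_coe.mp hb), fun s hs => ?_⟩, ?_⟩
  · obtain ⟨b, hb, hsb⟩ := hexF_exists s hs
    refine ⟨b, ⟨Finset.mem_coe.mpr hb, hsb⟩, fun b' hb' => ?_⟩
    exact hexF_unique hb (Finset.mem_coe.mp hb'.1) s hs hsb hb'.2
  · rw [Set.ncard_coe_finset, card_hexF]

end Cfsg.Agent.Lib.helper28.TG
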