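import Mathlib
import Cfsg.Prelude.Def_Sporadic_a

set_option autoImplicit false
set_option linter.unusedSectionVars false

namespace Cfsg.Agent.Lib.helper28.CodeAbs

open Finset Cfsg

/-! Abstract binary codes of length 24 with 4096 words and minimum weight 8: coset leaders,
octads, sextets. Set-level part. -/

section Sphere

variable {ι : Type*} [Fintype ι] [DecidableEq ι]

theorem card_symmDiff_add (a b : Finset ι) :
    (symmDiff a b).card + 2 * (a ∩ b).card = a.card + b.card := by
  have h1 : symmDiff a b = (a \ b) ∪ (b \ a) := rfl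
  have hd : Disjoint (a \ b) (b \ a) := disjoint_sdiff_sdiff
  rw [h1, card_union_of_disjoint hd]
  have h2 := card_sdiff_add_card_inter a b
  have h3 := card_sdiff_add_card_inter b a
  rw [inter_comm b a] at h3
  omega

/-- A family of subsets closed under symmetric difference, with minimum weight 8. -/
structure IsBinCode (Cd : Finset (Finset ι)) : Prop where
  empty_mem : ∅ ∈ Cd
  symm_mem : ∀ a ∈ Cd, ∀ b ∈ Cd, symmDiff a b ∈ Cd
  min8 : ∀ a ∈ Cd, a ≠ ∅ → 8 ≤ a.card

/-- The sets of at most 4 elements in the coset of `w`. -/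
def ball (Cd : Finset (Finset ι)) (w : Finset ι) : Finset (Finset ι) :=
  univ.filter fun u => u.card ≤ 4 ∧ symmDiff u w ∈ Cd

theorem mem_ball {Cd : Finset (Finset ι)} {w u : Finset ι} :
    u ∈ ball Cd w ↔ u.card ≤ 4 ∧ symmDiff u w ∈ Cd := by
  unfold ball
  rw [mem_filter]
  simp

theorem symmDiff_cancel (u v w : Finset ι) :
    symmDiff (symmDiff u w) (symmDiff v w) = symmDiff u v := by
  rw [symmDiff_comm v w, symmDiff_assoc, ← symmDiff_assoc w w v, symmDiff_self, bot_symmDiff]

variable {Cd : Finset (Finset ι)}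

theorem light_pair (h : IsBinCode Cd) {u v : Finset ι} (hu : u.card ≤ 4) (hv : v.card ≤ 4)
    (huv : symmDiff u v ∈ Cd) (hne : u ≠ v) : u.card = 4 ∧ v.card = 4 ∧ Disjoint u v := by
  have hne' : symmDiff u v ≠ ∅ := by
    intro h0
    exact hne (symmDiff_eq_bot.mp h0)
  have h8 := h.min8 _ huv hne'
  have hc := card_symmDiff_add u v
  have hi : (u ∩ v).card = 0 := by omega
  refine ⟨by omega, by omega, ?_⟩
  rw [disjoint_iff_inter_eq_empty, ← card_eq_zero]
  exact hi

theorem ball_pair (h : IsBinCode Cd) {w u v : Finset ι} (hu : u ∈ ball Cd w)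
    (hv : v ∈ ball Cd w) (hne : u ≠ v) : u.card = 4 ∧ v.card = 4 ∧ Disjoint u v := by
  rw [mem_ball] at hu hv
  have := h.symm_mem _ hu.2 _ hv.2
  rw [symmDiff_cancel] at this
  exact light_pair h hu.1 hv.1 this hne

theorem ball_eq_singleton (h : IsBinCode Cd) {w u : Finset ι} (hu : u ∈ ball Cd w)
    (h3 : u.card ≤ 3) : ball Cd w = {u} := by
  ext v
  rw [mem_singleton]
  constructor
  · intro hv
    by_contra hne
    have := ball_pair h hu hv (Ne.symm hne)
    omega
  · rintro rfl
    exact hu

theorem ball_biUnion_card (h : IsBinCode Cd) {w : Finset ι}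
    (h4 : ∀ u ∈ ball Cd w, u.card = 4) :
    ((ball Cd w).biUnion id).card = 4 * (ball Cd w).card := by
  have hd : (ball Cd w : Set (Finset ι)).PairwiseDisjoint id :=
    fun u hu v hv hne => (ball_pair h hu hv hne).2.2
  rw [card_biUnion hd, sum_congr rfl (fun u hu => (h4 u hu : (id u).card = 4)), sum_const,
    smul_eq_mul, mul_comm]

theorem ball_card_le (hι : Fintype.card ι = 24) (h : IsBinCode Cd) {w : Finset ι}
    (h4 : ∀ u ∈ ball Cd w, u.card = 4) : (ball Cd w).card ≤ 6 := by
  have h1 := ball_biUnion_card h h4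
  have h3 := card_le_univ ((ball Cd w).biUnion id)
  omega

theorem card_filter_symmDiff_mem (Cd : Finset (Finset ι)) (u : Finset ι) :
    (univ.filter fun w => symmDiff u w ∈ Cd).card = Cd.card := by
  have : (univ.filter fun w => symmDiff u w ∈ Cd) = Cd.image (fun c => symmDiff u c) := by
    ext w
    simp only [mem_filter, mem_univ, true_and, mem_image]
    constructor
    · intro hw
      exact ⟨symmDiff u w, hw, by rw [← symmDiff_assoc, symmDiff_self, bot_symmDiff]⟩
    · rintro ⟨c, hc, rfl⟩
      rw [← symmDiff_assoc, symmDiff_self, bot_symmDiff]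
      exact hc
  rw [this, card_image_of_injective _ (symmDiff_right_injective u)]

theorem sum_card_filter (Cd : Finset (Finset ι)) (L : Finset (Finset ι)) :
    ∑ w : Finset ι, (L.filter fun u => symmDiff u w ∈ Cd).card = L.card * Cd.card := by
  simp only [card_filter]
  rw [sum_comm]
  have : ∀ u ∈ L, ∑ w : Finset ι, (if symmDiff u w ∈ Cd then 1 else 0) = Cd.card := by
    intro u _
    rw [← card_filter]
    exact card_filter_symmDiff_mem Cd u
  rw [sum_congr rfl this, sum_const, smul_eq_mul]

theorem card_light (hι : Fintype.card ι = 24) (n : ℕ) :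
    (univ.filter fun u : Finset ι => u.card ≤ n).card = ∑ k ∈ range (n + 1), Nat.choose 24 k := by
  rw [card_eq_sum_card_fiberwise (f := card) (t := range (n + 1)) (by
    intro u hu
    rw [mem_coe, mem_filter] at hu
    rw [mem_coe, mem_range]
    omega)]
  apply sum_congr rfl
  intro k hk
  rw [mem_range] at hk
  rw [filter_filter]
  have : (univ.filter fun u : Finset ι => u.card ≤ n ∧ u.card = k) = powersetCard k univ := by
    ext u
    simp only [mem_filter, mem_univ, true_and, mem_powersetCard, subset_univ]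
    constructor
    · exact fun h => h.2
    · exact fun h => ⟨by omega, h⟩
  rw [this, card_powersetCard, card_univ, hι]

theorem ball_cases (hι : Fintype.card ι = 24) (h : IsBinCode Cd) (hcard : Cd.card = 4096)
    (w : Finset ι) :
    (∃ u, ball Cd w = {u} ∧ u.card ≤ 3) ∨
      ((ball Cd w).card = 6 ∧ ∀ u ∈ ball Cd w, u.card = 4) := by
  set L3 : Finset (Finset ι) := univ.filter fun u => u.card ≤ 3 with hL3
  set L4 : Finset (Finset ι) := univ.filter fun u => u.card ≤ 4 with hL4
  have hb4 : ∀ w, ball Cd w = L4.filter fun u => symmDiff u w ∈ Cd := by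
    intro w
    unfold ball
    rw [hL4, filter_filter]
  have hsub : ∀ w, (L3.filter fun u => symmDiff u w ∈ Cd) ⊆ ball Cd w := by
    intro w u hu
    rw [mem_filter, hL3, mem_filter] at hu
    rw [mem_ball]
    exact ⟨by omega, hu.2⟩
  have c3 : L3.card = 2325 := by
    rw [hL3, card_light hι]; decide +kernel
  have c4 : L4.card = 12951 := by
    rw [hL4, card_light hι]; decide +kernel
  have s4 : ∑ w : Finset ι, (ball Cd w).card = 12951 * 4096 := by
    rw [← c4, ← hcard, ← sum_card_filter]
    exact sum_congr rfl (fun w _ => by rw [hb4])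
  have s3 : ∑ w : Finset ι, (L3.filter fun u => symmDiff u w ∈ Cd).card = 2325 * 4096 := by
    rw [← c3, ← hcard, ← sum_card_filter]
  have hle : ∀ w ∈ (univ : Finset (Finset ι)),
      (ball Cd w).card + 5 * (L3.filter fun u => symmDiff u w ∈ Cd).card ≤ 6 := by
    intro w _
    by_cases hne : (L3.filter fun u => symmDiff u w ∈ Cd).Nonempty
    · obtain ⟨u, hu⟩ := hne
      have hu3 : u.card ≤ 3 := by
        rw [mem_filter, hL3, mem_filter] at hu
        exact hu.1.2
      have hb := ball_eq_singleton h (hsub w hu) hu3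
      have h1 : (L3.filter fun u => symmDiff u w ∈ Cd).card ≤ 1 := by
        have := card_le_card (hsub w)
        rw [hb, card_singleton] at this
        exact this
      rw [hb, card_singleton]
      omega
    · rw [not_nonempty_iff_eq_empty] at hne
      rw [hne, card_empty]
      have h4 : ∀ u ∈ ball Cd w, u.card = 4 := by
        intro u hu
        have hu' := mem_ball.mp hu
        by_contra hc
        have : u ∈ (L3.filter fun u => symmDiff u w ∈ Cd) := by
          rw [mem_filter, hL3, mem_filter]
          exact ⟨⟨mem_univ _, by omega⟩, hu'.2⟩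
        rw [hne] at this
        exact absurd this (notMem_empty _)
      have := ball_card_le hι h h4
      omega
  have hsum : ∑ w : Finset ι,
      ((ball Cd w).card + 5 * (L3.filter fun u => symmDiff u w ∈ Cd).card) =
        ∑ _w : Finset ι, 6 := by
    rw [sum_add_distrib, ← mul_sum, s4, s3, sum_const, card_univ, Fintype.card_finset, hι]
    norm_num
  have heq := (sum_eq_sum_iff_of_le hle).mp hsum w (mem_univ _)
  by_cases hne : (L3.filter fun u => symmDiff u w ∈ Cd).Nonempty
  · obtain ⟨u, hu⟩ := hne
    have hu3 : u.card ≤ 3 := by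
      rw [mem_filter, hL3, mem_filter] at hu
      exact hu.1.2
    exact Or.inl ⟨u, ball_eq_singleton h (hsub w hu) hu3, hu3⟩
  · rw [not_nonempty_iff_eq_empty] at hne
    rw [hne, card_empty] at heq
    refine Or.inr ⟨by omega, ?_⟩
    intro u hu
    have hu' := mem_ball.mp hu
    by_contra hc
    have : u ∈ (L3.filter fun u => symmDiff u w ∈ Cd) := by
      rw [mem_filter, hL3, mem_filter]
      exact ⟨⟨mem_univ _, by omega⟩, hu'.2⟩
    rw [hne] at this
    exact absurd this (notMem_empty _)

theorem exists_octad (hι : Fintype.card ι = 24) (h : IsBinCode Cd) (hcard : Cd.card = 4096)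
    (s : Finset ι) (hs : s.card = 5) : ∃ o ∈ Cd, o.card = 8 ∧ s ⊆ o := by
  obtain ⟨p, hp⟩ := card_pos.mp (by rw [hs]; norm_num : 0 < s.card)
  have ht : (s.erase p).card = 4 := by rw [card_erase_of_mem hp, hs]
  have htb : s.erase p ∈ ball Cd (s.erase p) := by
    rw [mem_ball, symmDiff_self]
    exact ⟨by omega, h.empty_mem⟩
  rcases ball_cases hι h hcard (s.erase p) with ⟨u, hu, hu3⟩ | ⟨h6, h4⟩
  · rw [hu, mem_singleton] at htb
    rw [htb] at ht
    omega
  · have hU : (ball Cd (s.erase p)).biUnion id = univ := by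
      apply eq_univ_of_card
      rw [ball_biUnion_card h h4, h6, hι]
    have hpU : p ∈ (ball Cd (s.erase p)).biUnion id := by rw [hU]; exact mem_univ _
    rw [mem_biUnion] at hpU
    obtain ⟨u, hu, hpu⟩ := hpU
    have hpu : p ∈ u := hpu
    have hne : u ≠ s.erase p := by
      rintro rfl
      exact absurd hpu (notMem_erase p s)
    obtain ⟨c1, c2, hd⟩ := ball_pair h hu htb hne
    refine ⟨symmDiff u (s.erase p), (mem_ball.mp hu).2, ?_, ?_⟩
    · rw [hd.symmDiff_eq_sup]
      show (u ∪ s.erase p).card = 8
      rw [card_union_of_disjoint hd, c1, c2]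
    · rw [hd.symmDiff_eq_sup]
      intro x hx
      show x ∈ u ∪ s.erase p
      rw [mem_union]
      by_cases hxp : x = p
      · left; rw [hxp]; exact hpu
      · right; exact mem_erase.mpr ⟨hxp, hx⟩

theorem octad_unique (h : IsBinCode Cd) {s o o' : Finset ι} (hs : 5 ≤ s.card) (ho : o ∈ Cd)
    (ho' : o' ∈ Cd) (h8 : o.card = 8) (h8' : o'.card = 8) (hso : s ⊆ o) (hso' : s ⊆ o') :
    o = o' := by
  by_contra hne
  have hne' : symmDiff o o' ≠ ∅ := fun h0 => hne (symmDiff_eq_bot.mp h0)
  have h1 := h.min8 _ (h.symm_mem _ ho _ ho') hne'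
  have h2 := card_symmDiff_add o o'
  have h3 : s.card ≤ (o ∩ o').card := card_le_card (subset_inter hso hso')
  omega

end Sphere


/-! Vector-level part. -/

section Vec

variable {α : Type*} [Fintype α] [DecidableEq α]

theorem mem_support₂ (v : α → ZMod 2) (i : α) : i ∈ support₂ v ↔ v i = 1 := by
  unfold support₂
  rw [mem_filter]
  simp only [mem_univ, true_and]
  generalize v i = a
  revert a
  decide

theorem support₂_add (v w : α → ZMod 2) :
    support₂ (v + w) = symmDiff (support₂ v) (support₂ w) := by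
  ext i
  rw [mem_symmDiff, mem_support₂, mem_support₂, mem_support₂, Pi.add_apply]
  generalize v i = a
  generalize w i = b
  revert a b
  decide

theorem support₂_sub (v w : α → ZMod 2) :
    support₂ (v - w) = symmDiff (support₂ v) (support₂ w) := by
  ext i
  rw [mem_symmDiff, mem_support₂, mem_support₂, mem_support₂, Pi.sub_apply]
  generalize v i = a
  generalize w i = b
  revert a b
  decide

theorem support₂_injective : Function.Injective (support₂ : (α → ZMod 2) → Finset α) := by
  intro v w h
  funext i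
  have h1 : i ∈ support₂ v ↔ i ∈ support₂ w := by rw [h]
  rw [mem_support₂, mem_support₂] at h1
  generalize v i = a at h1 ⊢
  generalize w i = b at h1 ⊢
  revert a b
  decide

theorem hammingNorm_eq (v : α → ZMod 2) : hammingNorm v = (support₂ v).card := by
  unfold hammingNorm support₂
  congr

/-- The word with given support. -/
def indVec (s : Finset α) : α → ZMod 2 := fun i => if i ∈ s then 1 else 0

theorem support₂_indVec (s : Finset α) : support₂ (indVec s) = s := by
  ext i
  rw [mem_support₂]
  unfold indVec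
  by_cases h : i ∈ s <;> simp [h]

theorem support₂_zero : support₂ (0 : α → ZMod 2) = ∅ := by
  ext i
  rw [mem_support₂]
  simp

theorem support₂_eq_empty {v : α → ZMod 2} : support₂ v = ∅ ↔ v = 0 := by
  constructor
  · intro h
    apply support₂_injective
    rw [h, support₂_zero]
  · rintro rfl
    exact support₂_zero

/-- The supports of the words of a code. -/
noncomputable def codeFam (C : Submodule (ZMod 2) (α → ZMod 2)) : Finset (Finset α) :=
  open Classical in univ.filter fun s => ∃ v ∈ C, support₂ v = s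

theorem mem_codeFam {C : Submodule (ZMod 2) (α → ZMod 2)} {s : Finset α} :
    s ∈ codeFam C ↔ ∃ v ∈ C, support₂ v = s := by
  classical
  simp [codeFam]

theorem support₂_mem_codeFam {C : Submodule (ZMod 2) (α → ZMod 2)} {v : α → ZMod 2} :
    support₂ v ∈ codeFam C ↔ v ∈ C := by
  rw [mem_codeFam]
  constructor
  · rintro ⟨v', hv', h⟩
    rw [← support₂_injective h]
    exact hv'
  · intro hv
    exact ⟨v, hv, rfl⟩

theorem isBinCode_codeFam {C : Submodule (ZMod 2) (α → ZMod 2)}
    (hmin : ∀ w ∈ C, w ≠ 0 → 8 ≤ hammingNorm w) : IsBinCode (codeFam C) := by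
  refine ⟨?_, ?_, ?_⟩
  · rw [← support₂_zero, support₂_mem_codeFam]
    exact C.zero_mem
  · intro a ha b hb
    rw [mem_codeFam] at ha hb
    obtain ⟨v, hv, rfl⟩ := ha
    obtain ⟨w, hw, rfl⟩ := hb
    rw [← support₂_add, support₂_mem_codeFam]
    exact C.add_mem hv hw
  · intro a ha hne
    rw [mem_codeFam] at ha
    obtain ⟨v, hv, rfl⟩ := ha
    rw [← hammingNorm_eq]
    exact hmin v hv (fun h0 => hne (support₂_eq_empty.mpr h0))

theorem card_codeFam (C : Submodule (ZMod 2) (α → ZMod 2)) : (codeFam C).card = Nat.card C := by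
  classical
  have h1 : ((codeFam C : Finset (Finset α)) : Set (Finset α)) =
      support₂ '' (C : Set (α → ZMod 2)) := by
    ext s
    rw [mem_coe, mem_codeFam, Set.mem_image]
    rfl
  rw [← Set.ncard_coe_finset, h1, Set.ncard_image_of_injective _ support₂_injective]
  exact (Nat.card_coe_set_eq _)

/-- Coset leaders of a code of length 24 with 4096 words and minimum weight 8. -/
theorem coset_leaders (hα : Fintype.card α = 24) (C : Submodule (ZMod 2) (α → ZMod 2))
    (hcard : Nat.card C = 4096) (hmin : ∀ w ∈ C, w ≠ 0 → 8 ≤ hammingNorm w)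
    (w : α → ZMod 2) :
    (∃ u : α → ZMod 2, {u : α → ZMod 2 | u - w ∈ C ∧ hammingNorm u ≤ 4} = {u} ∧
        hammingNorm u ≤ 3) ∨
      ({u : α → ZMod 2 | u - w ∈ C ∧ hammingNorm u ≤ 4}.ncard = 6 ∧
        ∀ u ∈ {u : α → ZMod 2 | u - w ∈ C ∧ hammingNorm u ≤ 4}, hammingNorm u = 4 ∧
          ∀ u' ∈ {u : α → ZMod 2 | u - w ∈ C ∧ hammingNorm u ≤ 4}, u ≠ u' →
            Disjoint (support₂ u) (support₂ u')) := by
  have hC := isBinCode_codeFam hmin
  have hc : (codeFam C).card = 4096 := by rw [card_codeFam, hcard]
  have key : ∀ u : α → ZMod 2, u ∈ {u : α → ZMod 2 | u - w ∈ C ∧ hammingNorm u ≤ 4} ↔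
      support₂ u ∈ ball (codeFam C) (support₂ w) := by
    intro u
    rw [mem_ball, ← support₂_sub, support₂_mem_codeFam, ← hammingNorm_eq]
    exact ⟨fun h => ⟨h.2, h.1⟩, fun h => ⟨h.2, h.1⟩⟩
  rcases ball_cases hα hC hc (support₂ w) with ⟨s, hs, hs3⟩ | ⟨h6, h4⟩
  · left
    refine ⟨indVec s, ?_, by rw [hammingNorm_eq, support₂_indVec]; exact hs3⟩
    ext u
    rw [key, hs, mem_singleton, Set.mem_singleton_iff]
    constructor
    · intro h
      apply support₂_injective
      rw [h, support₂_indVec]
    · rintro rfl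
      exact support₂_indVec s
  · right
    refine ⟨?_, ?_⟩
    · have himg : support₂ '' {u : α → ZMod 2 | u - w ∈ C ∧ hammingNorm u ≤ 4} =
          ((ball (codeFam C) (support₂ w) : Finset (Finset α)) : Set (Finset α)) := by
        ext s
        rw [Set.mem_image, mem_coe]
        constructor
        · rintro ⟨u, hu, rfl⟩
          exact (key u).mp hu
        · intro hs
          exact ⟨indVec s, (key _).mpr (by rw [support₂_indVec]; exact hs), support₂_indVec s⟩
      rw [← Set.ncard_image_of_injective _ support₂_injective, himg, Set.ncard_coe_finset, h6]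
    · intro u hu
      rw [key] at hu
      refine ⟨by rw [hammingNorm_eq]; exact h4 _ hu, ?_⟩
      intro u' hu' hne
      rw [key] at hu'
      exact (ball_pair hC hu hu' (fun h => hne (support₂_injective h))).2.2

theorem card_of_finrank (C : Submodule (ZMod 2) (α → ZMod 2))
    (hdim : Module.finrank (ZMod 2) C = 12) : Nat.card C = 4096 := by
  have h := Module.natCard_eq_pow_finrank (K := ZMod 2) (V := C)
  rw [hdim, Nat.card_zmod] at h
  rw [h]
  norm_num

end Vec

end Cfsg.Agent.Lib.helper28.CodeAbs
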