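import Cfsg.Agent.Lib.helper28.CodeAbs

set_option autoImplicit false
set_option linter.unusedSectionVars false

namespace Cfsg.Agent.Lib.helper28.CodeAbs

open Finset Cfsg

/-! Abstract binary codes of length 24 with 4096 words and minimum weight 8: the Steiner system
of octads, generation by octads, double evenness. -/

section Vec2

variable {α : Type*} [Fintype α] [DecidableEq α]

theorem steiner_of_code (hα : Fintype.card α = 24) (C : Submodule (ZMod 2) (α → ZMod 2))
    (hcard : Nat.card C = 4096) (hmin : ∀ w ∈ C, w ≠ 0 → 8 ≤ hammingNorm w) :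
    IsSteinerSystem 5 8 (wordsOfWeight (C : Set (α → ZMod 2)) 8) := by
  have hC := isBinCode_codeFam hmin
  have hc : (codeFam C).card = 4096 := by rw [card_codeFam, hcard]
  refine ⟨fun b hb => hb.2, ?_⟩
  intro s hs
  obtain ⟨o, ho, ho8, hso⟩ := exists_octad hα hC hc s hs
  have hmem : ∀ b : Finset α, b ∈ wordsOfWeight (C : Set (α → ZMod 2)) 8 ↔
      b ∈ codeFam C ∧ b.card = 8 := by
    intro b
    rw [mem_codeFam]
    rfl
  refine ⟨o, ⟨(hmem o).mpr ⟨ho, ho8⟩, hso⟩, ?_⟩
  rintro b ⟨hb, hsb⟩
  rw [hmem] at hb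
  exact octad_unique hC (by omega) hb.1 ho hb.2 ho8 hsb hso

theorem exists_weight8 (hα : Fintype.card α = 24) (C : Submodule (ZMod 2) (α → ZMod 2))
    (hcard : Nat.card C = 4096) (hmin : ∀ w ∈ C, w ≠ 0 → 8 ≤ hammingNorm w) :
    ∃ w ∈ C, hammingNorm w = 8 := by
  have hC := isBinCode_codeFam hmin
  have hc : (codeFam C).card = 4096 := by rw [card_codeFam, hcard]
  obtain ⟨s, _, hs⟩ := exists_subset_card_eq (s := (univ : Finset α)) (n := 5)
    (by rw [card_univ, hα]; norm_num)
  obtain ⟨o, ho, ho8, _⟩ := exists_octad hα hC hc s hs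
  rw [mem_codeFam] at ho
  obtain ⟨v, hv, rfl⟩ := ho
  exact ⟨v, hv, by rw [hammingNorm_eq, ho8]⟩

theorem add_add_self (w c : α → ZMod 2) : w + c + c = w := by
  funext i
  rw [Pi.add_apply, Pi.add_apply]
  generalize w i = a
  generalize c i = b
  revert a b
  decide

/-- A nonzero word can be made lighter by adding a word of weight 8. -/
theorem exists_reduce (hα : Fintype.card α = 24) (C : Submodule (ZMod 2) (α → ZMod 2))
    (hcard : Nat.card C = 4096) (hmin : ∀ w ∈ C, w ≠ 0 → 8 ≤ hammingNorm w)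
    {w : α → ZMod 2} (hw : w ∈ C) (hne : w ≠ 0) :
    ∃ c ∈ C, hammingNorm c = 8 ∧ hammingNorm (w + c) < hammingNorm w ∧
      hammingNorm (w + c) + 2 * (support₂ w ∩ support₂ c).card = hammingNorm w + 8 := by
  have hC := isBinCode_codeFam hmin
  have hc : (codeFam C).card = 4096 := by rw [card_codeFam, hcard]
  have h8 := hmin w hw hne
  rw [hammingNorm_eq] at h8
  obtain ⟨s, hsw, hs⟩ := exists_subset_card_eq (s := support₂ w) (n := 5) (by omega)
  obtain ⟨o, ho, ho8, hso⟩ := exists_octad hα hC hc s hs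
  rw [mem_codeFam] at ho
  obtain ⟨c, hcC, rfl⟩ := ho
  have h1 := card_symmDiff_add (support₂ w) (support₂ c)
  have h2 : s.card ≤ (support₂ w ∩ support₂ c).card := card_le_card (subset_inter hsw hso)
  rw [← support₂_add] at h1
  refine ⟨c, hcC, by rw [hammingNorm_eq, ho8], ?_, ?_⟩
  · rw [hammingNorm_eq, hammingNorm_eq]; omega
  · rw [hammingNorm_eq, hammingNorm_eq]; omega

theorem span_weight8 (hα : Fintype.card α = 24) (C : Submodule (ZMod 2) (α → ZMod 2))
    (hcard : Nat.card C = 4096) (hmin : ∀ w ∈ C, w ≠ 0 → 8 ≤ hammingNorm w) :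
    Submodule.span (ZMod 2) {w : α → ZMod 2 | w ∈ C ∧ hammingNorm w = 8} = C := by
  apply le_antisymm
  · rw [Submodule.span_le]
    intro w hw
    exact hw.1
  · intro w hw
    induction hn : hammingNorm w using Nat.strong_induction_on generalizing w with
    | _ n ih =>
      by_cases hne : w = 0
      · rw [hne]; exact Submodule.zero_mem _
      · obtain ⟨c, hcC, hc8, hlt, _⟩ := exists_reduce hα C hcard hmin hw hne
        have h1 := ih (hammingNorm (w + c)) (by rw [← hn]; exact hlt) (C.add_mem hw hcC) rfl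
        have h2 : c ∈ Submodule.span (ZMod 2) {w : α → ZMod 2 | w ∈ C ∧ hammingNorm w = 8} :=
          Submodule.subset_span ⟨hcC, hc8⟩
        have h3 := Submodule.add_mem _ h1 h2
        rwa [add_add_self] at h3

theorem dot_eq_card_inter (v w : α → ZMod 2) :
    ∑ i, v i * w i = ((support₂ v ∩ support₂ w).card : ZMod 2) := by
  have h1 : ∀ i, v i * w i = if i ∈ support₂ v ∩ support₂ w then (1 : ZMod 2) else 0 := by
    intro i
    simp only [mem_inter, mem_support₂]
    generalize v i = a
    generalize w i = b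
    revert a b
    decide
  rw [Finset.sum_congr rfl (fun i _ => h1 i), Finset.sum_boole]
  congr 2
  ext i
  simp

theorem doubly_even (hα : Fintype.card α = 24) (C : Submodule (ZMod 2) (α → ZMod 2))
    (hcard : Nat.card C = 4096) (horth : ∀ v ∈ C, ∀ w ∈ C, ∑ i, v i * w i = 0)
    (hmin : ∀ w ∈ C, w ≠ 0 → 8 ≤ hammingNorm w) : ∀ w ∈ C, 4 ∣ hammingNorm w := by
  intro w hw
  induction hn : hammingNorm w using Nat.strong_induction_on generalizing w with
  | _ n ih =>
    by_cases hne : w = 0
    · rw [← hn, hne, hammingNorm_zero]; exact dvd_zero 4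
    · obtain ⟨c, hcC, hc8, hlt, heq⟩ := exists_reduce hα C hcard hmin hw hne
      have h1 := ih (hammingNorm (w + c)) (by rw [← hn]; exact hlt) (w + c) (C.add_mem hw hcC) rfl
      have h2 := horth w hw c hcC
      rw [dot_eq_card_inter, ZMod.natCast_eq_zero_iff] at h2
      rw [← hn]
      omega

end Vec2

end Cfsg.Agent.Lib.helper28.CodeAbs
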