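import Cfsg.Agent.Lib.helper28.GolayJoint

set_option autoImplicit false

namespace Cfsg.Agent.Lib.helper28

open Cfsg
open scoped Pointwise

/-! The octad stabiliser induces the alternating group on the octad. -/

/-- The setwise stabiliser of `o` in `M24`, as a subgroup of the permutation group. -/
def stabP (o : Finset GolayPt) : Subgroup (Equiv.Perm GolayPt) :=
  M24 ⊓ MulAction.stabilizer (Equiv.Perm GolayPt) o

theorem mem_stabP {o : Finset GolayPt} {g : Equiv.Perm GolayPt} :
    g ∈ stabP o ↔ g ∈ M24 ∧ g • o = o := by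
  unfold stabP
  rw [Subgroup.mem_inf]
  exact Iff.rfl

theorem apply_mem_iff_of_smul_eq {g : Equiv.Perm GolayPt} {o : Finset GolayPt} (h : g • o = o)
    (x : GolayPt) : g x ∈ o ↔ x ∈ o := by
  conv_lhs => rw [← h]
  exact Finset.smul_mem_smul_finset_iff g

theorem smul_eq_of_apply_mem_iff {g : Equiv.Perm GolayPt} {o : Finset GolayPt}
    (h : ∀ x, g x ∈ o ↔ x ∈ o) : g • o = o := by
  ext x
  rw [← Finset.inv_smul_mem_iff, ← h (g⁻¹ • x)]
  simp

/-- Restriction of the setwise stabiliser of `o` to `o`. -/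
def resHom (o : Finset GolayPt) : stabP o →* Equiv.Perm ↥o where
  toFun g := (g : Equiv.Perm GolayPt).subtypePerm
    (apply_mem_iff_of_smul_eq (mem_stabP.mp g.2).2)
  map_one' := by ext x; rfl
  map_mul' := fun a b => by ext x; rfl

theorem resHom_apply (o : Finset GolayPt) (g : stabP o) (x : ↥o) :
    ((resHom o g) x : GolayPt) = (g : Equiv.Perm GolayPt) x := rfl

theorem card_stabP (o : Finset GolayPt) :
    Nat.card (stabP o) = Nat.card (MulAction.stabilizer M24 o) :=
  Nat.card_congr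
    { toFun := fun g => ⟨⟨g.1, (mem_stabP.mp g.2).1⟩, (mem_stabP.mp g.2).2⟩
      invFun := fun g => ⟨g.1.1, mem_stabP.mpr ⟨g.1.2, g.2⟩⟩
      left_inv := fun _ => rfl
      right_inv := fun _ => rfl }

theorem fixer_le_stabP (o : Finset GolayPt) : fixer o ≤ stabP o := by
  intro g hg
  rw [mem_fixer] at hg
  exact mem_stabP.mpr ⟨hg.1, smul_eq_of_fixes hg.2⟩

theorem mem_ker_resHom {o : Finset GolayPt} (g : stabP o) :
    g ∈ (resHom o).ker ↔ (g : Equiv.Perm GolayPt) ∈ fixer o := by
  rw [MonoidHom.mem_ker, mem_fixer]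
  constructor
  · intro h
    refine ⟨(mem_stabP.mp g.2).1, fun p hp => ?_⟩
    have := congrArg (fun e : Equiv.Perm ↥o => ((e ⟨p, hp⟩ : ↥o) : GolayPt)) h
    exact this
  · rintro ⟨_, h⟩
    apply Equiv.ext
    intro x
    apply Subtype.ext
    exact h x x.2

theorem card_ker_resHom (o : Finset GolayPt) :
    Nat.card (resHom o).ker = Nat.card (fixer o) :=
  Nat.card_congr
    { toFun := fun g => ⟨g.1.1, (mem_ker_resHom g.1).mp g.2⟩
      invFun := fun g => ⟨⟨g.1, fixer_le_stabP o g.2⟩, (mem_ker_resHom _).mpr g.2⟩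
      left_inv := fun _ => rfl
      right_inv := fun _ => rfl }

theorem card_range_resHom {o : Finset GolayPt} (ho : o ∈ octads) :
    Nat.card (resHom o).range = 20160 := by
  have h1 := Subgroup.card_mul_index (resHom o).ker
  rw [Subgroup.index_ker, card_ker_resHom, (octad_pointwise_stabilizer ho).1, card_stabP,
    card_stabilizer_octad ho] at h1
  omega

theorem range_resHom_eq {o : Finset GolayPt} (ho : o ∈ octads) :
    (resHom o).range = alternatingGroup ↥o := by
  apply Equiv.Perm.eq_alternatingGroup_of_index_eq_two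
  have h1 := Subgroup.card_mul_index (resHom o).range
  have h2 : Nat.card (Equiv.Perm ↥o) = 40320 := by
    rw [Nat.card_eq_fintype_card, Fintype.card_perm, Fintype.card_coe, ho.2]
    rfl
  rw [card_range_resHom ho, h2] at h1
  omega

/-- S1553. -/
theorem octad_stabilizer_induces_alt (o : Finset GolayPt) (ho : o ∈ octads) :
    {e : Equiv.Perm ↥o | ∃ g : Equiv.Perm GolayPt, g ∈ M24 ∧
      ∃ h : (∀ x, g x ∈ o ↔ x ∈ o), g.subtypePerm h = e} =
      (alternatingGroup ↥o : Set (Equiv.Perm ↥o)) := by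
  rw [← range_resHom_eq ho]
  ext e
  constructor
  · rintro ⟨g, hg, h, rfl⟩
    exact ⟨⟨g, mem_stabP.mpr ⟨hg, smul_eq_of_apply_mem_iff h⟩⟩, rfl⟩
  · rintro ⟨g, rfl⟩
    exact ⟨g.1, (mem_stabP.mp g.2).1, apply_mem_iff_of_smul_eq (mem_stabP.mp g.2).2, rfl⟩

end Cfsg.Agent.Lib.helper28
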