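import Cfsg.Agent.Lib.helper28.GolayOrbT

set_option autoImplicit false

namespace Cfsg.Agent.Lib.helper28

open Cfsg
open scoped Pointwise

/-! Orbits of structure stabilisers on families of sets given by lists of masks: a generic search,
with the family packed into one number and a symmetric key. -/

/-- The family of sets given by a list of masks. -/
def fam (l : List ℕ) : Finset (Finset GolayPt) := (l.map setOf).toFinset

/-- A list of masks packed in base `2 ^ 24`. -/
def packL : List ℕ → ℕ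
  | [] => 0
  | m :: l => m + 16777216 * packL l

/-- Apply a permutation (packed table `T`) to the `k` masks of a packed family. -/
def famStep (T : ℕ) : ℕ → ℕ → ℕ
  | 0, _ => 0
  | k + 1, e => Nat.add (fastMask T (Nat.land e 16777215))
      (Nat.mul 16777216 (famStep T k (Nat.shiftRight e 24)))

/-- Sum of the squares of the `k` masks of a packed family. -/
def famSq : ℕ → ℕ → ℕ
  | 0, _ => 0
  | k + 1, e => Nat.add (Nat.mul (Nat.land e 16777215) (Nat.land e 16777215))
      (famSq k (Nat.shiftRight e 24))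

def famKey (p k e : ℕ) : ℕ := Nat.mod (famSq k e) p

/-- Orbit search on families of `k` sets. -/
def orbitFam (gens : List (List ℕ × ℕ)) (p k fuel root : ℕ) : ℕ :=
  bfsLoopN (gens.map fun g => famStep g.2 k) (famKey p k) fuel [root]
    (Nat.shiftLeft 1 (famKey p k root))

theorem famStep_packL {l' : List ℕ} {T : ℕ} (hfast : fastOK l' T = true) :
    ∀ (l : List ℕ), (∀ m ∈ l, m < 2 ^ 24) →
      famStep T l.length (packL l) = packL (l.map (preMask l'))
  | [], _ => rfl
  | m :: l, h => by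
    have hm := h m (by simp)
    show Nat.add (fastMask T (Nat.land (m + 16777216 * packL l) 16777215))
      (Nat.mul 16777216 (famStep T l.length (Nat.shiftRight (m + 16777216 * packL l) 24))) = _
    rw [unpackA hm, unpackB hm, fastMask_eq hfast hm,
      famStep_packL hfast l (fun x hx => h x (by simp [hx]))]
    rfl

theorem famSq_packL : ∀ (l : List ℕ), (∀ m ∈ l, m < 2 ^ 24) →
    famSq l.length (packL l) = (l.map fun m => m * m).sum
  | [], _ => rfl
  | m :: l, h => by
    have hm := h m (by simp)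
    show Nat.add (Nat.mul (Nat.land (m + 16777216 * packL l) 16777215)
      (Nat.land (m + 16777216 * packL l) 16777215))
      (famSq l.length (Nat.shiftRight (m + 16777216 * packL l) 24)) = _
    rw [unpackA hm, unpackB hm, famSq_packL l (fun x hx => h x (by simp [hx]))]
    rfl

theorem sum_fam {l : List ℕ} (h : ∀ m ∈ l, m < 2 ^ 24) (hn : l.Nodup) :
    ∑ t ∈ fam l, maskS t * maskS t = (l.map fun m => m * m).sum := by
  unfold fam
  rw [List.sum_toFinset _ (nodup_map_setOf h hn), List.map_map]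
  refine congrArg List.sum (List.map_congr_left (fun m hm => ?_))
  show maskS (setOf m) * maskS (setOf m) = m * m
  rw [maskS_setOf (h m hm)]

theorem smul_fam {w : Equiv.Perm GolayPt} {l' : List ℕ} (hw : IsTable w l') (l : List ℕ) :
    w⁻¹ • fam l = fam (l.map (preMask l')) := by
  ext t
  unfold fam
  rw [Finset.mem_smul_finset, List.mem_toFinset, List.map_map, List.mem_map]
  constructor
  · rintro ⟨y, hy, rfl⟩
    rw [List.mem_toFinset, List.mem_map] at hy
    obtain ⟨m, hm, rfl⟩ := hy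
    exact ⟨m, hm, (inv_smul_setOf hw m).symm⟩
  · rintro ⟨m, hm, rfl⟩
    exact ⟨setOf m, List.mem_toFinset.mpr (List.mem_map.mpr ⟨m, hm, rfl⟩), inv_smul_setOf hw m⟩

theorem preMask_inj {w : Equiv.Perm GolayPt} {l' : List ℕ} (hw : IsTable w l') {a b : ℕ}
    (ha : a < 2 ^ 24) (hb : b < 2 ^ 24) (h : preMask l' a = preMask l' b) : a = b := by
  have h1 : w⁻¹ • setOf a = w⁻¹ • setOf b := by
    rw [inv_smul_setOf hw, inv_smul_setOf hw, h]
  exact setOf_inj ha hb (MulAction.injective _ h1)

section Sound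

variable {Hs : Subgroup (Equiv.Perm GolayPt)} {X0 : Finset (Finset GolayPt)}

/-- The state of the search: packed families in the orbit. -/
def FamR (Hs : Subgroup (Equiv.Perm GolayPt)) (X0 : Finset (Finset GolayPt)) (k e : ℕ) : Prop :=
  ∃ l : List ℕ, l.length = k ∧ e = packL l ∧ (∀ m ∈ l, m < 2 ^ 24) ∧ l.Nodup ∧
    ∃ g ∈ Hs, g • X0 = fam l

theorem famStep_sound {l' : List ℕ} {T : ℕ} (hfast : fastOK l' T = true)
    {w : Equiv.Perm GolayPt} (hw : w ∈ Hs) (hwl : IsTable w l') {k e : ℕ}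
    (he : FamR Hs X0 k e) : FamR Hs X0 k (famStep T k e) := by
  obtain ⟨l, hk, rfl, hlt, hn, g, hg, hgX⟩ := he
  refine ⟨l.map (preMask l'), by rw [List.length_map, hk], ?_, ?_, ?_, w⁻¹ * g,
    Hs.mul_mem (Hs.inv_mem hw) hg, ?_⟩
  · rw [← hk]; exact famStep_packL hfast l hlt
  · intro m hm
    rw [List.mem_map] at hm
    obtain ⟨x, _, rfl⟩ := hm
    exact preMask_lt _ _
  · exact List.Nodup.map_on (fun a ha b hb h => preMask_inj hwl (hlt a ha) (hlt b hb) h) hn
  · rw [mul_smul, hgX, smul_fam hwl]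

theorem orbitFam_sound {gens : List (List ℕ × ℕ)} (hg : GensIn Hs gens) {l0 : List ℕ}
    (h0 : ∀ m ∈ l0, m < 2 ^ 24) (hn0 : l0.Nodup) (p fuel : ℕ) {n : ℕ}
    (h : (orbitFam gens p l0.length fuel (packL l0)).testBit n = true) :
    ∃ l : List ℕ, (∀ m ∈ l, m < 2 ^ 24) ∧ l.Nodup ∧ (l.map fun m => m * m).sum % p = n ∧
      ∃ g ∈ Hs, g • fam l0 = fam l := by
  unfold orbitFam at h
  rw [bfsLoopN_eq] at h
  have hroot : FamR Hs (fam l0) l0.length (packL l0) :=
    ⟨l0, rfl, rfl, h0, hn0, 1, Hs.one_mem, one_smul _ _⟩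
  have key := bfsLoop_sound (gens.map fun g => famStep g.2 l0.length) (famKey p l0.length)
    (FamR Hs (fam l0) l0.length) (by
      intro f hf m hm
      rw [List.mem_map] at hf
      obtain ⟨⟨l, T⟩, hl, rfl⟩ := hf
      obtain ⟨hfast, w, hw, hwl⟩ := hg _ hl
      exact famStep_sound hfast hw hwl hm)
    fuel [packL l0] (Nat.shiftLeft 1 (famKey p l0.length (packL l0))) (by
      intro s hs
      rw [List.mem_singleton] at hs
      rw [hs]
      exact hroot) (by
      intro k hk
      have : Nat.shiftLeft 1 (famKey p l0.length (packL l0)) =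
          2 ^ famKey p l0.length (packL l0) := Nat.one_shiftLeft _
      rw [this, Nat.testBit_two_pow] at hk
      exact ⟨packL l0, hroot, by simpa using hk⟩) n h
  obtain ⟨e, ⟨l, hk, rfl, hlt, hn, g, hg', hgX⟩, hkey⟩ := key
  refine ⟨l, hlt, hn, ?_, g, hg', hgX⟩
  rw [← hkey, ← famSq_packL l hlt, hk]
  rfl

end Sound

theorem le_ncard_orbit_fam {α : Type*} [MulAction (Equiv.Perm GolayPt) α] (A : α)
    {gens : List (List ℕ × ℕ)} (hg : GensIn (stabQ A) gens) {l0 : List ℕ}
    (h0 : ∀ m ∈ l0, m < 2 ^ 24) (hn0 : l0.Nodup) (p fuel E : ℕ) :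
    countDC (fun k => (orbitFam gens p l0.length fuel (packL l0)).testBit k) E 0 ≤
      (MulAction.orbit ↥(MulAction.stabilizer M24 A) (fam l0)).ncard := by
  rw [countDC_zero]
  apply le_ncard_of_bits _ (Set.toFinite _) _ _
    (fun X : Finset (Finset GolayPt) => (∑ t ∈ X, maskS t * maskS t) % p)
  intro k _ hk
  obtain ⟨l, hlt, hn, hkey, g, hg', hgX⟩ := orbitFam_sound hg h0 hn0 p fuel hk
  refine ⟨g • fam l0, (mem_orbit_stab_iff A _ _).mpr ⟨g, hg', rfl⟩, ?_⟩
  show (∑ t ∈ g • fam l0, maskS t * maskS t) % p = k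
  rw [hgX, sum_fam hlt hn]
  exact hkey

theorem fam_low {α : Type*} [MulAction (Equiv.Perm GolayPt) α] (A : α)
    {gens : List (List ℕ × ℕ)} (hg : GensIn (stabQ A) gens) {l0 : List ℕ}
    (h0 : ∀ m ∈ l0, m < 2 ^ 24) (hn0 : l0.Nodup) {p fuel E n k : ℕ} (hk : k = l0.length)
    (h : countDC (fun i => (orbitFam gens p k fuel (packL l0)).testBit i) E 0 = n) :
    n ≤ (MulAction.orbit ↥(MulAction.stabilizer M24 A) (fam l0)).ncard := by
  rw [← h, hk]
  exact le_ncard_orbit_fam A hg h0 hn0 p fuel E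

/-! ### Power invariants -/

/-- Sum of the `k`-th powers of the intersection sizes of the members of two families. -/
def invPow (k : ℕ) (A X : Finset (Finset GolayPt)) : ℕ := ∑ t ∈ A, ∑ u ∈ X, (t ∩ u).card ^ k

theorem invPow_smul (k : ℕ) (g : Equiv.Perm GolayPt) (A X : Finset (Finset GolayPt)) :
    invPow k (g • A) (g • X) = invPow k A X := by
  unfold invPow
  rw [← Finset.image_smul, Finset.sum_image (fun x _ y _ h => MulAction.injective g h)]
  apply Finset.sum_congr rfl
  intro t _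
  rw [← Finset.image_smul, Finset.sum_image (fun x _ y _ h => MulAction.injective g h)]
  apply Finset.sum_congr rfl
  intro u _
  rw [← Finset.smul_finset_inter, Finset.card_smul_finset]

theorem invPow_fix (k : ℕ) {A : Finset (Finset GolayPt)} {g : Equiv.Perm GolayPt}
    (hg : g • A = A) (X : Finset (Finset GolayPt)) : invPow k A (g • X) = invPow k A X := by
  have := invPow_smul k g A X
  rwa [hg] at this

theorem invPow_eval (k : ℕ) (l1 l2 : List ℕ) (h1 : ∀ m ∈ l1, m < 2 ^ 24)
    (h2 : ∀ m ∈ l2, m < 2 ^ 24) (n1 : l1.Nodup) (n2 : l2.Nodup) :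
    invPow k (fam l1) (fam l2) =
      (l1.map fun m => (l2.map fun m' => pc (m &&& m') ^ k).sum).sum := by
  unfold invPow fam
  rw [List.sum_toFinset _ (nodup_map_setOf h1 n1), List.map_map]
  refine congrArg List.sum (List.map_congr_left (fun m hm => ?_))
  show ∑ u ∈ (l2.map setOf).toFinset, (setOf m ∩ u).card ^ k = _
  rw [List.sum_toFinset _ (nodup_map_setOf h2 n2), List.map_map]
  refine congrArg List.sum (List.map_congr_left (fun m' hm' => ?_))
  show (setOf m ∩ setOf m').card ^ k = _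
  rw [card_inter_setOf (h1 m hm) (h2 m' hm')]

/-! ### Orbits of the stabiliser of a structure on a set invariant under that stabiliser -/

section Generic

variable {α β : Type*} [MulAction (Equiv.Perm GolayPt) α] [MulAction (Equiv.Perm GolayPt) β]

theorem struct_orbits_loc {a : Equiv.Perm GolayPt} (ha : a ∈ M24) (A0 : α) (F : Set β)
    (hF : F.Finite) (hFinv : ∀ g ∈ M24, g • A0 = A0 → ∀ x ∈ F, g • x ∈ F) {r : ℕ}
    (X0 : Fin r → β) (n : Fin r → ℕ) (hX : ∀ i, X0 i ∈ F)
    (hlow : ∀ i, n i ≤ (MulAction.orbit ↥(MulAction.stabilizer M24 A0) (X0 i)).ncard)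
    (I : β → ℕ) (hI : ∀ g ∈ M24, g • A0 = A0 → ∀ x, I (g • x) = I x) (v : Fin r → ℕ)
    (hv : ∀ i, I (X0 i) = v i) (hvinj : Function.Injective v)
    (hsum : ∑ i, n i = F.ncard) :
    (∀ i, (MulAction.orbit ↥(MulAction.stabilizer M24 (a • A0)) (a • X0 i)).ncard = n i) ∧
    (∀ x, a⁻¹ • x ∈ F ↔
      ∃ i, x ∈ MulAction.orbit ↥(MulAction.stabilizer M24 (a • A0)) (a • X0 i)) := by
  have hsep : ∀ i j, i ≠ j → X0 j ∉ MulAction.orbit ↥(MulAction.stabilizer M24 A0) (X0 i) :=
    fun i j hij => not_mem_orbit_of_inv A0 I hI (by rw [hv i, hv j]; exact fun h => hij (hvinj h))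
  have key := orbits_of_lower_bounds (MulAction.stabilizer M24 A0) F hF X0 n hX
    (fun h _ x hx => hFinv h.1 h.2 (MulAction.mem_stabilizer_iff.mp ‹_›) x hx) hlow hsep hsum
  refine ⟨fun i => by rw [ncard_orbit_stab_smul ha]; exact key.1 i, ?_⟩
  intro x
  rw [key.2]
  constructor
  · rintro ⟨i, hi⟩
    refine ⟨i, ?_⟩
    rw [orbit_stab_smul ha]
    exact ⟨a⁻¹ • x, hi, smul_inv_smul a x⟩
  · rintro ⟨i, hi⟩
    refine ⟨i, ?_⟩
    rw [orbit_stab_smul ha] at hi
    obtain ⟨z, hz, rfl⟩ := hi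
    show a⁻¹ • a • z ∈ _
    rw [inv_smul_smul]
    exact hz

theorem stabilizer_prod (x : α) (y : β) :
    MulAction.stabilizer M24 ((x, y) : α × β) =
      MulAction.stabilizer M24 x ⊓ MulAction.stabilizer M24 y := by
  ext g
  rw [Subgroup.mem_inf, MulAction.mem_stabilizer_iff, MulAction.mem_stabilizer_iff,
    MulAction.mem_stabilizer_iff]
  show (g • x, g • y) = (x, y) ↔ _
  rw [Prod.mk.injEq]

end Generic

/-- Test that the tables fix the set of mask `m` and permute the masks of a family. -/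
def structOK2 (m : ℕ) (masks : List ℕ) (gens : List (List ℕ × ℕ)) : Bool :=
  gens.all fun g => tabIn [m] g.1 && fastOK g.1 g.2 &&
    masks.all (fun x => masks.contains (preMask g.1 x))

theorem gensIn_struct2 {m : ℕ} {masks : List ℕ} {gens : List (List ℕ × ℕ)}
    (h : structOK2 m masks gens = true) :
    GensIn (stabQ ((setOf m, fam masks) : Finset GolayPt × Finset (Finset GolayPt))) gens := by
  intro g hg
  have hl := List.all_eq_true.mp h _ hg
  simp only [Bool.and_eq_true] at hl
  obtain ⟨⟨h1, h2⟩, h3⟩ := hl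
  obtain ⟨u, hu, hul⟩ := tabIn_spec h1
  refine ⟨h2, u, mem_stabQ.mpr ⟨stabM_le_M24 _ hu, ?_⟩, hul⟩
  have hsub : u⁻¹ • fam masks ⊆ fam masks := by
    rw [smul_fam hul]
    intro t ht
    unfold fam at ht ⊢
    rw [List.mem_toFinset, List.map_map, List.mem_map] at ht
    obtain ⟨x, hx, rfl⟩ := ht
    have h4 := List.all_eq_true.mp h3 x hx
    rw [List.contains_iff_mem] at h4
    rw [List.mem_toFinset, List.mem_map]
    exact ⟨_, h4, rfl⟩
  have heq := Finset.eq_of_subset_of_card_le hsub (by rw [Finset.card_smul_finset])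
  rw [inv_smul_eq_iff] at heq
  show (u • setOf m, u • fam masks) = (setOf m, fam masks)
  rw [hu.2 m (by simp), ← heq]

end Cfsg.Agent.Lib.helper28
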