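import Cfsg.Agent.Lib.helper28.GolayS6

set_option autoImplicit false

namespace Cfsg.Agent.Lib.helper28

open Cfsg
open scoped Pointwise

/-! The graph on the octads in which disjoint octads are adjacent. -/

def o4m : ℕ := 10558
def g4w : ℕ := 8077824
def g2w1 : ℕ := 1009728
def g2w2 : ℕ := 5275709

theorem isOct_o4m : isOct o4m = true := by decide +kernel
theorem isOct_g4w : isOct g4w = true := by decide +kernel
theorem isOct_g2w1 : isOct g2w1 = true := by decide +kernel
theorem isOct_g2w2 : isOct g2w2 = true := by decide +kernel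

theorem exists_pair_frame_gen {m : ℕ} (hm : isOct m = true) {o o' : Finset GolayPt}
    (ho : o ∈ octads) (ho' : o' ∈ octads)
    (h : (o ∩ o').card = (setOf o0 ∩ setOf m).card) :
    ∃ a ∈ M24, a • setOf o0 = o ∧ a • setOf m = o' := by
  obtain ⟨a1, ha1, rfl⟩ := exists_smul_o0_eq ho
  have h1 : a1⁻¹ • o' ∈ octads := smul_mem_octads (M24.inv_mem ha1) ho'
  have hk : (setOf o0 ∩ setOf m).card = (setOf o0 ∩ a1⁻¹ • o').card := by
    rw [← h, Finset.inter_comm (setOf o0) (a1⁻¹ • o'), card_inv_smul_inter, Finset.inter_comm]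
  obtain ⟨g, hg, hg0, hg2⟩ := octad_stabilizer_orbits setOf_o0_mem_octads (setOf_mem_octads hm)
    h1 hk
  refine ⟨a1 * g, M24.mul_mem ha1 hg, ?_, ?_⟩
  · rw [mul_smul, hg0]
  · rw [mul_smul, hg2, smul_inv_smul]

theorem disjoint_smul_setOf (a : Equiv.Perm GolayPt) {m1 m2 : ℕ} (h1 : m1 < 2 ^ 24)
    (h2 : m2 < 2 ^ 24) : Disjoint (a • setOf m1) (a • setOf m2) ↔ m1 &&& m2 = 0 := by
  rw [Finset.disjoint_iff_inter_eq_empty, ← Finset.smul_finset_inter,
    Finset.smul_finset_eq_empty, ← Finset.disjoint_iff_inter_eq_empty, disjoint_iff_mask,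
    maskS_setOf h1, maskS_setOf h2]

theorem card_inter_setOf {m1 m2 : ℕ} (h1 : m1 < 2 ^ 24) (h2 : m2 < 2 ^ 24) :
    (setOf m1 ∩ setOf m2).card = pc (m1 &&& m2) := by
  rw [card_eq_pc, maskS_inter, maskS_setOf h1, maskS_setOf h2]

theorem count_disjoint_o0_o2m :
    countLt (fun n => profF [(16777215, 8), (o0, 0), (o2m, 0)] (cwF n)) 4096 = 0 := by
  decide +kernel

/-- Two octads meeting in four points have a common disjoint octad. -/
theorem exists_disjoint_of_inter_four {o o' : Finset GolayPt} (ho : o ∈ octads)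
    (ho' : o' ∈ octads) (h : (o ∩ o').card = 4) :
    ∃ w ∈ octads, Disjoint o w ∧ Disjoint w o' := by
  obtain ⟨a, ha, rfl, rfl⟩ := exists_pair_frame_gen isOct_o4m ho ho' (by
    rw [h, card_inter_setOf o0_lt (lt_of_isOct isOct_o4m)]; decide)
  refine ⟨a • setOf g4w, smul_mem_octads ha (setOf_mem_octads isOct_g4w), ?_, ?_⟩
  · rw [disjoint_smul_setOf a o0_lt (lt_of_isOct isOct_g4w)]; decide
  · rw [disjoint_smul_setOf a (lt_of_isOct isOct_g4w) (lt_of_isOct isOct_o4m)]; decide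

/-- Two octads meeting in two points are joined by a path of length three. -/
theorem exists_path_of_inter_two {o o' : Finset GolayPt} (ho : o ∈ octads)
    (ho' : o' ∈ octads) (h : (o ∩ o').card = 2) :
    ∃ w1 ∈ octads, ∃ w2 ∈ octads, Disjoint o w1 ∧ Disjoint w1 w2 ∧ Disjoint w2 o' := by
  obtain ⟨a, ha, rfl, rfl⟩ := exists_pair_frame ho ho' h
  refine ⟨a • setOf g2w1, smul_mem_octads ha (setOf_mem_octads isOct_g2w1),
    a • setOf g2w2, smul_mem_octads ha (setOf_mem_octads isOct_g2w2), ?_, ?_, ?_⟩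
  · rw [disjoint_smul_setOf a o0_lt (lt_of_isOct isOct_g2w1)]; decide
  · rw [disjoint_smul_setOf a (lt_of_isOct isOct_g2w1) (lt_of_isOct isOct_g2w2)]; decide
  · rw [disjoint_smul_setOf a (lt_of_isOct isOct_g2w2) o2m_lt]; decide

/-- Two octads meeting in two points have no common disjoint octad. -/
theorem not_exists_disjoint_of_inter_two {o o' : Finset GolayPt} (ho : o ∈ octads)
    (ho' : o' ∈ octads) (h : (o ∩ o').card = 2) :
    ¬ ∃ w ∈ octads, Disjoint o w ∧ Disjoint w o' := by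
  obtain ⟨a, ha, rfl, rfl⟩ := exists_pair_frame ho ho' h
  rintro ⟨w, hw, h1, h2⟩
  have hlt : ∀ c ∈ [(16777215, 8), (o0, 0), (o2m, 0)], c.1 < 2 ^ 24 := by
    intro c hc
    simp only [List.mem_cons, List.not_mem_nil, or_false] at hc
    rcases hc with rfl | rfl | rfl
    · decide
    · exact o0_lt
    · exact o2m_lt
  have hcount := (ncard_prof ha [(16777215, 8), (o0, 0), (o2m, 0)] hlt).trans
    count_disjoint_o0_o2m
  have hmem : w ∈ {s : Finset GolayPt | s ∈ supports (golayCode : Set (GolayPt → ZMod 2)) ∧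
      HasProf (profSets a [(16777215, 8), (o0, 0), (o2m, 0)]) s} := by
    refine ⟨hw.1, ?_⟩
    rw [profSets_cons, profSets_cons, profSets_cons, profSets_nil, hasProf_cons, hasProf_cons,
      hasProf_cons, card_inter_full, Finset.card_eq_zero, Finset.card_eq_zero,
      ← Finset.disjoint_iff_inter_eq_empty, ← Finset.disjoint_iff_inter_eq_empty]
    exact ⟨hw.2, h1.symm, h2, hasProf_nil _⟩
  rw [Set.ncard_eq_zero (Set.toFinite _)] at hcount
  rw [hcount] at hmem
  exact hmem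

theorem octGraph_adj {o o' : Finset GolayPt} (ho : o ∈ octads) (ho' : o' ∈ octads) :
    (blockGraph octads).Adj ⟨o, ho⟩ ⟨o', ho'⟩ ↔ Disjoint o o' := by
  unfold blockGraph
  rw [SimpleGraph.fromRel_adj]
  constructor
  · rintro ⟨-, h | h⟩
    · exact h
    · exact h.symm
  · intro h
    refine ⟨?_, Or.inl h⟩
    intro heq
    have heq' : o = o' := congrArg Subtype.val heq
    rw [heq', Finset.disjoint_self_iff_empty] at h
    have := ho'.2
    rw [h] at this
    simp at this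

theorem exists_mid_of_walk_length_two {V : Type*} {G : SimpleGraph V} {u v : V}
    (p : G.Walk u v) (hp : p.length = 2) : ∃ w, G.Adj u w ∧ G.Adj w v := by
  cases p with
  | nil => simp at hp
  | cons h p' =>
    cases p' with
    | nil => simp at hp
    | cons h' p'' =>
      cases p'' with
      | nil => exact ⟨_, h, h'⟩
      | cons h'' p''' =>
        simp only [SimpleGraph.Walk.length_cons] at hp
        omega

theorem octGraph_dist {o o' : Finset GolayPt} (ho : o ∈ octads) (ho' : o' ∈ octads)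
    (hne : o ≠ o') :
    (blockGraph octads).Reachable ⟨o, ho⟩ ⟨o', ho'⟩ ∧
    ((o ∩ o').card = 0 → (blockGraph octads).dist ⟨o, ho⟩ ⟨o', ho'⟩ = 1) ∧
    ((o ∩ o').card = 4 → (blockGraph octads).dist ⟨o, ho⟩ ⟨o', ho'⟩ = 2) ∧
    ((o ∩ o').card = 2 → (blockGraph octads).dist ⟨o, ho⟩ ⟨o', ho'⟩ = 3) := by
  have hne' : (⟨o, ho⟩ : octads) ≠ ⟨o', ho'⟩ := fun h => hne (congrArg Subtype.val h)
  have hnadj : (o ∩ o').card ≠ 0 → ¬ (blockGraph octads).Adj ⟨o, ho⟩ ⟨o', ho'⟩ := by
    intro hk hadj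
    rw [octGraph_adj, Finset.disjoint_iff_inter_eq_empty, ← Finset.card_eq_zero] at hadj
    exact hk hadj
  have h0 : (o ∩ o').card = 0 → (blockGraph octads).Adj ⟨o, ho⟩ ⟨o', ho'⟩ := by
    intro hk
    rw [octGraph_adj, Finset.disjoint_iff_inter_eq_empty, ← Finset.card_eq_zero]
    exact hk
  have h4 : (o ∩ o').card = 4 → ∃ p : (blockGraph octads).Walk ⟨o, ho⟩ ⟨o', ho'⟩,
      p.length = 2 := by
    intro hk
    obtain ⟨w, hw, h1, h2⟩ := exists_disjoint_of_inter_four ho ho' hk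
    exact ⟨SimpleGraph.Walk.cons ((octGraph_adj ho hw).mpr h1)
      (SimpleGraph.Walk.cons ((octGraph_adj hw ho').mpr h2) SimpleGraph.Walk.nil), rfl⟩
  have h2 : (o ∩ o').card = 2 → ∃ p : (blockGraph octads).Walk ⟨o, ho⟩ ⟨o', ho'⟩,
      p.length = 3 := by
    intro hk
    obtain ⟨w1, hw1, w2, hw2, h1, h2, h3⟩ := exists_path_of_inter_two ho ho' hk
    exact ⟨SimpleGraph.Walk.cons ((octGraph_adj ho hw1).mpr h1)
      (SimpleGraph.Walk.cons ((octGraph_adj hw1 hw2).mpr h2)
        (SimpleGraph.Walk.cons ((octGraph_adj hw2 ho').mpr h3) SimpleGraph.Walk.nil)), rfl⟩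
  have hreach : (blockGraph octads).Reachable ⟨o, ho⟩ ⟨o', ho'⟩ := by
    rcases octad_inter_cases ho ho' with hk | hk | hk | hk
    · exact (h0 hk).reachable
    · obtain ⟨p, -⟩ := h2 hk
      exact ⟨p⟩
    · obtain ⟨p, -⟩ := h4 hk
      exact ⟨p⟩
    · exfalso
      apply hne
      have e1 : o ∩ o' = o :=
        Finset.eq_of_subset_of_card_le Finset.inter_subset_left (by rw [hk, ho.2])
      have e2 : o ∩ o' = o' :=
        Finset.eq_of_subset_of_card_le Finset.inter_subset_right (by rw [hk, ho'.2])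
      rw [← e1, e2]
  refine ⟨hreach, ?_, ?_, ?_⟩
  · intro hk
    exact SimpleGraph.dist_eq_one_iff_adj.mpr (h0 hk)
  · intro hk
    obtain ⟨p, hp⟩ := h4 hk
    have h1 := SimpleGraph.dist_le p
    have h3 := hreach.one_lt_dist_of_ne_of_not_adj hne' (hnadj (by rw [hk]; norm_num))
    omega
  · intro hk
    obtain ⟨p, hp⟩ := h2 hk
    have h1 := SimpleGraph.dist_le p
    have h3 := hreach.one_lt_dist_of_ne_of_not_adj hne' (hnadj (by rw [hk]; norm_num))
    have h5 : (blockGraph octads).dist ⟨o, ho⟩ ⟨o', ho'⟩ ≠ 2 := by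
      intro hd
      obtain ⟨q, hq⟩ := hreach.exists_walk_length_eq_dist
      rw [hd] at hq
      obtain ⟨⟨w, hw⟩, ha1, ha2⟩ := exists_mid_of_walk_length_two q hq
      rw [octGraph_adj] at ha1 ha2
      exact not_exists_disjoint_of_inter_two ho ho' hk ⟨w, hw, ha1, ha2⟩
    omega

/-- S5609. -/
theorem octad_graph (o o' : Finset GolayPt) (ho : o ∈ octads) (ho' : o' ∈ octads)
    (hne : o ≠ o') :
    (blockGraph octads).Connected ∧
    ((blockGraph octads).dist ⟨o, ho⟩ ⟨o', ho'⟩ = 1 ↔ (o ∩ o').card = 0) ∧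
    ((blockGraph octads).dist ⟨o, ho⟩ ⟨o', ho'⟩ = 2 ↔ (o ∩ o').card = 4) ∧
    ((blockGraph octads).dist ⟨o, ho⟩ ⟨o', ho'⟩ = 3 ↔ (o ∩ o').card = 2) := by
  obtain ⟨-, d1, d2, d3⟩ := octGraph_dist ho ho' hne
  refine ⟨?_, ?_⟩
  · have : Nonempty octads := ⟨⟨setOf o0, setOf_o0_mem_octads⟩⟩
    refine SimpleGraph.Connected.mk ?_
    rintro ⟨u, hu⟩ ⟨v, hv⟩
    by_cases huv : u = v
    · subst huv
      exact SimpleGraph.Reachable.refl _
    · exact (octGraph_dist hu hv huv).1
  · rcases octad_inter_cases ho ho' with hk | hk | hk | hk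
    · rw [d1 hk, hk]; simp
    · rw [d3 hk, hk]; simp
    · rw [d2 hk, hk]; simp
    · exfalso
      apply hne
      have e1 : o ∩ o' = o :=
        Finset.eq_of_subset_of_card_le Finset.inter_subset_left (by rw [hk, ho.2])
      have e2 : o ∩ o' = o' :=
        Finset.eq_of_subset_of_card_le Finset.inter_subset_right (by rw [hk, ho'.2])
      rw [← e1, e2]

end Cfsg.Agent.Lib.helper28
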