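import Cfsg.Agent.Lib.helper28.GolayS6
import Cfsg.Prelude.Def_SporadicCombinatorics

set_option autoImplicit false

namespace Cfsg.Agent.Lib.helper28

open Cfsg
open scoped Pointwise

/-! The joint stabiliser of a dodecad and a hexad on it is a symmetric group of degree 6. -/

theorem m12_eq_one_of_fix {d : Finset GolayPt} (hd : d ∈ dodecads) (s : Finset GolayPt)
    (hs : 5 ≤ s.card) (hsd : s ⊆ d) (g : Equiv.Perm GolayPt) (hg : g ∈ M24) (hgd : g • d = d)
    (hfix : ∀ p ∈ s, g p = p) : g = 1 := by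
  obtain ⟨t, hts, ht⟩ := Finset.exists_subset_card_eq hs
  have e5 : ↥t ≃ Fin 5 := t.equivFinOfCardEq ht
  let x : Fin 5 ↪ GolayPt := ⟨fun i => (e5.symm i).1, fun i j h => e5.symm.injective (Subtype.ext h)⟩
  have hx : ∀ i, x i ∈ d := fun i => hsd (hts (e5.symm i).2)
  obtain ⟨g0, _, _, _, huniq⟩ := m12_sharp hd x x hx hx
  have h1 := huniq g hg hgd (fun i => hfix _ (hts (e5.symm i).2))
  have h2 := huniq 1 M24.one_mem (one_smul _ _) (fun i => rfl)
  rw [h1, ← h2]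

theorem perm_eq_one_of_fix_but_one {β : Type*} (τ : Equiv.Perm β) (x0 : β)
    (h : ∀ y, y ≠ x0 → τ y = y) : τ = 1 := by
  apply Equiv.ext
  intro y
  by_cases hy : y = x0
  · rw [hy]
    by_contra hne
    have h1 := h (τ x0) hne
    exact hne (τ.injective h1)
  · exact h y hy

/-- S5618. -/
theorem dodecad_hexad_stab (d : Finset GolayPt) (hd : d ∈ dodecads) (C : Finset GolayPt)
    (hC : C ∈ hexadsOn d) :
    Nonempty (↥(MulAction.stabilizer M24 d ⊓ MulAction.stabilizer M24 C) ≃*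
      Equiv.Perm (Fin 6)) ∧
    (∀ g ∈ MulAction.stabilizer M24 d ⊓ MulAction.stabilizer M24 C,
      (∀ p ∈ C, ((g : ↥M24) : Equiv.Perm GolayPt) p = p) → g = 1) ∧
    ∀ g ∈ MulAction.stabilizer M24 d ⊓ MulAction.stabilizer M24 C,
      (∀ p ∈ d \ C, ((g : ↥M24) : Equiv.Perm GolayPt) p = p) → g = 1 := by
  obtain ⟨hC6, o, ho, rfl⟩ := hC
  have hCd : o ∩ d ⊆ d := Finset.inter_subset_right
  have f2 : ∀ g ∈ MulAction.stabilizer M24 d ⊓ MulAction.stabilizer M24 (o ∩ d),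
      (∀ p ∈ o ∩ d, ((g : ↥M24) : Equiv.Perm GolayPt) p = p) → g = 1 := by
    rintro ⟨g, hg⟩ ⟨hgd, -⟩ hfix
    apply Subtype.ext
    exact m12_eq_one_of_fix hd (o ∩ d) (by rw [hC6]; norm_num) hCd g hg hgd hfix
  have f3 : ∀ g ∈ MulAction.stabilizer M24 d ⊓ MulAction.stabilizer M24 (o ∩ d),
      (∀ p ∈ d \ (o ∩ d), ((g : ↥M24) : Equiv.Perm GolayPt) p = p) → g = 1 := by
    rintro ⟨g, hg⟩ ⟨hgd, -⟩ hfix
    apply Subtype.ext
    refine m12_eq_one_of_fix hd (d \ (o ∩ d)) ?_ Finset.sdiff_subset g hg hgd hfix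
    rw [Finset.card_sdiff_of_subset hCd, hd.2, hC6]
    norm_num
  refine ⟨?_, f2, f3⟩
  have hinv : ∀ g : ↥(MulAction.stabilizer M24 d ⊓ MulAction.stabilizer M24 (o ∩ d)),
      (M24.subtype.comp (Subgroup.subtype _)) g • (o ∩ d) = o ∩ d := fun g => g.2.2
  have hinj := restrictHom_injective (M24.subtype.comp (Subgroup.subtype _)) (o ∩ d) hinv
    (fun g hg => Subtype.ext (f2 g.1 g.2 hg))
  have hsurj : Function.Surjective (restrictHom (M24.subtype.comp (Subgroup.subtype _))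
      (o ∩ d) hinv) := by
    intro σ
    have hne : (o ∩ d).Nonempty := by
      rw [← Finset.card_pos, hC6]; norm_num
    obtain ⟨x0, hx0⟩ := hne
    have h5 : ((o ∩ d).erase x0).card = 5 := by
      rw [Finset.card_erase_of_mem hx0, hC6]
    have e5 : ↥((o ∩ d).erase x0) ≃ Fin 5 := Finset.equivFinOfCardEq h5
    have hmemC : ∀ i, ((e5.symm i : ↥((o ∩ d).erase x0)) : GolayPt) ∈ o ∩ d :=
      fun i => Finset.mem_of_mem_erase (e5.symm i).2
    let x : Fin 5 ↪ GolayPt :=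
      ⟨fun i => (e5.symm i).1, fun i j h => e5.symm.injective (Subtype.ext h)⟩
    let y : Fin 5 ↪ GolayPt :=
      ⟨fun i => (σ ⟨(e5.symm i).1, hmemC i⟩ : ↥(o ∩ d)).1, fun i j h =>
        e5.symm.injective (Subtype.ext (congrArg (fun z : ↥(o ∩ d) => z.1)
          (σ.injective (Subtype.ext h))))⟩
    have hx : ∀ i, x i ∈ d := fun i => hCd (hmemC i)
    have hy : ∀ i, y i ∈ d := fun i => hCd (σ ⟨(e5.symm i).1, hmemC i⟩).2
    obtain ⟨g, hg, hgd, hmap, -⟩ := m12_sharp hd x y hx hy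
    -- the octad is preserved
    have hs5 : (Finset.univ.map y).card = 5 := by
      rw [Finset.card_map, Finset.card_univ, Fintype.card_fin]
    have hsub1 : Finset.univ.map y ⊆ o := by
      intro p hp
      rw [Finset.mem_map] at hp
      obtain ⟨i, -, rfl⟩ := hp
      exact Finset.mem_of_mem_inter_left (σ ⟨(e5.symm i).1, hmemC i⟩).2
    have hsub2 : Finset.univ.map y ⊆ g • o := by
      intro p hp
      rw [Finset.mem_map] at hp
      obtain ⟨i, -, rfl⟩ := hp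
      rw [← hmap i]
      exact Finset.smul_mem_smul_finset (a := g) (Finset.mem_of_mem_inter_left (hmemC i))
    have hgo : g • o = o :=
      (octads_isSteinerSystem.2 _ hs5).unique ⟨smul_mem_octads hg ho, hsub2⟩ ⟨ho, hsub1⟩
    have hgC : g • (o ∩ d) = o ∩ d := by
      rw [Finset.smul_finset_inter, hgo, hgd]
    let γ : ↥(MulAction.stabilizer M24 d ⊓ MulAction.stabilizer M24 (o ∩ d)) :=
      ⟨⟨g, hg⟩, hgd, hgC⟩
    refine ⟨γ, ?_⟩
    have hτ : (restrictHom (M24.subtype.comp (Subgroup.subtype _)) (o ∩ d) hinv γ)⁻¹ * σ = 1 := by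
      apply perm_eq_one_of_fix_but_one _ ⟨x0, hx0⟩
      intro z hz
      have hz' : z.1 ∈ (o ∩ d).erase x0 :=
        Finset.mem_erase.mpr ⟨fun h => hz (Subtype.ext h), z.2⟩
      have hzi : (e5.symm (e5 ⟨z.1, hz'⟩)).1 = z.1 := by rw [Equiv.symm_apply_apply]
      have h1 := hmap (e5 ⟨z.1, hz'⟩)
      have h2 : restrictHom (M24.subtype.comp (Subgroup.subtype _)) (o ∩ d) hinv γ z = σ z := by
        apply Subtype.ext
        show g z.1 = (σ z).1
        have h3 : x (e5 ⟨z.1, hz'⟩) = z.1 := hzi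
        have h4 : y (e5 ⟨z.1, hz'⟩) = (σ z).1 := by
          show (σ ⟨(e5.symm (e5 ⟨z.1, hz'⟩)).1, _⟩ : ↥(o ∩ d)).1 = (σ z).1
          congr 2
          exact Subtype.ext hzi
        rw [← h3, h1, h4]
      rw [Equiv.Perm.mul_apply, ← h2]
      simp
    rw [inv_mul_eq_one] at hτ
    exact hτ
  have e : ↥(o ∩ d) ≃ Fin 6 := Fintype.equivFinOfCardEq (by rw [Fintype.card_coe, hC6])
  exact ⟨(MulEquiv.ofBijective _ ⟨hinj, hsurj⟩).trans e.permCongrHom⟩

end Cfsg.Agent.Lib.helper28
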