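import Cfsg.Agent.Lib.helper28.GolayMax4

set_option autoImplicit false

namespace Cfsg.Agent.Lib.helper28

open Cfsg
open scoped Pointwise

/-! Joint stabilisers of two octads. -/

theorem card_stab_eq_orbit_mul {G X : Type*} [Group G] [MulAction G X] (x y : X) :
    Nat.card (MulAction.stabilizer G x) =
      (MulAction.orbit (MulAction.stabilizer G x) y).ncard *
        Nat.card (MulAction.stabilizer G x ⊓ MulAction.stabilizer G y : Subgroup G) := by
  have h1 := Subgroup.card_mul_index (MulAction.stabilizer (MulAction.stabilizer G x) y)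
  rw [MulAction.index_stabilizer] at h1
  have h2 : MulAction.stabilizer (MulAction.stabilizer G x) y =
      (MulAction.stabilizer G x ⊓ MulAction.stabilizer G y).subgroupOf
        (MulAction.stabilizer G x) := by
    ext ⟨g, hg⟩
    rw [Subgroup.mem_subgroupOf, Subgroup.mem_inf, MulAction.mem_stabilizer_iff,
      MulAction.mem_stabilizer_iff]
    exact ⟨fun h => ⟨hg, h⟩, fun h => h.2⟩
  have h3 : Nat.card ((MulAction.stabilizer G x ⊓ MulAction.stabilizer G y).subgroupOf
      (MulAction.stabilizer G x)) =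
      Nat.card (MulAction.stabilizer G x ⊓ MulAction.stabilizer G y : Subgroup G) :=
    Nat.card_congr (Subgroup.subgroupOfEquivOfLe inf_le_left).toEquiv
  rw [h2, h3] at h1
  rw [← h1, mul_comm]

theorem ncard_octads_inter {o : Finset GolayPt} (ho : o ∈ octads) (k : ℕ) :
    {x : Finset GolayPt | x ∈ octads ∧ (o ∩ x).card = k}.ncard =
      countLt (fun n => profF [(16777215, 8), (o0, k)] (cwF n)) 4096 := by
  obtain ⟨a, ha, hao⟩ := exists_smul_o0_eq ho
  have key : ∀ (o' : Finset GolayPt), (o' ∈ octads ∧ (o ∩ o').card = k) ↔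
      (o' ∈ supports (golayCode : Set (GolayPt → ZMod 2)) ∧
        HasProf (profSets a [(16777215, 8), (o0, k)]) o') := by
    intro o'
    rw [profSets_cons, profSets_cons, profSets_nil, hasProf_cons, hasProf_cons,
      card_inter_full, hao, Finset.inter_comm o' o]
    exact ⟨fun ⟨⟨h1, h2⟩, h3⟩ => ⟨h1, h2, h3, hasProf_nil _⟩,
      fun ⟨h1, h2, h3, _⟩ => ⟨⟨h1, h2⟩, h3⟩⟩
  have hlt : ∀ c ∈ [(16777215, 8), (o0, k)], c.1 < 2 ^ 24 := by
    intro c hc
    simp only [List.mem_cons, List.not_mem_nil, or_false] at hc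
    rcases hc with rfl | rfl
    · decide
    · exact o0_lt
  rw [Set.ext key]
  exact ncard_prof ha _ hlt

theorem orbit_stab_octad {o o' : Finset GolayPt} (ho : o ∈ octads) (ho' : o' ∈ octads) :
    MulAction.orbit (MulAction.stabilizer M24 o) o' =
      {x : Finset GolayPt | x ∈ octads ∧ (o ∩ x).card = (o ∩ o').card} := by
  ext x
  constructor
  · rintro ⟨⟨g, hg⟩, rfl⟩
    have hgo : g • o = o := hg
    refine ⟨smul_mem_octads g.2 ho', ?_⟩
    show (o ∩ g • o').card = (o ∩ o').card
    conv_lhs => rw [← hgo]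
    rw [← Finset.smul_finset_inter, smul_def_M24, card_smul_finset]
  · rintro ⟨hx, hk⟩
    obtain ⟨g, hg, hgo, hgx⟩ := octad_stabilizer_orbits ho ho' hx hk.symm
    exact ⟨⟨⟨g, hg⟩, hgo⟩, hgx⟩

/-- S5613. -/
theorem card_stab_two_octads (o o' : Finset GolayPt) (ho : o ∈ octads) (ho' : o' ∈ octads) :
    ((o ∩ o').card = 0 → Nat.card ↥(MulAction.stabilizer M24 o ⊓ MulAction.stabilizer M24 o')
        = 10752) ∧
    ((o ∩ o').card = 4 → Nat.card ↥(MulAction.stabilizer M24 o ⊓ MulAction.stabilizer M24 o')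
        = 1152) ∧
    ((o ∩ o').card = 2 → Nat.card ↥(MulAction.stabilizer M24 o ⊓ MulAction.stabilizer M24 o')
        = 720) := by
  have h := card_stab_eq_orbit_mul (G := M24) o o'
  rw [card_stabilizer_octad ho, orbit_stab_octad ho ho', ncard_octads_inter ho] at h
  refine ⟨fun hk => ?_, fun hk => ?_, fun hk => ?_⟩
  · rw [hk, oct_count_k0] at h; omega
  · rw [hk, oct_count_k4] at h; omega
  · rw [hk, oct_count_k2] at h; omega

end Cfsg.Agent.Lib.helper28
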