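import Cfsg.Agent.Lib.helper28.CodeAbs
import Cfsg.Agent.Lib.helper28.GolayWeights
import Cfsg.Agent.S0358

set_option autoImplicit false

namespace Cfsg.Agent.Lib.helper28

open Cfsg

theorem golay_min8 : ∀ w ∈ golayCode, w ≠ 0 → 8 ≤ hammingNorm w := by
  intro w hw hne
  rw [CodeAbs.hammingNorm_eq]
  exact eight_le_card_of_mem_supports ⟨w, hw, rfl⟩
    (fun h0 => hne (CodeAbs.support₂_eq_empty.mp h0))

theorem card_golayPt : Fintype.card GolayPt = 24 := by decide

/-- S1635. -/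
theorem golay_coset_leaders (w : GolayPt → ZMod 2) :
    ({v : GolayPt → ZMod 2 | hammingNorm v ≤ 4 ∧ w - v ∈ golayCode}.ncard = 1 ∧
      ∃ v : GolayPt → ZMod 2, hammingNorm v ≤ 3 ∧ w - v ∈ golayCode) ∨
    ({v : GolayPt → ZMod 2 | hammingNorm v ≤ 4 ∧ w - v ∈ golayCode}.ncard = 6 ∧
      ∀ v : GolayPt → ZMod 2, w - v ∈ golayCode → hammingNorm v ≤ 4 → hammingNorm v = 4) := by
  have hset : {v : GolayPt → ZMod 2 | hammingNorm v ≤ 4 ∧ w - v ∈ golayCode} =
      {u : GolayPt → ZMod 2 | u - w ∈ golayCode ∧ hammingNorm u ≤ 4} := by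
    ext v
    constructor
    · rintro ⟨h1, h2⟩
      refine ⟨?_, h1⟩
      have := golayCode.neg_mem h2
      rwa [neg_sub] at this
    · rintro ⟨h1, h2⟩
      refine ⟨h2, ?_⟩
      have := golayCode.neg_mem h1
      rwa [neg_sub] at this
  rw [hset]
  rcases CodeAbs.coset_leaders card_golayPt golayCode Cfsg.Agent.S0358.card_code golay_min8 w
    with ⟨u, hu, hu3⟩ | ⟨h6, h4⟩
  · left
    have hmem : u ∈ {u : GolayPt → ZMod 2 | u - w ∈ golayCode ∧ hammingNorm u ≤ 4} := by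
      rw [hu]; exact Set.mem_singleton u
    refine ⟨by rw [hu, Set.ncard_singleton], u, hu3, ?_⟩
    have := golayCode.neg_mem hmem.1
    rwa [neg_sub] at this
  · right
    refine ⟨h6, ?_⟩
    intro v hv hv4
    have := golayCode.neg_mem hv
    rw [neg_sub] at this
    exact (h4 v ⟨this, hv4⟩).1

end Cfsg.Agent.Lib.helper28
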