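import Cfsg.Agent.Lib.helper28.GolaySextet
import Cfsg.Agent.Lib.helper28.GolayLeaders
import Cfsg.Agent.Lib.helper28.GolayCount
import Cfsg.Agent.Lib.helper28.GolayTrans
import Cfsg.Agent.Lib.helper28.GolayStab

set_option autoImplicit false

namespace Cfsg.Agent.Lib.helper28

open Cfsg
open scoped Pointwise

namespace LinAut

/-- Evaluation functional of a set of points. -/
def evT (T : Finset GolayPt) (c : GolayPt → ZMod 2) : ZMod 2 := ∑ p ∈ T, c p

theorem evT_eq (T : Finset GolayPt) (c : GolayPt → ZMod 2) :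
    evT T c = ((support₂ c ∩ T).card : ZMod 2) := by
  unfold evT
  have h : ∀ p ∈ T, c p = if c p ≠ 0 then 1 else 0 := by
    intro p _
    rcases zmod2_cases (c p) with h | h <;> simp [h]
  rw [Finset.sum_congr rfl h, Finset.sum_boole]
  congr 2
  ext p
  simp [support₂, and_comm]

theorem evT_univ_sum (T : Finset GolayPt) (c : GolayPt → ZMod 2) :
    evT T c = ∑ p, if p ∈ T then c p else 0 := by
  unfold evT
  rw [Finset.sum_ite_mem, Finset.univ_inter]

theorem evT_symmDiff (S T : Finset GolayPt) (c : GolayPt → ZMod 2) :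
    evT (symmDiff S T) c = evT S c + evT T c := by
  rw [evT_univ_sum, evT_univ_sum, evT_univ_sum, ← Finset.sum_add_distrib]
  apply Finset.sum_congr rfl
  intro p _
  by_cases h1 : p ∈ S <;> by_cases h2 : p ∈ T <;>
    simp [Finset.mem_symmDiff, h1, h2, CharTwo.add_self_eq_zero]

theorem evT_empty (c : GolayPt → ZMod 2) : evT ∅ c = 0 := by
  unfold evT; simp

theorem evT_pair {p q : GolayPt} (h : p ≠ q) (c : GolayPt → ZMod 2) :
    evT {p, q} c = c p + c q := by
  unfold evT; rw [Finset.sum_pair h]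

theorem dot_eq_evT (c u : GolayPt → ZMod 2) : ∑ p, c p * u p = evT (support₂ u) c := by
  rw [evT_univ_sum]
  apply Finset.sum_congr rfl
  intro p _
  by_cases h : p ∈ support₂ u
  · rw [if_pos h]
    have : u p ≠ 0 := by simpa [support₂] using h
    rcases zmod2_cases (u p) with h0 | h1
    · exact absurd h0 this
    · rw [h1, mul_one]
  · rw [if_neg h]
    have : u p = 0 := by simpa [support₂] using h
    rw [this, mul_zero]

theorem dot_code {c c' : GolayPt → ZMod 2} (hc : c ∈ golayCode) (hc' : c' ∈ golayCode) :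
    ∑ p, c p * c' p = 0 := by
  rw [dot_eq_evT, evT_eq]
  have h := even_card_inter_of_mem_supports (s := support₂ c) (t := support₂ c')
    ⟨c, hc, rfl⟩ ⟨c', hc', rfl⟩
  exact (ZMod.natCast_eq_zero_iff_even).mpr h

theorem one_mem : (fun _ => (1 : ZMod 2) : GolayPt → ZMod 2) ∈ golayCode :=
  Submodule.subset_span (Or.inr rfl)

theorem support₂_comp (τ : Equiv.Perm GolayPt) (c : GolayPt → ZMod 2) :
    support₂ (fun p => c (τ.symm p)) = τ • support₂ c := by
  ext p
  rw [mem_smul_iff]
  simp only [support₂, Finset.mem_filter, Finset.mem_univ, true_and]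
  rfl

theorem support₂_add_one (w : GolayPt → ZMod 2) :
    support₂ (w + fun _ => (1 : ZMod 2)) = (support₂ w)ᶜ := by
  ext p
  simp only [support₂, Finset.mem_filter, Finset.mem_univ, true_and, Finset.mem_compl, Pi.add_apply,
    not_not]
  rcases zmod2_cases (w p) with h | h <;> rw [h] <;> decide

/-- Weight class 8 or 16. -/
def Wt (c : GolayPt → ZMod 2) : Prop := (support₂ c).card = 8 ∨ (support₂ c).card = 16

theorem Wt_comp (τ : Equiv.Perm GolayPt) {c : GolayPt → ZMod 2} (h : Wt c) :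
    Wt (fun p => c (τ.symm p)) := by
  unfold Wt at *
  rw [support₂_comp, Finset.card_smul_finset]
  exact h

theorem Wt_add_one {c : GolayPt → ZMod 2} (h : Wt c) : Wt (c + fun _ => (1 : ZMod 2)) := by
  unfold Wt at *
  rw [support₂_add_one, Finset.card_compl, card_golayPt]
  omega

/-- The number of code words of weight 8 or 16 on which the functional of `T` is `1`. -/
noncomputable def NS (T : Finset GolayPt) : ℕ :=
  {s : Finset GolayPt | s ∈ supports (golayCode : Set (GolayPt → ZMod 2)) ∧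
    ((s.card = 8 ∨ s.card = 16) ∧ Odd (s ∩ T).card)}.ncard

noncomputable def NC (f : ↥golayCode → ZMod 2) : ℕ :=
  {c : ↥golayCode | Wt (c : GolayPt → ZMod 2) ∧ f c = 1}.ncard

theorem NS_eq_NC (T : Finset GolayPt) : NS T = NC (fun c => evT T c) := by
  unfold NS NC
  have hinj : Function.Injective (fun c : ↥golayCode => support₂ (c : GolayPt → ZMod 2)) :=
    fun a b h => Subtype.ext (CodeAbs.support₂_injective h)
  rw [← Set.ncard_image_of_injective _ hinj]
  congr 1
  ext s
  constructor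
  · rintro ⟨⟨w, hw, rfl⟩, hc, hodd⟩
    exact ⟨⟨w, hw⟩, ⟨hc, by
      show evT T w = 1
      rw [evT_eq]; exact (ZMod.natCast_eq_one_iff_odd).mpr hodd⟩, rfl⟩
  · rintro ⟨c, ⟨hc, hev⟩, rfl⟩
    refine ⟨⟨c.1, c.2, rfl⟩, hc, ?_⟩
    have hev' : evT T (c : GolayPt → ZMod 2) = 1 := hev
    rw [evT_eq] at hev'
    exact ZMod.natCast_eq_one_iff_odd.mp hev'

theorem NS_empty : NS ∅ = 0 := by
  unfold NS
  have : {s : Finset GolayPt | s ∈ supports (golayCode : Set (GolayPt → ZMod 2)) ∧
    ((s.card = 8 ∨ s.card = 16) ∧ Odd (s ∩ ∅).card)} = ∅ := by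
    ext s
    simp
  rw [this, Set.ncard_empty]

theorem NS_congr {T T' : Finset GolayPt}
    (h : ∀ c ∈ golayCode, evT T c = evT T' c) : NS T = NS T' := by
  rw [NS_eq_NC, NS_eq_NC]
  congr 1
  funext c
  exact h c.1 c.2

theorem NS_smul {a : Equiv.Perm GolayPt} (ha : a ∈ M24) (T : Finset GolayPt) :
    NS (a • T) = NS T := by
  unfold NS
  refine ncard_smul_transport a
    (fun s => s ∈ supports (golayCode : Set (GolayPt → ZMod 2)) ∧
      ((s.card = 8 ∨ s.card = 16) ∧ Odd (s ∩ T).card))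
    (fun s => s ∈ supports (golayCode : Set (GolayPt → ZMod 2)) ∧
      ((s.card = 8 ∨ s.card = 16) ∧ Odd (s ∩ a • T).card)) ?_
  intro o
  show (a • o ∈ supports (golayCode : Set (GolayPt → ZMod 2)) ∧
      (((a • o).card = 8 ∨ (a • o).card = 16) ∧ Odd (a • o ∩ a • T).card)) ↔ _
  rw [card_smul_inter, Finset.card_smul_finset]
  constructor
  · rintro ⟨h1, h2⟩
    refine ⟨?_, h2⟩
    have := smul_mem_supports (M24.inv_mem ha) h1
    rwa [inv_smul_smul] at this
  · rintro ⟨h1, h2⟩
    exact ⟨smul_mem_supports ha h1, h2⟩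

/-- The counting predicate on masks. -/
def nsPred (X : ℕ) (m : ℕ) : Bool := (pc m == 8 || pc m == 16) && (pc (m &&& X) % 2 == 1)

theorem nsPred_iff (X : ℕ) (hX : X < 2 ^ 24) (s : Finset GolayPt) :
    nsPred X (maskS s) = true ↔ (s.card = 8 ∨ s.card = 16) ∧ Odd (s ∩ setOf X).card := by
  unfold nsPred
  rw [Bool.and_eq_true, Bool.or_eq_true, beq_iff_eq, beq_iff_eq, beq_iff_eq, card_eq_pc, card_eq_pc,
    maskS_inter, maskS_setOf hX, Nat.odd_iff]

theorem nsPred_fast (X : ℕ) {n : ℕ} (hn : n < 4096) :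
    nsPred X (cw n) = ((Nat.beq (pcF (cwF n)) 8 || Nat.beq (pcF (cwF n)) 16) &&
      Nat.beq (Nat.mod (pcF (Nat.land (cwF n) X)) 2) 1) := by
  have hlt := cw_lt hn
  have hlt2 : cw n &&& X < 2 ^ 24 := lt_of_le_of_lt Nat.and_le_left hlt
  have h3 : Nat.land (cwF n) X = cwF n &&& X := rfl
  have h4 : ∀ a : ℕ, Nat.mod a 2 = a % 2 := fun _ => rfl
  rw [h3, h4, cwF_eq hn, pcF_eq hlt, pcF_eq hlt2, natBeq_eq, natBeq_eq, natBeq_eq, nsPred]

theorem NS_setOf (X : ℕ) (hX : X < 2 ^ 24) :
    NS (setOf X) = countLt (fun n => (Nat.beq (pcF (cwF n)) 8 || Nat.beq (pcF (cwF n)) 16) &&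
      Nat.beq (Nat.mod (pcF (Nat.land (cwF n) X)) 2) 1) 4096 := by
  unfold NS
  have h1 : {s : Finset GolayPt | s ∈ supports (golayCode : Set (GolayPt → ZMod 2)) ∧
      ((s.card = 8 ∨ s.card = 16) ∧ Odd (s ∩ setOf X).card)} =
      {s : Finset GolayPt | s ∈ supports (golayCode : Set (GolayPt → ZMod 2)) ∧
        nsPred X (maskS s) = true} := by
    apply Set.ext
    intro s
    show (s ∈ supports (golayCode : Set (GolayPt → ZMod 2)) ∧
      ((s.card = 8 ∨ s.card = 16) ∧ Odd (s ∩ setOf X).card)) ↔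
      s ∈ supports (golayCode : Set (GolayPt → ZMod 2)) ∧ nsPred X (maskS s) = true
    rw [nsPred_iff X hX]
  have h2 := ncard_supports_filter (nsPred X)
  have h3 : countLt (fun n => nsPred X (cw n)) 4096 =
      countLt (fun n => (Nat.beq (pcF (cwF n)) 8 || Nat.beq (pcF (cwF n)) 16) &&
      Nat.beq (Nat.mod (pcF (Nat.land (cwF n) X)) 2) 1) 4096 :=
    countLt_congr fun n hn => nsPred_fast X hn
  exact (congrArg Set.ncard h1).trans (h2.trans h3)

theorem count_duad : countLt (fun n => (Nat.beq (pcF (cwF n)) 8 || Nat.beq (pcF (cwF n)) 16) &&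
      Nat.beq (Nat.mod (pcF (Nat.land (cwF n) 3)) 2) 1) 4096 = 704 := by decide +kernel

theorem count_tetrad : countLt (fun n => (Nat.beq (pcF (cwF n)) 8 || Nat.beq (pcF (cwF n)) 16) &&
      Nat.beq (Nat.mod (pcF (Nat.land (cwF n) 15)) 2) 1) 4096 = 768 := by decide +kernel

theorem NS_two {T : Finset GolayPt} (hT : T.card = 2) : NS T = 704 := by
  obtain ⟨u, v, huv, rfl⟩ := Finset.card_eq_two.mp hT
  have h01 : pt 0 ≠ pt 1 := by decide
  obtain ⟨a, ha, h0, h1⟩ := exists_mem_M24_apply₂ h01 huv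
  have h3 : setOf 3 = {pt 0, pt 1} := by decide
  have : a • setOf 3 = {u, v} := by
    rw [h3, Finset.smul_finset_insert, Finset.smul_finset_singleton]
    show ({a (pt 0), a (pt 1)} : Finset GolayPt) = _
    rw [h0, h1]
  rw [← this, NS_smul ha, NS_setOf 3 (by norm_num), count_duad]

theorem NS_four {T : Finset GolayPt} (hT : T.card = 4) : NS T = 768 := by
  obtain ⟨a, ha, rfl⟩ := exists_smul_setOf15 hT
  rw [NS_smul ha, NS_setOf 15 (by norm_num), count_tetrad]


/-- Every linear functional on the code is the functional of a set of at most four points. -/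
theorem exists_evT (g : ↥golayCode →ₗ[ZMod 2] ZMod 2) :
    ∃ T : Finset GolayPt, T.card ≤ 4 ∧ ∀ c : ↥golayCode, g c = evT T (c : GolayPt → ZMod 2) := by
  obtain ⟨G, hG⟩ := LinearMap.exists_extend (p := golayCode) g
  have hG' : ∀ w : GolayPt → ZMod 2,
      G w = ∑ p, w p * G (fun j => if p = j then 1 else 0) := by
    intro w
    rw [LinearMap.pi_apply_eq_sum_univ G w]
    apply Finset.sum_congr rfl
    intro p _
    rw [smul_eq_mul]
  have hv : ∃ u : GolayPt → ZMod 2, hammingNorm u ≤ 4 ∧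
      (fun p => G (fun j => if p = j then 1 else 0)) - u ∈ golayCode := by
    rcases golay_coset_leaders (fun p => G (fun j => if p = j then 1 else 0)) with
      ⟨_, u, hu, hmem⟩ | ⟨h6, _⟩
    · exact ⟨u, by omega, hmem⟩
    · have hne : {v : GolayPt → ZMod 2 | hammingNorm v ≤ 4 ∧
          (fun p => G (fun j => if p = j then 1 else 0)) - v ∈ golayCode}.Nonempty := by
        rw [← Set.ncard_pos]; omega
      obtain ⟨u, hu, hmem⟩ := hne
      exact ⟨u, hu, hmem⟩
  obtain ⟨u, hu, hmem⟩ := hv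
  refine ⟨support₂ u, by rw [← CodeAbs.hammingNorm_eq]; exact hu, ?_⟩
  intro c
  have h1 : g c = G (c : GolayPt → ZMod 2) := by
    rw [← hG]; rfl
  rw [h1, hG', ← dot_eq_evT]
  have h2 := dot_code c.2 hmem
  have h3 : ∑ p, (c : GolayPt → ZMod 2) p * G (fun j => if p = j then 1 else 0) =
      ∑ p, (c : GolayPt → ZMod 2) p * u p + ∑ p, (c : GolayPt → ZMod 2) p *
        ((fun p => G (fun j => if p = j then 1 else 0)) - u) p := by
    rw [← Finset.sum_add_distrib]
    apply Finset.sum_congr rfl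
    intro p _
    simp only [Pi.sub_apply]
    ring
  rw [h3, h2, add_zero]

theorem evT_one (T : Finset GolayPt) : evT T (fun _ => (1 : ZMod 2)) = (T.card : ZMod 2) := by
  unfold evT; simp

theorem NS_ne_zero_of_two_four {T : Finset GolayPt} (h : T.card = 2 ∨ T.card = 4) : NS T ≠ 0 := by
  rcases h with h | h
  · rw [NS_two h]; norm_num
  · rw [NS_four h]; norm_num

/-- Two duads with the same functional on the code are equal. -/
theorem duad_unique {T T' : Finset GolayPt} (hT : T.card = 2) (hT' : T'.card = 2)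
    (h : ∀ c ∈ golayCode, evT T c = evT T' c) : T = T' := by
  by_contra hne
  have h1 := card_symmDiff_add T T'
  have h2 : (T ∩ T').card ≤ 1 := by
    by_contra hlt
    rw [not_le] at hlt
    have h3 : T ∩ T' = T := Finset.eq_of_subset_of_card_le Finset.inter_subset_left (by omega)
    have h4 : T ∩ T' = T' := Finset.eq_of_subset_of_card_le Finset.inter_subset_right (by omega)
    exact hne (h3.symm.trans h4)
  have h5 : NS (symmDiff T T') = NS ∅ := NS_congr fun c hc => by
    rw [evT_symmDiff, h c hc, evT_empty, CharTwo.add_self_eq_zero]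
  rw [NS_empty] at h5
  exact NS_ne_zero_of_two_four (by omega) h5

theorem card_of_NS {T : Finset GolayPt} (hT : T.card ≤ 4) (hpar : (T.card : ZMod 2) = 0)
    (hNS : NS T = 704) : T.card = 2 := by
  have hpar' := Nat.even_iff.mp (ZMod.natCast_eq_zero_iff_even.mp hpar)
  have : T.card = 0 ∨ T.card = 2 ∨ T.card = 4 := by omega
  rcases this with h0 | h2 | h4
  · rw [Finset.card_eq_zero.mp h0, NS_empty] at hNS; omega
  · exact h2
  · rw [NS_four h4] at hNS; omega

/-- A set of at most four points with the same functional as a duad is that duad. -/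
theorem eq_duad {T T0 : Finset GolayPt} (hT : T.card ≤ 4) (hT0 : T0.card = 2)
    (h : ∀ c ∈ golayCode, evT T c = evT T0 c) : T = T0 := by
  have hpar : (T.card : ZMod 2) = 0 := by
    rw [← evT_one, h _ one_mem, evT_one, hT0]; rfl
  have hNS : NS T = 704 := by rw [NS_congr h, NS_two hT0]
  exact duad_unique (card_of_NS hT hpar hNS) hT0 h

theorem NC_comp (x : ↥golayCode ≃ₗ[ZMod 2] ↥golayCode)
    (hW : ∀ c : ↥golayCode, Wt ((x c : ↥golayCode) : GolayPt → ZMod 2) ↔
      Wt (c : GolayPt → ZMod 2))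
    (f : ↥golayCode → ZMod 2) : NC (fun c => f (x c)) = NC f := by
  unfold NC
  rw [← Set.ncard_image_of_injective _ x.injective]
  congr 1
  ext c
  constructor
  · rintro ⟨d, ⟨hd, hf⟩, rfl⟩
    exact ⟨(hW d).mpr hd, hf⟩
  · rintro ⟨hc, hf⟩
    refine ⟨x.symm c, ⟨?_, ?_⟩, x.apply_symm_apply c⟩
    · rw [← hW, x.apply_symm_apply]; exact hc
    · show f (x (x.symm c)) = 1
      rw [x.apply_symm_apply]; exact hf

theorem z2a : ∀ a b c : ZMod 2, a + b + (b + c) = a + c := by decide
theorem z2b : ∀ a b c d : ZMod 2, a + b = c + d → a = c + (b + d) := by decide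
theorem z2c : ∀ a b : ZMod 2, a = b + (a + b) := by decide
theorem z2d : ∀ a b e : ZMod 2, a = b + e → b = a + e := by decide
theorem z2e : ∀ a b c d : ZMod 2, a + b = c + d → a + b + (c + d) = 0 := by decide

theorem exists_two_ne : ∀ p : GolayPt, ∃ q1 q2 : GolayPt, q1 ≠ p ∧ q2 ≠ p ∧ q1 ≠ q2 := by decide
theorem exists_third : ∀ p q : GolayPt, ∃ r : GolayPt, r ≠ p ∧ r ≠ q := by decide

/-- The duad functional `c ↦ (x c) p + (x c) q` is again a duad functional. -/
theorem exists_duad (x : ↥golayCode ≃ₗ[ZMod 2] ↥golayCode)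
    (hW : ∀ c : ↥golayCode, Wt ((x c : ↥golayCode) : GolayPt → ZMod 2) ↔
      Wt (c : GolayPt → ZMod 2))
    (h1 : ∀ e : ↥golayCode, (e : GolayPt → ZMod 2) = (fun _ => (1 : ZMod 2)) → x e = e)
    {p q : GolayPt} (hpq : p ≠ q) :
    ∃ T : Finset GolayPt, T.card = 2 ∧ ∀ c : ↥golayCode,
      ((x c : ↥golayCode) : GolayPt → ZMod 2) p + ((x c : ↥golayCode) : GolayPt → ZMod 2) q =
        evT T (c : GolayPt → ZMod 2) := by
  let P : (GolayPt → ZMod 2) →ₗ[ZMod 2] ZMod 2 :=
    LinearMap.proj (R := ZMod 2) (φ := fun _ : GolayPt => ZMod 2) p +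
      LinearMap.proj (R := ZMod 2) (φ := fun _ : GolayPt => ZMod 2) q
  let g : ↥golayCode →ₗ[ZMod 2] ZMod 2 := (P.comp golayCode.subtype).comp x.toLinearMap
  have hg : ∀ c : ↥golayCode, g c =
      ((x c : ↥golayCode) : GolayPt → ZMod 2) p + ((x c : ↥golayCode) : GolayPt → ZMod 2) q :=
    fun c => rfl
  obtain ⟨T, hT4, hT⟩ := exists_evT g
  have hNS : NS T = 704 := by
    rw [NS_eq_NC]
    have e1 : (fun c : ↥golayCode => evT T (c : GolayPt → ZMod 2)) =
        fun c => evT {p, q} ((x c : ↥golayCode) : GolayPt → ZMod 2) := by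
      funext c
      rw [← hT, hg, evT_pair hpq]
    rw [e1, NC_comp x hW (fun c => evT {p, q} (c : GolayPt → ZMod 2)), ← NS_eq_NC,
      NS_two (Finset.card_pair hpq)]
  have hpar : (T.card : ZMod 2) = 0 := by
    rw [← evT_one]
    have h2 := hT ⟨_, one_mem⟩
    rw [hg, h1 ⟨_, one_mem⟩ rfl] at h2
    rw [← h2]
    show (1 : ZMod 2) + 1 = 0
    decide
  exact ⟨T, card_of_NS hT4 hpar hNS, fun c => by rw [← hT, hg]⟩


/-- A linear automorphism of the code fixing the all-ones word and preserving the weight class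
`{8, 16}` is induced, up to adding the all-ones word, by an element of the group of the code. -/
theorem main (x : ↥golayCode ≃ₗ[ZMod 2] ↥golayCode)
    (hW : ∀ c : ↥golayCode, Wt ((x c : ↥golayCode) : GolayPt → ZMod 2) ↔
      Wt (c : GolayPt → ZMod 2))
    (h1 : ∀ e : ↥golayCode, (e : GolayPt → ZMod 2) = (fun _ => (1 : ZMod 2)) → x e = e) :
    ∃ σ ∈ M24, ∀ c : ↥golayCode,
      ((x c : ↥golayCode) : GolayPt → ZMod 2) = (fun p => (c : GolayPt → ZMod 2) (σ.symm p)) ∨
      ((x c : ↥golayCode) : GolayPt → ZMod 2) =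
        (fun p => (c : GolayPt → ZMod 2) (σ.symm p)) + fun _ => (1 : ZMod 2) := by
  have key : ∀ p q : GolayPt, ∃ T : Finset GolayPt, p ≠ q → (T.card = 2 ∧ ∀ c : ↥golayCode,
      ((x c : ↥golayCode) : GolayPt → ZMod 2) p + ((x c : ↥golayCode) : GolayPt → ZMod 2) q =
        evT T (c : GolayPt → ZMod 2)) := by
    intro p q
    by_cases hpq : p = q
    · exact ⟨∅, fun h => absurd hpq h⟩
    · obtain ⟨T, hT⟩ := exists_duad x hW h1 hpq
      exact ⟨T, fun _ => hT⟩
  choose D hD using key
  have hD2 : ∀ p q, p ≠ q → (D p q).card = 2 := fun p q h => (hD p q h).1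
  have hDe : ∀ p q, p ≠ q → ∀ c (hc : c ∈ golayCode),
      ((x ⟨c, hc⟩ : ↥golayCode) : GolayPt → ZMod 2) p +
        ((x ⟨c, hc⟩ : ↥golayCode) : GolayPt → ZMod 2) q = evT (D p q) c :=
    fun p q h c hc => (hD p q h).2 ⟨c, hc⟩
  have hsymm : ∀ p q, p ≠ q → D p q = D q p := by
    intro p q hpq
    refine duad_unique (hD2 p q hpq) (hD2 q p (Ne.symm hpq)) fun c hc => ?_
    rw [← hDe p q hpq c hc, ← hDe q p (Ne.symm hpq) c hc, add_comm]
  have htri : ∀ p q r, p ≠ q → q ≠ r → p ≠ r → symmDiff (D p q) (D q r) = D p r := by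
    intro p q r hpq hqr hpr
    have hc4 := card_symmDiff_add (D p q) (D q r)
    rw [hD2 p q hpq, hD2 q r hqr] at hc4
    refine eq_duad (by omega) (hD2 p r hpr) fun c hc => ?_
    rw [evT_symmDiff, ← hDe p q hpq c hc, ← hDe q r hqr c hc, ← hDe p r hpr c hc, z2a]
  have hinter : ∀ p q r, p ≠ q → q ≠ r → p ≠ r → (D p q ∩ D q r).card = 1 := by
    intro p q r hpq hqr hpr
    have hc4 := card_symmDiff_add (D p q) (D q r)
    rw [htri p q r hpq hqr hpr, hD2 p q hpq, hD2 q r hqr, hD2 p r hpr] at hc4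
    omega
  have hinj4 : ∀ p q r s, p ≠ q → p ≠ r → p ≠ s → q ≠ r → q ≠ s → r ≠ s → D p s ≠ D q r := by
    intro p q r s hpq hpr hps hqr hqs hrs heq
    have hdis : (({p, s} : Finset GolayPt) ∩ {q, r}).card = 0 := by
      rw [Finset.card_eq_zero, ← Finset.disjoint_iff_inter_eq_empty]
      rw [Finset.disjoint_left]
      intro a ha hb
      simp only [Finset.mem_insert, Finset.mem_singleton] at ha hb
      rcases ha with rfl | rfl <;> rcases hb with h | h
      · exact hpq h
      · exact hpr h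
      · exact hqs h.symm
      · exact hrs h.symm
    have hc4 := card_symmDiff_add ({p, s} : Finset GolayPt) {q, r}
    rw [hdis, Finset.card_pair hps, Finset.card_pair hqr] at hc4
    have h0 : NS (symmDiff ({p, s} : Finset GolayPt) {q, r}) = 0 := by
      rw [NS_eq_NC, ← NC_comp x hW (fun c => evT (symmDiff ({p, s} : Finset GolayPt) {q, r})
        (c : GolayPt → ZMod 2)), ← NS_empty, NS_eq_NC]
      congr 1
      funext c
      rw [evT_symmDiff, evT_pair hps, evT_pair hqr, evT_empty]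
      apply z2e
      have e1 := (hD p s hps).2 c
      have e2 := (hD q r hqr).2 c
      rw [e1, e2, heq]
    exact NS_ne_zero_of_two_four (Or.inr (by omega)) h0
  have star : ∀ p, ∃ a, ∀ q, q ≠ p → a ∈ D p q := by
    intro p
    obtain ⟨q1, q2, hq1, hq2, hq12⟩ := exists_two_ne p
    have hAB := hinter q1 p q2 hq1 (Ne.symm hq2) hq12
    rw [hsymm q1 p hq1] at hAB
    obtain ⟨a, ha⟩ := Finset.card_eq_one.mp hAB
    have haA : a ∈ D p q1 := (Finset.mem_inter.mp (by rw [ha]; exact Finset.mem_singleton_self a)).1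
    have haB : a ∈ D p q2 := (Finset.mem_inter.mp (by rw [ha]; exact Finset.mem_singleton_self a)).2
    refine ⟨a, fun q hq => ?_⟩
    by_cases e1 : q = q1
    · rw [e1]; exact haA
    by_cases e2 : q = q2
    · rw [e2]; exact haB
    by_contra haE
    have hAE := hinter q1 p q hq1 (Ne.symm hq) (Ne.symm e1)
    rw [hsymm q1 p hq1] at hAE
    have hBE := hinter q2 p q hq2 (Ne.symm hq) (Ne.symm e2)
    rw [hsymm q2 p hq2] at hBE
    obtain ⟨b, hb⟩ := Finset.card_eq_one.mp hAE
    obtain ⟨c, hc⟩ := Finset.card_eq_one.mp hBE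
    have hb' := Finset.mem_inter.mp (show b ∈ D p q1 ∩ D p q by rw [hb]; exact Finset.mem_singleton_self b)
    have hc' := Finset.mem_inter.mp (show c ∈ D p q2 ∩ D p q by rw [hc]; exact Finset.mem_singleton_self c)
    have hbB : b ∉ D p q2 := by
      intro h
      have : b ∈ D p q1 ∩ D p q2 := Finset.mem_inter.mpr ⟨hb'.1, h⟩
      rw [ha, Finset.mem_singleton] at this
      exact haE (this ▸ hb'.2)
    have hcA : c ∉ D p q1 := by
      intro h
      have : c ∈ D p q1 ∩ D p q2 := Finset.mem_inter.mpr ⟨h, hc'.1⟩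
      rw [ha, Finset.mem_singleton] at this
      exact haE (this ▸ hc'.2)
    have hbc : b ≠ c := fun h => hbB (h ▸ hc'.1)
    have hT := htri q1 p q2 hq1 (Ne.symm hq2) hq12
    rw [hsymm q1 p hq1] at hT
    have hsub1 : ({b, c} : Finset GolayPt) ⊆ D q1 q2 := by
      rw [← hT]
      intro y hy
      simp only [Finset.mem_insert, Finset.mem_singleton] at hy
      rw [Finset.mem_symmDiff]
      rcases hy with rfl | rfl
      · exact Or.inl ⟨hb'.1, hbB⟩
      · exact Or.inr ⟨hc'.1, hcA⟩
    have hsub2 : ({b, c} : Finset GolayPt) ⊆ D p q := by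
      intro y hy
      simp only [Finset.mem_insert, Finset.mem_singleton] at hy
      rcases hy with rfl | rfl
      · exact hb'.2
      · exact hc'.2
    have hE1 : ({b, c} : Finset GolayPt) = D q1 q2 :=
      Finset.eq_of_subset_of_card_le hsub1 (by rw [hD2 q1 q2 hq12, Finset.card_pair hbc])
    have hE2 : ({b, c} : Finset GolayPt) = D p q :=
      Finset.eq_of_subset_of_card_le hsub2 (by rw [hD2 p q (Ne.symm hq), Finset.card_pair hbc])
    exact hinj4 p q1 q2 q (Ne.symm hq1) (Ne.symm hq2) (Ne.symm hq) hq12 (Ne.symm e1) (Ne.symm e2)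
      (hE2.symm.trans hE1)
  choose σ hσ using star
  have hσinj : Function.Injective σ := by
    intro p q hpq
    by_contra hne
    obtain ⟨r, hrp, hrq⟩ := exists_third p q
    have hT := htri p r q (Ne.symm hrp) hrq hne
    have m1 : σ p ∈ D p r := hσ p r hrp
    have m2 : σ p ∈ D r q := by
      rw [hpq, hsymm r q hrq]; exact hσ q r hrq
    have m3 : σ p ∈ D p q := hσ p q (Ne.symm hne)
    rw [← hT, Finset.mem_symmDiff] at m3
    rcases m3 with ⟨_, h⟩ | ⟨_, h⟩
    · exact h m2
    · exact h m1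
  have hDpair : ∀ p q, p ≠ q → D p q = {σ p, σ q} := by
    intro p q hpq
    have hne : σ p ≠ σ q := fun h => hpq (hσinj h)
    have hsub : ({σ p, σ q} : Finset GolayPt) ⊆ D p q := by
      intro y hy
      simp only [Finset.mem_insert, Finset.mem_singleton] at hy
      rcases hy with rfl | rfl
      · exact hσ p q (Ne.symm hpq)
      · rw [hsymm p q hpq]; exact hσ q p hpq
    exact (Finset.eq_of_subset_of_card_le hsub (by rw [hD2 p q hpq, Finset.card_pair hne])).symm
  have hval : ∀ (c : ↥golayCode) (p : GolayPt),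
      ((x c : ↥golayCode) : GolayPt → ZMod 2) p = (c : GolayPt → ZMod 2) (σ p) +
        (((x c : ↥golayCode) : GolayPt → ZMod 2) none + (c : GolayPt → ZMod 2) (σ none)) := by
    intro c p
    by_cases hp : p = none
    · rw [hp]; exact z2c _ _
    · apply z2b
      have e := (hD p none hp).2 c
      rw [hDpair p none hp, evT_pair (fun h => hp (hσinj h))] at e
      exact e
  have hbij : Function.Bijective σ := Finite.injective_iff_bijective.mp hσinj
  have hcode : ∀ c : ↥golayCode, (fun p => (c : GolayPt → ZMod 2) (σ p)) ∈ golayCode := by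
    intro c
    have e : (fun p => (c : GolayPt → ZMod 2) (σ p)) = fun p =>
        ((x c : ↥golayCode) : GolayPt → ZMod 2) p +
        (((x c : ↥golayCode) : GolayPt → ZMod 2) none + (c : GolayPt → ZMod 2) (σ none)) := by
      funext p
      exact z2d _ _ _ (hval c p)
    rw [e]
    rcases zmod2_cases (((x c : ↥golayCode) : GolayPt → ZMod 2) none +
      (c : GolayPt → ZMod 2) (σ none)) with h0 | h0
    · rw [h0]
      simp only [add_zero]
      exact (x c).2
    · rw [h0]
      exact golayCode.add_mem (x c).2 one_mem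
  refine ⟨(Equiv.ofBijective σ hbij).symm, ?_, ?_⟩
  · apply mem_M24_of_forall_smul_mem
    rintro s ⟨c, hc, rfl⟩
    rw [← support₂_comp]
    exact ⟨_, hcode ⟨c, hc⟩, rfl⟩
  · intro c
    rcases zmod2_cases (((x c : ↥golayCode) : GolayPt → ZMod 2) none +
      (c : GolayPt → ZMod 2) (σ none)) with h0 | h0
    · left
      funext p
      rw [hval c p, h0, add_zero]
      rfl
    · right
      funext p
      rw [hval c p, h0]
      rfl

end LinAut

end Cfsg.Agent.Lib.helper28
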