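import Cfsg.Agent.Lib.helper28.GolayM9
import Cfsg.Agent.Lib.helper28.GolayOrb

set_option autoImplicit false

namespace Cfsg.Agent.Lib.helper28

open Cfsg
open scoped Pointwise

/-! Involutions of the smallest Mathieu group: fixed points and four-point stabilisers. -/

def m12Inv1 : List ℕ := [2 ^ 0, d0]

def m12Inv4 : List ℕ := [2 ^ 3, 2 ^ 2, 2 ^ 1, 2 ^ 0, d0]

theorem m11sChain_ok : chainOK m12Inv1 (m12Chain.drop 1) = true := by decide +kernel

theorem m11s_final_bot : stabM (chainInv m12Inv1 (m12Chain.drop 1)) = ⊥ := by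
  have : chainInv m12Inv1 (m12Chain.drop 1) = chainInv [d0] m12Chain := by decide
  rw [this]
  exact m12_final_bot

theorem m8sChain_ok : chainOK m12Inv4 (m12Chain.drop 4) = true := by decide +kernel

theorem m8s_final_bot : stabM (chainInv m12Inv4 (m12Chain.drop 4)) = ⊥ := by
  have : chainInv m12Inv4 (m12Chain.drop 4) = chainInv [d0] m12Chain := by decide
  rw [this]
  exact m12_final_bot

/-- The mask of the points of the dodecad fixed by a table. -/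
def fixM (l : List ℕ) : ℕ := bitmapOf (fun i => d0.testBit i && l.getD i 0 == i) 24

theorem fixM_lt (l : List ℕ) : fixM l < 2 ^ 24 := by
  apply Nat.lt_pow_two_of_testBit
  intro i hi
  rw [fixM, testBit_bitmapOf]
  have : ¬ i < 24 := by omega
  simp [this]

theorem m11s_c : chainAll (fun l => notOneT (powTab l 2) || isOneT l ||
    decide (4 ≤ pc (fixM l))) (m12Chain.drop 1) idTab = true := by decide +kernel

def invT : List ℕ :=
  [0, 1, 2, 3, 12, 5, 9, 10, 16, 6, 7, 22, 4, 18, 14, 19, 8, 17, 13, 15, 21, 20, 11, 23]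

theorem m8s_c1 : chainAll (fun l => notOneT (powTab l 2) || isOneT l || l == invT)
    (m12Chain.drop 4) idTab = true := by decide +kernel

theorem m8s_c2 : chainAll (fun l => notOneT (powTab l 3) || isOneT l)
    (m12Chain.drop 4) idTab = true := by decide +kernel

theorem m11s_invol_fix {g : Equiv.Perm GolayPt} (hg : g ∈ stabM m12Inv1) (h2 : g * g = 1)
    (h1 : g ≠ 1) : ∃ m, m < 2 ^ 24 ∧ 4 ≤ pc m ∧ ∀ q ∈ setOf m, q ∈ setOf d0 ∧ g q = q := by
  obtain ⟨l, hl, hQ⟩ := chainAll_sound _ _ m12Inv1 idTab 1 isTable_one m11sChain_ok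
    m11s_final_bot m11s_c g hg
  rw [one_mul] at hl
  simp only [Bool.or_eq_true, decide_eq_true_eq] at hQ
  rcases hQ with (h | h) | h
  · exact absurd (by rw [pow_two]; exact h2) (ne_one_of_notOneT (isTable_powTab hl 2) h)
  · exact absurd (eq_one_of_isOneT hl h) h1
  · refine ⟨fixM l, fixM_lt l, h, fun q hq => ?_⟩
    rw [mem_setOf, fixM, testBit_bitmapOf] at hq
    simp only [Bool.and_eq_true, decide_eq_true_eq, beq_iff_eq] at hq
    refine ⟨(mem_setOf _ _).mpr hq.2.1, ?_⟩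
    exact idx_injective ((hl q).symm.trans hq.2.2)

theorem m8s_invol {g : Equiv.Perm GolayPt} (hg : g ∈ stabM m12Inv4) (h2 : g * g = 1)
    (h1 : g ≠ 1) : IsTable g invT := by
  obtain ⟨l, hl, hQ⟩ := chainAll_sound _ _ m12Inv4 idTab 1 isTable_one m8sChain_ok
    m8s_final_bot m8s_c1 g hg
  rw [one_mul] at hl
  simp only [Bool.or_eq_true, beq_iff_eq] at hQ
  rcases hQ with (h | h) | h
  · exact absurd (by rw [pow_two]; exact h2) (ne_one_of_notOneT (isTable_powTab hl 2) h)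
  · exact absurd (eq_one_of_isOneT hl h) h1
  · rw [← h]; exact hl

theorem m8s_cube {g : Equiv.Perm GolayPt} (hg : g ∈ stabM m12Inv4) (h3 : g ^ 3 = 1) : g = 1 := by
  obtain ⟨l, hl, hQ⟩ := chainAll_sound _ _ m12Inv4 idTab 1 isTable_one m8sChain_ok
    m8s_final_bot m8s_c2 g hg
  rw [one_mul] at hl
  simp only [Bool.or_eq_true] at hQ
  rcases hQ with h | h
  · exact absurd h3 (ne_one_of_notOneT (isTable_powTab hl 3) h)
  · exact eq_one_of_isOneT hl h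

theorem conj_pow_inv (a γ : Equiv.Perm GolayPt) (n : ℕ) :
    (a⁻¹ * γ * a) ^ n = a⁻¹ * γ ^ n * a := by
  have := conj_pow (a := a⁻¹) (b := γ) (i := n)
  rwa [inv_inv] at this

theorem conj_eq_one_iff (a γ : Equiv.Perm GolayPt) : a⁻¹ * γ * a = 1 ↔ γ = 1 := by
  constructor
  · intro h
    have : γ = a * (a⁻¹ * γ * a) * a⁻¹ := by group
    rw [this, h]; group
  · intro h
    rw [h]; group

/-- Transport to the standard four-point stabiliser. -/
theorem conj_mem_m8s {d : Finset GolayPt} (hd : d ∈ dodecads) {p q r s : GolayPt} (hp : p ∈ d)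
    (hq : q ∈ d) (hr : r ∈ d) (hs : s ∈ d) (hnd : [p, q, r, s].Nodup) :
    ∃ a ∈ M24, ∀ γ : Equiv.Perm GolayPt, γ ∈ M24 → γ • d = d → γ p = p → γ q = q → γ r = r →
      γ s = s → a⁻¹ * γ * a ∈ stabM m12Inv4 := by
  obtain ⟨a, ha, had, hfr⟩ := exists_dodecad_frame hd [p, q, r, s] (by simp) hnd
    (by simp [hp, hq, hr, hs])
  have hapq : a (pt 0) = p ∧ a (pt 1) = q ∧ a (pt 2) = r ∧ a (pt 3) = s := by
    have h : [a (pt 0), a (pt 1), a (pt 2), a (pt 3)] = [p, q, r, s] := hfr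
    simpa using h
  refine ⟨a, ha, fun γ hγ hγd h1 h2 h3 h4 => ?_⟩
  unfold m12Inv4
  rw [mem_stabM_cons_pt (by norm_num), mem_stabM_cons_pt (by norm_num),
    mem_stabM_cons_pt (by norm_num), mem_stabM_cons_pt (by norm_num), mem_stabM]
  simp only [List.mem_singleton, forall_eq]
  rw [conj_smul_eq_iff, conj_apply_eq_iff, conj_apply_eq_iff, conj_apply_eq_iff,
    conj_apply_eq_iff, had, hapq.1, hapq.2.1, hapq.2.2.1, hapq.2.2.2]
  exact ⟨⟨⟨⟨⟨M24.mul_mem (M24.mul_mem (M24.inv_mem ha) hγ) ha, hγd⟩, h1⟩, h2⟩, h3⟩, h4⟩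

/-- Transport to the standard three-point stabiliser. -/
theorem conj_mem_m9s {d : Finset GolayPt} (hd : d ∈ dodecads) {p q r : GolayPt} (hp : p ∈ d)
    (hq : q ∈ d) (hr : r ∈ d) (hnd : [p, q, r].Nodup) :
    ∃ a ∈ M24, ∀ γ : Equiv.Perm GolayPt, (γ ∈ M24 ∧ γ • d = d ∧ γ p = p ∧ γ q = q ∧ γ r = r) ↔
      a⁻¹ * γ * a ∈ stabM m12Inv3 := by
  obtain ⟨a, ha, had, hfr⟩ := exists_dodecad_frame hd [p, q, r] (by simp) hnd
    (by simp [hp, hq, hr])
  have hapq : a (pt 0) = p ∧ a (pt 1) = q ∧ a (pt 2) = r := by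
    have h : [a (pt 0), a (pt 1), a (pt 2)] = [p, q, r] := hfr
    simpa using h
  refine ⟨a, ha, fun γ => ?_⟩
  rw [mem_stabM_m12Inv3, conj_smul_eq_iff, conj_apply_eq_iff, conj_apply_eq_iff,
    conj_apply_eq_iff, had, hapq.1, hapq.2.1, hapq.2.2]
  constructor
  · rintro ⟨h0, h1, h2, h3, h4⟩
    exact ⟨⟨M24.mul_mem (M24.mul_mem (M24.inv_mem ha) h0) ha, h1⟩, h2, h3, h4⟩
  · rintro ⟨⟨h0, h1⟩, h2, h3, h4⟩
    refine ⟨?_, h1, h2, h3, h4⟩
    have : γ = a * (a⁻¹ * γ * a) * a⁻¹ := by group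
    rw [this]
    exact M24.mul_mem (M24.mul_mem ha h0) (M24.inv_mem ha)

/-- An involution of the group of the code fixing a dodecad and a point on it fixes at least four
points of the dodecad. -/
theorem m11_invol_fix {d : Finset GolayPt} (hd : d ∈ dodecads) {p : GolayPt} (hp : p ∈ d)
    {γ : Equiv.Perm GolayPt} (hγ : γ ∈ M24) (hγd : γ • d = d) (hγp : γ p = p)
    (h2 : γ * γ = 1) (h1 : γ ≠ 1) : 4 ≤ (d.filter (fun y => γ y = y)).card := by
  obtain ⟨a, ha, had, hap⟩ := exists_M24_flag hd hp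
  have hg : a⁻¹ * γ * a ∈ stabM m12Inv1 := by
    unfold m12Inv1
    rw [mem_stabM_cons_pt (by norm_num), mem_stabM]
    simp only [List.mem_singleton, forall_eq]
    rw [conj_smul_eq_iff, conj_apply_eq_iff, had, hap]
    exact ⟨⟨M24.mul_mem (M24.mul_mem (M24.inv_mem ha) hγ) ha, hγd⟩, hγp⟩
  have hg2 : (a⁻¹ * γ * a) * (a⁻¹ * γ * a) = 1 := by
    have : (a⁻¹ * γ * a) * (a⁻¹ * γ * a) = a⁻¹ * (γ * γ) * a := by group
    rw [this, h2]; group
  obtain ⟨m, hm, h4, hfix⟩ := m11s_invol_fix hg hg2 (fun h => h1 ((conj_eq_one_iff a γ).mp h))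
  have hsub : (setOf m).image a ⊆ d.filter (fun y => γ y = y) := by
    intro y hy
    obtain ⟨q, hq, rfl⟩ := Finset.mem_image.mp hy
    obtain ⟨hq1, hq2⟩ := hfix q hq
    rw [Finset.mem_filter]
    refine ⟨?_, ?_⟩
    · rw [← had]
      exact Finset.smul_mem_smul_finset (a := a) hq1
    · have h : a⁻¹ (γ (a q)) = q := hq2
      rw [Equiv.Perm.inv_eq_iff_eq] at h
      exact h
  calc 4 ≤ pc m := h4
    _ = (setOf m).card := (card_setOf hm).symm
    _ = ((setOf m).image a).card := (Finset.card_image_of_injective _ a.injective).symm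
    _ ≤ _ := Finset.card_le_card hsub

/-- The pointwise stabiliser of four points of a dodecad in its stabiliser has a unique
involution. -/
theorem m8_invol_unique {d : Finset GolayPt} (hd : d ∈ dodecads) {p q r s : GolayPt} (hp : p ∈ d)
    (hq : q ∈ d) (hr : r ∈ d) (hs : s ∈ d) (hnd : [p, q, r, s].Nodup)
    {γ γ' : Equiv.Perm GolayPt} (hγ : γ ∈ M24) (hγd : γ • d = d)
    (hfix : γ p = p ∧ γ q = q ∧ γ r = r ∧ γ s = s) (h2 : γ * γ = 1) (h1 : γ ≠ 1)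
    (hγ' : γ' ∈ M24) (hγd' : γ' • d = d)
    (hfix' : γ' p = p ∧ γ' q = q ∧ γ' r = r ∧ γ' s = s) (h2' : γ' * γ' = 1) (h1' : γ' ≠ 1) :
    γ = γ' := by
  obtain ⟨a, ha, hmem⟩ := conj_mem_m8s hd hp hq hr hs hnd
  have e : ∀ δ : Equiv.Perm GolayPt, δ * δ = 1 → (a⁻¹ * δ * a) * (a⁻¹ * δ * a) = 1 := by
    intro δ hδ
    have : (a⁻¹ * δ * a) * (a⁻¹ * δ * a) = a⁻¹ * (δ * δ) * a := by group
    rw [this, hδ]; group
  have t1 := m8s_invol (hmem γ hγ hγd hfix.1 hfix.2.1 hfix.2.2.1 hfix.2.2.2) (e γ h2)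
    (fun h => h1 ((conj_eq_one_iff a γ).mp h))
  have t2 := m8s_invol (hmem γ' hγ' hγd' hfix'.1 hfix'.2.1 hfix'.2.2.1 hfix'.2.2.2) (e γ' h2')
    (fun h => h1' ((conj_eq_one_iff a γ').mp h))
  have h := eq_of_isTable t1 t2
  have e1 : γ = a * (a⁻¹ * γ * a) * a⁻¹ := by group
  have e2 : γ' = a * (a⁻¹ * γ' * a) * a⁻¹ := by group
  rw [e1, e2, h]

theorem m8_cube {d : Finset GolayPt} (hd : d ∈ dodecads) {p q r s : GolayPt} (hp : p ∈ d)
    (hq : q ∈ d) (hr : r ∈ d) (hs : s ∈ d) (hnd : [p, q, r, s].Nodup)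
    {γ : Equiv.Perm GolayPt} (hγ : γ ∈ M24) (hγd : γ • d = d)
    (hfix : γ p = p ∧ γ q = q ∧ γ r = r ∧ γ s = s) (h3 : γ ^ 3 = 1) : γ = 1 := by
  obtain ⟨a, ha, hmem⟩ := conj_mem_m8s hd hp hq hr hs hnd
  have := m8s_cube (hmem γ hγ hγd hfix.1 hfix.2.1 hfix.2.2.1 hfix.2.2.2)
    (by rw [conj_pow_inv, h3]; group)
  exact (conj_eq_one_iff a γ).mp this

theorem m9_cube_of_nine {d : Finset GolayPt} (hd : d ∈ dodecads) {p q r : GolayPt} (hp : p ∈ d)
    (hq : q ∈ d) (hr : r ∈ d) (hnd : [p, q, r].Nodup) {γ : Equiv.Perm GolayPt}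
    (hγ : γ ∈ M24 ∧ γ • d = d ∧ γ p = p ∧ γ q = q ∧ γ r = r) (h9 : γ ^ 9 = 1) : γ ^ 3 = 1 := by
  obtain ⟨a, ha, hmem⟩ := conj_mem_m9s hd hp hq hr hnd
  have := m9_A1 _ ((hmem γ).mp hγ) (by rw [conj_pow_inv, h9]; group)
  rw [conj_pow_inv] at this
  exact (conj_eq_one_iff a _).mp this

theorem m9_cube_mul {d : Finset GolayPt} (hd : d ∈ dodecads) {p q r : GolayPt} (hp : p ∈ d)
    (hq : q ∈ d) (hr : r ∈ d) (hnd : [p, q, r].Nodup) {γ δ : Equiv.Perm GolayPt}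
    (hγ : γ ∈ M24 ∧ γ • d = d ∧ γ p = p ∧ γ q = q ∧ γ r = r)
    (hδ : δ ∈ M24 ∧ δ • d = d ∧ δ p = p ∧ δ q = q ∧ δ r = r) (h3 : γ ^ 3 = 1)
    (h3' : δ ^ 3 = 1) : (γ * δ) ^ 3 = 1 := by
  obtain ⟨a, ha, hmem⟩ := conj_mem_m9s hd hp hq hr hnd
  have := m9_A3 _ ((hmem γ).mp hγ) _ ((hmem δ).mp hδ) (by rw [conj_pow_inv, h3]; group)
    (by rw [conj_pow_inv, h3']; group)
  have e : a⁻¹ * γ * a * (a⁻¹ * δ * a) = a⁻¹ * (γ * δ) * a := by group
  rw [e, conj_pow_inv] at this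
  exact (conj_eq_one_iff a _).mp this

/-- The pointwise stabiliser of three points of a dodecad, inside the symmetric group. -/
def m9Grp (d : Finset GolayPt) (p q r : GolayPt) : Subgroup (Equiv.Perm GolayPt) where
  carrier := {γ | γ ∈ M24 ∧ γ • d = d ∧ γ p = p ∧ γ q = q ∧ γ r = r}
  mul_mem' := by
    rintro x y ⟨a1, a2, a3, a4, a5⟩ ⟨b1, b2, b3, b4, b5⟩
    refine ⟨M24.mul_mem a1 b1, by rw [mul_smul, b2, a2], ?_, ?_, ?_⟩
    · show x (y p) = p
      rw [b3, a3]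
    · show x (y q) = q
      rw [b4, a4]
    · show x (y r) = r
      rw [b5, a5]
  one_mem' := ⟨M24.one_mem, one_smul _ _, rfl, rfl, rfl⟩
  inv_mem' := by
    rintro x ⟨a1, a2, a3, a4, a5⟩
    refine ⟨M24.inv_mem a1, by rw [inv_smul_eq_iff, a2], ?_, ?_, ?_⟩
    · rw [Equiv.Perm.inv_eq_iff_eq, a3]
    · rw [Equiv.Perm.inv_eq_iff_eq, a4]
    · rw [Equiv.Perm.inv_eq_iff_eq, a5]

theorem card_m9Grp {d : Finset GolayPt} (hd : d ∈ dodecads) {p q r : GolayPt} (hp : p ∈ d)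
    (hq : q ∈ d) (hr : r ∈ d) (hnd : [p, q, r].Nodup) : Nat.card (m9Grp d p q r) = 72 := by
  obtain ⟨a, ha, hmem⟩ := conj_mem_m9s hd hp hq hr hnd
  rw [card_conj_eq (stabM m12Inv3) _ a (fun g => hmem g), card_stabM_m12Inv3]

end Cfsg.Agent.Lib.helper28
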