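import Cfsg.Agent.Lib.helper28.AutGL
import Cfsg.Agent.Lib.helper28.GolayM11Inv
import Cfsg.Agent.Lib.helper28.GolayHexS6
import Cfsg.Agent.Lib.helper28.GolayM12

set_option autoImplicit false

namespace Cfsg.Agent.Lib.helper28.Crit

/-- A subgroup `C` acting faithfully by conjugation on an elementary abelian normal subgroup of
order `p ^ n`, with at least as many elements as `GL (Fin n) (ZMod p)`, is isomorphic to it. -/
theorem sub_equiv_GL {H : Type*} [Group H] [Finite H] (N : Subgroup H) [hN : N.Normal]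
    (C : Subgroup H) (p n : ℕ) [Fact p.Prime] (hcard : Nat.card N = p ^ n)
    (hexp : ∀ x ∈ N, x ^ p = 1) (hcomm : ∀ x ∈ N, ∀ y ∈ N, x * y = y * x)
    (hfaith : ∀ h ∈ C, (∀ x ∈ N, h * x = x * h) → h = 1)
    (hC : Nat.card (GL (Fin n) (ZMod p)) ≤ Nat.card C) :
    Nonempty (↥C ≃* GL (Fin n) (ZMod p)) := by
  letI : CommGroup ↥N :=
    { (inferInstance : Group ↥N) with
      mul_comm := fun a b => Subtype.ext (hcomm a a.2 b b.2) }
  obtain ⟨φ, hφ⟩ := exists_mulAut_hom_GL (N := ↥N) p n hcard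
    (fun x => Subtype.ext (hexp x x.2))
  let ψ : ↥C →* GL (Fin n) (ZMod p) := (φ.comp (MulAut.conjNormal (H := N))).comp C.subtype
  have hinj : Function.Injective ψ := by
    rw [injective_iff_map_eq_one]
    intro g hg
    have h1 : (MulAut.conjNormal (g : H) : MulAut ↥N) = 1 := by
      apply hφ
      rw [map_one]
      exact hg
    apply Subtype.ext
    apply hfaith g.1 g.2
    intro x hx
    have h2 := congrArg (fun e : MulAut ↥N => ((e ⟨x, hx⟩ : ↥N) : H)) h1
    simp only [MulAut.conjNormal_apply] at h2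
    have h3 : (g : H) * x * (g : H)⁻¹ = x := h2
    calc (g : H) * x = (g : H) * x * (g : H)⁻¹ * g := by group
      _ = x * g := by rw [h3]
  exact ⟨MulEquiv.ofBijective ψ (Function.Injective.bijective_of_nat_card_le hinj hC)⟩

/-- The same for a subgroup `C` normalising an elementary abelian subgroup `N`. -/
theorem sub_equiv_GL_of_normalizer {P : Type*} [Group P] [Finite P] (N C : Subgroup P)
    (hnorm : C ≤ Subgroup.normalizer (N : Set P)) (p n : ℕ) [Fact p.Prime]
    (hcard : Nat.card N = p ^ n)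
    (hexp : ∀ x ∈ N, x ^ p = 1) (hcomm : ∀ x ∈ N, ∀ y ∈ N, x * y = y * x)
    (hfaith : ∀ h ∈ C, (∀ x ∈ N, h * x = x * h) → h = 1)
    (hC : Nat.card (GL (Fin n) (ZMod p)) ≤ Nat.card C) :
    Nonempty (↥C ≃* GL (Fin n) (ZMod p)) := by
  haveI : (N.subgroupOf (Subgroup.normalizer (N : Set P))).Normal := Subgroup.normal_in_normalizer
  have e1 : ↥(N.subgroupOf (Subgroup.normalizer (N : Set P))) ≃* ↥N :=
    Subgroup.subgroupOfEquivOfLe Subgroup.le_normalizer
  have e2 : ↥(C.subgroupOf (Subgroup.normalizer (N : Set P))) ≃* ↥C :=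
    Subgroup.subgroupOfEquivOfLe hnorm
  obtain ⟨e⟩ := sub_equiv_GL (N.subgroupOf (Subgroup.normalizer (N : Set P)))
    (C.subgroupOf (Subgroup.normalizer (N : Set P))) p n
    (by rw [Nat.card_congr e1.toEquiv, hcard])
    (fun x hx => Subtype.ext (by
      rw [Subgroup.mem_subgroupOf] at hx
      simpa using hexp x.1 hx))
    (fun x hx y hy => Subtype.ext
      (hcomm x.1 (Subgroup.mem_subgroupOf.mp hx) y.1 (Subgroup.mem_subgroupOf.mp hy)))
    (fun h hh hcen => by
      apply Subtype.ext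
      apply hfaith h.1 (Subgroup.mem_subgroupOf.mp hh)
      intro x hx
      have := hcen ⟨x, Subgroup.le_normalizer hx⟩ (Subgroup.mem_subgroupOf.mpr hx)
      exact congrArg Subtype.val this)
    (by rw [Nat.card_congr e2.toEquiv]; exact hC)
  exact ⟨e2.symm.trans e⟩

end Cfsg.Agent.Lib.helper28.Crit

namespace Cfsg.Agent.Lib.helper28

open Cfsg
open scoped Pointwise

/-- The elements of order dividing 3 in the pointwise stabiliser of three points of a
dodecad. -/
def m9N (d : Finset GolayPt) (hd : d ∈ dodecads) (p q r : GolayPt) (hp : p ∈ d) (hq : q ∈ d)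
    (hr : r ∈ d) (hnd : [p, q, r].Nodup) : Subgroup (Equiv.Perm GolayPt) where
  carrier := {γ | (γ ∈ M24 ∧ γ • d = d ∧ γ p = p ∧ γ q = q ∧ γ r = r) ∧ γ ^ 3 = 1}
  mul_mem' := by
    rintro x y ⟨hx, hx3⟩ ⟨hy, hy3⟩
    exact ⟨(m9Grp d p q r).mul_mem hx hy, m9_cube_mul hd hp hq hr hnd hx hy hx3 hy3⟩
  one_mem' := ⟨(m9Grp d p q r).one_mem, one_pow 3⟩
  inv_mem' := by
    rintro x ⟨hx, hx3⟩
    exact ⟨(m9Grp d p q r).inv_mem hx, by rw [inv_pow, hx3, inv_one]⟩

theorem card_m9N (d : Finset GolayPt) (hd : d ∈ dodecads) (p q r : GolayPt) (hp : p ∈ d)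
    (hq : q ∈ d) (hr : r ∈ d) (hnd : [p, q, r].Nodup) :
    Nat.card (m9N d hd p q r hp hq hr hnd) = 9 := by
  have hle : m9N d hd p q r hp hq hr hnd ≤ m9Grp d p q r := fun γ hγ => hγ.1
  have h72 := card_m9Grp hd hp hq hr hnd
  have hdvd : Nat.card (m9N d hd p q r hp hq hr hnd) ∣ 72 := by
    rw [← h72]; exact Subgroup.card_dvd_of_le hle
  haveI : Fact (Nat.Prime 3) := ⟨by norm_num⟩
  have hpg : IsPGroup 3 (m9N d hd p q r hp hq hr hnd) := by
    intro g
    refine ⟨1, ?_⟩
    apply Subtype.ext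
    rw [pow_one]
    exact g.2.2
  obtain ⟨k, hk⟩ := IsPGroup.iff_card.mp hpg
  obtain ⟨K, hK⟩ := Sylow.exists_subgroup_card_pow_prime 3 (G := ↥(m9Grp d p q r)) (n := 2)
    (by rw [h72]; norm_num)
  have hKle : K.map (m9Grp d p q r).subtype ≤ m9N d hd p q r hp hq hr hnd := by
    rintro γ ⟨k, hk, rfl⟩
    refine ⟨k.2, ?_⟩
    apply m9_cube_of_nine hd hp hq hr hnd k.2
    have h9 : (⟨k, hk⟩ : ↥K) ^ 9 = 1 := by
      have := pow_card_eq_one' (G := ↥K) (x := ⟨k, hk⟩)
      rwa [hK] at this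
    have := congrArg (fun z : ↥K => ((z : ↥(m9Grp d p q r)) : Equiv.Perm GolayPt)) h9
    simpa using this
  have h9dvd : 9 ∣ Nat.card (m9N d hd p q r hp hq hr hnd) := by
    have := Subgroup.card_dvd_of_le hKle
    rwa [Subgroup.card_map_of_injective (Subgroup.subtype_injective _), hK] at this
  rw [hk] at hdvd h9dvd ⊢
  have hk2 : k ≤ 2 := by
    by_contra hcon
    have h27 : 3 ^ 3 ∣ 3 ^ k := pow_dvd_pow 3 (by omega)
    have := h27.trans hdvd
    norm_num at this
  have hk1 : 2 ≤ k := by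
    by_contra hcon
    have : k = 0 ∨ k = 1 := by omega
    rcases this with rfl | rfl <;> norm_num at h9dvd
  have : k = 2 := by omega
  rw [this]; norm_num

theorem m11_inv_core {d : Finset GolayPt} (hd : d ∈ dodecads) {p q r s : GolayPt} (hp : p ∈ d)
    (hq : q ∈ d) (hr : r ∈ d) (hs : s ∈ d) (hnd : [q, r, s, p].Nodup)
    (C : Subgroup (Equiv.Perm GolayPt))
    (hC : ∀ γ ∈ C, γ ∈ M24 ∧ γ • d = d ∧ γ p = p ∧
      ∀ y, (y = q ∨ y = r ∨ y = s) → (γ y = q ∨ γ y = r ∨ γ y = s))
    (hcard : 48 ≤ Nat.card C) : Nonempty (↥C ≃* GL (Fin 2) (ZMod 3)) := by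
  have hnd3 : [q, r, s].Nodup := by
    simp only [List.nodup_cons, List.mem_cons, List.not_mem_nil, or_false, not_or,
      List.nodup_nil, and_true, not_false_eq_true] at hnd ⊢
    tauto
  haveI : Fact (Nat.Prime 3) := ⟨by norm_num⟩
  have hN9 : Nat.card (m9N d hd q r s hq hr hs hnd3) = 9 := card_m9N d hd q r s hq hr hs hnd3
  apply Crit.sub_equiv_GL_of_normalizer (m9N d hd q r s hq hr hs hnd3) C ?_ 3 2
    (by rw [hN9]; norm_num) ?_ ?_ ?_ (by rw [Crit.card_GL23]; exact hcard)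
  · rw [Subgroup.le_normalizer_iff]
    intro c hc n hn
    obtain ⟨hcM, hcd, hcp, hcF⟩ := hC c hc
    obtain ⟨hcM', hcd', hcp', hcF'⟩ := hC c⁻¹ (C.inv_mem hc)
    obtain ⟨⟨hnM, hnd_, hnq, hnr, hns⟩, hn3⟩ := hn
    have fixF : ∀ y, (y = q ∨ y = r ∨ y = s) → n y = y := by
      rintro y (rfl | rfl | rfl) <;> assumption
    have key : ∀ y, (y = q ∨ y = r ∨ y = s) → (c * n * c⁻¹) y = y := by
      intro y hy
      show c (n (c⁻¹ y)) = y
      rw [fixF _ (hcF' y hy)]
      exact Equiv.apply_symm_apply c y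
    refine ⟨⟨M24.mul_mem (M24.mul_mem hcM hnM) hcM', ?_, key q (Or.inl rfl),
      key r (Or.inr (Or.inl rfl)), key s (Or.inr (Or.inr rfl))⟩, ?_⟩
    · rw [mul_smul, mul_smul, hcd', hnd_, hcd]
    · rw [conj_pow, hn3, mul_one, mul_inv_cancel]
  · intro x hx
    exact hx.2
  · intro x hx y hy
    have := IsPGroup.commutative_of_card_eq_prime_sq (p := 3)
      (G := ↥(m9N d hd q r s hq hr hs hnd3)) (by rw [hN9]; norm_num) ⟨x, hx⟩ ⟨y, hy⟩
    exact congrArg Subtype.val this
  · intro c hc hcen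
    obtain ⟨hcM, hcd, hcp, hcF⟩ := hC c hc
    have hmemS : ∀ n : ↥(m9N d hd q r s hq hr hs hnd3),
        n.1 p ∈ d.filter (fun y => c y = y) := by
      intro n
      rw [Finset.mem_filter]
      refine ⟨?_, ?_⟩
      · have h := n.2.1.2.1
        exact (apply_mem_iff_of_smul_eq h p).mpr hp
      · have h2 := congrArg (fun e : Equiv.Perm GolayPt => e p) (hcen n.1 n.2)
        have h3 : c (n.1 p) = n.1 (c p) := h2
        rw [h3, hcp]
    have hinj : Function.Injective (fun n : ↥(m9N d hd q r s hq hr hs hnd3) =>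
        (⟨n.1 p, hmemS n⟩ : {y // y ∈ d.filter (fun y => c y = y)})) := by
      intro n n' h
      have h1 : n.1 p = n'.1 p := congrArg Subtype.val h
      have hmem := (m9N d hd q r s hq hr hs hnd3).mul_mem
        ((m9N d hd q r s hq hr hs hnd3).inv_mem n.2) n'.2
      have h2 : (n.1⁻¹ * n'.1) p = p := by
        show n.1⁻¹ (n'.1 p) = p
        rw [← h1]
        exact Equiv.symm_apply_apply n.1 p
      have h3 := m8_cube hd hq hr hs hp hnd hmem.1.1 hmem.1.2.1
        ⟨hmem.1.2.2.1, hmem.1.2.2.2.1, hmem.1.2.2.2.2, h2⟩ hmem.2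
      apply Subtype.ext
      exact inv_mul_eq_one.mp h3
    have h9 : 9 ≤ (d.filter (fun y => c y = y)).card := by
      have := Nat.card_le_card_of_injective _ hinj
      rw [hN9, Nat.card_eq_fintype_card, Fintype.card_coe] at this
      exact this
    exact m12_eq_one_of_fix hd (d.filter (fun y => c y = y)) (by omega) (Finset.filter_subset _ _)
      c hcM hcd (fun y hy => (Finset.mem_filter.mp hy).2)

/-- S1603. -/
theorem m11_invol_centralizer (d : Finset GolayPt) (hd : d ∈ dodecads) (p : GolayPt) (hp : p ∈ d)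
    (x : ↥(MulAction.stabilizer M24 d ⊓ MulAction.stabilizer M24 p)) (hx : orderOf x = 2) :
    Nonempty (↥(Subgroup.centralizer
      ({x} : Set ↥(MulAction.stabilizer M24 d ⊓ MulAction.stabilizer M24 p))) ≃*
        GL (Fin 2) (ZMod 3)) := by
  have hξM : (x.1.1 : Equiv.Perm GolayPt) ∈ M24 := x.1.2
  have hξd : (x.1.1 : Equiv.Perm GolayPt) • d = d := x.2.1
  have hξp : (x.1.1 : Equiv.Perm GolayPt) p = p := x.2.2
  have hξ2 : (x.1.1 : Equiv.Perm GolayPt) * x.1.1 = 1 := by
    have h := pow_orderOf_eq_one x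
    rw [hx, pow_two] at h
    exact congrArg (fun z : ↥(MulAction.stabilizer M24 d ⊓ MulAction.stabilizer M24 p) =>
      (z.1.1 : Equiv.Perm GolayPt)) h
  have hξ1 : (x.1.1 : Equiv.Perm GolayPt) ≠ 1 := by
    intro h
    have : x = 1 := Subtype.ext (Subtype.ext h)
    rw [this, orderOf_one] at hx
    omega
  obtain ⟨ξ, hξeq⟩ : ∃ ξ : Equiv.Perm GolayPt, ξ = x.1.1 := ⟨_, rfl⟩
  rw [← hξeq] at hξM hξd hξp hξ2 hξ1
  -- the fixed points of the involution on the dodecad
  have h4 := m11_invol_fix hd hp hξM hξd hξp hξ2 hξ1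
  have h4' : (d.filter (fun y => ξ y = y)).card ≤ 4 := by
    by_contra hcon
    rw [not_le] at hcon
    exact hξ1 (m12_eq_one_of_fix hd _ (by omega) (Finset.filter_subset _ _) ξ hξM hξd
      (fun y hy => (Finset.mem_filter.mp hy).2))
  have hpF : p ∈ d.filter (fun y => ξ y = y) := Finset.mem_filter.mpr ⟨hp, hξp⟩
  have hF3 : ((d.filter (fun y => ξ y = y)).erase p).card = 3 := by
    rw [Finset.card_erase_of_mem hpF]; omega
  obtain ⟨q, r, s, hqr, hqs, hrs, hF⟩ := Finset.card_eq_three.mp hF3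
  have memF : ∀ y, (y = q ∨ y = r ∨ y = s) ↔ (y ≠ p ∧ y ∈ d ∧ ξ y = y) := by
    intro y
    have : y ∈ (d.filter (fun y => ξ y = y)).erase p ↔ y ∈ ({q, r, s} : Finset GolayPt) := by
      rw [hF]
    rw [Finset.mem_erase, Finset.mem_filter, Finset.mem_insert, Finset.mem_insert,
      Finset.mem_singleton] at this
    exact this.symm
  obtain ⟨hqp, hq, hξq⟩ := (memF q).mp (Or.inl rfl)
  obtain ⟨hrp, hr, hξr⟩ := (memF r).mp (Or.inr (Or.inl rfl))
  obtain ⟨hsp, hs, hξs⟩ := (memF s).mp (Or.inr (Or.inr rfl))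
  have hnd : [q, r, s, p].Nodup := by
    simp only [List.nodup_cons, List.mem_cons, List.not_mem_nil, or_false, not_or,
      List.nodup_nil, and_true, not_false_eq_true]
    exact ⟨⟨hqr, hqs, hqp⟩, ⟨hrs, hrp⟩, hsp⟩
  -- the image of the centraliser in the symmetric group
  have hι : Function.Injective (M24.subtype.comp (Subgroup.subtype
      (MulAction.stabilizer M24 d ⊓ MulAction.stabilizer M24 p))) :=
    fun a b h => Subtype.ext (Subtype.ext h)
  have e : ↥(Subgroup.centralizer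
      ({x} : Set ↥(MulAction.stabilizer M24 d ⊓ MulAction.stabilizer M24 p))) ≃*
      ↥((Subgroup.centralizer
        ({x} : Set ↥(MulAction.stabilizer M24 d ⊓ MulAction.stabilizer M24 p))).map
        (M24.subtype.comp (Subgroup.subtype
          (MulAction.stabilizer M24 d ⊓ MulAction.stabilizer M24 p)))) :=
    Subgroup.equivMapOfInjective _ _ hι
  have hCprop : ∀ γ ∈ (Subgroup.centralizer
        ({x} : Set ↥(MulAction.stabilizer M24 d ⊓ MulAction.stabilizer M24 p))).map
        (M24.subtype.comp (Subgroup.subtype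
          (MulAction.stabilizer M24 d ⊓ MulAction.stabilizer M24 p))),
      γ ∈ M24 ∧ γ • d = d ∧ γ p = p ∧
        ∀ y, (y = q ∨ y = r ∨ y = s) → (γ y = q ∨ γ y = r ∨ γ y = s) := by
    rintro γ ⟨g, hg, rfl⟩
    have hcomm : g * x = x * g := Subgroup.mem_centralizer_singleton_iff.mp hg
    have hcomm' : (g.1.1 : Equiv.Perm GolayPt) * ξ = ξ * g.1.1 := by
      rw [hξeq]
      exact congrArg (fun z : ↥(MulAction.stabilizer M24 d ⊓ MulAction.stabilizer M24 p) =>
        (z.1.1 : Equiv.Perm GolayPt)) hcomm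
    have hgd : (g.1.1 : Equiv.Perm GolayPt) • d = d := g.2.1
    have hgp : (g.1.1 : Equiv.Perm GolayPt) p = p := g.2.2
    refine ⟨g.1.2, hgd, hgp, ?_⟩
    intro y hy
    obtain ⟨hyp, hyd, hξy⟩ := (memF y).mp hy
    show (g.1.1 : Equiv.Perm GolayPt) y = q ∨ (g.1.1 : Equiv.Perm GolayPt) y = r ∨
      (g.1.1 : Equiv.Perm GolayPt) y = s
    rw [memF]
    refine ⟨?_, ?_, ?_⟩
    · intro h
      apply hyp
      apply (g.1.1 : Equiv.Perm GolayPt).injective
      rw [h, hgp]
    · exact (apply_mem_iff_of_smul_eq hgd y).mpr hyd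
    · have h3 : (g.1.1 : Equiv.Perm GolayPt) (ξ y) = ξ ((g.1.1 : Equiv.Perm GolayPt) y) :=
        congrArg (fun e : Equiv.Perm GolayPt => e y) hcomm'
      rw [← h3, hξy]
  have hle : MulAction.stabilizer ↥(MulAction.stabilizer M24 d ⊓ MulAction.stabilizer M24 p)
      ({q, r, s} : Finset GolayPt) ≤ Subgroup.centralizer {x} := by
    intro g hg
    rw [Subgroup.mem_centralizer_singleton_iff]
    have hgd : (g.1.1 : Equiv.Perm GolayPt) • d = d := g.2.1
    have hgp : (g.1.1 : Equiv.Perm GolayPt) p = p := g.2.2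
    have hgF : (g.1.1 : Equiv.Perm GolayPt) • ({q, r, s} : Finset GolayPt) = {q, r, s} := hg
    have hgM : (g.1.1 : Equiv.Perm GolayPt) ∈ M24 := g.1.2
    obtain ⟨γ, hγeq⟩ : ∃ γ : Equiv.Perm GolayPt, γ = g.1.1 := ⟨_, rfl⟩
    rw [← hγeq] at hgd hgp hgF hgM
    have hinvF : ∀ y, (y = q ∨ y = r ∨ y = s) → γ (ξ (γ⁻¹ y)) = y := by
      intro y hy
      have hy' : y ∈ γ • ({q, r, s} : Finset GolayPt) := by
        rw [hgF, Finset.mem_insert, Finset.mem_insert, Finset.mem_singleton]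
        exact hy
      have h1 : γ⁻¹ • y ∈ ({q, r, s} : Finset GolayPt) := Finset.inv_smul_mem_iff.mpr hy'
      have h2 : γ⁻¹ y ∈ ({q, r, s} : Finset GolayPt) := h1
      rw [Finset.mem_insert, Finset.mem_insert, Finset.mem_singleton] at h2
      rw [((memF _).mp h2).2.2]
      exact Equiv.apply_symm_apply γ y
    have hinvp : γ (ξ (γ⁻¹ p)) = p := by
      have : γ⁻¹ p = p := by rw [Equiv.Perm.inv_eq_iff_eq, hgp]
      rw [this, hξp, hgp]
    have hconj : γ * ξ * γ⁻¹ = ξ := by
      apply m8_invol_unique hd hq hr hs hp hnd (M24.mul_mem (M24.mul_mem hgM hξM)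
        (M24.inv_mem hgM)) ?_ ⟨hinvF q (Or.inl rfl), hinvF r (Or.inr (Or.inl rfl)),
          hinvF s (Or.inr (Or.inr rfl)), hinvp⟩ ?_ ?_ hξM hξd ⟨hξq, hξr, hξs, hξp⟩ hξ2 hξ1
      · rw [mul_smul, mul_smul, inv_smul_eq_iff.mpr hgd.symm, hξd, hgd]
      · have : γ * ξ * γ⁻¹ * (γ * ξ * γ⁻¹) = γ * (ξ * ξ) * γ⁻¹ := by group
        rw [this, hξ2]; group
      · intro h
        apply hξ1
        have : ξ = γ⁻¹ * (γ * ξ * γ⁻¹) * γ := by group
        rw [this, h]; group
    apply Subtype.ext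
    apply Subtype.ext
    show (g.1.1 : Equiv.Perm GolayPt) * x.1.1 = x.1.1 * g.1.1
    rw [← hγeq, ← hξeq]
    calc γ * ξ = γ * ξ * γ⁻¹ * γ := by group
      _ = ξ * γ := by rw [hconj]
  have hcard : 48 ≤ Nat.card ↥((Subgroup.centralizer
        ({x} : Set ↥(MulAction.stabilizer M24 d ⊓ MulAction.stabilizer M24 p))).map
        (M24.subtype.comp (Subgroup.subtype
          (MulAction.stabilizer M24 d ⊓ MulAction.stabilizer M24 p)))) := by
    rw [← Nat.card_congr e.toEquiv]
    have h1 := Subgroup.card_mul_index (MulAction.stabilizer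
      ↥(MulAction.stabilizer M24 d ⊓ MulAction.stabilizer M24 p) ({q, r, s} : Finset GolayPt))
    rw [MulAction.index_stabilizer, card_stabilizer_dodecad_point hd hp] at h1
    have horb : (MulAction.orbit ↥(MulAction.stabilizer M24 d ⊓ MulAction.stabilizer M24 p)
        ({q, r, s} : Finset GolayPt)).ncard ≤ 165 := by
      have hsub : MulAction.orbit ↥(MulAction.stabilizer M24 d ⊓ MulAction.stabilizer M24 p)
          ({q, r, s} : Finset GolayPt) ⊆
          ((Finset.powersetCard 3 (d.erase p) : Finset (Finset GolayPt)) :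
            Set (Finset GolayPt)) := by
        rintro t ⟨g, rfl⟩
        have hgd : (g.1.1 : Equiv.Perm GolayPt) • d = d := g.2.1
        have hgp : (g.1.1 : Equiv.Perm GolayPt) p = p := g.2.2
        rw [Finset.mem_coe, Finset.mem_powersetCard]
        refine ⟨?_, ?_⟩
        · intro y hy
          have hy' : y ∈ (g.1.1 : Equiv.Perm GolayPt) • ({q, r, s} : Finset GolayPt) := hy
          obtain ⟨z, hz, rfl⟩ := Finset.mem_smul_finset.mp hy'
          rw [Finset.mem_insert, Finset.mem_insert, Finset.mem_singleton] at hz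
          obtain ⟨hzp, hzd, -⟩ := (memF z).mp hz
          rw [Finset.mem_erase]
          refine ⟨?_, (apply_mem_iff_of_smul_eq hgd z).mpr hzd⟩
          intro h
          apply hzp
          apply (g.1.1 : Equiv.Perm GolayPt).injective
          rw [hgp]
          exact h
        · show ((g.1.1 : Equiv.Perm GolayPt) • ({q, r, s} : Finset GolayPt)).card = 3
          rw [Finset.card_smul_finset, ← hF, hF3]
      have := Set.ncard_le_ncard hsub (Finset.finite_toSet _)
      rw [Set.ncard_coe_finset, Finset.card_powersetCard, Finset.card_erase_of_mem hp, hd.2]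
        at this
      have h3 : Nat.choose (12 - 1) 3 = 165 := by decide
      rw [h3] at this
      exact this
    have hle' := Subgroup.card_le_of_le hle
    by_contra hcon
    rw [not_le] at hcon
    have h47 : Nat.card ↥(MulAction.stabilizer
      ↥(MulAction.stabilizer M24 d ⊓ MulAction.stabilizer M24 p)
        ({q, r, s} : Finset GolayPt)) ≤ 47 := by omega
    have := Nat.mul_le_mul h47 horb
    omega
  obtain ⟨e2⟩ := m11_inv_core hd hp hq hr hs hnd _ hCprop hcard
  exact ⟨e.trans e2⟩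

end Cfsg.Agent.Lib.helper28
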