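import Cfsg.Agent.Lib.helper28.GolayHexS6
import Cfsg.Agent.Lib.helper28.GolayM12

set_option autoImplicit false

namespace Cfsg.Agent.Lib.helper28

open Cfsg
open scoped Pointwise

/-! The stabiliser of a pair of points of the complementary dodecad in the smallest Mathieu group
is a symmetric group of degree 5. -/

theorem smul_pair_pts (g : Equiv.Perm GolayPt) (p q : GolayPt) :
    g • ({p, q} : Finset GolayPt) = {g p, g q} := by
  rw [Finset.smul_finset_insert, Finset.smul_finset_singleton]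
  rfl

/-- An octad meeting a dodecad in six points is determined by a point of the dodecad on it and
its two points off the dodecad. -/
theorem octad_unique_of_pair {d : Finset GolayPt} (hd : d ∈ dodecads) {o o' : Finset GolayPt}
    (ho : o ∈ octads) (ho' : o' ∈ octads) {p q q' : GolayPt} (hp : p ∈ d) (hq : q ∉ d)
    (hq' : q' ∉ d) (hqq : q ≠ q') (h6 : (o ∩ d).card = 6) (h6' : (o' ∩ d).card = 6)
    (h1 : p ∈ o ∧ q ∈ o ∧ q' ∈ o) (h2 : p ∈ o' ∧ q ∈ o' ∧ q' ∈ o') : o = o' := by
  have key : ∀ {a b : Finset GolayPt}, a ∈ octads → (a ∩ d).card = 6 → q ∈ a → q' ∈ a →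
      q ∈ b → q' ∈ b → ∀ x ∈ a \ b, x ∈ d := by
    intro a b ha ha6 hqa hqa' hqb hqb' x hx
    rw [Finset.mem_sdiff] at hx
    by_contra hxd
    have hc : (a \ d).card = 2 := by
      have := Finset.card_sdiff_add_card_inter a d
      rw [ha.2] at this
      omega
    have hsub : ({q, q'} : Finset GolayPt) ⊆ a \ d := by
      intro y hy
      rw [Finset.mem_insert, Finset.mem_singleton] at hy
      rw [Finset.mem_sdiff]
      rcases hy with rfl | rfl
      · exact ⟨hqa, hq⟩
      · exact ⟨hqa', hq'⟩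
    have heq := Finset.eq_of_subset_of_card_le hsub (by rw [hc, Finset.card_pair hqq])
    have hx' : x ∈ ({q, q'} : Finset GolayPt) := by
      rw [heq, Finset.mem_sdiff]; exact ⟨hx.1, hxd⟩
    rw [Finset.mem_insert, Finset.mem_singleton] at hx'
    rcases hx' with rfl | rfl
    · exact hx.2 hqb
    · exact hx.2 hqb'
  have hs := symmDiff_mem_supports ho.1 ho'.1
  have hsub : symmDiff o o' ⊆ d.erase p := by
    intro x hx
    have hx' : x ∈ (o \ o') ∪ (o' \ o) := hx
    rw [Finset.mem_union] at hx'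
    rw [Finset.mem_erase]
    rcases hx' with hx' | hx'
    · refine ⟨?_, key ho h6 h1.2.1 h1.2.2 h2.2.1 h2.2.2 x hx'⟩
      rintro rfl
      exact (Finset.mem_sdiff.mp hx').2 h2.1
    · refine ⟨?_, key ho' h6' h2.2.1 h2.2.2 h1.2.1 h1.2.2 x hx'⟩
      rintro rfl
      exact (Finset.mem_sdiff.mp hx').2 h1.1
  have hle : (symmDiff o o').card ≤ 11 := by
    have := Finset.card_le_card hsub
    rw [Finset.card_erase_of_mem hp, hd.2] at this
    omega
  have hsd : symmDiff o o' ⊆ d := fun x hx => Finset.mem_of_mem_erase (hsub hx)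
  have h3 := card_symmDiff_add (symmDiff o o') d
  rw [Finset.inter_eq_left.mpr hsd, hd.2] at h3
  have h4 := card_of_mem_supports (symmDiff_mem_supports hs hd.1)
  have h5 := card_of_mem_supports hs
  have h0 : (symmDiff o o').card = 0 := by omega
  rw [Finset.card_eq_zero] at h0
  exact symmDiff_eq_bot.mp h0

theorem m11_two_transitive {d : Finset GolayPt} (hd : d ∈ dodecads) {p : GolayPt} (hp : p ∈ d)
    {u u' q q' : GolayPt} (hu : u ∉ d) (hu' : u' ∉ d) (huu : u ≠ u') (hq : q ∉ d)
    (hq' : q' ∉ d) (hqq : q ≠ q') :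
    ∃ g ∈ M24, g • d = d ∧ g p = p ∧ g u = q ∧ g u' = q' := by
  have third : ∀ {a b : GolayPt}, ∃ z, z ∉ d ∧ z ≠ a ∧ z ≠ b := by
    intro a b
    have hc : (dᶜ \ {a, b}).card ≥ 10 := by
      have h1 := Finset.le_card_sdiff ({a, b} : Finset GolayPt) dᶜ
      have h2 : (dᶜ : Finset GolayPt).card = 12 := by
        rw [Finset.card_compl, hd.2]
        rfl
      have h3 := Finset.card_le_two (a := a) (b := b)
      omega
    obtain ⟨z, hz⟩ := Finset.card_pos.mp (by omega : 0 < (dᶜ \ {a, b}).card)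
    rw [Finset.mem_sdiff, Finset.mem_compl, Finset.mem_insert, Finset.mem_singleton] at hz
    exact ⟨z, hz.1, fun h => hz.2 (Or.inl h), fun h => hz.2 (Or.inr h)⟩
  obtain ⟨z, hz, hzu, hzu'⟩ := third (a := u) (b := u')
  obtain ⟨w, hw, hwq, hwq'⟩ := third (a := q) (b := q')
  have n1 : [u, u', z].Nodup := by
    simp [huu, Ne.symm hzu, Ne.symm hzu']
  have n2 : [q, q', w].Nodup := by
    simp [hqq, Ne.symm hwq, Ne.symm hwq']
  let x : Fin 3 ↪ GolayPt := ⟨fun i => [u, u', z].get i, List.nodup_iff_injective_get.mp n1⟩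
  let y : Fin 3 ↪ GolayPt := ⟨fun i => [q, q', w].get i, List.nodup_iff_injective_get.mp n2⟩
  have hx : ∀ i, x i ∉ d := by
    intro i
    fin_cases i
    · exact hu
    · exact hu'
    · exact hz
  have hy : ∀ i, y i ∉ d := by
    intro i
    fin_cases i
    · exact hq
    · exact hq'
    · exact hw
  obtain ⟨g, hg, hgd, hgp, hmap⟩ := m11_three_transitive hd hp x y hx hy
  exact ⟨g, hg, hgd, hgp, hmap 0, hmap 1⟩

theorem exists_M24_config {d : Finset GolayPt} (hd : d ∈ dodecads) {p q q' : GolayPt}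
    (hp : p ∈ d) (hq : q ∉ d) (hq' : q' ∉ d) (hqq : q ≠ q') :
    ∃ a ∈ M24, a • setOf d0 = d ∧ a (pt 0) = p ∧ a (pt 7) = q ∧ a (pt 10) = q' := by
  obtain ⟨a, ha, had, hap⟩ := exists_M24_flag hd hp
  have h7 : pt 7 ∉ setOf d0 := by
    rw [mem_setOf, idx_pt (by norm_num)]; decide
  have h10 : pt 10 ∉ setOf d0 := by
    rw [mem_setOf, idx_pt (by norm_num)]; decide
  have hu : a (pt 7) ∉ d := by
    rw [← had]
    intro h
    exact h7 ((Finset.smul_mem_smul_finset_iff a).mp h)
  have hu' : a (pt 10) ∉ d := by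
    rw [← had]
    intro h
    exact h10 ((Finset.smul_mem_smul_finset_iff a).mp h)
  have huu : a (pt 7) ≠ a (pt 10) := by
    intro h
    have h1 := congrArg idx (a.injective h)
    rw [idx_pt (by norm_num), idx_pt (by norm_num)] at h1
    omega
  obtain ⟨g, hg, hgd, hgp, hg7, hg10⟩ := m11_two_transitive hd hp hu hu' huu hq hq' hqq
  refine ⟨g * a, M24.mul_mem hg ha, ?_, ?_, ?_, ?_⟩
  · rw [mul_smul, had, hgd]
  · show g (a (pt 0)) = p
    rw [hap, hgp]
  · exact hg7
  · exact hg10

/-- The stabiliser of a pair of points off the dodecad in the stabiliser of a dodecad and a point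
on it has order 120. -/
theorem card_m11_pair {d : Finset GolayPt} (hd : d ∈ dodecads) {p q q' : GolayPt}
    (hp : p ∈ d) (hq : q ∉ d) (hq' : q' ∉ d) (hqq : q ≠ q') :
    Nat.card ↥(MulAction.stabilizer M24 d ⊓ MulAction.stabilizer M24 p ⊓
      MulAction.stabilizer M24 ({q, q'} : Finset GolayPt)) = 120 := by
  have horb : MulAction.orbit ↥(MulAction.stabilizer M24 d ⊓ MulAction.stabilizer M24 p)
      ({q, q'} : Finset GolayPt) = ((Finset.powersetCard 2 dᶜ : Finset (Finset GolayPt)) :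
        Set (Finset GolayPt)) := by
    ext t
    rw [Finset.mem_coe, Finset.mem_powersetCard]
    constructor
    · rintro ⟨g, rfl⟩
      have hgd : (g.1.1 : Equiv.Perm GolayPt) • d = d := g.2.1
      refine ⟨?_, ?_⟩
      · intro x hx
        have hx' : x ∈ (g.1.1 : Equiv.Perm GolayPt) • ({q, q'} : Finset GolayPt) := hx
        rw [smul_pair_pts, Finset.mem_insert, Finset.mem_singleton] at hx'
        rw [Finset.mem_compl]
        rcases hx' with rfl | rfl
        · exact fun h => hq ((apply_mem_iff_of_smul_eq hgd q).mp h)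
        · exact fun h => hq' ((apply_mem_iff_of_smul_eq hgd q').mp h)
      · show ((g.1.1 : Equiv.Perm GolayPt) • ({q, q'} : Finset GolayPt)).card = 2
        rw [Finset.card_smul_finset, Finset.card_pair hqq]
    · rintro ⟨hsub, hc⟩
      obtain ⟨r, r', hrr, rfl⟩ := Finset.card_eq_two.mp hc
      have hr : r ∉ d := Finset.mem_compl.mp (hsub (Finset.mem_insert_self _ _))
      have hr' : r' ∉ d :=
        Finset.mem_compl.mp (hsub (Finset.mem_insert_of_mem (Finset.mem_singleton_self _)))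
      obtain ⟨g, hg, hgd, hgp, hgq, hgq'⟩ := m11_two_transitive hd hp hq hq' hqq hr hr' hrr
      refine ⟨⟨⟨g, hg⟩, hgd, hgp⟩, ?_⟩
      show g • ({q, q'} : Finset GolayPt) = {r, r'}
      rw [smul_pair_pts, hgq, hgq']
  have h1 := Subgroup.card_mul_index (MulAction.stabilizer
    ↥(MulAction.stabilizer M24 d ⊓ MulAction.stabilizer M24 p) ({q, q'} : Finset GolayPt))
  rw [MulAction.index_stabilizer, horb, Set.ncard_coe_finset, Finset.card_powersetCard,
    card_stabilizer_dodecad_point hd hp] at h1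
  have h2 : (dᶜ : Finset GolayPt).card = 12 := by
    rw [Finset.card_compl, hd.2]
    rfl
  rw [h2] at h1
  have h3 : Nat.choose 12 2 = 66 := by decide
  rw [h3] at h1
  have e : Nat.card ↥(MulAction.stabilizer M24 d ⊓ MulAction.stabilizer M24 p ⊓
      MulAction.stabilizer M24 ({q, q'} : Finset GolayPt)) = Nat.card ↥(MulAction.stabilizer
    ↥(MulAction.stabilizer M24 d ⊓ MulAction.stabilizer M24 p) ({q, q'} : Finset GolayPt)) := by
    apply Nat.card_congr
    exact
      { toFun := fun x => ⟨⟨x.1, x.2.1⟩, x.2.2⟩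
        invFun := fun y => ⟨y.1.1, y.1.2, y.2⟩
        left_inv := fun x => rfl
        right_inv := fun y => rfl }
  rw [e]
  omega

theorem m11_pair_octad_fixed {d : Finset GolayPt} (hd : d ∈ dodecads) {o : Finset GolayPt}
    (ho : o ∈ octads) {p q q' : GolayPt} (hp : p ∈ d) (hq : q ∉ d) (hq' : q' ∉ d)
    (hqq : q ≠ q') (h6 : (o ∩ d).card = 6) (hpo : p ∈ o) (hqo : q ∈ o) (hqo' : q' ∈ o)
    (γ : Equiv.Perm GolayPt) (hγ : γ ∈ M24) (hgd : γ • d = d) (hgp : γ p = p)
    (hgs : γ • ({q, q'} : Finset GolayPt) = {q, q'}) : γ • o = o := by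
  have hsub : ({q, q'} : Finset GolayPt) ⊆ γ • o := by
    rw [← hgs]
    apply Finset.smul_finset_subset_smul_finset
    intro x hx
    rw [Finset.mem_insert, Finset.mem_singleton] at hx
    rcases hx with rfl | rfl
    · exact hqo
    · exact hqo'
  apply octad_unique_of_pair hd (smul_mem_octads hγ ho) ho hp hq hq' hqq ?_ h6
    ⟨mem_smul_of_fixed _ _ p hpo hgp, hsub (Finset.mem_insert_self _ _),
      hsub (Finset.mem_insert_of_mem (Finset.mem_singleton_self _))⟩ ⟨hpo, hqo, hqo'⟩
  conv_lhs => rw [← hgd]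
  rw [← Finset.smul_finset_inter, Finset.card_smul_finset, h6]

/-- S1602. -/
theorem m11_pair_stab_sym5 (d : Finset GolayPt) (hd : d ∈ dodecads) (p q q' : GolayPt)
    (hp : p ∈ d) (hq : q ∉ d) (hq' : q' ∉ d) (hqq : q ≠ q') :
    Nonempty (↥(MulAction.stabilizer M24 d ⊓ MulAction.stabilizer M24 p ⊓
      MulAction.stabilizer M24 ({q, q'} : Finset GolayPt)) ≃* Equiv.Perm (Fin 5)) := by
  obtain ⟨a, ha, had, hap, haq, haq'⟩ := exists_M24_config hd hp hq hq' hqq
  have ho : a • setOf o0 ∈ octads := smul_mem_octads ha setOf_o0_mem_octads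
  have hmem : ∀ i, i < 24 → Nat.testBit o0 i = true → a (pt i) ∈ a • setOf o0 := by
    intro i hi hb
    apply Finset.smul_mem_smul_finset (a := a)
    rw [mem_setOf, idx_pt hi]
    exact hb
  have hpo : p ∈ a • setOf o0 := by rw [← hap]; exact hmem 0 (by norm_num) (by decide)
  have hqo : q ∈ a • setOf o0 := by rw [← haq]; exact hmem 7 (by norm_num) (by decide)
  have hqo' : q' ∈ a • setOf o0 := by rw [← haq']; exact hmem 10 (by norm_num) (by decide)
  have h6 : (a • setOf o0 ∩ d).card = 6 := by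
    rw [← had, ← Finset.smul_finset_inter, Finset.card_smul_finset, ← setOf_and,
      card_setOf (lt_of_le_of_lt Nat.and_le_left o0_lt)]
    decide
  have hstab : ∀ g : ↥(MulAction.stabilizer M24 d ⊓ MulAction.stabilizer M24 p ⊓
      MulAction.stabilizer M24 ({q, q'} : Finset GolayPt)),
      (g.1.1 : Equiv.Perm GolayPt) • d = d ∧ (g.1.1 : Equiv.Perm GolayPt) p = p ∧
      (g.1.1 : Equiv.Perm GolayPt) • (a • setOf o0) = a • setOf o0 := by
    intro g
    exact ⟨g.2.1.1, g.2.1.2, m11_pair_octad_fixed hd ho hp hq hq' hqq h6 hpo hqo hqo' g.1.1 g.1.2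
      g.2.1.1 g.2.1.2 g.2.2⟩
  have hF5 : ((a • setOf o0 ∩ d) \ {p}).card = 5 := by
    rw [Finset.card_sdiff_of_subset (Finset.singleton_subset_iff.mpr
      (Finset.mem_inter.mpr ⟨hpo, hp⟩)), h6, Finset.card_singleton]
  have hFd : (a • setOf o0 ∩ d) \ {p} ⊆ d :=
    fun x hx => (Finset.mem_inter.mp (Finset.mem_sdiff.mp hx).1).2
  have hinv : ∀ g : ↥(MulAction.stabilizer M24 d ⊓ MulAction.stabilizer M24 p ⊓
      MulAction.stabilizer M24 ({q, q'} : Finset GolayPt)),
      (M24.subtype.comp (Subgroup.subtype _)) g • ((a • setOf o0 ∩ d) \ {p}) =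
        (a • setOf o0 ∩ d) \ {p} := by
    intro g
    obtain ⟨hgd, hgp, hgo⟩ := hstab g
    show (g.1.1 : Equiv.Perm GolayPt) • ((a • setOf o0 ∩ d) \ {p}) = _
    rw [Finset.smul_finset_sdiff, Finset.smul_finset_inter, hgo, hgd, Finset.smul_finset_singleton]
    congr 2
  have hinj := restrictHom_injective (M24.subtype.comp (Subgroup.subtype _))
    ((a • setOf o0 ∩ d) \ {p}) hinv (fun g hg => by
      apply Subtype.ext
      apply Subtype.ext
      exact m12_eq_one_of_fix hd _ (by rw [hF5]) hFd g.1.1 g.1.2 (hstab g).1 hg)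
  have hbij : Function.Bijective (restrictHom (M24.subtype.comp (Subgroup.subtype _))
      ((a • setOf o0 ∩ d) \ {p}) hinv) := by
    apply Function.Injective.bijective_of_nat_card_le hinj
    rw [card_m11_pair hd hp hq hq' hqq, Nat.card_eq_fintype_card, Fintype.card_perm,
      Fintype.card_coe, hF5]
    decide
  have e : ↥((a • setOf o0 ∩ d) \ {p}) ≃ Fin 5 :=
    Fintype.equivFinOfCardEq (by rw [Fintype.card_coe, hF5])
  exact ⟨(MulEquiv.ofBijective _ hbij).trans e.permCongrHom⟩

end Cfsg.Agent.Lib.helper28
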