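import Cfsg.Agent.Lib.helper28.GolaySix
import Cfsg.Prelude.Def_Spor_Mathieu

set_option autoImplicit false

namespace Cfsg.Agent.Lib.helper28

open Cfsg
open scoped Pointwise

/-! The two classes of `M11` inside `M12`. -/

/-- The stabiliser in `M24` of a set and a point, as a subgroup of the permutation group. -/
def stabSP (d : Finset GolayPt) (p : GolayPt) : Subgroup (Equiv.Perm GolayPt) :=
  M24 ⊓ MulAction.stabilizer (Equiv.Perm GolayPt) d ⊓ MulAction.stabilizer (Equiv.Perm GolayPt) p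

theorem mem_stabSP {d : Finset GolayPt} {p : GolayPt} {x : Equiv.Perm GolayPt} :
    x ∈ stabSP d p ↔ x ∈ M24 ∧ x • d = d ∧ x p = p := by
  unfold stabSP
  rw [Subgroup.mem_inf, Subgroup.mem_inf]
  exact ⟨fun ⟨⟨h1, h2⟩, h3⟩ => ⟨h1, h2, h3⟩, fun ⟨h1, h2, h3⟩ => ⟨⟨h1, h2⟩, h3⟩⟩

theorem conj_smul_stabSP {g : Equiv.Perm GolayPt} (hg : g ∈ M24) (d : Finset GolayPt)
    (p : GolayPt) : MulAut.conj g • stabSP d p = stabSP (g • d) (g p) := by
  ext x
  rw [Subgroup.mem_pointwise_smul_iff_inv_smul_mem, mem_stabSP, mem_stabSP]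
  have hx : (MulAut.conj g)⁻¹ • x = g⁻¹ * x * g := by
    rw [← map_inv, MulAut.smul_def, MulAut.conj_apply, inv_inv]
  rw [hx]
  constructor
  · rintro ⟨h1, h2, h3⟩
    refine ⟨?_, ?_, ?_⟩
    · have : x = g * (g⁻¹ * x * g) * g⁻¹ := by group
      rw [this]
      exact M24.mul_mem (M24.mul_mem hg h1) (M24.inv_mem hg)
    · rw [mul_smul, mul_smul, inv_smul_eq_iff] at h2
      exact h2
    · exact (conj_apply_eq_iff g x p).mp h3
  · rintro ⟨h1, h2, h3⟩
    refine ⟨M24.mul_mem (M24.mul_mem (M24.inv_mem hg) h1) hg, ?_, ?_⟩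
    · rw [mul_smul, mul_smul, h2, inv_smul_smul]
    · exact (conj_apply_eq_iff g x p).mpr h3

theorem SporM11_eq : Spor.M11 = stabSP (setOf d0) (some 0) := by
  unfold Spor.M11 Spor.M12 stabSP
  rw [squareDodecad_eq]

theorem SporM11'_eq : Spor.M12 ⊓ MulAction.stabilizer (Equiv.Perm GolayPt) (none : GolayPt) =
    stabSP (setOf d0) none := by
  unfold Spor.M12 stabSP
  rw [squareDodecad_eq]

theorem none_not_mem_d0 : (none : GolayPt) ∉ setOf d0 := by
  rw [mem_setOf]
  decide

theorem zero_mem_d0 : (some 0 : GolayPt) ∈ setOf d0 := by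
  rw [mem_setOf]
  decide

theorem stabSP_compl (d : Finset GolayPt) (p : GolayPt) : stabSP dᶜ p = stabSP d p := by
  ext x
  rw [mem_stabSP, mem_stabSP, smul_compl_finset, compl_inj_iff]

/-- S5620. -/
theorem m11_two_classes :
    Nonempty (↥(Spor.M12 ⊓ MulAction.stabilizer (Equiv.Perm GolayPt) (none : GolayPt)) ≃*
      ↥Spor.M11) ∧
    (¬ ∃ k ∈ Spor.M12, MulAut.conj k • Spor.M11 =
      Spor.M12 ⊓ MulAction.stabilizer (Equiv.Perm GolayPt) (none : GolayPt)) ∧
    ∃ g ∈ M24, g • Spor.squareDodecad = Finset.univ \ Spor.squareDodecad ∧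
      MulAut.conj g • Spor.M11 =
        Spor.M12 ⊓ MulAction.stabilizer (Equiv.Perm GolayPt) (none : GolayPt) := by
  have part3 : ∃ g ∈ M24, g • Spor.squareDodecad = Finset.univ \ Spor.squareDodecad ∧
      MulAut.conj g • Spor.M11 =
        Spor.M12 ⊓ MulAction.stabilizer (Equiv.Perm GolayPt) (none : GolayPt) := by
    obtain ⟨g, hg, hgd, hgp⟩ := exists_M24_flag (compl_mem_dodecads setOf_d0_mem_dodecads)
      (p := none) (Finset.mem_compl.mpr none_not_mem_d0)
    refine ⟨g, hg, ?_, ?_⟩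
    · rw [squareDodecad_eq, hgd, Finset.compl_eq_univ_sdiff]
    · have h0 : pt 0 = (some 0 : GolayPt) := by decide
      rw [SporM11_eq, SporM11'_eq, conj_smul_stabSP hg, hgd, ← h0, hgp, stabSP_compl]
  refine ⟨?_, ?_, part3⟩
  · obtain ⟨g, -, -, hconj⟩ := part3
    rw [← hconj]
    exact ⟨(Subgroup.equivSMul (MulAut.conj g) Spor.M11).symm⟩
  · rintro ⟨k, hk, hconj⟩
    have hk' : k ∈ M24 ∧ k • setOf d0 = setOf d0 := by
      unfold Spor.M12 at hk
      rw [squareDodecad_eq] at hk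
      exact hk
    rw [SporM11_eq, SporM11'_eq, conj_smul_stabSP hk'.1, hk'.2] at hconj
    have hp : k (some 0) ∈ setOf d0 := by
      rw [← hk'.2]
      exact Finset.smul_mem_smul_finset (a := k) zero_mem_d0
    -- an element of the stabiliser of `k 0` moving the extra point
    have hq1 : (some 5 : GolayPt) ∉ setOf d0 := by
      rw [mem_setOf]
      decide
    obtain ⟨x, hx, hxd, hxp, hmap⟩ := m11_three_transitive setOf_d0_mem_dodecads hp
      (⟨![none, some 5, some 7], by decide⟩ : Fin 3 ↪ GolayPt)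
      (⟨![some 5, none, some 7], by decide⟩ : Fin 3 ↪ GolayPt)
      (by
        intro i
        rw [mem_setOf]
        revert i
        decide)
      (by
        intro i
        rw [mem_setOf]
        revert i
        decide)
    have h0 := hmap 0
    have hmem : x ∈ stabSP (setOf d0) (k (some 0)) := mem_stabSP.mpr ⟨hx, hxd, hxp⟩
    rw [hconj, mem_stabSP] at hmem
    have h1 : x none = some 5 := h0
    rw [hmem.2.2] at h1
    exact absurd h1 (by decide)

end Cfsg.Agent.Lib.helper28
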