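import Cfsg.Agent.Lib.helper28.GolayHexS6
import Cfsg.Prelude.Def_Spor_Mathieu

set_option autoImplicit false

namespace Cfsg.Agent.Lib.helper28

open Cfsg
open scoped Pointwise

/-! The two-point Mathieu group has index 2 in the stabiliser of the pair, and an element
interchanging the two points induces an outer automorphism. -/

theorem mem_SporM22 {x : Equiv.Perm GolayPt} :
    x ∈ Spor.M22 ↔ x ∈ M24 ∧ x none = none ∧ x (some 0) = some 0 := by
  unfold Spor.M22 Spor.M23
  rw [Subgroup.mem_inf, Subgroup.mem_inf]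
  exact ⟨fun ⟨⟨h1, h2⟩, h3⟩ => ⟨h1, h2, h3⟩, fun ⟨h1, h2, h3⟩ => ⟨⟨h1, h2⟩, h3⟩⟩

def swapTab : List ℕ :=
  [23, 1, 2, 3, 4, 5, 6, 7, 8, 9, 10, 11, 12, 13, 14, 15, 16, 17, 18, 19, 20, 21, 22, 0]

theorem swap_inf_zero_not_mem : Equiv.swap (none : GolayPt) (some 0) ∉ M24 := by
  intro h
  have hl : IsTable (Equiv.swap (none : GolayPt) (some 0)) swapTab := by
    intro p
    revert p
    decide
  have := tabOK_of_mem_M24 h hl
  exact absurd this (by decide +kernel)

theorem exists_fifth (S : Finset GolayPt) (hS : S.card ≤ 4) : ∃ e, e ∉ S := by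
  by_contra hall
  push Not at hall
  have h1 : S = Finset.univ := Finset.eq_univ_of_forall hall
  have h2 := congrArg Finset.card h1
  rw [Finset.card_univ] at h2
  have h3 : Fintype.card GolayPt = 24 := by decide
  omega

/-- An element of `M22` fixing `a` and moving `b`. -/
theorem exists_M22_fix_move {a b : GolayPt} (ha1 : a ≠ none) (ha2 : a ≠ some 0)
    (hb1 : b ≠ none) (hb2 : b ≠ some 0) (hab : a ≠ b) :
    ∃ x ∈ Spor.M22, x a = a ∧ x b ≠ b := by
  obtain ⟨e, he⟩ := exists_fifth {none, some 0, a, b} (Finset.card_le_four)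
  simp only [Finset.mem_insert, Finset.mem_singleton, not_or] at he
  obtain ⟨he1, he2, he3, he4⟩ := he
  obtain ⟨x, hx, hmap⟩ := exists_mem_M24_map_list [none, some 0, a, b, e] [none, some 0, a, e, b]
    (by
      simp only [List.nodup_cons, List.mem_cons, List.not_mem_nil, or_false, not_or,
        List.nodup_nil, and_true, not_false_eq_true]
      refine ⟨⟨by decide, Ne.symm ha1, Ne.symm hb1, Ne.symm he1⟩, ⟨Ne.symm ha2, Ne.symm hb2,
        Ne.symm he2⟩, ⟨hab, Ne.symm he3⟩, Ne.symm he4⟩)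
    (by
      simp only [List.nodup_cons, List.mem_cons, List.not_mem_nil, or_false, not_or,
        List.nodup_nil, and_true, not_false_eq_true]
      refine ⟨⟨by decide, Ne.symm ha1, Ne.symm he1, Ne.symm hb1⟩, ⟨Ne.symm ha2, Ne.symm he2,
        Ne.symm hb2⟩, ⟨Ne.symm he3, hab⟩, he4⟩)
    rfl (by norm_num)
  simp only [List.map_cons, List.map_nil, List.cons.injEq, and_true] at hmap
  obtain ⟨h1, h2, h3, h4, h5⟩ := hmap
  refine ⟨x, mem_SporM22.mpr ⟨hx, h1, h2⟩, h3, ?_⟩
  rw [h4]
  exact he4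

/-- S5599. -/
theorem m22_outer (g : Equiv.Perm GolayPt) (hg : g ∈ M24) (h₁ : g none = some 0)
    (h₂ : g (some 0) = none) :
    Spor.M22.relIndex (M24 ⊓ MulAction.stabilizer (Equiv.Perm GolayPt)
      ({none, some 0} : Finset GolayPt)) = 2 ∧
    (∀ x ∈ Spor.M22, g * x * g⁻¹ ∈ Spor.M22) ∧
    ¬ ∃ h ∈ Spor.M22, ∀ x ∈ Spor.M22, g * x * g⁻¹ = h * x * h⁻¹ := by
  have hne : (none : GolayPt) ≠ some 0 := by decide
  have hgi1 : g⁻¹ none = some 0 := by rw [Equiv.Perm.inv_eq_iff_eq, h₂]
  have hgi2 : g⁻¹ (some 0) = none := by rw [Equiv.Perm.inv_eq_iff_eq, h₁]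
  have hsm : ∀ b : Equiv.Perm GolayPt, b • ({none, some 0} : Finset GolayPt) =
      {b none, b (some 0)} := by
    intro b
    rw [Finset.smul_finset_insert, Finset.smul_finset_singleton]
    rfl
  have hgK : g ∈ M24 ⊓ MulAction.stabilizer (Equiv.Perm GolayPt)
      ({none, some 0} : Finset GolayPt) := by
    refine ⟨hg, ?_⟩
    show g • ({none, some 0} : Finset GolayPt) = {none, some 0}
    rw [hsm, h₁, h₂, Finset.pair_comm]
  refine ⟨?_, ?_, ?_⟩
  · unfold Subgroup.relIndex
    rw [Subgroup.index_eq_two_iff]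
    refine ⟨⟨g, hgK⟩, ?_⟩
    rintro ⟨b, hb, hbS⟩
    have hbS' : ({b none, b (some 0)} : Finset GolayPt) = {none, some 0} := by
      rw [← hsm]; exact hbS
    have hb1 : b none = none ∨ b none = some 0 := by
      have : b none ∈ ({none, some 0} : Finset GolayPt) := by rw [← hbS']; simp
      simpa using this
    have hb2 : b (some 0) = none ∨ b (some 0) = some 0 := by
      have : b (some 0) ∈ ({none, some 0} : Finset GolayPt) := by rw [← hbS']; simp
      simpa using this
    rw [Subgroup.mem_subgroupOf, Subgroup.mem_subgroupOf]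
    show Xor (b * g ∈ Spor.M22) (b ∈ Spor.M22)
    rw [mem_SporM22, mem_SporM22]
    have hbg1 : (b * g) none = b (some 0) := by rw [Equiv.Perm.mul_apply, h₁]
    have hbg2 : (b * g) (some 0) = b none := by rw [Equiv.Perm.mul_apply, h₂]
    rw [hbg1, hbg2]
    have hinj : b none ≠ b (some 0) := fun h => hne (b.injective h)
    rcases hb1 with hb1 | hb1
    · rcases hb2 with hb2 | hb2
      · exact absurd (hb1.trans hb2.symm) hinj
      · right
        refine ⟨⟨hb, hb1, hb2⟩, ?_⟩
        rintro ⟨-, h, -⟩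
        rw [hb2] at h
        exact hne h.symm
    · rcases hb2 with hb2 | hb2
      · left
        refine ⟨⟨M24.mul_mem hb hg, hb2, hb1⟩, ?_⟩
        rintro ⟨-, h, -⟩
        rw [hb1] at h
        exact hne h.symm
      · exact absurd (hb1.trans hb2.symm) hinj
  · intro x hx
    rw [mem_SporM22] at hx ⊢
    refine ⟨M24.mul_mem (M24.mul_mem hg hx.1) (M24.inv_mem hg), ?_, ?_⟩
    · show g (x (g⁻¹ none)) = none
      rw [hgi1, hx.2.2, h₂]
    · show g (x (g⁻¹ (some 0))) = some 0
      rw [hgi2, hx.2.1, h₁]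
  · rintro ⟨h, hh, hconj⟩
    rw [mem_SporM22] at hh
    -- c = h⁻¹ * g centralises M22
    have hc : ∀ x ∈ Spor.M22, (h⁻¹ * g) * x = x * (h⁻¹ * g) := by
      intro x hx
      have := hconj x hx
      have h3 : h⁻¹ * g * x = h⁻¹ * (g * x * g⁻¹) * g := by group
      rw [h3, this]
      group
    have hhi1 : h⁻¹ none = none := by rw [Equiv.Perm.inv_eq_iff_eq, hh.2.1]
    have hhi2 : h⁻¹ (some 0) = some 0 := by rw [Equiv.Perm.inv_eq_iff_eq, hh.2.2]
    have hc1 : (h⁻¹ * g) none = some 0 := by rw [Equiv.Perm.mul_apply, h₁, hhi2]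
    have hc2 : (h⁻¹ * g) (some 0) = none := by rw [Equiv.Perm.mul_apply, h₂, hhi1]
    have hfix : ∀ a : GolayPt, a ≠ none → a ≠ some 0 → (h⁻¹ * g) a = a := by
      intro a ha1 ha2
      by_contra hne'
      have hb1 : (h⁻¹ * g) a ≠ none := by
        intro hb
        rw [← hc2] at hb
        exact ha2 ((h⁻¹ * g).injective hb)
      have hb2 : (h⁻¹ * g) a ≠ some 0 := by
        intro hb
        rw [← hc1] at hb
        exact ha1 ((h⁻¹ * g).injective hb)
      obtain ⟨x, hx, hxa, hxb⟩ := exists_M22_fix_move ha1 ha2 hb1 hb2 (Ne.symm hne')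
      have := congrArg (fun e : Equiv.Perm GolayPt => e a) (hc x hx)
      simp only [Equiv.Perm.mul_apply] at this
      rw [hxa] at this
      apply hxb
      simp only [Equiv.Perm.mul_apply]
      exact this.symm
    have hswap : h⁻¹ * g = Equiv.swap (none : GolayPt) (some 0) := by
      apply Equiv.ext
      intro a
      by_cases ha1 : a = none
      · rw [ha1, hc1, Equiv.swap_apply_left]
      · by_cases ha2 : a = some 0
        · rw [ha2, hc2, Equiv.swap_apply_right]
        · rw [hfix a ha1 ha2, Equiv.swap_apply_of_ne_of_ne ha1 ha2]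
    apply swap_inf_zero_not_mem
    rw [← hswap]
    exact M24.mul_mem (M24.inv_mem hh.1) hg

end Cfsg.Agent.Lib.helper28
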