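import Mathlib
import Cfsg.Agent.S0016

set_option autoImplicit false

namespace Cfsg.Agent.Lib.helper28

/-! A recognition criterion for the Sylow structure of a group of order 72 of shape `3^2:Q_8`. -/

section

variable {Γ : Type*} [Group Γ] [Finite Γ]

omit [Finite Γ] in
theorem pow_card_subgroup (H : Subgroup Γ) {x : Γ} (hx : x ∈ H) : x ^ Nat.card H = 1 := by
  have := pow_card_eq_one' (G := H) (x := ⟨x, hx⟩)
  exact congrArg Subtype.val this

theorem sylow3_of_order72 (hcard : Nat.card Γ = 72)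
    (A1 : ∀ x : Γ, x ^ 9 = 1 → x ^ 3 = 1)
    (A3 : ∀ x y : Γ, x ^ 3 = 1 → y ^ 3 = 1 → (x * y) ^ 3 = 1) (Q : Sylow 3 Γ) :
    (Q : Subgroup Γ).Normal ∧ Nat.card ↥Q = 9 ∧ ∀ x ∈ (Q : Subgroup Γ), x ^ 3 = 1 := by
  have : Fact (Nat.Prime 3) := ⟨by norm_num⟩
  have hQ9 : Nat.card ↥Q = 9 := by
    have h1 : 3 ^ 2 ∣ Nat.card ↥Q :=
      Q.pow_dvd_card_of_pow_dvd_card (by rw [hcard]; norm_num)
    obtain ⟨n, hn'⟩ := IsPGroup.iff_card.mp Q.isPGroup'
    have hn : Nat.card ↥Q = 3 ^ n := hn'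
    have h2 : Nat.card ↥Q ∣ 72 := by
      rw [← hcard]; exact Subgroup.card_subgroup_dvd_card _
    rw [hn] at h1 h2 ⊢
    have hn4 : n < 4 := by
      by_contra hge
      push Not at hge
      have : 3 ^ 4 ∣ 3 ^ n := pow_dvd_pow 3 hge
      have := Nat.le_of_dvd (by norm_num) (this.trans h2)
      omega
    interval_cases n <;> omega
  have hexp : ∀ x ∈ (Q : Subgroup Γ), x ^ 3 = 1 := by
    intro x hx
    apply A1
    have := pow_card_subgroup (Q : Subgroup Γ) hx
    have hQ9' : Nat.card ↥(Q : Subgroup Γ) = 9 := hQ9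
    rw [hQ9'] at this
    exact this
  let N : Subgroup Γ :=
    { carrier := {x | x ^ 3 = 1}
      mul_mem' := fun {a b} ha hb => A3 a b ha hb
      one_mem' := one_pow 3
      inv_mem' := fun {a} ha => by
        show a⁻¹ ^ 3 = 1
        rw [inv_pow, ha, inv_one] }
  have hN : IsPGroup 3 N := by
    rintro ⟨x, hx⟩
    refine ⟨1, ?_⟩
    apply Subtype.ext
    rw [pow_one]
    exact hx
  have hQN : (Q : Subgroup Γ) ≤ N := fun x hx => hexp x hx
  have hNQ : N = (Q : Subgroup Γ) := Q.is_maximal' hN hQN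
  refine ⟨?_, hQ9, hexp⟩
  rw [← hNQ]
  constructor
  intro n hn g
  show (g * n * g⁻¹) ^ 3 = 1
  rw [conj_pow]
  have hn' : n ^ 3 = 1 := hn
  rw [hn', mul_one, mul_inv_cancel]

theorem sylow2_of_order72 (hcard : Nat.card Γ = 72)
    (A2 : ∀ x : Γ, x ^ 8 = 1 → x ^ 4 = 1)
    (A4 : ∀ x y : Γ, x ≠ 1 → y ≠ 1 → x ^ 2 = 1 → y ^ 2 = 1 → (x * y) ^ 3 = 1) (P : Sylow 2 Γ) :
    Nonempty (↥P ≃* QuaternionGroup 2) := by
  have : Fact (Nat.Prime 2) := ⟨by norm_num⟩
  have hP8 : Nat.card ↥P = 8 := by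
    have h1 : 2 ^ 3 ∣ Nat.card ↥P :=
      P.pow_dvd_card_of_pow_dvd_card (by rw [hcard]; norm_num)
    obtain ⟨n, hn'⟩ := IsPGroup.iff_card.mp P.isPGroup'
    have hn : Nat.card ↥P = 2 ^ n := hn'
    have h2 : Nat.card ↥P ∣ 72 := by
      rw [← hcard]; exact Subgroup.card_subgroup_dvd_card _
    rw [hn] at h1 h2 ⊢
    have hn4 : n < 7 := by
      by_contra hge
      push Not at hge
      have : 2 ^ 7 ∣ 2 ^ n := pow_dvd_pow 2 hge
      have := Nat.le_of_dvd (by norm_num) (this.trans h2)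
      omega
    interval_cases n <;> omega
  have hpow8 : ∀ w : ↥P, w ^ 8 = 1 := by
    intro w
    rw [← hP8]
    exact pow_card_eq_one'
  have hodd : ∀ w : ↥P, w ^ 3 = 1 → w = 1 := by
    intro w hw
    have h9 : w ^ 9 = 1 := by
      have : w ^ 9 = (w ^ 3) ^ 3 := by rw [← pow_mul]
      rw [this, hw, one_pow]
    have h8 := hpow8 w
    rw [pow_succ, h8, one_mul] at h9
    exact h9
  have hle : ∀ H K : Subgroup ↥P, Nat.card H = 2 → Nat.card K = 2 → H ≤ K := by
    intro H K hH hK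
    intro z hz
    by_cases hz1 : z = 1
    · rw [hz1]; exact K.one_mem
    · have hz2 : z ^ 2 = 1 := by
        have := pow_card_subgroup H hz
        rwa [hH] at this
      have hKne : K ≠ ⊥ := by
        intro hbot
        rw [hbot, Subgroup.card_bot] at hK
        omega
      obtain ⟨y, hy1⟩ := (Subgroup.ne_bot_iff_exists_ne_one.mp hKne)
      have hy2 : y.1 ^ 2 = 1 := by
        have := pow_card_subgroup K y.2
        rwa [hK] at this
      have hy1' : y.1 ≠ 1 := fun h => hy1 (Subtype.ext h)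
      have h3 : (z * y.1) ^ 3 = 1 := by
        have := A4 z.1 y.1.1 (fun h => hz1 (Subtype.ext h)) (fun h => hy1' (Subtype.ext h))
          (by
            have := congrArg Subtype.val hz2
            exact this)
          (by
            have := congrArg Subtype.val hy2
            exact this)
        apply Subtype.ext
        exact this
      have h4 := hodd _ h3
      have h5 : z = y.1⁻¹ := eq_inv_of_mul_eq_one_left h4
      rw [h5]
      exact K.inv_mem y.2
  have huniq : ∀ H K : Subgroup ↥P, Nat.card H = 2 → Nat.card K = 2 → H = K :=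
    fun H K hH hK => le_antisymm (hle H K hH hK) (hle K H hK hH)
  rcases Cfsg.Agent.S0016.result (G := ↥P) 2 P.isPGroup' huniq with hcyc | ⟨-, n, ⟨e⟩⟩
  · exfalso
    obtain ⟨w, hw⟩ := hcyc.exists_generator
    have ho : orderOf w = 8 := by
      rw [orderOf_eq_card_of_forall_mem_zpowers hw, hP8]
    have h8 : (w : Γ) ^ 8 = 1 := by
      have := congrArg Subtype.val (hpow8 w)
      exact this
    have h4 := A2 _ h8
    have h4' : w ^ 4 = 1 := Subtype.ext h4
    have := orderOf_dvd_of_pow_eq_one h4'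
    rw [ho] at this
    omega
  · have hc := Nat.card_congr e.toEquiv
    have hn0 : NeZero (2 ^ n) := ⟨by positivity⟩
    rw [hP8, Nat.card_eq_fintype_card, QuaternionGroup.card] at hc
    have h2 : 2 ^ n = 2 := by omega
    rw [h2] at e
    exact ⟨e⟩

end

end Cfsg.Agent.Lib.helper28
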