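import Cfsg.Agent.Lib.helper28.GolayM11Two
import Cfsg.Agent.Lib.helper28.M9Crit

set_option autoImplicit false

namespace Cfsg.Agent.Lib.helper28

open Cfsg
open scoped Pointwise

/-! The stabiliser of a dodecad and three of its points: Sylow subgroups. -/

/-- The table is the identity table. -/
def isOneT (l : List ℕ) : Bool := fixesTab l (2 ^ 24 - 1)

/-- The table moves some index. -/
def notOneT (l : List ℕ) : Bool := !(allLt (fun i => l.getD i 0 == i) 24)

theorem exists_of_allLt_false {p : ℕ → Bool} {n : ℕ} (h : allLt p n = false) :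
    ∃ k, k < n ∧ p k = false := by
  induction n with
  | zero => simp [allLt] at h
  | succ n ih =>
    rw [allLt, Bool.and_eq_false_iff] at h
    rcases h with h | h
    · exact ⟨n, Nat.lt_succ_self n, h⟩
    · obtain ⟨k, hk, hpk⟩ := ih h
      exact ⟨k, Nat.lt_succ_of_lt hk, hpk⟩

theorem eq_one_of_isOneT {g : Equiv.Perm GolayPt} {l : List ℕ} (h : IsTable g l)
    (hq : isOneT l = true) : g = 1 := by
  apply Equiv.ext
  intro p
  refine fixes_of_table h hq p ?_
  rw [mem_setOf, Nat.testBit_two_pow_sub_one]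
  simpa using idx_lt p

theorem ne_one_of_notOneT {g : Equiv.Perm GolayPt} {l : List ℕ} (h : IsTable g l)
    (hq : notOneT l = true) : g ≠ 1 := by
  unfold notOneT at hq
  rw [Bool.not_eq_true'] at hq
  obtain ⟨i, hi, hne⟩ := exists_of_allLt_false hq
  exact ne_one_of_table h hi (by simpa using hne)

theorem m9Chain_ok : chainOK m12Inv3 (m12Chain.drop 3) = true := by decide +kernel

theorem m9_final_bot : stabM (chainInv m12Inv3 (m12Chain.drop 3)) = ⊥ := by
  have : chainInv m12Inv3 (m12Chain.drop 3) = chainInv [d0] m12Chain := by decide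
  rw [this]
  exact m12_final_bot

theorem m9_enum (Q : List ℕ → Bool) (h : chainAll Q (m12Chain.drop 3) idTab = true)
    (g : Equiv.Perm GolayPt) (hg : g ∈ stabM m12Inv3) : ∃ l, IsTable g l ∧ Q l = true := by
  obtain ⟨l, hl, hQ⟩ := chainAll_sound Q _ m12Inv3 idTab 1 isTable_one m9Chain_ok m9_final_bot
    h g hg
  rw [one_mul] at hl
  exact ⟨l, hl, hQ⟩

theorem m9_c1 : chainAll (fun l => isOneT (powTab l 3) || notOneT (powTab l 9))
    (m12Chain.drop 3) idTab = true := by decide +kernel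

theorem m9_c2 : chainAll (fun l => isOneT (powTab l 4) || notOneT (powTab l 8))
    (m12Chain.drop 3) idTab = true := by decide +kernel

theorem m9_c3 : chainAll (fun l1 => notOneT (powTab l1 3) ||
    chainAll (fun l2 => notOneT (powTab l2 3) || isOneT (powTab (mulTab l1 l2) 3))
      (m12Chain.drop 3) idTab) (m12Chain.drop 3) idTab = true := by decide +kernel

theorem m9_c4 : chainAll (fun l1 => isOneT l1 || notOneT (powTab l1 2) ||
    chainAll (fun l2 => isOneT l2 || notOneT (powTab l2 2) ||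
      isOneT (powTab (mulTab l1 l2) 3)) (m12Chain.drop 3) idTab)
    (m12Chain.drop 3) idTab = true := by decide +kernel

theorem m9_A1 (x : Equiv.Perm GolayPt) (hx : x ∈ stabM m12Inv3) (h9 : x ^ 9 = 1) :
    x ^ 3 = 1 := by
  obtain ⟨l, hl, hQ⟩ := m9_enum _ m9_c1 x hx
  rw [Bool.or_eq_true] at hQ
  rcases hQ with h | h
  · exact eq_one_of_isOneT (isTable_powTab hl 3) h
  · exact absurd h9 (ne_one_of_notOneT (isTable_powTab hl 9) h)

theorem m9_A2 (x : Equiv.Perm GolayPt) (hx : x ∈ stabM m12Inv3) (h8 : x ^ 8 = 1) :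
    x ^ 4 = 1 := by
  obtain ⟨l, hl, hQ⟩ := m9_enum _ m9_c2 x hx
  rw [Bool.or_eq_true] at hQ
  rcases hQ with h | h
  · exact eq_one_of_isOneT (isTable_powTab hl 4) h
  · exact absurd h8 (ne_one_of_notOneT (isTable_powTab hl 8) h)

theorem m9_A3 (x : Equiv.Perm GolayPt) (hx : x ∈ stabM m12Inv3) (y : Equiv.Perm GolayPt)
    (hy : y ∈ stabM m12Inv3) (h3x : x ^ 3 = 1) (h3y : y ^ 3 = 1) : (x * y) ^ 3 = 1 := by
  obtain ⟨l1, hl1, hQ1⟩ := m9_enum _ m9_c3 x hx
  rw [Bool.or_eq_true] at hQ1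
  rcases hQ1 with h | h
  · exact absurd h3x (ne_one_of_notOneT (isTable_powTab hl1 3) h)
  · obtain ⟨l2, hl2, hQ2⟩ := m9_enum _ h y hy
    rw [Bool.or_eq_true] at hQ2
    rcases hQ2 with h' | h'
    · exact absurd h3y (ne_one_of_notOneT (isTable_powTab hl2 3) h')
    · exact eq_one_of_isOneT (isTable_powTab (isTable_mulTab hl1 hl2) 3) h'

theorem m9_A4 (x : Equiv.Perm GolayPt) (hx : x ∈ stabM m12Inv3) (y : Equiv.Perm GolayPt)
    (hy : y ∈ stabM m12Inv3) (hx1 : x ≠ 1) (hy1 : y ≠ 1) (h2x : x ^ 2 = 1) (h2y : y ^ 2 = 1) :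
    (x * y) ^ 3 = 1 := by
  obtain ⟨l1, hl1, hQ1⟩ := m9_enum _ m9_c4 x hx
  rw [Bool.or_eq_true, Bool.or_eq_true] at hQ1
  rcases hQ1 with (h | h) | h
  · exact absurd (eq_one_of_isOneT hl1 h) hx1
  · exact absurd h2x (ne_one_of_notOneT (isTable_powTab hl1 2) h)
  · obtain ⟨l2, hl2, hQ2⟩ := m9_enum _ h y hy
    rw [Bool.or_eq_true, Bool.or_eq_true] at hQ2
    rcases hQ2 with (h' | h') | h'
    · exact absurd (eq_one_of_isOneT hl2 h') hy1
    · exact absurd h2y (ne_one_of_notOneT (isTable_powTab hl2 2) h')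
    · exact eq_one_of_isOneT (isTable_powTab (isTable_mulTab hl1 hl2) 3) h'

/-- S5619. -/
theorem m9_sylow (d : Finset GolayPt) (hd : d ∈ dodecads) (p q r : GolayPt) (hp : p ∈ d)
    (hq : q ∈ d) (hr : r ∈ d) (hpq : p ≠ q) (hpr : p ≠ r) (hqr : q ≠ r) :
    (∀ Q : Sylow 3 ↥(MulAction.stabilizer M24 d ⊓ MulAction.stabilizer M24 p ⊓
        MulAction.stabilizer M24 q ⊓ MulAction.stabilizer M24 r),
      (Q : Subgroup ↥(MulAction.stabilizer M24 d ⊓ MulAction.stabilizer M24 p ⊓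
        MulAction.stabilizer M24 q ⊓ MulAction.stabilizer M24 r)).Normal ∧ Nat.card ↥Q = 9 ∧
      ∀ x ∈ (Q : Subgroup ↥(MulAction.stabilizer M24 d ⊓ MulAction.stabilizer M24 p ⊓
        MulAction.stabilizer M24 q ⊓ MulAction.stabilizer M24 r)), x ^ 3 = 1) ∧
    ∀ P : Sylow 2 ↥(MulAction.stabilizer M24 d ⊓ MulAction.stabilizer M24 p ⊓
        MulAction.stabilizer M24 q ⊓ MulAction.stabilizer M24 r),
      Nonempty (↥P ≃* QuaternionGroup 2) := by
  have hcard := (m12_three_point_stabilizer hd hp hq hr hpq hpr hqr).1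
  obtain ⟨a, ha, had, hfr⟩ := exists_dodecad_frame hd [p, q, r] (by simp)
    (by simp [hpq, hpr, hqr]) (by simp [hp, hq, hr])
  have hapq : a (pt 0) = p ∧ a (pt 1) = q ∧ a (pt 2) = r := by
    have h : [a (pt 0), a (pt 1), a (pt 2)] = [p, q, r] := hfr
    simpa using h
  have hmem : ∀ g : ↥M24, g ∈ (MulAction.stabilizer M24 d ⊓ MulAction.stabilizer M24 p ⊓
      MulAction.stabilizer M24 q ⊓ MulAction.stabilizer M24 r) →
      a⁻¹ * (g : Equiv.Perm GolayPt) * a ∈ stabM m12Inv3 := by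
    intro g
    rw [Subgroup.mem_inf, Subgroup.mem_inf, Subgroup.mem_inf, MulAction.mem_stabilizer_iff,
      MulAction.mem_stabilizer_iff, MulAction.mem_stabilizer_iff, MulAction.mem_stabilizer_iff,
      mem_stabM_m12Inv3, conj_smul_eq_iff, conj_apply_eq_iff, conj_apply_eq_iff, conj_apply_eq_iff,
      had, hapq.1, hapq.2.1, hapq.2.2]
    rintro ⟨⟨⟨h1, h2⟩, h3⟩, h4⟩
    exact ⟨⟨M24.mul_mem (M24.mul_mem (M24.inv_mem ha) g.2) ha, h1⟩, h2, h3, h4⟩
  let ψ : ↥(MulAction.stabilizer M24 d ⊓ MulAction.stabilizer M24 p ⊓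
      MulAction.stabilizer M24 q ⊓ MulAction.stabilizer M24 r) →* Equiv.Perm GolayPt :=
    ((MulAut.conj a⁻¹ : MulAut (Equiv.Perm GolayPt)).toMonoidHom).comp
      (M24.subtype.comp (Subgroup.subtype _))
  have hψ : ∀ x, ψ x ∈ stabM m12Inv3 := by
    intro x
    have h1 := hmem x.1 x.2
    have h2 : ψ x = a⁻¹ * ((x : ↥M24) : Equiv.Perm GolayPt) * a := by
      show a⁻¹ * ((x : ↥M24) : Equiv.Perm GolayPt) * a⁻¹⁻¹ = _
      rw [inv_inv]
    rw [h2]
    exact h1
  have hinj : Function.Injective ψ := by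
    intro x y hxy
    have h1 : (MulAut.conj a⁻¹ : MulAut (Equiv.Perm GolayPt))
        ((x : ↥M24) : Equiv.Perm GolayPt) =
        (MulAut.conj a⁻¹ : MulAut (Equiv.Perm GolayPt)) ((y : ↥M24) : Equiv.Perm GolayPt) := hxy
    exact Subtype.ext (Subtype.ext ((MulAut.conj a⁻¹).injective h1))
  have A1 : ∀ x : ↥(MulAction.stabilizer M24 d ⊓ MulAction.stabilizer M24 p ⊓
      MulAction.stabilizer M24 q ⊓ MulAction.stabilizer M24 r), x ^ 9 = 1 → x ^ 3 = 1 := by
    intro x h
    apply hinj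
    rw [map_pow, map_one]
    apply m9_A1 _ (hψ x)
    rw [← map_pow, h, map_one]
  have A2 : ∀ x : ↥(MulAction.stabilizer M24 d ⊓ MulAction.stabilizer M24 p ⊓
      MulAction.stabilizer M24 q ⊓ MulAction.stabilizer M24 r), x ^ 8 = 1 → x ^ 4 = 1 := by
    intro x h
    apply hinj
    rw [map_pow, map_one]
    apply m9_A2 _ (hψ x)
    rw [← map_pow, h, map_one]
  have A3 : ∀ x y : ↥(MulAction.stabilizer M24 d ⊓ MulAction.stabilizer M24 p ⊓
      MulAction.stabilizer M24 q ⊓ MulAction.stabilizer M24 r),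
      x ^ 3 = 1 → y ^ 3 = 1 → (x * y) ^ 3 = 1 := by
    intro x y hx hy
    apply hinj
    rw [map_pow, map_mul, map_one]
    apply m9_A3 _ (hψ x) _ (hψ y)
    · rw [← map_pow, hx, map_one]
    · rw [← map_pow, hy, map_one]
  have A4 : ∀ x y : ↥(MulAction.stabilizer M24 d ⊓ MulAction.stabilizer M24 p ⊓
      MulAction.stabilizer M24 q ⊓ MulAction.stabilizer M24 r),
      x ≠ 1 → y ≠ 1 → x ^ 2 = 1 → y ^ 2 = 1 → (x * y) ^ 3 = 1 := by
    intro x y hx1 hy1 hx hy
    apply hinj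
    rw [map_pow, map_mul, map_one]
    apply m9_A4 _ (hψ x) _ (hψ y)
    · intro h
      apply hx1
      apply hinj
      rw [h, map_one]
    · intro h
      apply hy1
      apply hinj
      rw [h, map_one]
    · rw [← map_pow, hx, map_one]
    · rw [← map_pow, hy, map_one]
  exact ⟨fun Q => sylow3_of_order72 hcard A1 A3 Q, fun P => sylow2_of_order72 hcard A2 A4 P⟩

end Cfsg.Agent.Lib.helper28
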