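import Cfsg.Agent.Lib.helper28.GolayMax

set_option autoImplicit false

namespace Cfsg.Agent.Lib.helper28

open Cfsg
open scoped Pointwise

/-! Maximality of the stabiliser of three points. -/

open Classical in
/-- The colour of a triad `x` relative to the triad `T`. -/
noncomputable def triCol (T x : Finset GolayPt) : Fin 5 :=
  if (T ∩ x).card = 0 then (if (∃ o ∈ octads, T ∪ x ⊆ o) then 1 else 0)
  else ⟨min (T ∩ x).card 3 + 1, by omega⟩

theorem triCol_zero {T x : Finset GolayPt} :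
    triCol T x = 0 ↔ (Disjoint T x ∧ ¬ ∃ o ∈ octads, T ∪ x ⊆ o) := by
  unfold triCol
  rw [Finset.disjoint_iff_inter_eq_empty, ← Finset.card_eq_zero]
  by_cases h : (T ∩ x).card = 0
  · rw [if_pos h]
    by_cases h2 : ∃ o ∈ octads, T ∪ x ⊆ o
    · rw [if_pos h2]; simp [h, h2]
    · rw [if_neg h2]; simp [h, h2]
  · rw [if_neg h]
    simp [h, Fin.ext_iff]

theorem triCol_one {T x : Finset GolayPt} :
    triCol T x = 1 ↔ (Disjoint T x ∧ ∃ o ∈ octads, T ∪ x ⊆ o) := by
  unfold triCol
  rw [Finset.disjoint_iff_inter_eq_empty, ← Finset.card_eq_zero]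
  by_cases h : (T ∩ x).card = 0
  · rw [if_pos h]
    by_cases h2 : ∃ o ∈ octads, T ∪ x ⊆ o
    · rw [if_pos h2]; simp [h, h2]
    · rw [if_neg h2]; simp [h, h2]
  · rw [if_neg h]
    simp only [h, false_and, iff_false, Fin.ext_iff]
    simp only [Fin.val_one]
    omega

theorem triCol_succ {T x : Finset GolayPt} (hT : T.card = 3) (c : ℕ) (hc : 1 ≤ c) (hc3 : c ≤ 3) :
    triCol T x = ⟨c + 1, by omega⟩ ↔ (T ∩ x).card = c := by
  have hle : (T ∩ x).card ≤ 3 := by
    have := Finset.card_le_card (Finset.inter_subset_left (s₁ := T) (s₂ := x))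
    omega
  unfold triCol
  by_cases h : (T ∩ x).card = 0
  · rw [if_pos h]
    by_cases h2 : ∃ o ∈ octads, T ∪ x ⊆ o
    · rw [if_pos h2]
      simp only [Fin.ext_iff, Fin.val_one]
      omega
    · rw [if_neg h2]
      simp only [Fin.ext_iff, Fin.val_zero]
      omega
  · rw [if_neg h]
    simp only [Fin.ext_iff]
    omega

/-- S1564. -/
theorem triad_stabilizer_maximal (s : Finset GolayPt) (hs : s.card = 3) :
    IsCoatom (MulAction.stabilizer M24 s) := by
  obtain ⟨a, ha, rfl⟩ := exists_smul_setOf7 hs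
  have horb : ∀ x : Finset GolayPt, x ∈ MulAction.orbit M24 (a • setOf 7) ↔ x.card = 3 := by
    intro x
    constructor
    · rintro ⟨g, rfl⟩
      show (g • (a • setOf 7)).card = 3
      rw [smul_def_M24, card_smul_finset]
      exact hs
    · intro hx
      obtain ⟨b, hb, rfl⟩ := exists_smul_setOf7 hx
      refine ⟨⟨b * a⁻¹, M24.mul_mem hb (M24.inv_mem ha)⟩, ?_⟩
      show (b * a⁻¹) • (a • setOf 7) = b • setOf 7
      rw [mul_smul, inv_smul_smul]
  have hle : ∀ x : Finset GolayPt, ((a • setOf 7) ∩ x).card ≤ 3 := by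
    intro x
    have := Finset.card_le_card (Finset.inter_subset_left (s₁ := a • setOf 7) (s₂ := x))
    omega
  have hx0 : ((a • setOf 7) ∩ (a • setOf 7)).card = 3 := by
    rw [Finset.inter_self]; exact hs
  have hcol0 : triCol (a • setOf 7) (a • setOf 7) = 4 :=
    (triCol_succ hs 3 (by norm_num) (by norm_num)).mpr hx0
  obtain ⟨hn1, hn0, htr⟩ := triad_stabilizer_orbits (a • setOf 7) hs
  have hcases : ∀ x : Finset GolayPt,
      (Disjoint (a • setOf 7) x ∧ ¬ ∃ o ∈ octads, (a • setOf 7) ∪ x ⊆ o) ∨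
      (Disjoint (a • setOf 7) x ∧ ∃ o ∈ octads, (a • setOf 7) ∪ x ⊆ o) ∨
      ((a • setOf 7) ∩ x).card = 1 ∨ ((a • setOf 7) ∩ x).card = 2 ∨
      ((a • setOf 7) ∩ x).card = 3 := by
    intro x
    by_cases h : ((a • setOf 7) ∩ x).card = 0
    · have hd : Disjoint (a • setOf 7) x := by
        rw [Finset.disjoint_iff_inter_eq_empty, ← Finset.card_eq_zero]; exact h
      by_cases h2 : ∃ o ∈ octads, (a • setOf 7) ∪ x ⊆ o
      · exact Or.inr (Or.inl ⟨hd, h2⟩)
      · exact Or.inl ⟨hd, h2⟩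
    · have := hle x
      omega
  apply isCoatom_stabilizer_of_suborbits' (G := M24) (a • setOf 7)
    (triCol (a • setOf 7)) ![1120, 210, 630, 63, 1]
  · refine ⟨0, ?_, by decide⟩
    rw [hcol0]; decide
  · intro x hx hcol
    rw [hcol0] at hcol
    have h1 : ((a • setOf 7) ∩ x).card = 3 :=
      (triCol_succ hs 3 (by norm_num) (by norm_num)).mp hcol
    have h2 : (a • setOf 7) ∩ x = a • setOf 7 :=
      Finset.eq_of_subset_of_card_le Finset.inter_subset_left (by rw [h1, hs])
    have h3 : (a • setOf 7) ∩ x = x :=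
      Finset.eq_of_subset_of_card_le Finset.inter_subset_right (by rw [h1, (horb x).mp hx])
    rw [← h3, h2]
  · intro x hx y hy hcol
    have hxc := (horb x).mp hx
    have hyc := (horb y).mp hy
    have hx0' : a • (a⁻¹ • x) = x := smul_inv_smul a x
    have hy0' : a • (a⁻¹ • y) = y := smul_inv_smul a y
    have fin : ∀ g ∈ M24, (∀ m ∈ [7], g • (a • setOf m) = a • setOf m) → g • x = y →
        ∃ h : M24, h • (a • setOf 7) = a • setOf 7 ∧ h • x = y :=
      fun g hg hinv hgx => ⟨⟨g, hg⟩, hinv 7 (by simp), hgx⟩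
    have cap : ∀ c : ℕ, 1 ≤ c → c ≤ 3 → ((a • setOf 7) ∩ y).card = c →
        (capQ 7 c (maskS (a⁻¹ • x)) = true ∧ capQ 7 c (maskS (a⁻¹ • y)) = true) := by
      intro c hc hc3 hyc'
      have hycol : triCol (a • setOf 7) y = ⟨c + 1, by omega⟩ :=
        (triCol_succ hs c hc hc3).mpr hyc'
      rw [← hcol] at hycol
      have hxc' := (triCol_succ hs c hc hc3).mp hycol
      constructor
      · rw [← capQ_iff a (by norm_num), hx0']; exact hxc'
      · rw [← capQ_iff a (by norm_num), hy0']; exact hyc'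
    rcases hcases y with hy0 | hy1 | hy2 | hy3 | hy4
    · have hcy := triCol_zero.mpr hy0
      rw [← hcol] at hcy
      have hx0 := triCol_zero.mp hcy
      obtain ⟨g, hg, hgT, hgx⟩ := htr x y hxc hyc hx0.1 hy0.1
        ⟨fun h => absurd h hx0.2, fun h => absurd h hy0.2⟩
      exact ⟨⟨g, hg⟩, hgT, hgx⟩
    · have hcy := triCol_one.mpr hy1
      rw [← hcol] at hcy
      have hx1 := triCol_one.mp hcy
      obtain ⟨g, hg, hgT, hgx⟩ := htr x y hxc hyc hx1.1 hy1.1
        ⟨fun _ => hy1.2, fun _ => hx1.2⟩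
      exact ⟨⟨g, hg⟩, hgT, hgx⟩
    · obtain ⟨hQx, hQy⟩ := cap 1 (by norm_num) (by norm_num) hy2
      obtain ⟨g, hg, hinv, hgx⟩ := orbit_sub triGens_ok 3 (capQ 7 1) _ _ (by norm_num)
        tri_orbit_c1 ha hxc hyc hQx hQy
      exact fin g hg hinv hgx
    · obtain ⟨hQx, hQy⟩ := cap 2 (by norm_num) (by norm_num) hy3
      obtain ⟨g, hg, hinv, hgx⟩ := orbit_sub triGens_ok 3 (capQ 7 2) _ _ (by norm_num)
        tri_orbit_c2 ha hxc hyc hQx hQy
      exact fin g hg hinv hgx
    · obtain ⟨hQx, hQy⟩ := cap 3 (by norm_num) (by norm_num) hy4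
      obtain ⟨g, hg, hinv, hgx⟩ := orbit_sub triGens_ok 3 (capQ 7 3) _ _ (by norm_num)
        tri_orbit_c3 ha hxc hyc hQx hQy
      exact fin g hg hinv hgx
  · intro j
    have hcapset : ∀ (c : ℕ) (_ : 1 ≤ c) (hc3 : c ≤ 3),
        {x : Finset GolayPt | x ∈ MulAction.orbit M24 (a • setOf 7) ∧
          triCol (a • setOf 7) x = ⟨c + 1, by omega⟩}.ncard = subCount (capQ 7 c) 24 3 0 := by
      intro c hc hc3
      have hset : {x : Finset GolayPt | x ∈ MulAction.orbit M24 (a • setOf 7) ∧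
          triCol (a • setOf 7) x = ⟨c + 1, by omega⟩} =
          {x : Finset GolayPt | x.card = 3 ∧ ((a • setOf 7) ∩ x).card = c} := by
        ext x
        simp only [Set.mem_ofPred_eq]
        rw [horb, triCol_succ hs c hc hc3]
      rw [hset]
      exact ncard_sub a 3 (fun x => ((a • setOf 7) ∩ x).card = c) (capQ 7 c)
        (fun x _ => capQ_iff a (by norm_num) c x)
    fin_cases j
    · have hset : {x : Finset GolayPt | x ∈ MulAction.orbit M24 (a • setOf 7) ∧
          triCol (a • setOf 7) x = (0 : Fin 5)} =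
          {U : Finset GolayPt | U.card = 3 ∧ Disjoint (a • setOf 7) U ∧
            ¬ (∃ o ∈ octads, (a • setOf 7) ∪ U ⊆ o)} := by
        ext x
        simp only [Set.mem_ofPred_eq]
        rw [horb, triCol_zero]
      show {x : Finset GolayPt | x ∈ MulAction.orbit M24 (a • setOf 7) ∧
          triCol (a • setOf 7) x = (0 : Fin 5)}.ncard = 1120
      rw [hset]; exact hn0
    · have hset : {x : Finset GolayPt | x ∈ MulAction.orbit M24 (a • setOf 7) ∧
          triCol (a • setOf 7) x = (1 : Fin 5)} =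
          {U : Finset GolayPt | U.card = 3 ∧ Disjoint (a • setOf 7) U ∧
            (∃ o ∈ octads, (a • setOf 7) ∪ U ⊆ o)} := by
        ext x
        simp only [Set.mem_ofPred_eq]
        rw [horb, triCol_one]
      show {x : Finset GolayPt | x ∈ MulAction.orbit M24 (a • setOf 7) ∧
          triCol (a • setOf 7) x = (1 : Fin 5)}.ncard = 210
      rw [hset]; exact hn1
    · exact (hcapset 1 (by norm_num) (by norm_num)).trans tri_count_c1
    · exact (hcapset 2 (by norm_num) (by norm_num)).trans tri_count_c2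
    · exact (hcapset 3 (by norm_num) (by norm_num)).trans tri_count_c3
  · rw [hcol0]
    decide

end Cfsg.Agent.Lib.helper28
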