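import Cfsg.Agent.Lib.helper28.GolayMax2

set_option autoImplicit false

namespace Cfsg.Agent.Lib.helper28

open Cfsg
open scoped Pointwise

/-! Maximality of the stabiliser of an octad. -/

/-- The colour of an octad `x` relative to the octad `o`. -/
def octCol (o x : Finset GolayPt) : Fin 4 :=
  if (o ∩ x).card = 0 then 0 else if (o ∩ x).card = 2 then 1 else if (o ∩ x).card = 4 then 2
  else 3

theorem octCol_iff {o x : Finset GolayPt} (ho : o ∈ octads) (hx : x ∈ octads) (j : Fin 4) :
    octCol o x = j ↔ (o ∩ x).card = ![0, 2, 4, 8] j := by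
  unfold octCol
  rcases octad_inter_cases ho hx with h | h | h | h <;> rw [h] <;> fin_cases j <;> simp

/-- S1565. -/
theorem octad_stabilizer_maximal (o : Finset GolayPt) (ho : o ∈ octads) :
    IsCoatom (MulAction.stabilizer M24 o) := by
  obtain ⟨a, ha, hao⟩ := exists_smul_o0_eq ho
  have horb : ∀ x : Finset GolayPt, x ∈ MulAction.orbit M24 o ↔ x ∈ octads := by
    intro x
    constructor
    · rintro ⟨g, rfl⟩
      exact smul_mem_octads g.2 ho
    · intro hx
      obtain ⟨g, hg, h⟩ := exists_smul_octad_eq ho hx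
      exact ⟨⟨g, hg⟩, h⟩
  have hx0 : (o ∩ o).card = 8 := by
    rw [Finset.inter_self]; exact ho.2
  have hcol0 : octCol o o = 3 := (octCol_iff ho ho 3).mpr hx0
  have key : ∀ (k : ℕ) (o' : Finset GolayPt), (o' ∈ octads ∧ (o ∩ o').card = k) ↔
      (o' ∈ supports (golayCode : Set (GolayPt → ZMod 2)) ∧
        HasProf (profSets a [(16777215, 8), (o0, k)]) o') := by
    intro k o'
    rw [profSets_cons, profSets_cons, profSets_nil, hasProf_cons, hasProf_cons,
      card_inter_full, hao, Finset.inter_comm o' o]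
    exact ⟨fun ⟨⟨h1, h2⟩, h3⟩ => ⟨h1, h2, h3, hasProf_nil _⟩,
      fun ⟨h1, h2, h3, _⟩ => ⟨⟨h1, h2⟩, h3⟩⟩
  have hlt : ∀ k : ℕ, ∀ c ∈ [(16777215, 8), (o0, k)], c.1 < 2 ^ 24 := by
    intro k c hc
    simp only [List.mem_cons, List.not_mem_nil, or_false] at hc
    rcases hc with rfl | rfl
    · decide
    · exact o0_lt
  apply isCoatom_stabilizer_of_suborbits' (G := M24) o (octCol o) ![30, 448, 280, 1]
  · refine ⟨0, ?_, by decide⟩
    rw [hcol0]; decide
  · intro x hx hcol
    rw [hcol0] at hcol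
    have hxo := (horb x).mp hx
    have h1 : (o ∩ x).card = 8 := (octCol_iff ho hxo 3).mp hcol
    have h2 : o ∩ x = o :=
      Finset.eq_of_subset_of_card_le Finset.inter_subset_left (by rw [h1, ho.2])
    have h3 : o ∩ x = x :=
      Finset.eq_of_subset_of_card_le Finset.inter_subset_right (by rw [h1, hxo.2])
    rw [← h3, h2]
  · intro x hx y hy hcol
    have hxo := (horb x).mp hx
    have hyo := (horb y).mp hy
    have h1 := (octCol_iff ho hxo _).mp hcol
    have h2 := (octCol_iff ho hyo _).mp rfl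
    obtain ⟨g, hg, hgo, hgx⟩ := octad_stabilizer_orbits ho hxo hyo (h1.trans h2.symm)
    exact ⟨⟨g, hg⟩, hgo, hgx⟩
  · intro j
    have hset : {x : Finset GolayPt | x ∈ MulAction.orbit M24 o ∧ octCol o x = j} =
        {s : Finset GolayPt | s ∈ supports (golayCode : Set (GolayPt → ZMod 2)) ∧
          HasProf (profSets a [(16777215, 8), (o0, ![0, 2, 4, 8] j)]) s} := by
      ext x
      simp only [Set.mem_ofPred_eq]
      rw [← key, horb]
      constructor
      · rintro ⟨h1, h2⟩
        exact ⟨h1, (octCol_iff ho h1 j).mp h2⟩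
      · rintro ⟨h1, h2⟩
        exact ⟨h1, (octCol_iff ho h1 j).mpr h2⟩
    rw [hset, ncard_prof ha _ (hlt _)]
    fin_cases j
    · exact oct_count_k0
    · exact oct_count_k2
    · exact oct_count_k4
    · exact oct_count_k8
  · rw [hcol0]
    decide

end Cfsg.Agent.Lib.helper28
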