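import Cfsg.Agent.Lib.helper28.GolayMax3

set_option autoImplicit false

namespace Cfsg.Agent.Lib.helper28

open Cfsg
open scoped Pointwise

/-! Maximality of the stabiliser of a pair of complementary dodecads. -/

/-- The colour of a pair of complementary dodecads relative to the dodecad `d`. -/
def dpCol (d : Finset GolayPt) (S : Finset (Finset GolayPt)) : Fin 3 :=
  if ∃ e ∈ S, (d ∩ e).card = 6 then 2 else if ∃ e ∈ S, (d ∩ e).card = 4 then 1 else 0

theorem card_inter_compl12 {d : Finset GolayPt} (e : Finset GolayPt) (hd : d.card = 12) :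
    (d ∩ eᶜ).card = 12 - (d ∩ e).card := by
  have h := Finset.card_sdiff_add_card_inter d e
  have h2 : d \ e = d ∩ eᶜ := by
    ext x; simp
  rw [h2] at h
  omega

theorem smul_compl_finset {α β : Type*} [Group α] [MulAction α β] [Fintype β] [DecidableEq β]
    (a : α) (s : Finset β) : a • sᶜ = (a • s)ᶜ := by
  ext x
  rw [Finset.mem_compl, ← Finset.inv_smul_mem_iff, ← Finset.inv_smul_mem_iff, Finset.mem_compl]

theorem compl_mem_dodecads {e : Finset GolayPt} (he : e ∈ dodecads) : eᶜ ∈ dodecads := by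
  refine ⟨compl_mem_supports he.1, ?_⟩
  rw [Finset.card_compl, he.2]
  rfl

theorem dpCol_pair {d e : Finset GolayPt} (hd : d ∈ dodecads) (he : e ∈ dodecads) :
    dpCol d {e, eᶜ} = if (d ∩ e).card = 6 then 2 else
      if (d ∩ e).card = 4 ∨ (d ∩ e).card = 8 then 1 else 0 := by
  unfold dpCol
  simp only [Finset.mem_insert, Finset.mem_singleton, exists_eq_or_imp, exists_eq_left]
  rw [card_inter_compl12 e hd.2]
  rcases dodecad_inter_cases hd he with h | h | h | h | h <;> rw [h] <;> simp

/-- S1566. -/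
theorem dodecad_pair_stabilizer_maximal (d : Finset GolayPt) (hd : d ∈ dodecads) :
    IsCoatom (MulAction.stabilizer M24 ({d, dᶜ} : Finset (Finset GolayPt))) := by
  have hne : d.Nonempty := by
    rw [← Finset.card_pos, hd.2]; norm_num
  obtain ⟨p0, hp0⟩ := hne
  have hsm : ∀ (g : M24) (e : Finset GolayPt),
      g • ({e, eᶜ} : Finset (Finset GolayPt)) = {g • e, (g • e)ᶜ} := by
    intro g e
    rw [Finset.smul_finset_insert, Finset.smul_finset_singleton, smul_compl_finset]
  have horb : ∀ S : Finset (Finset GolayPt),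
      S ∈ MulAction.orbit M24 ({d, dᶜ} : Finset (Finset GolayPt)) ↔
        ∃ e ∈ dodecads, p0 ∈ e ∧ S = {e, eᶜ} := by
    intro S
    constructor
    · rintro ⟨g, rfl⟩
      have hgd : g • d ∈ dodecads := smul_mem_dodecads g.2 hd
      show ∃ e ∈ dodecads, p0 ∈ e ∧ g • ({d, dᶜ} : Finset (Finset GolayPt)) = {e, eᶜ}
      rw [hsm]
      by_cases hp : p0 ∈ g • d
      · exact ⟨g • d, hgd, hp, rfl⟩
      · exact ⟨(g • d)ᶜ, compl_mem_dodecads hgd, Finset.mem_compl.mpr hp, by
          rw [compl_compl, Finset.pair_comm]⟩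
    · rintro ⟨e, he, _, rfl⟩
      obtain ⟨g, hg, hge⟩ := exists_smul_dodecad_eq hd he
      refine ⟨⟨g, hg⟩, ?_⟩
      show (⟨g, hg⟩ : M24) • ({d, dᶜ} : Finset (Finset GolayPt)) = {e, eᶜ}
      rw [hsm]
      have : (⟨g, hg⟩ : M24) • d = e := hge
      rw [this]
  have hcol0 : dpCol d {d, dᶜ} = 0 := by
    rw [dpCol_pair hd hd, Finset.inter_self, hd.2]
    simp
  have hinj : ∀ e e' : Finset GolayPt, p0 ∈ e → p0 ∈ e' →
      ({e, eᶜ} : Finset (Finset GolayPt)) = {e', e'ᶜ} → e = e' := by
    intro e e' hpe hpe' h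
    have : e ∈ ({e', e'ᶜ} : Finset (Finset GolayPt)) := by rw [← h]; simp
    rw [Finset.mem_insert, Finset.mem_singleton] at this
    rcases this with h1 | h1
    · exact h1
    · exfalso
      rw [h1] at hpe
      exact (Finset.mem_compl.mp hpe) hpe'
  have hpos : ∀ e : Finset GolayPt, p0 ∈ e → 0 < (d ∩ e).card := fun e hpe =>
    Finset.card_pos.mpr ⟨p0, Finset.mem_inter.mpr ⟨hp0, hpe⟩⟩
  have h0 : ∀ S ∈ MulAction.orbit M24 ({d, dᶜ} : Finset (Finset GolayPt)),
      dpCol d S = dpCol d {d, dᶜ} → S = {d, dᶜ} := by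
    intro S hS hcol
    obtain ⟨e, he, hpe, rfl⟩ := (horb S).mp hS
    rw [hcol0, dpCol_pair hd he] at hcol
    have hp := hpos e hpe
    rcases dodecad_inter_cases hd he with h | h | h | h | h
    · omega
    · rw [h] at hcol; simp at hcol
    · rw [h] at hcol; simp at hcol
    · rw [h] at hcol; simp at hcol
    · have h2 : d ∩ e = d :=
        Finset.eq_of_subset_of_card_le Finset.inter_subset_left (by rw [h, hd.2])
      have h3 : d ∩ e = e :=
        Finset.eq_of_subset_of_card_le Finset.inter_subset_right (by rw [h, he.2])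
      rw [← h3, h2]
  obtain ⟨hc4, hc8, hc6, _⟩ := rank_dodecads_through_point hd hp0
  have hcls : ∀ (j : Fin 3) (P : ℕ → Prop),
      (∀ e ∈ dodecads, p0 ∈ e → (dpCol d {e, eᶜ} = j ↔ P (d ∩ e).card)) →
      {S : Finset (Finset GolayPt) | S ∈ MulAction.orbit M24
        ({d, dᶜ} : Finset (Finset GolayPt)) ∧ dpCol d S = j}.ncard =
      {e : Finset GolayPt | e ∈ dodecads ∧ p0 ∈ e ∧ P (d ∩ e).card}.ncard := by
    intro j P hP
    have hset : {S : Finset (Finset GolayPt) | S ∈ MulAction.orbit M24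
        ({d, dᶜ} : Finset (Finset GolayPt)) ∧ dpCol d S = j} =
        (fun e : Finset GolayPt => ({e, eᶜ} : Finset (Finset GolayPt))) ''
          {e : Finset GolayPt | e ∈ dodecads ∧ p0 ∈ e ∧ P (d ∩ e).card} := by
      ext S
      simp only [Set.mem_ofPred_eq, Set.mem_image]
      rw [horb]
      constructor
      · rintro ⟨⟨e, he, hpe, rfl⟩, hc⟩
        exact ⟨e, ⟨he, hpe, (hP e he hpe).mp hc⟩, rfl⟩
      · rintro ⟨e, ⟨he, hpe, hc⟩, rfl⟩
        exact ⟨⟨e, he, hpe, rfl⟩, (hP e he hpe).mpr hc⟩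
    rw [hset]
    apply Set.InjOn.ncard_image
    intro e he e' he' h
    exact hinj e e' he.2.1 he'.2.1 h
  apply isCoatom_stabilizer_of_suborbits' (G := M24) ({d, dᶜ} : Finset (Finset GolayPt))
    (dpCol d) ![1, 495, 792]
  · refine ⟨1, ?_, by decide⟩
    rw [hcol0]; decide
  · exact h0
  · intro S hS S' hS' hcol
    obtain ⟨e, he, hpe, rfl⟩ := (horb S).mp hS
    obtain ⟨e', he', hpe', rfl⟩ := (horb S').mp hS'
    have key : ∀ e e' : Finset GolayPt, e ∈ dodecads → e' ∈ dodecads →
        (d ∩ e).card = (d ∩ e').card →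
        ∃ h : M24, h • ({d, dᶜ} : Finset (Finset GolayPt)) = {d, dᶜ} ∧
          h • ({e, eᶜ} : Finset (Finset GolayPt)) = {e', e'ᶜ} := by
      intro e e' he he' hk
      obtain ⟨g, hg, hgd, hge⟩ := dodecad_stabilizer_orbits hd he he' hk
      refine ⟨⟨g, hg⟩, ?_, ?_⟩
      · rw [hsm]
        have : (⟨g, hg⟩ : M24) • d = d := hgd
        rw [this]
      · rw [hsm]
        have : (⟨g, hg⟩ : M24) • e = e' := hge
        rw [this]
    rw [dpCol_pair hd he, dpCol_pair hd he'] at hcol
    have hp := hpos e hpe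
    have hp' := hpos e' hpe'
    have hcases : (d ∩ e).card = (d ∩ e').card ∨ (d ∩ e).card = 12 - (d ∩ e').card := by
      rcases dodecad_inter_cases hd he with h | h | h | h | h <;>
      rcases dodecad_inter_cases hd he' with h' | h' | h' | h' | h' <;>
      rw [h, h'] at hcol <;>
      first
        | omega
        | (exfalso; revert hcol; decide)
    rcases hcases with hk | hk
    · exact key e e' he he' hk
    · rw [← card_inter_compl12 e' hd.2] at hk
      obtain ⟨h, h1, h2⟩ := key e e'ᶜ he (compl_mem_dodecads he') hk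
      refine ⟨h, h1, ?_⟩
      rw [h2, compl_compl, Finset.pair_comm]
  · intro j
    fin_cases j
    · have hset : {S : Finset (Finset GolayPt) | S ∈ MulAction.orbit M24
          ({d, dᶜ} : Finset (Finset GolayPt)) ∧ dpCol d S = (0 : Fin 3)} =
          {({d, dᶜ} : Finset (Finset GolayPt))} := by
        ext S
        constructor
        · rintro ⟨hS, hc⟩
          exact h0 S hS (hc.trans hcol0.symm)
        · rintro rfl
          exact ⟨MulAction.mem_orbit_self _, hcol0⟩
      show {S : Finset (Finset GolayPt) | S ∈ MulAction.orbit M24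
          ({d, dᶜ} : Finset (Finset GolayPt)) ∧ dpCol d S = (0 : Fin 3)}.ncard = 1
      rw [hset, Set.ncard_singleton]
    · show {S : Finset (Finset GolayPt) | S ∈ MulAction.orbit M24
          ({d, dᶜ} : Finset (Finset GolayPt)) ∧ dpCol d S = (1 : Fin 3)}.ncard = 495
      rw [hcls 1 (fun k => k = 4 ∨ k = 8)]
      · have hU : {e : Finset GolayPt | e ∈ dodecads ∧ p0 ∈ e ∧
            ((d ∩ e).card = 4 ∨ (d ∩ e).card = 8)} =
            {e : Finset GolayPt | e ∈ dodecads ∧ p0 ∈ e ∧ (d ∩ e).card = 4} ∪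
            {e : Finset GolayPt | e ∈ dodecads ∧ p0 ∈ e ∧ (d ∩ e).card = 8} := by
          ext e
          simp only [Set.mem_ofPred_eq, Set.mem_union]
          tauto
        rw [hU, Set.ncard_union_eq _ (Set.toFinite _) (Set.toFinite _), hc4, hc8]
        rw [Set.disjoint_left]
        rintro e ⟨_, _, h1⟩ ⟨_, _, h2⟩
        omega
      · intro e he hpe
        rw [dpCol_pair hd he]
        rcases dodecad_inter_cases hd he with h | h | h | h | h <;> rw [h] <;> simp
    · show {S : Finset (Finset GolayPt) | S ∈ MulAction.orbit M24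
          ({d, dᶜ} : Finset (Finset GolayPt)) ∧ dpCol d S = (2 : Fin 3)}.ncard = 792
      rw [hcls 2 (fun k => k = 6)]
      · exact hc6
      · intro e he hpe
        rw [dpCol_pair hd he]
        rcases dodecad_inter_cases hd he with h | h | h | h | h <;> rw [h] <;> simp
  · rw [hcol0]
    decide

end Cfsg.Agent.Lib.helper28
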