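import Cfsg.Agent.Lib.helper28.GolayOrbData

set_option autoImplicit false

namespace Cfsg.Agent.Lib.helper28

open Cfsg
open scoped Pointwise

/-! Orbits of the stabilisers of octads, sextets, trios on octads, sextets, trios. -/

section Generic

variable {α β : Type*} [MulAction (Equiv.Perm GolayPt) α] [MulAction (Equiv.Perm GolayPt) β]

theorem struct_orbits_inv {a : Equiv.Perm GolayPt} (ha : a ∈ M24) (A0 : α) (F : Set β)
    (hF : F.Finite) (hFinv : ∀ g ∈ M24, ∀ x ∈ F, g • x ∈ F) {r : ℕ} (X0 : Fin r → β)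
    (n : Fin r → ℕ) (hX : ∀ i, X0 i ∈ F)
    (hlow : ∀ i, n i ≤ (MulAction.orbit ↥(MulAction.stabilizer M24 A0) (X0 i)).ncard)
    (I : β → ℕ) (hI : ∀ g ∈ M24, g • A0 = A0 → ∀ x, I (g • x) = I x) (v : Fin r → ℕ)
    (hv : ∀ i, I (X0 i) = v i) (hvinj : Function.Injective v)
    (hsum : ∑ i, n i = F.ncard) :
    (∀ i, a • X0 i ∈ F) ∧
    (∀ i, (MulAction.orbit ↥(MulAction.stabilizer M24 (a • A0)) (a • X0 i)).ncard = n i) ∧
    (∀ x, x ∈ F ↔ ∃ i, x ∈ MulAction.orbit ↥(MulAction.stabilizer M24 (a • A0)) (a • X0 i)) ∧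
    ∀ i j, i ≠ j →
      a • X0 j ∉ MulAction.orbit ↥(MulAction.stabilizer M24 (a • A0)) (a • X0 i) :=
  struct_orbits ha A0 F hF hFinv X0 n hX hlow
    (fun i j hij => not_mem_orbit_of_inv A0 I hI
      (by rw [hv i, hv j]; exact fun h => hij (hvinj h))) hsum

theorem oct_low (A : α) {gens : List (List ℕ × ℕ)} (hg : GensIn (stabQ A) gens)
    {n root fuel : ℕ} (hlt : root < 2 ^ 24)
    (h : countLt (fun k => (orbitF gens fuel root).testBit k) 4096 = n) :
    n ≤ (MulAction.orbit ↥(MulAction.stabilizer M24 A) (setOf root)).ncard := by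
  rw [← h]
  exact le_ncard_orbit_octads A hg hlt fuel

theorem sex_low (A : α) {gens : List (List ℕ × ℕ)} (hg : GensIn (stabQ A) gens)
    {n root fuel : ℕ} {l : List ℕ} (hn : l.Nodup) (hl : sxListOK l = true) (hroot : root ∈ l)
    (hpc : pc root = 4) (hb : root.testBit 0 = true)
    (h : countLt (fun k => (orbitS gens fuel root).testBit k) 4096 = n) :
    n ≤ (MulAction.orbit ↥(MulAction.stabilizer M24 A)
      ((l.map setOf).toFinset : Finset (Finset GolayPt))).ncard := by
  rw [← h]
  exact le_ncard_orbit_sextets A hg (sxListOK_lt hl root hroot) hpc hb (sextet_of_masks hn hl)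
    (List.mem_toFinset.mpr (List.mem_map.mpr ⟨root, hroot, rfl⟩)) fuel

end Generic

/-- The standard trio. -/
def trT0 : Finset (Finset GolayPt) := (tr0.map setOf).toFinset

theorem tr0_lt : ∀ m ∈ tr0, m < 2 ^ 24 := by decide

theorem tr0_nodup : tr0.Nodup := by decide

theorem sx0_nodup : sx0.Nodup := by decide

theorem trT0_eq : trT0 = trioOf (setOf o0) (setOf a0m) := by
  have hc : setOf 15762208 = (setOf o0 ∪ setOf a0m)ᶜ := by
    ext p
    have h : (15762208 : ℕ) = (2 ^ 24 - 1) ^^^ (o0 ||| a0m) := by decide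
    rw [h, mem_setOf_compl, setOf_or, Finset.mem_compl]
  unfold trioOf
  rw [← hc]
  show ([setOf o0, setOf a0m, setOf 15762208] : List (Finset GolayPt)).toFinset = _
  rw [List.toFinset_cons, List.toFinset_cons, List.toFinset_cons, List.toFinset_nil]
  rfl

theorem disjoint_o0_a0m : Disjoint (setOf o0) (setOf a0m) := by
  rw [Finset.disjoint_iff_inter_eq_empty, ← Finset.card_eq_zero]
  exact card_inter_o0_a0m

theorem trT0_mem : trT0 ∈ trios := by
  rw [trT0_eq]
  exact trioOf_mem_trios setOf_o0_mem_octads (setOf_mem_octads isOct_a0m) disjoint_o0_a0m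

theorem exists_smul_trT0 {T : Finset (Finset GolayPt)} (hT : T ∈ trios) :
    ∃ a ∈ M24, a • trT0 = T := by
  obtain ⟨o, ho⟩ := Finset.card_pos.mp (by rw [hT.1]; norm_num : 0 < T.card)
  have c1 : (T.erase o).card = 2 := by rw [Finset.card_erase_of_mem ho, hT.1]
  obtain ⟨o', ho'⟩ := Finset.card_pos.mp (by rw [c1]; norm_num : 0 < (T.erase o).card)
  rw [Finset.mem_erase] at ho'
  have hd : Disjoint o o' := hT.2.2 o ho o' ho'.2 (Ne.symm ho'.1)
  have hc : (o ∩ o').card = (setOf o0 ∩ setOf a0m).card := by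
    rw [card_inter_o0_a0m, Finset.card_eq_zero, ← Finset.disjoint_iff_inter_eq_empty]
    exact hd
  obtain ⟨a, ha, hao, hao'⟩ := exists_pair_frame_gen isOct_a0m (hT.2.1 o ho) (hT.2.1 o' ho'.2) hc
  refine ⟨a, ha, ?_⟩
  apply trio_unique (smul_mem_trios ha trT0_mem) hT (o := o) (x := o') _ _ ho ho'.2
    (Ne.symm ho'.1)
  · rw [← hao, trT0_eq]
    exact Finset.smul_mem_smul_finset (left_mem_trioOf _ _)
  · rw [← hao', trT0_eq]
    exact Finset.smul_mem_smul_finset (right_mem_trioOf _ _)

theorem exists_smul_sxS0 {S : Finset (Finset GolayPt)} (hS : S ∈ sextets) :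
    ∃ a ∈ M24, a • sxS0 = S := by
  obtain ⟨t, ht⟩ := Finset.card_pos.mp (by rw [hS.1]; norm_num : 0 < S.card)
  obtain ⟨a, ha, hat⟩ := exists_smul_setOf15 (hS.2.1 t ht)
  refine ⟨a, ha, sextet_unique (smul_mem_sextets ha sxS0_mem) hS (t := t) ?_ ht⟩
  rw [← hat]
  exact Finset.smul_mem_smul_finset setOf15_mem_sxS0

theorem card_stabilizer_sextet {S : Finset (Finset GolayPt)} (hS : S ∈ sextets) :
    Nat.card (MulAction.stabilizer M24 S) = 138240 := by
  have horb : MulAction.orbit M24 S = sextets := by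
    ext S'
    constructor
    · rintro ⟨g, rfl⟩
      exact smul_mem_sextets g.2 hS
    · intro hS'
      obtain ⟨a, ha, rfl⟩ := exists_smul_sxS0 hS
      obtain ⟨a', ha', rfl⟩ := exists_smul_sxS0 hS'
      refine ⟨⟨a' * a⁻¹, M24.mul_mem ha' (M24.inv_mem ha)⟩, ?_⟩
      show (a' * a⁻¹) • a • sxS0 = a' • sxS0
      rw [mul_smul, inv_smul_smul]
  have h1 := Subgroup.card_mul_index (MulAction.stabilizer M24 S)
  rw [MulAction.index_stabilizer, horb, ncard_sextets, card_M24] at h1
  omega

theorem card_stabilizer_trio {T : Finset (Finset GolayPt)} (hT : T ∈ trios) :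
    Nat.card (MulAction.stabilizer M24 T) = 64512 := by
  have horb : MulAction.orbit M24 T = trios := by
    ext T'
    constructor
    · rintro ⟨g, rfl⟩
      exact smul_mem_trios g.2 hT
    · intro hT'
      obtain ⟨a, ha, rfl⟩ := exists_smul_trT0 hT
      obtain ⟨a', ha', rfl⟩ := exists_smul_trT0 hT'
      refine ⟨⟨a' * a⁻¹, M24.mul_mem ha' (M24.inv_mem ha)⟩, ?_⟩
      show (a' * a⁻¹) • a • trT0 = a' • trT0
      rw [mul_smul, inv_smul_smul]
  have h1 := Subgroup.card_mul_index (MulAction.stabilizer M24 T)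
  rw [MulAction.index_stabilizer, horb, ncard_trios, card_M24] at h1
  omega

theorem trStab_gensIn : GensIn (stabQ trT0) trStabGens := gensIn_struct trStabGens_ok

theorem sxStab_gensIn : GensIn (stabQ sxS0) sxStabGens := gensIn_struct sxStabGens_ok

theorem inv1_fix {A : Finset (Finset GolayPt)} {g : Equiv.Perm GolayPt} (hg : g • A = A)
    (x : Finset GolayPt) : inv1 A (g • x) = inv1 A x := by
  have := inv1_smul g A x
  rwa [hg] at this

theorem inv2_fix {A : Finset (Finset GolayPt)} {g : Equiv.Perm GolayPt} (hg : g • A = A)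
    (X : Finset (Finset GolayPt)) : inv2 A (g • X) = inv2 A X := by
  have := inv2_smul g A X
  rwa [hg] at this

theorem inv1_fix' {o : Finset GolayPt} {g : Equiv.Perm GolayPt} (hg : g • o = o)
    (X : Finset (Finset GolayPt)) : inv1 (g • X) o = inv1 X o := by
  have := inv1_smul g X o
  rwa [hg] at this

/-- The orbits of a trio stabiliser on the octads. -/
theorem trio_orbits_octads {a : Equiv.Perm GolayPt} (ha : a ∈ M24) :
    (∀ i, a • (![setOf 5279, setOf 90318, setOf 10558] : Fin 3 → Finset GolayPt) i ∈ octads) ∧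
    (∀ i, (MulAction.orbit ↥(MulAction.stabilizer M24 (a • trT0))
      (a • (![setOf 5279, setOf 90318, setOf 10558] : Fin 3 → Finset GolayPt) i)).ncard =
        (![3, 84, 672] : Fin 3 → ℕ) i) ∧
    (∀ x, x ∈ octads ↔ ∃ i, x ∈ MulAction.orbit ↥(MulAction.stabilizer M24 (a • trT0))
      (a • (![setOf 5279, setOf 90318, setOf 10558] : Fin 3 → Finset GolayPt) i)) ∧
    ∀ i j, i ≠ j → a • (![setOf 5279, setOf 90318, setOf 10558] : Fin 3 → Finset GolayPt) j ∉
      MulAction.orbit ↥(MulAction.stabilizer M24 (a • trT0))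
        (a • (![setOf 5279, setOf 90318, setOf 10558] : Fin 3 → Finset GolayPt) i) := by
  apply struct_orbits_inv ha trT0 octads (Set.toFinite _)
    (fun g hg x hx => smul_mem_octads hg hx) _ _ _ _ (fun x => inv1 trT0 x)
    (fun g _ hgA x => inv1_fix hgA x) ![64, 32, 24]
  · intro i
    fin_cases i
    · exact (inv1_eval tr0 5279 tr0_lt (by decide) tr0_nodup).trans (by decide +kernel)
    · exact (inv1_eval tr0 90318 tr0_lt (by decide) tr0_nodup).trans (by decide +kernel)
    · exact (inv1_eval tr0 10558 tr0_lt (by decide) tr0_nodup).trans (by decide +kernel)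
  · decide
  · rw [ncard_octads]; decide
  · intro i
    fin_cases i
    · exact setOf_mem_octads (by decide +kernel)
    · exact setOf_mem_octads (by decide +kernel)
    · exact setOf_mem_octads (by decide +kernel)
  · intro i
    fin_cases i
    · exact oct_low trT0 trStab_gensIn (by decide) trStabGens_oct_3
    · exact oct_low trT0 trStab_gensIn (by decide) trStabGens_oct_84
    · exact oct_low trT0 trStab_gensIn (by decide) trStabGens_oct_672

theorem sx0_ok : sxListOK sx0 = true := by decide +kernel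

/-- The orbits of a trio stabiliser on the sextets. -/
theorem trio_orbits_sextets {a : Equiv.Perm GolayPt} (ha : a ∈ M24) :
    (∀ i, a • (![(sxRep29.map setOf).toFinset, sxS0, (sxRep293.map setOf).toFinset,
      (sxRep39.map setOf).toFinset] : Fin 4 → Finset (Finset GolayPt)) i ∈ sextets) ∧
    (∀ i, (MulAction.orbit ↥(MulAction.stabilizer M24 (a • trT0))
      (a • (![(sxRep29.map setOf).toFinset, sxS0, (sxRep293.map setOf).toFinset,
        (sxRep39.map setOf).toFinset] : Fin 4 → Finset (Finset GolayPt)) i)).ncard =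
        (![7, 84, 336, 1344] : Fin 4 → ℕ) i) ∧
    (∀ x, x ∈ sextets ↔ ∃ i, x ∈ MulAction.orbit ↥(MulAction.stabilizer M24 (a • trT0))
      (a • (![(sxRep29.map setOf).toFinset, sxS0, (sxRep293.map setOf).toFinset,
        (sxRep39.map setOf).toFinset] : Fin 4 → Finset (Finset GolayPt)) i)) ∧
    ∀ i j, i ≠ j → a • (![(sxRep29.map setOf).toFinset, sxS0, (sxRep293.map setOf).toFinset,
        (sxRep39.map setOf).toFinset] : Fin 4 → Finset (Finset GolayPt)) j ∉
      MulAction.orbit ↥(MulAction.stabilizer M24 (a • trT0))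
        (a • (![(sxRep29.map setOf).toFinset, sxS0, (sxRep293.map setOf).toFinset,
          (sxRep39.map setOf).toFinset] : Fin 4 → Finset (Finset GolayPt)) i) := by
  apply struct_orbits_inv ha trT0 sextets (Set.toFinite _)
    (fun g hg x hx => smul_mem_sextets hg hx) _ _ _ _ (fun x => inv2 trT0 x)
    (fun g _ hgA x => inv2_fix hgA x) ![96, 64, 48, 44]
  · intro i
    fin_cases i
    · exact (inv2_eval tr0 sxRep29 tr0_lt (sxListOK_lt sxRep29_ok) tr0_nodup (by decide)).trans
        (by decide +kernel)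
    · exact (inv2_eval tr0 sx0 tr0_lt sx0_lt tr0_nodup sx0_nodup).trans (by decide +kernel)
    · exact (inv2_eval tr0 sxRep293 tr0_lt (sxListOK_lt sxRep293_ok) tr0_nodup (by decide)).trans
        (by decide +kernel)
    · exact (inv2_eval tr0 sxRep39 tr0_lt (sxListOK_lt sxRep39_ok) tr0_nodup (by decide)).trans
        (by decide +kernel)
  · decide
  · rw [ncard_sextets]; decide
  · intro i
    fin_cases i
    · exact sextet_of_masks (by decide) sxRep29_ok
    · exact sxS0_mem
    · exact sextet_of_masks (by decide) sxRep293_ok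
    · exact sextet_of_masks (by decide) sxRep39_ok
  · intro i
    fin_cases i
    · exact sex_low trT0 trStab_gensIn (by decide) sxRep29_ok (by decide) (by decide) (by decide)
        trStabGens_sex_7
    · exact sex_low trT0 trStab_gensIn sx0_nodup sx0_ok (by decide) (by decide) (by decide)
        trStabGens_sex_84
    · exact sex_low trT0 trStab_gensIn (by decide) sxRep293_ok (by decide) (by decide)
        (by decide) trStabGens_sex_336
    · exact sex_low trT0 trStab_gensIn (by decide) sxRep39_ok (by decide) (by decide) (by decide)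
        trStabGens_sex_1344

/-- The orbits of a sextet stabiliser on the octads. -/
theorem sextet_orbits_octads {a : Equiv.Perm GolayPt} (ha : a ∈ M24) :
    (∀ i, a • (![setOf 5279, setOf 18147, setOf 10558] : Fin 3 → Finset GolayPt) i ∈ octads) ∧
    (∀ i, (MulAction.orbit ↥(MulAction.stabilizer M24 (a • sxS0))
      (a • (![setOf 5279, setOf 18147, setOf 10558] : Fin 3 → Finset GolayPt) i)).ncard =
        (![15, 360, 384] : Fin 3 → ℕ) i) ∧
    (∀ x, x ∈ octads ↔ ∃ i, x ∈ MulAction.orbit ↥(MulAction.stabilizer M24 (a • sxS0))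
      (a • (![setOf 5279, setOf 18147, setOf 10558] : Fin 3 → Finset GolayPt) i)) ∧
    ∀ i j, i ≠ j → a • (![setOf 5279, setOf 18147, setOf 10558] : Fin 3 → Finset GolayPt) j ∉
      MulAction.orbit ↥(MulAction.stabilizer M24 (a • sxS0))
        (a • (![setOf 5279, setOf 18147, setOf 10558] : Fin 3 → Finset GolayPt) i) := by
  apply struct_orbits_inv ha sxS0 octads (Set.toFinite _)
    (fun g hg x hx => smul_mem_octads hg hx) _ _ _ _ (fun x => inv1 sxS0 x)
    (fun g _ hgA x => inv1_fix hgA x) ![32, 16, 14]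
  · intro i
    fin_cases i
    · exact (inv1_eval sx0 5279 sx0_lt (by decide) sx0_nodup).trans (by decide +kernel)
    · exact (inv1_eval sx0 18147 sx0_lt (by decide) sx0_nodup).trans (by decide +kernel)
    · exact (inv1_eval sx0 10558 sx0_lt (by decide) sx0_nodup).trans (by decide +kernel)
  · decide
  · rw [ncard_octads]; decide
  · intro i
    fin_cases i
    · exact setOf_mem_octads (by decide +kernel)
    · exact setOf_mem_octads (by decide +kernel)
    · exact setOf_mem_octads (by decide +kernel)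
  · intro i
    fin_cases i
    · exact oct_low sxS0 sxStab_gensIn (by decide) sxStabGens_oct_15
    · exact oct_low sxS0 sxStab_gensIn (by decide) sxStabGens_oct_360
    · exact oct_low sxS0 sxStab_gensIn (by decide) sxStabGens_oct_384

/-- The orbits of a sextet stabiliser on the sextets. -/
theorem sextet_orbits_sextets {a : Equiv.Perm GolayPt} (ha : a ∈ M24) :
    (∀ i, a • (![sxS0, (sxRep147.map setOf).toFinset, (sxRep23.map setOf).toFinset,
      (sxRep51.map setOf).toFinset] : Fin 4 → Finset (Finset GolayPt)) i ∈ sextets) ∧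
    (∀ i, (MulAction.orbit ↥(MulAction.stabilizer M24 (a • sxS0))
      (a • (![sxS0, (sxRep147.map setOf).toFinset, (sxRep23.map setOf).toFinset,
        (sxRep51.map setOf).toFinset] : Fin 4 → Finset (Finset GolayPt)) i)).ncard =
        (![1, 90, 240, 1440] : Fin 4 → ℕ) i) ∧
    (∀ x, x ∈ sextets ↔ ∃ i, x ∈ MulAction.orbit ↥(MulAction.stabilizer M24 (a • sxS0))
      (a • (![sxS0, (sxRep147.map setOf).toFinset, (sxRep23.map setOf).toFinset,
        (sxRep51.map setOf).toFinset] : Fin 4 → Finset (Finset GolayPt)) i)) ∧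
    ∀ i j, i ≠ j → a • (![sxS0, (sxRep147.map setOf).toFinset, (sxRep23.map setOf).toFinset,
        (sxRep51.map setOf).toFinset] : Fin 4 → Finset (Finset GolayPt)) j ∉
      MulAction.orbit ↥(MulAction.stabilizer M24 (a • sxS0))
        (a • (![sxS0, (sxRep147.map setOf).toFinset, (sxRep23.map setOf).toFinset,
          (sxRep51.map setOf).toFinset] : Fin 4 → Finset (Finset GolayPt)) i) := by
  apply struct_orbits_inv ha sxS0 sextets (Set.toFinite _)
    (fun g hg x hx => smul_mem_sextets hg hx) _ _ _ _ (fun x => inv2 sxS0 x)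
    (fun g _ hgA x => inv2_fix hgA x) ![96, 48, 36, 32]
  · intro i
    fin_cases i
    · exact (inv2_eval sx0 sx0 sx0_lt sx0_lt sx0_nodup sx0_nodup).trans (by decide +kernel)
    · exact (inv2_eval sx0 sxRep147 sx0_lt (sxListOK_lt sxRep147_ok) sx0_nodup (by decide)).trans
        (by decide +kernel)
    · exact (inv2_eval sx0 sxRep23 sx0_lt (sxListOK_lt sxRep23_ok) sx0_nodup (by decide)).trans
        (by decide +kernel)
    · exact (inv2_eval sx0 sxRep51 sx0_lt (sxListOK_lt sxRep51_ok) sx0_nodup (by decide)).trans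
        (by decide +kernel)
  · decide
  · rw [ncard_sextets]; decide
  · intro i
    fin_cases i
    · exact sxS0_mem
    · exact sextet_of_masks (by decide) sxRep147_ok
    · exact sextet_of_masks (by decide) sxRep23_ok
    · exact sextet_of_masks (by decide) sxRep51_ok
  · intro i
    fin_cases i
    · exact sex_low sxS0 sxStab_gensIn sx0_nodup sx0_ok (by decide) (by decide) (by decide)
        sxStabGens_sex_1
    · exact sex_low sxS0 sxStab_gensIn (by decide) sxRep147_ok (by decide) (by decide)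
        (by decide) sxStabGens_sex_90
    · exact sex_low sxS0 sxStab_gensIn (by decide) sxRep23_ok (by decide) (by decide) (by decide)
        sxStabGens_sex_240
    · exact sex_low sxS0 sxStab_gensIn (by decide) sxRep51_ok (by decide) (by decide) (by decide)
        sxStabGens_sex_1440

theorem ocStab_gensIn : GensIn (stabQ (setOf o0)) ocStabGens := by
  apply (gensIn_stabM ocStabGens_ok).mono
  intro g hg
  rw [mem_stabM] at hg
  exact mem_stabQ.mpr ⟨hg.1, hg.2 o0 (by simp)⟩

/-- The orbits of an octad stabiliser on the sextets. -/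
theorem octad_orbits_sextets {a : Equiv.Perm GolayPt} (ha : a ∈ M24) :
    (∀ i, a • (![sxS0, (sxRep99.map setOf).toFinset, (sxRep39.map setOf).toFinset] :
      Fin 3 → Finset (Finset GolayPt)) i ∈ sextets) ∧
    (∀ i, (MulAction.orbit ↥(MulAction.stabilizer M24 (a • setOf o0))
      (a • (![sxS0, (sxRep99.map setOf).toFinset, (sxRep39.map setOf).toFinset] :
        Fin 3 → Finset (Finset GolayPt)) i)).ncard = (![35, 840, 896] : Fin 3 → ℕ) i) ∧
    (∀ x, x ∈ sextets ↔ ∃ i, x ∈ MulAction.orbit ↥(MulAction.stabilizer M24 (a • setOf o0))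
      (a • (![sxS0, (sxRep99.map setOf).toFinset, (sxRep39.map setOf).toFinset] :
        Fin 3 → Finset (Finset GolayPt)) i)) ∧
    ∀ i j, i ≠ j → a • (![sxS0, (sxRep99.map setOf).toFinset, (sxRep39.map setOf).toFinset] :
        Fin 3 → Finset (Finset GolayPt)) j ∉
      MulAction.orbit ↥(MulAction.stabilizer M24 (a • setOf o0))
        (a • (![sxS0, (sxRep99.map setOf).toFinset, (sxRep39.map setOf).toFinset] :
          Fin 3 → Finset (Finset GolayPt)) i) := by
  apply struct_orbits_inv ha (setOf o0) sextets (Set.toFinite _)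
    (fun g hg x hx => smul_mem_sextets hg hx) _ _ _ _ (fun x => inv1 x (setOf o0))
    (fun g _ hgA x => inv1_fix' hgA x) ![32, 16, 14]
  · intro i
    fin_cases i
    · exact (inv1_eval sx0 o0 sx0_lt o0_lt sx0_nodup).trans (by decide +kernel)
    · exact (inv1_eval sxRep99 o0 (sxListOK_lt sxRep99_ok) o0_lt (by decide)).trans
        (by decide +kernel)
    · exact (inv1_eval sxRep39 o0 (sxListOK_lt sxRep39_ok) o0_lt (by decide)).trans
        (by decide +kernel)
  · decide
  · rw [ncard_sextets]; decide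
  · intro i
    fin_cases i
    · exact sxS0_mem
    · exact sextet_of_masks (by decide) sxRep99_ok
    · exact sextet_of_masks (by decide) sxRep39_ok
  · intro i
    fin_cases i
    · exact sex_low (setOf o0) ocStab_gensIn sx0_nodup sx0_ok (by decide) (by decide) (by decide)
        ocStabGens_sex_35
    · exact sex_low (setOf o0) ocStab_gensIn (by decide) sxRep99_ok (by decide) (by decide)
        (by decide) ocStabGens_sex_840
    · exact sex_low (setOf o0) ocStab_gensIn (by decide) sxRep39_ok (by decide) (by decide)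
        (by decide) ocStabGens_sex_896

/-- The standard pair of complementary dodecads. -/
def ddS0 : Finset (Finset GolayPt) := (dd0.map setOf).toFinset

theorem dd0_lt : ∀ m ∈ dd0, m < 2 ^ 24 := by decide

theorem dd0_nodup : dd0.Nodup := by decide

theorem ddStab_gensIn : GensIn (stabQ ddS0) ddStabGens := gensIn_struct ddStabGens_ok

/-- The orbits of the stabiliser of a pair of complementary dodecads on the sextets. -/
theorem dod_orbits_sextets {a : Equiv.Perm GolayPt} (ha : a ∈ M24) :
    (∀ i, a • (![(sxRep163.map setOf).toFinset, sxS0, (sxRep39.map setOf).toFinset] :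
      Fin 3 → Finset (Finset GolayPt)) i ∈ sextets) ∧
    (∀ i, (MulAction.orbit ↥(MulAction.stabilizer M24 (a • ddS0))
      (a • (![(sxRep163.map setOf).toFinset, sxS0, (sxRep39.map setOf).toFinset] :
        Fin 3 → Finset (Finset GolayPt)) i)).ncard = (![396, 495, 880] : Fin 3 → ℕ) i) ∧
    (∀ x, x ∈ sextets ↔ ∃ i, x ∈ MulAction.orbit ↥(MulAction.stabilizer M24 (a • ddS0))
      (a • (![(sxRep163.map setOf).toFinset, sxS0, (sxRep39.map setOf).toFinset] :
        Fin 3 → Finset (Finset GolayPt)) i)) ∧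
    ∀ i j, i ≠ j → a • (![(sxRep163.map setOf).toFinset, sxS0,
        (sxRep39.map setOf).toFinset] : Fin 3 → Finset (Finset GolayPt)) j ∉
      MulAction.orbit ↥(MulAction.stabilizer M24 (a • ddS0))
        (a • (![(sxRep163.map setOf).toFinset, sxS0, (sxRep39.map setOf).toFinset] :
          Fin 3 → Finset (Finset GolayPt)) i) := by
  apply struct_orbits_inv ha ddS0 sextets (Set.toFinite _)
    (fun g hg x hx => smul_mem_sextets hg hx) _ _ _ _ (fun x => inv2 ddS0 x)
    (fun g _ hgA x => inv2_fix hgA x) ![48, 64, 60]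
  · intro i
    fin_cases i
    · exact (inv2_eval dd0 sxRep163 dd0_lt (sxListOK_lt sxRep163_ok) dd0_nodup (by decide)).trans
        (by decide +kernel)
    · exact (inv2_eval dd0 sx0 dd0_lt sx0_lt dd0_nodup sx0_nodup).trans (by decide +kernel)
    · exact (inv2_eval dd0 sxRep39 dd0_lt (sxListOK_lt sxRep39_ok) dd0_nodup (by decide)).trans
        (by decide +kernel)
  · decide
  · rw [ncard_sextets]; decide
  · intro i
    fin_cases i
    · exact sextet_of_masks (by decide) sxRep163_ok
    · exact sxS0_mem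
    · exact sextet_of_masks (by decide) sxRep39_ok
  · intro i
    fin_cases i
    · exact sex_low ddS0 ddStab_gensIn (by decide) sxRep163_ok (by decide) (by decide)
        (by decide) ddStabGens_sex_396
    · exact sex_low ddS0 ddStab_gensIn sx0_nodup sx0_ok (by decide) (by decide) (by decide)
        ddStabGens_sex_495
    · exact sex_low ddS0 ddStab_gensIn (by decide) sxRep39_ok (by decide) (by decide) (by decide)
        ddStabGens_sex_880

theorem swap_low_sx {Y : Finset (Finset GolayPt)} (hY : Y ∈ sextets) {m n : ℕ}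
    (hm : m ≤ (MulAction.orbit ↥(MulAction.stabilizer M24 trT0) Y).ncard)
    (hmn : n * 64512 = m * 138240) :
    ∃ T ∈ trios, n ≤ (MulAction.orbit ↥(MulAction.stabilizer M24 sxS0) T).ncard ∧
      inv2 sxS0 T = inv2 Y trT0 := by
  obtain ⟨b, hb, hbY⟩ := exists_smul_sxS0 hY
  have hb' := M24.inv_mem hb
  have hT : b⁻¹ • trT0 ∈ trios := smul_mem_trios hb' trT0_mem
  have h2 : b⁻¹ • Y = sxS0 := by rw [← hbY, inv_smul_smul]
  refine ⟨b⁻¹ • trT0, hT, ?_, ?_⟩
  · have h1 := ncard_orbit_swap sxS0 (b⁻¹ • trT0)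
    rw [card_stabilizer_trio hT, card_stabilizer_sextet sxS0_mem] at h1
    have h3 := ncard_orbit_stab_smul hb' trT0 Y
    rw [h2] at h3
    rw [h3] at h1
    omega
  · have := inv2_smul b⁻¹ Y trT0
    rwa [h2] at this

theorem swap_low_oct {x : Finset GolayPt} (hx : x ∈ octads) {m n : ℕ}
    (hm : m ≤ (MulAction.orbit ↥(MulAction.stabilizer M24 trT0) x).ncard)
    (hmn : n * 64512 = m * 322560) :
    ∃ T ∈ trios, n ≤ (MulAction.orbit ↥(MulAction.stabilizer M24 (setOf o0)) T).ncard ∧
      inv1 T (setOf o0) = inv1 trT0 x := by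
  obtain ⟨b, hb, hbx⟩ := exists_smul_o0_eq hx
  have hb' := M24.inv_mem hb
  have hT : b⁻¹ • trT0 ∈ trios := smul_mem_trios hb' trT0_mem
  have h2 : b⁻¹ • x = setOf o0 := by rw [← hbx, inv_smul_smul]
  refine ⟨b⁻¹ • trT0, hT, ?_, ?_⟩
  · have h1 := ncard_orbit_swap (setOf o0) (b⁻¹ • trT0)
    rw [card_stabilizer_trio hT, card_stabilizer_octad setOf_o0_mem_octads] at h1
    have h3 := ncard_orbit_stab_smul hb' trT0 x
    rw [h2] at h3
    rw [h3] at h1
    omega
  · have := inv1_smul b⁻¹ trT0 x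
    rwa [h2] at this

/-- The orbits of a sextet stabiliser on the trios. -/
theorem sextet_orbits_trios {a : Equiv.Perm GolayPt} (ha : a ∈ M24) :
    ∃ X : Fin 4 → Finset (Finset GolayPt), (∀ i, X i ∈ trios) ∧
      (∀ i, (MulAction.orbit ↥(MulAction.stabilizer M24 (a • sxS0)) (X i)).ncard =
        (![15, 180, 720, 2880] : Fin 4 → ℕ) i) ∧
      ∀ x, x ∈ trios ↔ ∃ i, x ∈ MulAction.orbit ↥(MulAction.stabilizer M24 (a • sxS0)) (X i) := by
  obtain ⟨T1, hT1, l1, v1⟩ := swap_low_sx (sextet_of_masks (by decide) sxRep29_ok)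
    (m := 7) (n := 15) (sex_low trT0 trStab_gensIn (by decide) sxRep29_ok (by decide)
      (by decide) (by decide) trStabGens_sex_7) (by norm_num)
  obtain ⟨T2, hT2, l2, v2⟩ := swap_low_sx sxS0_mem
    (m := 84) (n := 180) (sex_low trT0 trStab_gensIn sx0_nodup sx0_ok (by decide)
      (by decide) (by decide) trStabGens_sex_84) (by norm_num)
  obtain ⟨T3, hT3, l3, v3⟩ := swap_low_sx (sextet_of_masks (by decide) sxRep293_ok)
    (m := 336) (n := 720) (sex_low trT0 trStab_gensIn (by decide) sxRep293_ok (by decide)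
      (by decide) (by decide) trStabGens_sex_336) (by norm_num)
  obtain ⟨T4, hT4, l4, v4⟩ := swap_low_sx (sextet_of_masks (by decide) sxRep39_ok)
    (m := 1344) (n := 2880) (sex_low trT0 trStab_gensIn (by decide) sxRep39_ok (by decide)
      (by decide) (by decide) trStabGens_sex_1344) (by norm_num)
  obtain ⟨h1, h2, h3, _⟩ := struct_orbits_inv ha sxS0 trios (Set.toFinite _)
    (fun g hg x hx => smul_mem_trios hg hx) ![T1, T2, T3, T4] ![15, 180, 720, 2880]
    (by intro i; fin_cases i <;> assumption)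
    (by intro i; fin_cases i <;> assumption)
    (fun x => inv2 sxS0 x) (fun g _ hgA x => inv2_fix hgA x) ![96, 64, 48, 44]
    (by
      intro i
      fin_cases i
      · exact v1.trans ((inv2_eval sxRep29 tr0 (sxListOK_lt sxRep29_ok) tr0_lt (by decide)
          tr0_nodup).trans (by decide +kernel))
      · exact v2.trans ((inv2_eval sx0 tr0 sx0_lt tr0_lt sx0_nodup tr0_nodup).trans
          (by decide +kernel))
      · exact v3.trans ((inv2_eval sxRep293 tr0 (sxListOK_lt sxRep293_ok) tr0_lt (by decide)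
          tr0_nodup).trans (by decide +kernel))
      · exact v4.trans ((inv2_eval sxRep39 tr0 (sxListOK_lt sxRep39_ok) tr0_lt (by decide)
          tr0_nodup).trans (by decide +kernel)))
    (by decide) (by rw [ncard_trios]; decide)
  exact ⟨fun i => a • ![T1, T2, T3, T4] i, h1, h2, h3⟩

/-- The orbits of an octad stabiliser on the trios. -/
theorem octad_orbits_trios {a : Equiv.Perm GolayPt} (ha : a ∈ M24) :
    ∃ X : Fin 3 → Finset (Finset GolayPt), (∀ i, X i ∈ trios) ∧
      (∀ i, (MulAction.orbit ↥(MulAction.stabilizer M24 (a • setOf o0)) (X i)).ncard =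
        (![15, 420, 3360] : Fin 3 → ℕ) i) ∧
      ∀ x, x ∈ trios ↔
        ∃ i, x ∈ MulAction.orbit ↥(MulAction.stabilizer M24 (a • setOf o0)) (X i) := by
  obtain ⟨T1, hT1, l1, v1⟩ := swap_low_oct (x := setOf 5279)
    (setOf_mem_octads (by decide +kernel)) (m := 3) (n := 15)
    (oct_low trT0 trStab_gensIn (by decide) trStabGens_oct_3) (by norm_num)
  obtain ⟨T2, hT2, l2, v2⟩ := swap_low_oct (x := setOf 90318)
    (setOf_mem_octads (by decide +kernel)) (m := 84) (n := 420)
    (oct_low trT0 trStab_gensIn (by decide) trStabGens_oct_84) (by norm_num)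
  obtain ⟨T3, hT3, l3, v3⟩ := swap_low_oct (x := setOf 10558)
    (setOf_mem_octads (by decide +kernel)) (m := 672) (n := 3360)
    (oct_low trT0 trStab_gensIn (by decide) trStabGens_oct_672) (by norm_num)
  obtain ⟨h1, h2, h3, _⟩ := struct_orbits_inv ha (setOf o0) trios (Set.toFinite _)
    (fun g hg x hx => smul_mem_trios hg hx) ![T1, T2, T3] ![15, 420, 3360]
    (by intro i; fin_cases i <;> assumption)
    (by intro i; fin_cases i <;> assumption)
    (fun x => inv1 x (setOf o0)) (fun g _ hgA x => inv1_fix' hgA x) ![64, 32, 24]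
    (by
      intro i
      fin_cases i
      · exact v1.trans ((inv1_eval tr0 5279 tr0_lt (by decide) tr0_nodup).trans
          (by decide +kernel))
      · exact v2.trans ((inv1_eval tr0 90318 tr0_lt (by decide) tr0_nodup).trans
          (by decide +kernel))
      · exact v3.trans ((inv1_eval tr0 10558 tr0_lt (by decide) tr0_nodup).trans
          (by decide +kernel)))
    (by decide) (by rw [ncard_trios]; decide)
  exact ⟨fun i => a • ![T1, T2, T3] i, h1, h2, h3⟩

/-- S5610. -/
theorem octad_stab_orbits (o : Finset GolayPt) (ho : o ∈ octads) :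
    (∃ X₁ ∈ trios, ∃ X₂ ∈ trios, ∃ X₃ ∈ trios,
      (MulAction.orbit ↥(MulAction.stabilizer M24 o) X₁).ncard = 15 ∧
      (MulAction.orbit ↥(MulAction.stabilizer M24 o) X₂).ncard = 420 ∧
      (MulAction.orbit ↥(MulAction.stabilizer M24 o) X₃).ncard = 3360 ∧
      trios = MulAction.orbit ↥(MulAction.stabilizer M24 o) X₁ ∪
        MulAction.orbit ↥(MulAction.stabilizer M24 o) X₂ ∪
        MulAction.orbit ↥(MulAction.stabilizer M24 o) X₃) ∧
    (∃ Y₁ ∈ sextets, ∃ Y₂ ∈ sextets, ∃ Y₃ ∈ sextets,
      (MulAction.orbit ↥(MulAction.stabilizer M24 o) Y₁).ncard = 35 ∧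
      (MulAction.orbit ↥(MulAction.stabilizer M24 o) Y₂).ncard = 840 ∧
      (MulAction.orbit ↥(MulAction.stabilizer M24 o) Y₃).ncard = 896 ∧
      sextets = MulAction.orbit ↥(MulAction.stabilizer M24 o) Y₁ ∪
        MulAction.orbit ↥(MulAction.stabilizer M24 o) Y₂ ∪
        MulAction.orbit ↥(MulAction.stabilizer M24 o) Y₃) := by
  obtain ⟨a, ha, rfl⟩ := exists_smul_o0_eq ho
  constructor
  · obtain ⟨X, h1, h2, h3⟩ := octad_orbits_trios ha
    exact ⟨X 0, h1 0, X 1, h1 1, X 2, h1 2, h2 0, h2 1, h2 2, union3_of_cover h3⟩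
  · obtain ⟨h1, h2, h3, _⟩ := octad_orbits_sextets ha
    exact ⟨_, h1 0, _, h1 1, _, h1 2, h2 0, h2 1, h2 2, union3_of_cover h3⟩

/-- S5611. -/
theorem sextet_stab_orbits (S : Finset (Finset GolayPt)) (hS : S ∈ sextets) :
    (∃ X₁ ∈ octads, ∃ X₂ ∈ octads, ∃ X₃ ∈ octads,
      (MulAction.orbit ↥(MulAction.stabilizer M24 S) X₁).ncard = 15 ∧
      (MulAction.orbit ↥(MulAction.stabilizer M24 S) X₂).ncard = 360 ∧
      (MulAction.orbit ↥(MulAction.stabilizer M24 S) X₃).ncard = 384 ∧
      octads = MulAction.orbit ↥(MulAction.stabilizer M24 S) X₁ ∪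
        MulAction.orbit ↥(MulAction.stabilizer M24 S) X₂ ∪
        MulAction.orbit ↥(MulAction.stabilizer M24 S) X₃) ∧
    (∃ Y₁ ∈ trios, ∃ Y₂ ∈ trios, ∃ Y₃ ∈ trios, ∃ Y₄ ∈ trios,
      (MulAction.orbit ↥(MulAction.stabilizer M24 S) Y₁).ncard = 15 ∧
      (MulAction.orbit ↥(MulAction.stabilizer M24 S) Y₂).ncard = 180 ∧
      (MulAction.orbit ↥(MulAction.stabilizer M24 S) Y₃).ncard = 720 ∧
      (MulAction.orbit ↥(MulAction.stabilizer M24 S) Y₄).ncard = 2880 ∧
      trios = MulAction.orbit ↥(MulAction.stabilizer M24 S) Y₁ ∪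
        MulAction.orbit ↥(MulAction.stabilizer M24 S) Y₂ ∪
        MulAction.orbit ↥(MulAction.stabilizer M24 S) Y₃ ∪
        MulAction.orbit ↥(MulAction.stabilizer M24 S) Y₄) := by
  obtain ⟨a, ha, rfl⟩ := exists_smul_sxS0 hS
  constructor
  · obtain ⟨h1, h2, h3, _⟩ := sextet_orbits_octads ha
    exact ⟨_, h1 0, _, h1 1, _, h1 2, h2 0, h2 1, h2 2, union3_of_cover h3⟩
  · obtain ⟨X, h1, h2, h3⟩ := sextet_orbits_trios ha
    exact ⟨X 0, h1 0, X 1, h1 1, X 2, h1 2, X 3, h1 3, h2 0, h2 1, h2 2, h2 3,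
      union4_of_cover h3⟩

/-- S5612. -/
theorem trio_stab_orbits (T : Finset (Finset GolayPt)) (hT : T ∈ trios) :
    (∃ X₁ ∈ octads, ∃ X₂ ∈ octads, ∃ X₃ ∈ octads,
      (MulAction.orbit ↥(MulAction.stabilizer M24 T) X₁).ncard = 3 ∧
      (MulAction.orbit ↥(MulAction.stabilizer M24 T) X₂).ncard = 84 ∧
      (MulAction.orbit ↥(MulAction.stabilizer M24 T) X₃).ncard = 672 ∧
      octads = MulAction.orbit ↥(MulAction.stabilizer M24 T) X₁ ∪
        MulAction.orbit ↥(MulAction.stabilizer M24 T) X₂ ∪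
        MulAction.orbit ↥(MulAction.stabilizer M24 T) X₃) ∧
    (∃ Y₁ ∈ sextets, ∃ Y₂ ∈ sextets, ∃ Y₃ ∈ sextets, ∃ Y₄ ∈ sextets,
      (MulAction.orbit ↥(MulAction.stabilizer M24 T) Y₁).ncard = 7 ∧
      (MulAction.orbit ↥(MulAction.stabilizer M24 T) Y₂).ncard = 84 ∧
      (MulAction.orbit ↥(MulAction.stabilizer M24 T) Y₃).ncard = 336 ∧
      (MulAction.orbit ↥(MulAction.stabilizer M24 T) Y₄).ncard = 1344 ∧
      sextets = MulAction.orbit ↥(MulAction.stabilizer M24 T) Y₁ ∪
        MulAction.orbit ↥(MulAction.stabilizer M24 T) Y₂ ∪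
        MulAction.orbit ↥(MulAction.stabilizer M24 T) Y₃ ∪
        MulAction.orbit ↥(MulAction.stabilizer M24 T) Y₄) := by
  obtain ⟨a, ha, rfl⟩ := exists_smul_trT0 hT
  constructor
  · obtain ⟨h1, h2, h3, _⟩ := trio_orbits_octads ha
    exact ⟨_, h1 0, _, h1 1, _, h1 2, h2 0, h2 1, h2 2, union3_of_cover h3⟩
  · obtain ⟨h1, h2, h3, _⟩ := trio_orbits_sextets ha
    exact ⟨_, h1 0, _, h1 1, _, h1 2, _, h1 3, h2 0, h2 1, h2 2, h2 3, union4_of_cover h3⟩

/-- S5617. -/
theorem dodecad_pair_stab_orbits (d : Finset GolayPt) (hd : d ∈ dodecads) :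
    ∃ X₁ ∈ sextets, ∃ X₂ ∈ sextets, ∃ X₃ ∈ sextets,
      (MulAction.orbit ↥(MulAction.stabilizer M24
        ({d, Finset.univ \ d} : Finset (Finset GolayPt))) X₁).ncard = 396 ∧
      (MulAction.orbit ↥(MulAction.stabilizer M24
        ({d, Finset.univ \ d} : Finset (Finset GolayPt))) X₂).ncard = 495 ∧
      (MulAction.orbit ↥(MulAction.stabilizer M24
        ({d, Finset.univ \ d} : Finset (Finset GolayPt))) X₃).ncard = 880 ∧
      sextets = MulAction.orbit ↥(MulAction.stabilizer M24
          ({d, Finset.univ \ d} : Finset (Finset GolayPt))) X₁ ∪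
        MulAction.orbit ↥(MulAction.stabilizer M24
          ({d, Finset.univ \ d} : Finset (Finset GolayPt))) X₂ ∪
        MulAction.orbit ↥(MulAction.stabilizer M24
          ({d, Finset.univ \ d} : Finset (Finset GolayPt))) X₃ := by
  obtain ⟨a, ha, rfl⟩ := exists_smul_d0_eq hd
  have hc : setOf 16436384 = Finset.univ \ setOf d0 := by
    ext p
    have h : (16436384 : ℕ) = (2 ^ 24 - 1) ^^^ d0 := by decide
    rw [h, mem_setOf_compl, Finset.mem_sdiff]
    simp
  have key : ({a • setOf d0, Finset.univ \ a • setOf d0} : Finset (Finset GolayPt)) =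
      a • ddS0 := by
    have h1 : ddS0 = {setOf d0, Finset.univ \ setOf d0} := by
      rw [← hc]
      show ([setOf d0, setOf 16436384] : List (Finset GolayPt)).toFinset = _
      rw [List.toFinset_cons, List.toFinset_cons, List.toFinset_nil]
      rfl
    rw [h1, Finset.smul_finset_insert, Finset.smul_finset_singleton,
      ← Finset.compl_eq_univ_sdiff, ← Finset.compl_eq_univ_sdiff, smul_compl_finset]
  rw [key]
  obtain ⟨h1, h2, h3, _⟩ := dod_orbits_sextets ha
  exact ⟨_, h1 0, _, h1 1, _, h1 2, h2 0, h2 1, h2 2, union3_of_cover h3⟩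

theorem orbit_M24_sextet {S : Finset (Finset GolayPt)} (hS : S ∈ sextets) :
    MulAction.orbit M24 S = sextets := by
  ext S'
  constructor
  · rintro ⟨g, rfl⟩
    exact smul_mem_sextets g.2 hS
  · intro hS'
    obtain ⟨a, ha, rfl⟩ := exists_smul_sxS0 hS
    obtain ⟨a', ha', rfl⟩ := exists_smul_sxS0 hS'
    refine ⟨⟨a' * a⁻¹, M24.mul_mem ha' (M24.inv_mem ha)⟩, ?_⟩
    show (a' * a⁻¹) • a • sxS0 = a' • sxS0
    rw [mul_smul, inv_smul_smul]

/-- S1552. -/
theorem sextet_stab_suborbits (S : Finset (Finset GolayPt)) (hS : S ∈ sextets) :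
    ∃ X₁ ∈ sextets, ∃ X₂ ∈ sextets, ∃ X₃ ∈ sextets,
      (MulAction.orbit ↥(MulAction.stabilizer M24 S) X₁).ncard = 90 ∧
      (MulAction.orbit ↥(MulAction.stabilizer M24 S) X₂).ncard = 240 ∧
      (MulAction.orbit ↥(MulAction.stabilizer M24 S) X₃).ncard = 1440 ∧
      sextets = {S} ∪ MulAction.orbit ↥(MulAction.stabilizer M24 S) X₁ ∪
        MulAction.orbit ↥(MulAction.stabilizer M24 S) X₂ ∪
        MulAction.orbit ↥(MulAction.stabilizer M24 S) X₃ ∧
      IsCoatom (MulAction.stabilizer M24 S) := by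
  have hS' := hS
  obtain ⟨a, ha, rfl⟩ := exists_smul_sxS0 hS
  obtain ⟨h1, h2, h3, h4⟩ := sextet_orbits_sextets ha
  have h0 : MulAction.orbit ↥(MulAction.stabilizer M24 (a • sxS0)) (a • sxS0) = {a • sxS0} := by
    ext x
    rw [mem_orbit_stab_iff, Set.mem_singleton_iff]
    constructor
    · rintro ⟨g, hg, rfl⟩
      exact (mem_stabQ.mp hg).2
    · rintro rfl
      exact ⟨1, (stabQ _).one_mem, one_smul _ _⟩
  refine ⟨_, h1 1, _, h1 2, _, h1 3, h2 1, h2 2, h2 3, ?_, ?_⟩
  · have := union4_of_cover h3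
    rw [← h0]
    exact this
  · apply isCoatom_of_orbits (G := M24) (a • sxS0) _ ![1, 90, 240, 1440] rfl h2 _ h4
      ⟨1, by decide, by decide⟩ (by decide)
    intro x
    rw [orbit_M24_sextet hS']
    exact h3 x

end Cfsg.Agent.Lib.helper28
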