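import Cfsg.Agent.Lib.helper28.GolayOrbT

set_option autoImplicit false

namespace Cfsg.Agent.Lib.helper28

open Cfsg
open scoped Pointwise

theorem trStabGens_tri_1 :
    countDC (fun k => (orbitT trStabGens 6 16940424762527).testBit k) 17 0 = 1 := by
  decide +kernel

theorem trStabGens_tri_42 :
    countDC (fun k => (orbitT trStabGens 47 1515285519377).testBit k) 17 0 = 42 := by
  decide +kernel

theorem trStabGens_tri_56 :
    countDC (fun k => (orbitT trStabGens 61 1515286730289).testBit k) 17 0 = 56 := by
  decide +kernel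

theorem trStabGens_tri_1008 :
    countDC (fun k => (orbitT trStabGens 1013 177135097473).testBit k) 17 0 = 1008 := by
  decide +kernel

theorem trStabGens_tri_2688 :
    countDC (fun k => (orbitT trStabGens 2693 177134749185).testBit k) 17 0 = 2688 := by
  decide +kernel


/-- Representatives of the orbits of the stabiliser of the standard trio on the trios. -/
noncomputable def trReps : Fin 5 → Finset (Finset GolayPt) :=
  ![trioOf (setOf 5279) (setOf 1009728), trioOf (setOf 924689) (setOf 90318),
    trioOf (setOf 2135601) (setOf 90318), trioOf (setOf 1250945) (setOf 10558),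
    trioOf (setOf 902657) (setOf 10558)]

theorem trReps_zero : trReps 0 = trT0 := trT0_eq.symm

theorem trio_mem_of_masks {A B : ℕ} (hA : isOct A = true) (hB : isOct B = true)
    (hd : A &&& B = 0) : trioOf (setOf A) (setOf B) ∈ trios := by
  have aA : A < 2 ^ 24 := by
    unfold isOct at hA
    simp only [Bool.and_eq_true, decide_eq_true_eq] at hA
    exact hA.1.1
  have aB : B < 2 ^ 24 := by
    unfold isOct at hB
    simp only [Bool.and_eq_true, decide_eq_true_eq] at hB
    exact hB.1.1
  apply trioOf_mem_trios (setOf_mem_octads hA) (setOf_mem_octads hB)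
  rw [disjoint_iff_mask, maskS_setOf aA, maskS_setOf aB]
  exact hd

theorem inv2_trio {A B v : ℕ} (hA : A < 2 ^ 24) (hB : B < 2 ^ 24) (hd : A &&& B = 0)
    (hn : ([A, B, 16777215 ^^^ (A ^^^ B)] : List ℕ).Nodup)
    (hv : (tr0.map fun m => (([A, B, 16777215 ^^^ (A ^^^ B)] : List ℕ).map
      fun m' => pc (m &&& m') ^ 2).sum).sum = v) :
    inv2 trT0 (trioOf (setOf A) (setOf B)) = v := by
  have hdis : Disjoint (setOf A) (setOf B) := by
    rw [disjoint_iff_mask, maskS_setOf hA, maskS_setOf hB]
    exact hd
  rw [trioOf_eq_list hdis]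
  refine (inv2_eval tr0 _ tr0_lt ?_ tr0_nodup hn).trans hv
  intro m hm
  simp only [List.mem_cons, List.not_mem_nil, or_false] at hm
  rcases hm with rfl | rfl | rfl
  · exact hA
  · exact hB
  · exact Nat.xor_lt_two_pow (by norm_num) (Nat.xor_lt_two_pow hA hB)

/-- The orbits of a trio stabiliser on the trios. -/
theorem trio_orbits_trios {a : Equiv.Perm GolayPt} (ha : a ∈ M24) :
    (∀ i, a • trReps i ∈ trios) ∧
    (∀ i, (MulAction.orbit ↥(MulAction.stabilizer M24 (a • trT0)) (a • trReps i)).ncard =
        (![1, 42, 56, 1008, 2688] : Fin 5 → ℕ) i) ∧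
    (∀ x, x ∈ trios ↔ ∃ i, x ∈ MulAction.orbit ↥(MulAction.stabilizer M24 (a • trT0))
      (a • trReps i)) ∧
    ∀ i j, i ≠ j → a • trReps j ∉
      MulAction.orbit ↥(MulAction.stabilizer M24 (a • trT0)) (a • trReps i) := by
  apply struct_orbits_inv ha trT0 trios (Set.toFinite _)
    (fun g hg x hx => smul_mem_trios hg hx) _ _ _ _ (fun x => inv2 trT0 x)
    (fun g _ hgA x => inv2_fix hgA x) ![192, 128, 96, 80, 72]
  · intro i
    fin_cases i
    · exact inv2_trio (by decide) (by decide) (by decide) (by decide) (by decide +kernel)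
    · exact inv2_trio (by decide) (by decide) (by decide) (by decide) (by decide +kernel)
    · exact inv2_trio (by decide) (by decide) (by decide) (by decide) (by decide +kernel)
    · exact inv2_trio (by decide) (by decide) (by decide) (by decide) (by decide +kernel)
    · exact inv2_trio (by decide) (by decide) (by decide) (by decide) (by decide +kernel)
  · decide
  · rw [ncard_trios]; decide
  · intro i
    fin_cases i
    · exact trio_mem_of_masks (by decide +kernel) (by decide +kernel) (by decide)
    · exact trio_mem_of_masks (by decide +kernel) (by decide +kernel) (by decide)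
    · exact trio_mem_of_masks (by decide +kernel) (by decide +kernel) (by decide)
    · exact trio_mem_of_masks (by decide +kernel) (by decide +kernel) (by decide)
    · exact trio_mem_of_masks (by decide +kernel) (by decide +kernel) (by decide)
  · intro i
    fin_cases i
    · exact tr_low trT0 trStab_gensIn (by decide +kernel) (by decide +kernel) (by decide)
        (by decide) (by decide) (by decide) trStabGens_tri_1
    · exact tr_low trT0 trStab_gensIn (by decide +kernel) (by decide +kernel) (by decide)
        (by decide) (by decide) (by decide) trStabGens_tri_42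
    · exact tr_low trT0 trStab_gensIn (by decide +kernel) (by decide +kernel) (by decide)
        (by decide) (by decide) (by decide) trStabGens_tri_56
    · exact tr_low trT0 trStab_gensIn (by decide +kernel) (by decide +kernel) (by decide)
        (by decide) (by decide) (by decide) trStabGens_tri_1008
    · exact tr_low trT0 trStab_gensIn (by decide +kernel) (by decide +kernel) (by decide)
        (by decide) (by decide) (by decide) trStabGens_tri_2688

theorem orbit_M24_trio {T : Finset (Finset GolayPt)} (hT : T ∈ trios) :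
    MulAction.orbit M24 T = trios := by
  ext T'
  constructor
  · rintro ⟨g, rfl⟩
    exact smul_mem_trios g.2 hT
  · intro hT'
    obtain ⟨a, ha, rfl⟩ := exists_smul_trT0 hT
    obtain ⟨a', ha', rfl⟩ := exists_smul_trT0 hT'
    refine ⟨⟨a' * a⁻¹, M24.mul_mem ha' (M24.inv_mem ha)⟩, ?_⟩
    show (a' * a⁻¹) • a • trT0 = a' • trT0
    rw [mul_smul, inv_smul_smul]

/-- S1559. -/
theorem trio_stab_suborbits (T : Finset (Finset GolayPt)) (hT : T ∈ trios) :
    ∃ X₁ ∈ trios, ∃ X₂ ∈ trios, ∃ X₃ ∈ trios, ∃ X₄ ∈ trios,
      (MulAction.orbit ↥(MulAction.stabilizer M24 T) X₁).ncard = 42 ∧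
      (MulAction.orbit ↥(MulAction.stabilizer M24 T) X₂).ncard = 56 ∧
      (MulAction.orbit ↥(MulAction.stabilizer M24 T) X₃).ncard = 1008 ∧
      (MulAction.orbit ↥(MulAction.stabilizer M24 T) X₄).ncard = 2688 ∧
      trios = {T} ∪ MulAction.orbit ↥(MulAction.stabilizer M24 T) X₁ ∪
        MulAction.orbit ↥(MulAction.stabilizer M24 T) X₂ ∪
        MulAction.orbit ↥(MulAction.stabilizer M24 T) X₃ ∪
        MulAction.orbit ↥(MulAction.stabilizer M24 T) X₄ ∧
      IsCoatom (MulAction.stabilizer M24 T) := by
  have hT' := hT
  obtain ⟨a, ha, rfl⟩ := exists_smul_trT0 hT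
  obtain ⟨h1, h2, h3, h4⟩ := trio_orbits_trios ha
  have h0 : MulAction.orbit ↥(MulAction.stabilizer M24 (a • trT0)) (a • trReps 0) =
      {a • trT0} := by
    rw [trReps_zero]
    ext x
    rw [mem_orbit_stab_iff, Set.mem_singleton_iff]
    constructor
    · rintro ⟨g, hg, rfl⟩
      exact (mem_stabQ.mp hg).2
    · rintro rfl
      exact ⟨1, (stabQ _).one_mem, one_smul _ _⟩
  refine ⟨_, h1 1, _, h1 2, _, h1 3, _, h1 4, h2 1, h2 2, h2 3, h2 4, ?_, ?_⟩
  · have := union5_of_cover h3
    rw [← h0]
    exact this
  · apply isCoatom_of_orbits (G := M24) (a • trT0) (fun i => a • trReps i)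
      ![1, 42, 56, 1008, 2688] (by rw [trReps_zero]) h2 _ h4 ⟨1, by decide, by decide⟩
      (by decide)
    intro x
    rw [orbit_M24_trio hT']
    exact h3 x

end Cfsg.Agent.Lib.helper28
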