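import Cfsg.Agent.Lib.helper28.GolayLeaders

set_option autoImplicit false

namespace Cfsg.Agent.Lib.helper28

open Cfsg

namespace CodeAbs

open Finset

/-- Six words of weight 4 with pairwise disjoint supports cover the 24 coordinates. -/
theorem exists_mem_support_of_six {α : Type*} [Fintype α] [DecidableEq α]
    (hα : Fintype.card α = 24) (S : Set (α → ZMod 2)) (h6 : S.ncard = 6)
    (h4 : ∀ u ∈ S, hammingNorm u = 4 ∧ ∀ u' ∈ S, u ≠ u' → Disjoint (support₂ u) (support₂ u'))
    (p : α) : ∃ v ∈ S, p ∈ support₂ v := by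
  have hfin : S.Finite := Set.finite_of_ncard_ne_zero (by rw [h6]; norm_num)
  have hc : hfin.toFinset.card = 6 := by rw [← Set.ncard_eq_toFinset_card S hfin, h6]
  have hd : (hfin.toFinset : Set (α → ZMod 2)).PairwiseDisjoint support₂ := by
    intro u hu v hv hne
    rw [mem_coe, Set.Finite.mem_toFinset] at hu hv
    exact (h4 u hu).2 v hv hne
  have hU : hfin.toFinset.biUnion support₂ = univ := by
    apply eq_univ_of_card
    rw [card_biUnion hd, sum_congr rfl (fun u hu => by
      rw [Set.Finite.mem_toFinset] at hu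
      rw [← hammingNorm_eq, (h4 u hu).1] : ∀ u ∈ hfin.toFinset, (support₂ u).card = 4),
      sum_const, hc, hα]
    rfl
  have hp : p ∈ hfin.toFinset.biUnion support₂ := by rw [hU]; exact mem_univ p
  rw [mem_biUnion] at hp
  obtain ⟨v, hv, hpv⟩ := hp
  exact ⟨v, (Set.Finite.mem_toFinset hfin).mp hv, hpv⟩

end CodeAbs

/-- Restriction of a word to the 23 finite points. -/
def restr (w : GolayPt → ZMod 2) : ZMod 23 → ZMod 2 := fun x => w (some x)

/-- Extension of a word by zero at the extra point. -/
def extZ (u : ZMod 23 → ZMod 2) : GolayPt → ZMod 2 := fun p => p.elim 0 u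

theorem restr_extZ (u : ZMod 23 → ZMod 2) : restr (extZ u) = u := rfl

theorem hammingNorm_restr (v : GolayPt → ZMod 2) :
    hammingNorm v = hammingNorm (restr v) + (if v none ≠ 0 then 1 else 0) := by
  unfold hammingNorm
  rw [Finset.card_filter, Finset.card_filter, Fintype.sum_option, add_comm]
  rfl

theorem hammingNorm_restr_le (v : GolayPt → ZMod 2) : hammingNorm (restr v) ≤ hammingNorm v := by
  rw [hammingNorm_restr v]
  exact Nat.le_add_right _ _

theorem restr_sub_sub (u v : GolayPt → ZMod 2) : restr u - restr (v - u) = restr v := by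
  funext x
  show u (some x) - (v (some x) - u (some x)) = v (some x)
  generalize u (some x) = a
  generalize v (some x) = b
  revert a b
  decide

theorem hdist_eq {ι : Type*} [Fintype ι] (x y : ι → ZMod 2) :
    hammingDist x y = hammingNorm (x - y) := by
  simp_rw [hammingNorm, hammingDist, Pi.sub_apply, ne_eq, sub_eq_zero]

/-- S1637. -/
theorem punctured_perfect (u : ZMod 23 → ZMod 2) :
    ∃! c : ZMod 23 → ZMod 2,
      c ∈ {u : ZMod 23 → ZMod 2 | ∃ w ∈ golayCode, ∀ x : ZMod 23, u x = w (some x)} ∧
        hammingDist u c ≤ 3 := by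
  have hex : ∃ v : GolayPt → ZMod 2, v - extZ u ∈ golayCode ∧ hammingNorm (restr v) ≤ 3 := by
    rcases CodeAbs.coset_leaders card_golayPt golayCode Cfsg.Agent.S0358.card_code golay_min8
      (extZ u) with ⟨v, hv, hv3⟩ | ⟨h6, h4⟩
    · have hmem : v ∈ {w : GolayPt → ZMod 2 | w - extZ u ∈ golayCode ∧ hammingNorm w ≤ 4} := by
        rw [hv]; exact Set.mem_singleton v
      exact ⟨v, hmem.1, (hammingNorm_restr_le v).trans hv3⟩
    · obtain ⟨v, hvS, hnone⟩ := CodeAbs.exists_mem_support_of_six card_golayPt _ h6 h4 none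
      rw [CodeAbs.mem_support₂] at hnone
      have h1 := hammingNorm_restr v
      rw [(h4 v hvS).1, if_pos (by rw [hnone]; decide)] at h1
      exact ⟨v, hvS.1, by omega⟩
  obtain ⟨v, hvC, hv3⟩ := hex
  refine ⟨restr (v - extZ u), ⟨⟨v - extZ u, hvC, fun x => rfl⟩, ?_⟩, ?_⟩
  · rw [hdist_eq]
    have h := restr_sub_sub (extZ u) v
    rw [restr_extZ] at h
    rw [h]
    exact hv3
  · rintro c ⟨⟨w, hw, hcw⟩, hd⟩
    have hc : c = restr w := funext hcw
    have h1 : hammingDist c (restr (v - extZ u)) ≤ 6 := by
      have ht := hammingDist_triangle c u (restr (v - extZ u))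
      have h2 : hammingDist u (restr (v - extZ u)) ≤ 3 := by
        rw [hdist_eq]
        have h := restr_sub_sub (extZ u) v
        rw [restr_extZ] at h
        rw [h]
        exact hv3
      rw [hammingDist_comm c u] at ht
      omega
    rw [hdist_eq, hc] at h1
    have h3 : restr w - restr (v - extZ u) = restr (w - (v - extZ u)) := rfl
    rw [h3] at h1
    have h4 := hammingNorm_restr (w - (v - extZ u))
    have h5 : hammingNorm (w - (v - extZ u)) ≤ 7 := by
      rw [h4]
      split_ifs <;> omega
    have h6 : w - (v - extZ u) = 0 := by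
      by_contra hne
      have := golay_min8 _ (golayCode.sub_mem hw hvC) hne
      omega
    rw [hc, sub_eq_zero.mp h6]

end Cfsg.Agent.Lib.helper28
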