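import Cfsg.Agent.Lib.helper28.GolayPerfect
import Cfsg.Agent.Lib.helper28.GolayFast

set_option autoImplicit false

namespace Cfsg.Agent.Lib.helper28

open Cfsg

/-- Number of code words satisfying a condition on the mask. -/
theorem ncard_code_filter (Q : ℕ → Bool) :
    {w : GolayPt → ZMod 2 | w ∈ golayCode ∧ Q (maskW w) = true}.ncard =
      countLt (fun n => Q (cw n)) 4096 := by
  have hinj : Function.Injective maskW := by
    intro v w h
    rw [← wordOf_maskW v, ← wordOf_maskW w, h]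
  have himg : maskW '' {w : GolayPt → ZMod 2 | w ∈ golayCode ∧ Q (maskW w) = true} =
      (((Finset.range 4096).filter (fun n => Q (cw n) = true)).image cw : Finset ℕ) := by
    ext m
    simp only [Set.mem_image, Finset.coe_image, Finset.coe_filter, Finset.mem_range]
    constructor
    · rintro ⟨w, ⟨hw, hq⟩, rfl⟩
      obtain ⟨n, hn, h⟩ := exists_cw_of_mem hw
      exact ⟨n, ⟨hn, by rw [← h]; exact hq⟩, h.symm⟩
    · rintro ⟨n, ⟨hn, hq⟩, rfl⟩
      exact ⟨wordOf (cw n), ⟨wordOf_cw_mem n, by rw [maskW_wordOf (cw_lt hn)]; exact hq⟩,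
        maskW_wordOf (cw_lt hn)⟩
  rw [← Set.ncard_image_of_injective _ hinj, himg, Set.ncard_coe_finset,
    Finset.card_image_of_injOn, card_filter_range]
  intro a ha b hb h
  simp only [Finset.coe_filter, Finset.mem_range, Set.mem_ofPred_eq] at ha hb
  rw [← cw_shift ha.1, ← cw_shift hb.1, h]

theorem restr_injOn : Set.InjOn restr (golayCode : Set (GolayPt → ZMod 2)) := by
  intro w hw w' hw' h
  have h1 : restr (w - w') = 0 := by
    funext x
    have := congrFun h x
    show w (some x) - w' (some x) = 0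
    rw [sub_eq_zero]
    exact this
  have h2 := hammingNorm_restr (w - w')
  rw [h1, hammingNorm_zero] at h2
  by_contra hne
  have := golay_min8 _ (golayCode.sub_mem hw hw') (sub_ne_zero.mpr hne)
  split_ifs at h2 <;> omega

theorem hammingNorm_restr_le' (v : GolayPt → ZMod 2) :
    hammingNorm v ≤ hammingNorm (restr v) + 1 := by
  rw [hammingNorm_restr v]
  by_cases h : v none ≠ 0
  · rw [if_pos h]
  · rw [if_neg h]; omega

/-- The weight of the restriction, on masks. -/
def rwt (m : ℕ) : ℕ := Nat.sub (pcF m) (Nat.shiftRight m 23)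

theorem hammingNorm_restr_eq (w : GolayPt → ZMod 2) : hammingNorm (restr w) = rwt (maskW w) := by
  have h1 := hammingNorm_restr w
  have hlt := maskW_lt w
  have h2 : hammingNorm w = pcF (maskW w) := by
    rw [CodeAbs.hammingNorm_eq, card_eq_pc, maskW_eq_maskS, pcF_eq (by rw [← maskW_eq_maskS]; exact hlt)]
  have h3 : (maskW w).testBit 23 = decide (w none ≠ 0) := testBit_maskW_idx w none
  rw [Nat.testBit_eq_decide_div_mod_eq] at h3
  have h4 : rwt (maskW w) = pcF (maskW w) - maskW w / 2 ^ 23 := by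
    unfold rwt
    show pcF (maskW w) - maskW w >>> 23 = _
    rw [Nat.shiftRight_eq_div_pow]
  rw [h4, ← h2, h1]
  by_cases h : w none = 0
  · rw [if_neg (fun hh => hh h)]
    have h5 : ¬ maskW w / 2 ^ 23 % 2 = 1 := by
      intro h6
      rw [decide_eq_true h6] at h3
      exact (of_decide_eq_true h3.symm) h
    omega
  · rw [if_pos h]
    have h5 : maskW w / 2 ^ 23 % 2 = 1 := by
      by_contra h6
      rw [decide_eq_false h6] at h3
      exact (of_decide_eq_false h3.symm) h
    omega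

theorem punctured_eq :
    {u : ZMod 23 → ZMod 2 | ∃ w ∈ golayCode, ∀ x : ZMod 23, u x = w (some x)} =
      restr '' (golayCode : Set (GolayPt → ZMod 2)) := by
  ext u
  constructor
  · rintro ⟨w, hw, h⟩
    exact ⟨w, hw, (funext h).symm⟩
  · rintro ⟨w, hw, rfl⟩
    exact ⟨w, hw, fun x => rfl⟩

theorem punctured_count (k : ℕ) :
    {u : ZMod 23 → ZMod 2 | u ∈ {u : ZMod 23 → ZMod 2 | ∃ w ∈ golayCode,
        ∀ x : ZMod 23, u x = w (some x)} ∧ hammingNorm u = k}.ncard =
      countLt (fun n => rwt (cw n) == k) 4096 := by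
  rw [punctured_eq, ← ncard_code_filter (fun m => rwt m == k)]
  have himg : {u : ZMod 23 → ZMod 2 | u ∈ restr '' (golayCode : Set (GolayPt → ZMod 2)) ∧
      hammingNorm u = k} =
      restr '' {w : GolayPt → ZMod 2 | w ∈ golayCode ∧ (rwt (maskW w) == k) = true} := by
    ext u
    constructor
    · rintro ⟨⟨w, hw, rfl⟩, hk⟩
      refine ⟨w, ⟨hw, ?_⟩, rfl⟩
      rw [beq_iff_eq, ← hammingNorm_restr_eq]
      exact hk
    · rintro ⟨w, ⟨hw, hk⟩, rfl⟩
      refine ⟨⟨w, hw, rfl⟩, ?_⟩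
      rw [beq_iff_eq, ← hammingNorm_restr_eq] at hk
      exact hk
  rw [himg]
  exact (restr_injOn.mono (fun w hw => hw.1)).ncard_image

/-- S1636. -/
theorem punctured_weights :
    {u : ZMod 23 → ZMod 2 | ∃ w ∈ golayCode, ∀ x : ZMod 23, u x = w (some x)}.ncard = 4096 ∧
    {u : ZMod 23 → ZMod 2 | u ∈ {u : ZMod 23 → ZMod 2 | ∃ w ∈ golayCode,
      ∀ x : ZMod 23, u x = w (some x)} ∧ hammingNorm u = 7}.ncard = 253 ∧
    {u : ZMod 23 → ZMod 2 | u ∈ {u : ZMod 23 → ZMod 2 | ∃ w ∈ golayCode,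
      ∀ x : ZMod 23, u x = w (some x)} ∧ hammingNorm u = 8}.ncard = 506 ∧
    {u : ZMod 23 → ZMod 2 | u ∈ {u : ZMod 23 → ZMod 2 | ∃ w ∈ golayCode,
      ∀ x : ZMod 23, u x = w (some x)} ∧ hammingNorm u = 11}.ncard = 1288 ∧
    {u : ZMod 23 → ZMod 2 | u ∈ {u : ZMod 23 → ZMod 2 | ∃ w ∈ golayCode,
      ∀ x : ZMod 23, u x = w (some x)} ∧ hammingNorm u = 12}.ncard = 1288 ∧
    {u : ZMod 23 → ZMod 2 | u ∈ {u : ZMod 23 → ZMod 2 | ∃ w ∈ golayCode,
      ∀ x : ZMod 23, u x = w (some x)} ∧ hammingNorm u = 15}.ncard = 506 ∧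
    {u : ZMod 23 → ZMod 2 | u ∈ {u : ZMod 23 → ZMod 2 | ∃ w ∈ golayCode,
      ∀ x : ZMod 23, u x = w (some x)} ∧ hammingNorm u = 16}.ncard = 253 ∧
    ∀ u ∈ {u : ZMod 23 → ZMod 2 | ∃ w ∈ golayCode, ∀ x : ZMod 23, u x = w (some x)},
      u ≠ 0 → 7 ≤ hammingNorm u := by
  refine ⟨?_, ?_, ?_, ?_, ?_, ?_, ?_, ?_⟩
  · rw [punctured_eq, restr_injOn.ncard_image]
    exact Cfsg.Agent.S0358.card_code
  · rw [punctured_count]; decide +kernel
  · rw [punctured_count]; decide +kernel
  · rw [punctured_count]; decide +kernel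
  · rw [punctured_count]; decide +kernel
  · rw [punctured_count]; decide +kernel
  · rw [punctured_count]; decide +kernel
  · rintro u ⟨w, hw, h⟩ hne
    have hu : u = restr w := funext h
    have hw0 : w ≠ 0 := by
      intro h0
      apply hne
      rw [hu, h0]
      rfl
    have h8 := golay_min8 w hw hw0
    have h1 := hammingNorm_restr_le' w
    rw [hu]
    omega

end Cfsg.Agent.Lib.helper28
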