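import Cfsg.Agent.Lib.helper28.GolayFam
import Cfsg.Agent.Lib.helper28.GolayHexS6

set_option autoImplicit false

namespace Cfsg.Agent.Lib.helper28

open Cfsg
open scoped Pointwise

/-! Quartets of a dodecad. -/

def anyLt (p : ℕ → Bool) : ℕ → Bool
  | 0 => false
  | n + 1 => p n || anyLt p n

theorem anyLt_iff {p : ℕ → Bool} {n : ℕ} : anyLt p n = true ↔ ∃ k, k < n ∧ p k = true := by
  induction n with
  | zero => simp [anyLt]
  | succ n ih =>
    rw [anyLt, Bool.or_eq_true, ih]
    constructor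
    · rintro (h | ⟨k, hk, h⟩)
      · exact ⟨n, Nat.lt_succ_self n, h⟩
      · exact ⟨k, Nat.lt_succ_of_lt hk, h⟩
    · rintro ⟨k, hk, h⟩
      rcases Nat.lt_succ_iff_lt_or_eq.mp hk with hk' | rfl
      · exact Or.inr ⟨k, hk', h⟩
      · exact Or.inl h

/-- Test that the mask is that of a hexad on the standard dodecad. -/
def isHexB (X : ℕ) : Bool :=
  anyLt (fun n => Nat.beq (pcF (cwF n)) 8 && Nat.beq (Nat.land (cwF n) d0) X) 4096 &&
    Nat.beq (pcF X) 6

theorem hexad_of_isHexB {X : ℕ} (hX : X < 2 ^ 24) (h : isHexB X = true) :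
    setOf X ∈ hexadsOn (setOf d0) := by
  unfold isHexB at h
  rw [Bool.and_eq_true, anyLt_iff, natBeq_eq, beq_iff_eq] at h
  obtain ⟨⟨n, hn, hb⟩, h6⟩ := h
  rw [Bool.and_eq_true, natBeq_eq, natBeq_eq, beq_iff_eq, beq_iff_eq, cwF_eq hn,
    pcF_eq (cw_lt hn)] at hb
  have hoct : isOct (cw n) = true := by
    unfold isOct
    have h24 : cw n < 16777216 := cw_lt hn
    rw [isCW_cw hn, hb.1]
    simp [h24]
  refine ⟨?_, setOf (cw n), setOf_mem_octads hoct, ?_⟩
  · rw [card_setOf hX, ← pcF_eq hX]; exact h6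
  · rw [← setOf_and]
    exact congrArg setOf hb.2

theorem isHexB_of_hexad {X : ℕ} (hX : X < 2 ^ 24) (h : setOf X ∈ hexadsOn (setOf d0)) :
    isHexB X = true := by
  obtain ⟨hc, o, ho, hint⟩ := h
  obtain ⟨hcw, h8⟩ := (mem_octads_iff o).mp ho
  obtain ⟨n, hn, hon⟩ := (isCW_iff_exists (maskS_lt o)).mp hcw
  unfold isHexB
  rw [Bool.and_eq_true, anyLt_iff, natBeq_eq, beq_iff_eq]
  refine ⟨⟨n, hn, ?_⟩, ?_⟩
  · rw [Bool.and_eq_true, natBeq_eq, natBeq_eq, beq_iff_eq, beq_iff_eq, cwF_eq hn,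
      pcF_eq (cw_lt hn), ← hon]
    refine ⟨h8, ?_⟩
    show maskS o &&& d0 = X
    have h1 := maskS_inter o (setOf d0)
    rw [hint, maskS_setOf hX, maskS_setOf d0_lt] at h1
    exact h1.symm
  · rw [pcF_eq hX, ← card_setOf hX]; exact hc

/-- Test that a list of masks is a quartet of the standard dodecad. -/
def quartOK (l : List ℕ) : Bool :=
  Nat.beq l.length 4 && l.all (fun m => Nat.beq (pcF m) 3 && Nat.beq (Nat.land m d0) m) &&
    l.all (fun a => l.all (fun b => Nat.beq a b || isHexB (Nat.lor a b)))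

theorem quartOK_lt {l : List ℕ} (h : quartOK l = true) : ∀ m ∈ l, m < 2 ^ 24 := by
  unfold quartOK at h
  simp only [Bool.and_eq_true] at h
  intro m hm
  have h1 := List.all_eq_true.mp h.1.2 m hm
  rw [Bool.and_eq_true, natBeq_eq, natBeq_eq, beq_iff_eq, beq_iff_eq] at h1
  have h2 : m &&& d0 = m := h1.2
  have h3 : m &&& d0 ≤ d0 := Nat.and_le_right
  have := d0_lt
  omega

theorem quartet_of_masks {l : List ℕ} (hn : l.Nodup) (h : quartOK l = true) :
    fam l ∈ quartets (setOf d0) := by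
  have hlt := quartOK_lt h
  unfold quartOK at h
  simp only [Bool.and_eq_true] at h
  obtain ⟨⟨h4, h3⟩, hp⟩ := h
  rw [natBeq_eq, beq_iff_eq] at h4
  refine ⟨?_, ?_, ?_⟩
  · unfold fam
    rw [List.toFinset_card_of_nodup (nodup_map_setOf hlt hn), List.length_map, h4]
  · intro t ht
    unfold fam at ht
    rw [List.mem_toFinset, List.mem_map] at ht
    obtain ⟨m, hm, rfl⟩ := ht
    have h1 := List.all_eq_true.mp h3 m hm
    rw [Bool.and_eq_true, natBeq_eq, natBeq_eq, beq_iff_eq, beq_iff_eq] at h1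
    refine ⟨?_, ?_⟩
    · rw [card_setOf (hlt m hm), ← pcF_eq (hlt m hm)]; exact h1.1
    · have h2 : m &&& d0 = m := h1.2
      rw [← h2, setOf_and]
      exact Finset.inter_subset_right
  · intro t ht u hu hne
    unfold fam at ht hu
    rw [List.mem_toFinset, List.mem_map] at ht hu
    obtain ⟨a, ha, rfl⟩ := ht
    obtain ⟨b, hb, rfl⟩ := hu
    have h1 := List.all_eq_true.mp (List.all_eq_true.mp hp a ha) b hb
    rw [Bool.or_eq_true, natBeq_eq, beq_iff_eq] at h1
    rcases h1 with h1 | h1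
    · exact absurd (by rw [h1]) hne
    · rw [← setOf_or]
      exact hexad_of_isHexB (Nat.or_lt_two_pow (hlt a ha) (hlt b hb)) h1

/-- The reference quartet. -/
def qRef : List ℕ := [7, 4120, 8960, 327744]

theorem qRef_ok : quartOK qRef = true := by decide +kernel

theorem qRef_mem : fam qRef ∈ quartets (setOf d0) := quartet_of_masks (by decide) qRef_ok

theorem mem_fam_qRef (v : Finset GolayPt) :
    v ∈ fam qRef ↔ v = setOf 7 ∨ v = setOf 4120 ∨ v = setOf 8960 ∨ v = setOf 327744 := by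
  unfold fam qRef
  simp

/-- Scan predicate: a codeword whose trace on the dodecad is a hexad containing `7` and
missing `4120`, such that the complementary triple makes a hexad with `4120`, leaves only the
two remaining triples of the reference quartet. -/
def refP (n : ℕ) : Bool :=
  !(Nat.beq (pcF (cwF n)) 8 && (Nat.beq (pcF (Nat.land (cwF n) d0)) 6 &&
    (Nat.beq (Nat.land (Nat.land (cwF n) d0) 7) 7 &&
      (Nat.beq (Nat.land (Nat.land (cwF n) d0) 4120) 0 &&
        isHexB (Nat.lor (Nat.xor (Nat.land (cwF n) d0) 7) 4120))))) ||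
    (Nat.beq (Nat.xor (Nat.land (cwF n) d0) 7) 8960 ||
      Nat.beq (Nat.xor (Nat.land (cwF n) d0) 7) 327744)

theorem ref_scan : allLt refP 4096 = true := by decide +kernel

theorem ref_candidates {n : ℕ} (hn : n < 4096) (h8 : pc (cw n) = 8)
    (h6 : pc (cw n &&& d0) = 6) (h7 : (cw n &&& d0) &&& 7 = 7)
    (h0 : (cw n &&& d0) &&& 4120 = 0)
    (hh : isHexB (((cw n &&& d0) ^^^ 7) ||| 4120) = true) :
    (cw n &&& d0) ^^^ 7 = 8960 ∨ (cw n &&& d0) ^^^ 7 = 327744 := by
  have h := allLt_spec ref_scan n hn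
  unfold refP at h
  have hlt : cw n &&& d0 < 2 ^ 24 := lt_of_le_of_lt Nat.and_le_left (cw_lt hn)
  rw [cwF_eq hn, pcF_eq (cw_lt hn), show Nat.land (cw n) d0 = cw n &&& d0 from rfl,
    pcF_eq hlt] at h
  simp only [natBeq_eq, beq_iff_eq, Bool.or_eq_true, Bool.not_eq_true', Bool.and_eq_false_iff,
    beq_eq_false_iff_ne] at h
  rcases h with h | h
  · rcases h with h | h | h | h | h
    · exact absurd h8 h
    · exact absurd h6 h
    · exact absurd h7 h
    · exact absurd h0 h
    · rw [show Nat.lor (Nat.xor (cw n &&& d0) 7) 4120 = ((cw n &&& d0) ^^^ 7) ||| 4120 from rfl,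
        hh] at h
      exact absurd h (by simp)
  · exact h

theorem ref_bits : ∀ i, i < 24 → d0.testBit i = true → (7 : ℕ).testBit i = false →
    (4120 : ℕ).testBit i = false → (336704 : ℕ).testBit i = true := by
  decide

theorem disjoint_of_card_union {s t : Finset GolayPt} {a b : ℕ} (hs : s.card = a)
    (ht : t.card = b) (hu : (s ∪ t).card = a + b) : Disjoint s t := by
  rw [← Finset.card_union_eq_card_add_card, hu, hs, ht]

theorem quartet_ref_unique {Q : Finset (Finset GolayPt)} (hQ : Q ∈ quartets (setOf d0))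
    (h7 : setOf 7 ∈ Q) (h4120 : setOf 4120 ∈ Q) : Q = fam qRef := by
  have c7 : (setOf 7).card = 3 := by rw [card_setOf (by norm_num)]; decide
  have c4120 : (setOf 4120).card = 3 := by rw [card_setOf (by norm_num)]; decide
  have hd7 : Disjoint (setOf 7) (setOf 4120) := by
    rw [disjoint_iff_mask, maskS_setOf (by norm_num), maskS_setOf (by norm_num)]
    decide
  have key : ∀ v ∈ Q, v ≠ setOf 7 → v ≠ setOf 4120 → v = setOf 8960 ∨ v = setOf 327744 := by
    intro v hv h1 h2
    obtain ⟨hc, hsub⟩ := hQ.2.1 v hv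
    have hx1 := hQ.2.2 v hv (setOf 7) h7 h1
    have hx2 := hQ.2.2 v hv (setOf 4120) h4120 h2
    have d1 : Disjoint v (setOf 7) := disjoint_of_card_union hc c7 hx1.1
    have d2 : Disjoint v (setOf 4120) := disjoint_of_card_union hc c4120 hx2.1
    obtain ⟨hc6, o, ho, hint⟩ := hx1
    obtain ⟨hcw, h8⟩ := (mem_octads_iff o).mp ho
    obtain ⟨n, hn, hon⟩ := (isCW_iff_exists (maskS_lt o)).mp hcw
    have hX : cw n &&& d0 = maskS (v ∪ setOf 7) := by
      rw [← hint, maskS_inter, maskS_setOf d0_lt, hon]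
    have e6 : pc (cw n &&& d0) = 6 := by rw [hX, ← card_eq_pc]; exact hc6
    have e7 : (cw n &&& d0) &&& 7 = 7 := by
      have := maskS_inter (v ∪ setOf 7) (setOf 7)
      rw [Finset.union_inter_cancel_right, maskS_setOf (by norm_num)] at this
      rw [hX]; exact this.symm
    have e0 : (cw n &&& d0) &&& 4120 = 0 := by
      have := maskS_inter (v ∪ setOf 7) (setOf 4120)
      rw [Finset.union_inter_distrib_right, Finset.disjoint_iff_inter_eq_empty.mp d2,
        Finset.disjoint_iff_inter_eq_empty.mp hd7, Finset.union_empty, maskS_empty,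
        maskS_setOf (by norm_num)] at this
      rw [hX]; exact this.symm
    have ev : (cw n &&& d0) ^^^ 7 = maskS v := by
      have := maskS_symmDiff (v ∪ setOf 7) (setOf 7)
      rw [symmDiff_of_ge (Finset.subset_union_right : setOf 7 ≤ v ∪ setOf 7),
        Finset.union_sdiff_cancel_right d1, maskS_setOf (by norm_num)] at this
      rw [hX]; exact this.symm
    have ehex : isHexB (((cw n &&& d0) ^^^ 7) ||| 4120) = true := by
      rw [ev]
      apply isHexB_of_hexad (Nat.or_lt_two_pow (maskS_lt v) (by norm_num))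
      rw [setOf_or, setOf_maskS]
      exact hx2
    rcases ref_candidates hn (by rw [← hon]; exact h8) e6 e7 e0 ehex with h | h
    · left; rw [← setOf_maskS v, ← ev, h]
    · right; rw [← setOf_maskS v, ← ev, h]
  have hsub : Q ⊆ fam qRef := by
    intro v hv
    rw [mem_fam_qRef]
    by_cases h1 : v = setOf 7
    · exact Or.inl h1
    · by_cases h2 : v = setOf 4120
      · exact Or.inr (Or.inl h2)
      · exact Or.inr (Or.inr (key v hv h1 h2))
  exact Finset.eq_of_subset_of_card_le hsub (by rw [hQ.1, qRef_mem.1])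

/-! ### Equivariance -/

theorem smul_mem_hexadsOn {g : Equiv.Perm GolayPt} (hg : g ∈ M24) {d h : Finset GolayPt}
    (hh : h ∈ hexadsOn d) : g • h ∈ hexadsOn (g • d) := by
  obtain ⟨hc, o, ho, hint⟩ := hh
  exact ⟨by rw [Finset.card_smul_finset]; exact hc, g • o, smul_mem_octads hg ho,
    by rw [← Finset.smul_finset_inter, hint]⟩

theorem smul_mem_quartets {g : Equiv.Perm GolayPt} (hg : g ∈ M24) {d : Finset GolayPt}
    {Q : Finset (Finset GolayPt)} (hQ : Q ∈ quartets d) : g • Q ∈ quartets (g • d) := by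
  obtain ⟨hc, h3, hp⟩ := hQ
  refine ⟨by rw [Finset.card_smul_finset]; exact hc, ?_, ?_⟩
  · intro t ht
    obtain ⟨t', ht', rfl⟩ := Finset.mem_smul_finset.mp ht
    exact ⟨by rw [Finset.card_smul_finset]; exact (h3 t' ht').1,
      Finset.smul_finset_subset_smul_finset (h3 t' ht').2⟩
  · intro t ht u hu hne
    obtain ⟨t', ht', rfl⟩ := Finset.mem_smul_finset.mp ht
    obtain ⟨u', hu', rfl⟩ := Finset.mem_smul_finset.mp hu
    show g • t' ∪ g • u' ∈ hexadsOn (g • d)
    rw [← Finset.smul_finset_union]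
    exact smul_mem_hexadsOn hg (hp t' ht' u' hu' (fun h => hne (by rw [h])))

theorem smul_mem_quartets_iff {g : Equiv.Perm GolayPt} (hg : g ∈ M24) {d : Finset GolayPt}
    {Q : Finset (Finset GolayPt)} : g⁻¹ • Q ∈ quartets d ↔ Q ∈ quartets (g • d) := by
  constructor
  · intro h
    have := smul_mem_quartets hg h
    rwa [smul_inv_smul] at this
  · intro h
    have := smul_mem_quartets (M24.inv_mem hg) h
    rwa [inv_smul_smul] at this

theorem hexad_unique {d H1 H2 s : Finset GolayPt} (h1 : H1 ∈ hexadsOn d) (h2 : H2 ∈ hexadsOn d)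
    (hs : 5 ≤ s.card) (hs1 : s ⊆ H1) (hs2 : s ⊆ H2) : H1 = H2 := by
  obtain ⟨_, o1, ho1, rfl⟩ := h1
  obtain ⟨_, o2, ho2, rfl⟩ := h2
  obtain ⟨s', hs', hc⟩ := Finset.exists_subset_card_eq hs
  obtain ⟨o, _, huniq⟩ := octads_isSteinerSystem.2 s' hc
  have e1 := huniq o1 ⟨ho1, (hs'.trans hs1).trans Finset.inter_subset_left⟩
  have e2 := huniq o2 ⟨ho2, (hs'.trans hs2).trans Finset.inter_subset_left⟩
  rw [e1, e2]

theorem setOf_7 : setOf 7 = {pt 0, pt 1, pt 2} := by decide

theorem setOf_4120 : setOf 4120 = {pt 3, pt 4, pt 12} := by decide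

theorem hex_4127 : setOf 7 ∪ setOf 4120 ∈ hexadsOn (setOf d0) := by
  rw [← setOf_or]
  exact hexad_of_isHexB (by decide) (by decide +kernel)

/-- Two disjoint triples of a dodecad whose union is a hexad are the image of the reference
pair. -/
theorem exists_map_ref {d : Finset GolayPt} (hd : d ∈ dodecads) {t u : Finset GolayPt}
    (ht : t.card = 3) (hu : u.card = 3) (htu : Disjoint t u) (hh : t ∪ u ∈ hexadsOn d) :
    ∃ g ∈ M24, g • setOf d0 = d ∧ g • setOf 7 = t ∧ g • setOf 4120 = u := by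
  obtain ⟨a, ha, had⟩ := exists_smul_d0_eq hd
  have hsubd : t ∪ u ⊆ d := by
    obtain ⟨_, o, _, hint⟩ := hh
    rw [← hint]
    exact Finset.inter_subset_right
  obtain ⟨p1, p2, p3, h12, h13, h23, rfl⟩ := Finset.card_eq_three.mp ht
  obtain ⟨q1, q2, q3, k12, k13, k23, rfl⟩ := Finset.card_eq_three.mp hu
  have hp1 : p1 ∈ d := hsubd (by simp)
  have hp2 : p2 ∈ d := hsubd (by simp)
  have hp3 : p3 ∈ d := hsubd (by simp)
  have hq1 : q1 ∈ d := hsubd (by simp)
  have hq2 : q2 ∈ d := hsubd (by simp)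
  have hdis : ∀ p ∈ ({p1, p2, p3} : Finset GolayPt), ∀ q ∈ ({q1, q2, q3} : Finset GolayPt),
      p ≠ q := fun p hp q hq h => Finset.disjoint_left.mp htu hp (h ▸ hq)
  have ny : ([p1, p2, p3, q1, q2] : List GolayPt).Nodup := by
    have e1 := hdis p1 (by simp) q1 (by simp)
    have e2 := hdis p1 (by simp) q2 (by simp)
    have e3 := hdis p2 (by simp) q1 (by simp)
    have e4 := hdis p2 (by simp) q2 (by simp)
    have e5 := hdis p3 (by simp) q1 (by simp)
    have e6 := hdis p3 (by simp) q2 (by simp)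
    simp only [List.nodup_cons, List.mem_cons, List.not_mem_nil, or_false, not_or,
      List.nodup_nil, and_true, not_false_eq_true]
    exact ⟨⟨h12, h13, e1, e2⟩, ⟨h23, e3, e4⟩, ⟨e5, e6⟩, k12⟩
  have nx : ([a (pt 0), a (pt 1), a (pt 2), a (pt 3), a (pt 4)] : List GolayPt).Nodup := by
    have h0 : ([pt 0, pt 1, pt 2, pt 3, pt 4] : List GolayPt).Nodup := by decide
    exact List.Nodup.map a.injective h0
  have hx : ∀ z ∈ ([a (pt 0), a (pt 1), a (pt 2), a (pt 3), a (pt 4)] : List GolayPt),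
      z ∈ d := by
    have h0 : ∀ i, i < 5 → pt i ∈ setOf d0 := by decide
    intro z hz
    simp only [List.mem_cons, List.not_mem_nil, or_false] at hz
    rw [← had]
    rcases hz with rfl | rfl | rfl | rfl | rfl
    · exact (mem_smul_iff _ _ _).mpr (by rw [Equiv.Perm.inv_def, Equiv.symm_apply_apply]; exact h0 0 (by norm_num))
    · exact (mem_smul_iff _ _ _).mpr (by rw [Equiv.Perm.inv_def, Equiv.symm_apply_apply]; exact h0 1 (by norm_num))
    · exact (mem_smul_iff _ _ _).mpr (by rw [Equiv.Perm.inv_def, Equiv.symm_apply_apply]; exact h0 2 (by norm_num))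
    · exact (mem_smul_iff _ _ _).mpr (by rw [Equiv.Perm.inv_def, Equiv.symm_apply_apply]; exact h0 3 (by norm_num))
    · exact (mem_smul_iff _ _ _).mpr (by rw [Equiv.Perm.inv_def, Equiv.symm_apply_apply]; exact h0 4 (by norm_num))
  have hy : ∀ z ∈ ([p1, p2, p3, q1, q2] : List GolayPt), z ∈ d := by
    intro z hz
    simp only [List.mem_cons, List.not_mem_nil, or_false] at hz
    rcases hz with rfl | rfl | rfl | rfl | rfl <;> assumption
  obtain ⟨g, hg, hgd, hmap, -⟩ := m12_sharp hd
    (⟨([a (pt 0), a (pt 1), a (pt 2), a (pt 3), a (pt 4)] : List GolayPt).get,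
      List.nodup_iff_injective_get.mp nx⟩ : Fin 5 ↪ GolayPt)
    (⟨([p1, p2, p3, q1, q2] : List GolayPt).get, List.nodup_iff_injective_get.mp ny⟩ :
      Fin 5 ↪ GolayPt)
    (fun i => hx _ (List.get_mem _ _)) (fun i => hy _ (List.get_mem _ _))
  have m0 : g (a (pt 0)) = p1 := hmap 0
  have m1 : g (a (pt 1)) = p2 := hmap 1
  have m2 : g (a (pt 2)) = p3 := hmap 2
  have m3 : g (a (pt 3)) = q1 := hmap 3
  have m4 : g (a (pt 4)) = q2 := hmap 4
  have hga : g * a ∈ M24 := M24.mul_mem hg ha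
  have e7 : (g * a) • setOf 7 = ({p1, p2, p3} : Finset GolayPt) := by
    rw [setOf_7, Finset.smul_finset_insert, Finset.smul_finset_insert,
      Finset.smul_finset_singleton]
    show ({g (a (pt 0)), g (a (pt 1)), g (a (pt 2))} : Finset GolayPt) = _
    rw [m0, m1, m2]
  refine ⟨g * a, hga, by rw [mul_smul, had, hgd], e7, ?_⟩
  have hH : (g * a) • (setOf 7 ∪ setOf 4120) ∈ hexadsOn d := by
    have := smul_mem_hexadsOn hga hex_4127
    rwa [mul_smul g a (setOf d0), had, hgd] at this
  have hfive : ({p1, p2, p3, q1, q2} : Finset GolayPt).card = 5 := by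
    have hrw : ({p1, p2, p3, q1, q2} : Finset GolayPt) =
        ([p1, p2, p3, q1, q2] : List GolayPt).toFinset := by
      ext z; simp
    rw [hrw, List.toFinset_card_of_nodup ny]
    rfl
  have hsub1 : ({p1, p2, p3, q1, q2} : Finset GolayPt) ⊆ (g * a) • (setOf 7 ∪ setOf 4120) := by
    rw [Finset.smul_finset_union, e7, setOf_4120, Finset.smul_finset_insert,
      Finset.smul_finset_insert, Finset.smul_finset_singleton]
    show _ ⊆ ({p1, p2, p3} : Finset GolayPt) ∪ {g (a (pt 3)), g (a (pt 4)), g (a (pt 12))}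
    rw [m3, m4]
    intro z hz
    simp only [Finset.mem_insert, Finset.mem_singleton, Finset.mem_union] at hz ⊢
    tauto
  have hsub2 : ({p1, p2, p3, q1, q2} : Finset GolayPt) ⊆
      ({p1, p2, p3} : Finset GolayPt) ∪ {q1, q2, q3} := by
    intro z hz
    simp only [Finset.mem_insert, Finset.mem_singleton, Finset.mem_union] at hz ⊢
    tauto
  have heq := hexad_unique hH hh (by rw [hfive]) hsub1 hsub2
  rw [Finset.smul_finset_union, e7] at heq
  have hd7 : Disjoint (setOf 7) (setOf 4120) := by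
    rw [disjoint_iff_mask, maskS_setOf (by norm_num), maskS_setOf (by norm_num)]
    decide
  have hdis' : Disjoint ((g * a) • setOf 4120) ({p1, p2, p3} : Finset GolayPt) := by
    rw [← e7, Finset.disjoint_iff_inter_eq_empty, ← Finset.smul_finset_inter,
      Finset.smul_finset_eq_empty, ← Finset.disjoint_iff_inter_eq_empty]
    exact hd7.symm
  apply Finset.eq_of_subset_of_card_le
  · intro z hz
    have hz' : z ∈ ({p1, p2, p3} : Finset GolayPt) ∪ {q1, q2, q3} := by
      rw [← heq]
      exact Finset.mem_union_right _ hz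
    rcases Finset.mem_union.mp hz' with h | h
    · exact absurd h (fun h' => Finset.disjoint_left.mp hdis' hz h')
    · exact h
  · rw [Finset.card_smul_finset, card_setOf (by norm_num), hu]
    decide

/-- Every quartet of the standard dodecad is an image of the reference quartet. -/
theorem quartet_eq_smul {Q : Finset (Finset GolayPt)} (hQ : Q ∈ quartets (setOf d0)) :
    ∃ g ∈ M24, g • setOf d0 = setOf d0 ∧ g • fam qRef = Q := by
  obtain ⟨t, ht⟩ := Finset.card_pos.mp (by rw [hQ.1]; norm_num : 0 < Q.card)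
  have c1 : (Q.erase t).card = 3 := by rw [Finset.card_erase_of_mem ht, hQ.1]
  obtain ⟨u, hu⟩ := Finset.card_pos.mp (by rw [c1]; norm_num : 0 < (Q.erase t).card)
  rw [Finset.mem_erase] at hu
  have hh := hQ.2.2 t ht u hu.2 (Ne.symm hu.1)
  have hd : Disjoint t u := disjoint_of_card_union (hQ.2.1 t ht).1 (hQ.2.1 u hu.2).1 hh.1
  obtain ⟨g, hg, hgd, hgt, hgu⟩ := exists_map_ref setOf_d0_mem_dodecads (hQ.2.1 t ht).1
    (hQ.2.1 u hu.2).1 hd hh
  refine ⟨g, hg, hgd, ?_⟩
  have h1 : g⁻¹ • Q ∈ quartets (setOf d0) := by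
    rw [smul_mem_quartets_iff hg, hgd]
    exact hQ
  have h2 : setOf 7 ∈ g⁻¹ • Q := by
    rw [Finset.mem_inv_smul_finset_iff, hgt]
    exact ht
  have h3 : setOf 4120 ∈ g⁻¹ • Q := by
    rw [Finset.mem_inv_smul_finset_iff, hgu]
    exact hu.2
  have := quartet_ref_unique h1 h2 h3
  rw [← this, smul_inv_smul]

end Cfsg.Agent.Lib.helper28
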