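import Cfsg.Agent.Lib.helper28.GolayQuart2
import Cfsg.Agent.Lib.helper28.GolayHexS6
import Cfsg.Agent.Lib.helper28.AutGL

set_option autoImplicit false

namespace Cfsg.Agent.Lib.helper28

open Cfsg
open scoped Pointwise

/-! Structure of the stabiliser of a quartet in the stabiliser of a dodecad. -/

theorem quartet_disjoint {d : Finset GolayPt} {Q : Finset (Finset GolayPt)} (hQ : Q ∈ quartets d)
    {t u : Finset GolayPt} (ht : t ∈ Q) (hu : u ∈ Q) (hne : t ≠ u) : Disjoint t u := by
  have h6 := (hQ.2.2 t ht u hu hne).1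
  have h3t := (hQ.2.1 t ht).1
  have h3u := (hQ.2.1 u hu).1
  rw [← Finset.card_union_eq_card_add_card]
  omega

theorem quartet_cover {d : Finset GolayPt} (hd : d ∈ dodecads) {Q : Finset (Finset GolayPt)}
    (hQ : Q ∈ quartets d) {p : GolayPt} (hp : p ∈ d) : ∃ t ∈ Q, p ∈ t := by
  have hdis : (Q : Set (Finset GolayPt)).PairwiseDisjoint id := by
    intro t ht u hu hne
    exact quartet_disjoint hQ ht hu hne
  have hc : (Q.biUnion id).card = 12 := by
    rw [Finset.card_biUnion hdis]
    have : ∀ t ∈ Q, (id t).card = 3 := fun t ht => (hQ.2.1 t ht).1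
    rw [Finset.sum_congr rfl this, Finset.sum_const, hQ.1]
    rfl
  have hsub : Q.biUnion id ⊆ d := by
    intro x hx
    obtain ⟨t, ht, hxt⟩ := Finset.mem_biUnion.mp hx
    exact (hQ.2.1 t ht).2 hxt
  have heq := Finset.eq_of_subset_of_card_le hsub (by rw [hc, hd.2])
  rw [← heq] at hp
  obtain ⟨t, ht, hpt⟩ := Finset.mem_biUnion.mp hp
  exact ⟨t, ht, hpt⟩

theorem sq_fix_two {g : Equiv.Perm GolayPt} {s : Finset GolayPt} (hs : s.card = 2)
    (hgs : g • s = s) : ∀ x ∈ s, g (g x) = x := by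
  obtain ⟨c, c', hcc', rfl⟩ := Finset.card_eq_two.mp hs
  have h1 := (apply_mem_iff_of_smul_eq hgs c).mpr (Finset.mem_insert_self _ _)
  have h2 := (apply_mem_iff_of_smul_eq hgs c').mpr
    (Finset.mem_insert_of_mem (Finset.mem_singleton_self _))
  rw [Finset.mem_insert, Finset.mem_singleton] at h1 h2
  have hne : g c ≠ g c' := fun h => hcc' (g.injective h)
  intro x hx
  rw [Finset.mem_insert, Finset.mem_singleton] at hx
  rcases h1 with h1 | h1 <;> rcases h2 with h2 | h2
  · exact absurd (h1.trans h2.symm) hne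
  · rcases hx with rfl | rfl
    · rw [h1, h1]
    · rw [h2, h2]
  · rcases hx with rfl | rfl
    · rw [h1, h2]
    · rw [h2, h1]
  · exact absurd (h1.trans h2.symm) hne

theorem invol_fix_three {g : Equiv.Perm GolayPt} (hg2 : ∀ x, g (g x) = x) {t : Finset GolayPt}
    (ht : t.card = 3) (hgt : g • t = t) : ∃ x ∈ t, g x = x := by
  obtain ⟨x, y, z, hxy, hxz, hyz, rfl⟩ := Finset.card_eq_three.mp ht
  have mx : x ∈ ({x, y, z} : Finset GolayPt) := by simp
  have my : y ∈ ({x, y, z} : Finset GolayPt) := by simp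
  have mz : z ∈ ({x, y, z} : Finset GolayPt) := by simp
  have h1 := (apply_mem_iff_of_smul_eq hgt x).mpr mx
  have h2 := (apply_mem_iff_of_smul_eq hgt y).mpr my
  have h3 := (apply_mem_iff_of_smul_eq hgt z).mpr mz
  rw [Finset.mem_insert, Finset.mem_insert, Finset.mem_singleton] at h1 h2 h3
  rcases h1 with h1 | h1 | h1
  · exact ⟨x, mx, h1⟩
  · have hy : g y = x := by rw [← h1, hg2]
    refine ⟨z, mz, ?_⟩
    rcases h3 with h3 | h3 | h3
    · exact absurd (g.injective (h3.trans hy.symm)) (Ne.symm hyz)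
    · exact absurd (g.injective (h3.trans h1.symm)) (Ne.symm hxz)
    · exact h3
  · have hz : g z = x := by rw [← h1, hg2]
    refine ⟨y, my, ?_⟩
    rcases h2 with h2 | h2 | h2
    · exact absurd (g.injective (h2.trans hz.symm)) hyz
    · exact h2
    · exact absurd (g.injective (h2.trans h1.symm)) (Ne.symm hxy)

theorem three_cycle_orbit {g : Equiv.Perm GolayPt} (hg3 : ∀ x, g (g (g x)) = x)
    {t : Finset GolayPt} (ht : t.card = 3) (hgt : g • t = t) (hmove : ∀ x ∈ t, g x ≠ x)
    {a : GolayPt} (ha : a ∈ t) : ∀ x ∈ t, x = a ∨ x = g a ∨ x = g (g a) := by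
  have h1 : g a ∈ t := (apply_mem_iff_of_smul_eq hgt a).mpr ha
  have h2 : g (g a) ∈ t := (apply_mem_iff_of_smul_eq hgt (g a)).mpr h1
  have n1 : a ≠ g a := Ne.symm (hmove a ha)
  have n2 : g a ≠ g (g a) := Ne.symm (hmove (g a) h1)
  have n3 : a ≠ g (g a) := by
    intro h
    have h4 := hg3 a
    rw [← h] at h4
    exact n1 h4.symm
  have hsub : ({a, g a, g (g a)} : Finset GolayPt) ⊆ t := by
    intro x hx
    rw [Finset.mem_insert, Finset.mem_insert, Finset.mem_singleton] at hx
    rcases hx with rfl | rfl | rfl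
    · exact ha
    · exact h1
    · exact h2
  have hc : ({a, g a, g (g a)} : Finset GolayPt).card = 3 :=
    Finset.card_eq_three.mpr ⟨a, g a, g (g a), n1, n3, n2, rfl⟩
  have heq := Finset.eq_of_subset_of_card_le hsub (by rw [hc, ht])
  intro x hx
  rw [← heq, Finset.mem_insert, Finset.mem_insert, Finset.mem_singleton] at hx
  exact hx

/-- An element of the group of the code fixing a dodecad, each triple of a quartet, all points of
one triple and a point of another triple is the identity. -/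
theorem quartet_rigid {d : Finset GolayPt} (hd : d ∈ dodecads) {Q : Finset (Finset GolayPt)}
    (hQ : Q ∈ quartets d) {g : Equiv.Perm GolayPt} (hg : g ∈ M24) (hgd : g • d = d)
    (hgQ : ∀ t ∈ Q, g • t = t) {t1 t2 : Finset GolayPt} (ht1 : t1 ∈ Q) (ht2 : t2 ∈ Q)
    (hne : t1 ≠ t2) (hfix1 : ∀ x ∈ t1, g x = x) {b : GolayPt} (hb : b ∈ t2) (hgb : g b = b) :
    g = 1 := by
  have hdis := quartet_disjoint hQ ht1 ht2 hne
  have h2c : (t2 \ {b}).card = 2 := by
    rw [Finset.card_sdiff_of_subset (Finset.singleton_subset_iff.mpr hb), (hQ.2.1 t2 ht2).1,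
      Finset.card_singleton]
  have h2s : g • (t2 \ {b}) = t2 \ {b} := by
    rw [Finset.smul_finset_sdiff, hgQ t2 ht2, Finset.smul_finset_singleton]
    congr 2
  have hsq : ∀ x ∈ t1 ∪ t2, (g * g) x = x := by
    intro x hx
    show g (g x) = x
    rcases Finset.mem_union.mp hx with hx | hx
    · rw [hfix1 x hx, hfix1 x hx]
    · by_cases hxb : x = b
      · rw [hxb, hgb, hgb]
      · exact sq_fix_two h2c h2s x (Finset.mem_sdiff.mpr ⟨hx, by simpa using hxb⟩)
  have hgg : g * g = 1 := by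
    apply m12_eq_one_of_fix hd (t1 ∪ t2) ?_ ?_ (g * g) (M24.mul_mem hg hg)
      (by rw [mul_smul, hgd, hgd]) hsq
    · rw [Finset.card_union_of_disjoint hdis, (hQ.2.1 t1 ht1).1, (hQ.2.1 t2 ht2).1]
      norm_num
    · exact Finset.union_subset (hQ.2.1 t1 ht1).2 (hQ.2.1 t2 ht2).2
  have hinv : ∀ x, g (g x) = x := fun x => by
    have := congrArg (fun e : Equiv.Perm GolayPt => e x) hgg
    exact this
  have h1 : (Q.erase t1).card = 3 := by rw [Finset.card_erase_of_mem ht1, hQ.1]
  have h2 : ((Q.erase t1).erase t2).card = 2 := by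
    rw [Finset.card_erase_of_mem (Finset.mem_erase.mpr ⟨hne.symm, ht2⟩), h1]
  obtain ⟨t3, ht3⟩ := Finset.card_pos.mp (by rw [h2]; norm_num : 0 < ((Q.erase t1).erase t2).card)
  rw [Finset.mem_erase, Finset.mem_erase] at ht3
  obtain ⟨h32, h31, ht3Q⟩ := ht3
  obtain ⟨x3, hx3, hgx3⟩ := invol_fix_three hinv (hQ.2.1 t3 ht3Q).1 (hgQ t3 ht3Q)
  have hb1 : b ∉ t1 := fun h => (Finset.disjoint_left.mp hdis h) hb
  have hx31 : x3 ∉ t1 := fun h =>
    (Finset.disjoint_left.mp (quartet_disjoint hQ ht1 ht3Q (Ne.symm h31)) h) hx3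
  have hx3b : x3 ≠ b := by
    rintro rfl
    exact (Finset.disjoint_left.mp (quartet_disjoint hQ ht2 ht3Q (Ne.symm h32)) hb) hx3
  apply m12_eq_one_of_fix hd (insert x3 (insert b t1)) ?_ ?_ g hg hgd
  · intro x hx
    rw [Finset.mem_insert, Finset.mem_insert] at hx
    rcases hx with rfl | rfl | hx
    · exact hgx3
    · exact hgb
    · exact hfix1 x hx
  · rw [Finset.card_insert_of_notMem, Finset.card_insert_of_notMem hb1, (hQ.2.1 t1 ht1).1]
    rw [Finset.mem_insert]
    rintro (h | h)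
    · exact hx3b h
    · exact hx31 h
  · intro x hx
    rw [Finset.mem_insert, Finset.mem_insert] at hx
    rcases hx with rfl | rfl | hx
    · exact (hQ.2.1 t3 ht3Q).2 hx3
    · exact (hQ.2.1 t2 ht2).2 hb
    · exact (hQ.2.1 t1 ht1).2 hx

/-- The action of a group on the members of an invariant family. -/
def famAct {Γ : Type*} [Group Γ] (f : Γ →* Equiv.Perm GolayPt) (S : Finset (Finset GolayPt))
    (h : ∀ g : Γ, f g • S = S) : Γ →* Equiv.Perm ↥S where
  toFun g :=
    { toFun := fun t => ⟨f g • t.1, by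
        have := Finset.smul_mem_smul_finset (a := f g) t.2
        rw [h g] at this
        exact this⟩
      invFun := fun t => ⟨(f g)⁻¹ • t.1, by
        have h' : (f g)⁻¹ • S = S := inv_smul_eq_iff.mpr (h g).symm
        have := Finset.smul_mem_smul_finset (a := (f g)⁻¹) t.2
        rw [h'] at this
        exact this⟩
      left_inv := fun t => Subtype.ext (inv_smul_smul _ _)
      right_inv := fun t => Subtype.ext (smul_inv_smul _ _) }
  map_one' := by
    apply Equiv.ext
    intro t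
    apply Subtype.ext
    show f 1 • t.1 = t.1
    rw [map_one, one_smul]
  map_mul' := fun a b => by
    apply Equiv.ext
    intro t
    apply Subtype.ext
    show f (a * b) • t.1 = f a • f b • t.1
    rw [map_mul, mul_smul]

theorem famAct_apply {Γ : Type*} [Group Γ] (f : Γ →* Equiv.Perm GolayPt)
    (S : Finset (Finset GolayPt)) (h : ∀ g : Γ, f g • S = S) (g : Γ) (t : ↥S) :
    ((famAct f S h g t : ↥S) : Finset GolayPt) = f g • t.1 := rfl

theorem mem_ker_famAct {Γ : Type*} [Group Γ] (f : Γ →* Equiv.Perm GolayPt)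
    (S : Finset (Finset GolayPt)) (h : ∀ g : Γ, f g • S = S) (g : Γ) :
    g ∈ (famAct f S h).ker ↔ ∀ t ∈ S, f g • t = t := by
  rw [MonoidHom.mem_ker]
  constructor
  · intro hg t ht
    have := congrArg (fun e : Equiv.Perm ↥S => ((e ⟨t, ht⟩ : ↥S) : Finset GolayPt)) hg
    exact this
  · intro hg
    apply Equiv.ext
    intro t
    apply Subtype.ext
    exact hg t.1 t.2

set_option maxHeartbeats 1000000 in
/-- Abstract form of the structure of a quartet stabiliser. -/
theorem quartet_group_structure {Γ : Type*} [Group Γ] [Finite Γ] (f : Γ →* Equiv.Perm GolayPt)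
    (hf : Function.Injective f) {d : Finset GolayPt} (hd : d ∈ dodecads)
    {Q : Finset (Finset GolayPt)} (hQ : Q ∈ quartets d) (hM : ∀ g, f g ∈ M24)
    (hfd : ∀ g, f g • d = d) (hfQ : ∀ g, f g • Q = Q) (hcard : Nat.card Γ = 432) :
    (∃ (N : Subgroup Γ) (_ : N.Normal), Nat.card N = 9 ∧
      Nonempty (Γ ⧸ N ≃* GL (Fin 2) (ZMod 3))) ∧ ∀ p ∈ d, ∀ q ∈ d, ∃ g : Γ, f g p = q := by
  have hfact : Fact (Nat.Prime 3) := ⟨Nat.prime_three⟩
  have hK : ∀ g : Γ, g ∈ (famAct f Q hfQ).ker ↔ ∀ t ∈ Q, f g • t = t := mem_ker_famAct f Q hfQ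
  have h3 : ∀ t ∈ Q, t.card = 3 := fun t ht => (hQ.2.1 t ht).1
  have f_one : ∀ g : Γ, f g = 1 → g = 1 := fun g hg => hf (by rw [hg, map_one])
  -- rigidity
  have rigid : ∀ g : Γ, g ∈ (famAct f Q hfQ).ker → ∀ t1 ∈ Q, ∀ t2 ∈ Q, t1 ≠ t2 →
      (∀ x ∈ t1, f g x = x) → ∀ b ∈ t2, f g b = b → g = 1 := by
    intro g hg t1 ht1 t2 ht2 hne hfix b hb hgb
    exact f_one g (quartet_rigid hd hQ (hM g) (hfd g) ((hK g).mp hg) ht1 ht2 hne hfix hb hgb)
  -- another triple
  have other : ∀ t ∈ Q, ∃ t' ∈ Q, t' ≠ t := by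
    intro t ht
    have h1 : (Q.erase t).card = 3 := by rw [Finset.card_erase_of_mem ht, hQ.1]
    obtain ⟨t', ht'⟩ := Finset.card_pos.mp (by rw [h1]; norm_num : 0 < (Q.erase t).card)
    rw [Finset.mem_erase] at ht'
    exact ⟨t', ht'.2, ht'.1⟩
  -- the kernel has at most 27 elements
  have hK27 : Nat.card (famAct f Q hfQ).ker ≤ 27 := by
    obtain ⟨t1, ht1⟩ := Finset.card_pos.mp (by rw [hQ.1]; norm_num : 0 < Q.card)
    obtain ⟨t2, ht2, hne⟩ := other t1 ht1
    obtain ⟨a1, a2, a3, h12, h13, h23, hteq⟩ := Finset.card_eq_three.mp (h3 t1 ht1)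
    obtain ⟨b, hb⟩ := Finset.card_pos.mp (by rw [h3 t2 ht2]; norm_num : 0 < t2.card)
    have ha1 : a1 ∈ t1 := by rw [hteq]; simp
    have ha2 : a2 ∈ t1 := by rw [hteq]; simp
    have hmem : ∀ (g : ↥(famAct f Q hfQ).ker) (t : Finset GolayPt), t ∈ Q → ∀ x ∈ t,
        f g.1 x ∈ t := fun g t ht x hx =>
      (apply_mem_iff_of_smul_eq ((hK g.1).mp g.2 t ht) x).mpr hx
    let j : ↥(famAct f Q hfQ).ker → ↥t1 × ↥t1 × ↥t2 := fun g =>
      (⟨f g.1 a1, hmem g t1 ht1 a1 ha1⟩, ⟨f g.1 a2, hmem g t1 ht1 a2 ha2⟩,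
        ⟨f g.1 b, hmem g t2 ht2 b hb⟩)
    have hj : Function.Injective j := by
      intro g g' hgg
      have e1 : f g.1 a1 = f g'.1 a1 := congrArg (fun z : ↥t1 × ↥t1 × ↥t2 => (z.1 : GolayPt)) hgg
      have e2 : f g.1 a2 = f g'.1 a2 :=
        congrArg (fun z : ↥t1 × ↥t1 × ↥t2 => (z.2.1 : GolayPt)) hgg
      have e3 : f g.1 b = f g'.1 b := congrArg (fun z : ↥t1 × ↥t1 × ↥t2 => (z.2.2 : GolayPt)) hgg
      have hfx : ∀ x, f g.1 x = f g'.1 x → f (g⁻¹ * g').1 x = x := by
        intro x hx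
        show f (g.1⁻¹ * g'.1) x = x
        rw [map_mul, map_inv]
        show (f g.1)⁻¹ (f g'.1 x) = x
        rw [← hx]
        simp
      have hone : (g⁻¹ * g').1 = 1 := by
        apply rigid _ (g⁻¹ * g').2 t1 ht1 t2 ht2 (Ne.symm hne) ?_ b hb (hfx b e3)
        apply fixed_of_smul_eq ((hK _).mp (g⁻¹ * g').2 t1 ht1) (F := {a1, a2})
        · intro p hp
          rw [Finset.mem_insert, Finset.mem_singleton] at hp
          rcases hp with rfl | rfl
          · exact hfx _ e1
          · exact hfx _ e2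
        · rw [Finset.card_sdiff_of_subset, h3 t1 ht1, Finset.card_pair h12]
          intro x hx
          rw [Finset.mem_insert, Finset.mem_singleton] at hx
          rcases hx with rfl | rfl
          · exact ha1
          · exact ha2
      have : g⁻¹ * g' = 1 := Subtype.ext hone
      exact inv_mul_eq_one.mp this
    have := Nat.card_le_card_of_injective j hj
    have c1 : Nat.card ↥t1 = 3 := by rw [Nat.card_eq_fintype_card, Fintype.card_coe, h3 t1 ht1]
    have c2 : Nat.card ↥t2 = 3 := by rw [Nat.card_eq_fintype_card, Fintype.card_coe, h3 t2 ht2]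
    rw [Nat.card_prod, Nat.card_prod, c1, c2] at this
    exact this
  -- orders of kernel and image
  have hKR : Nat.card (famAct f Q hfQ).ker = 18 ∧ Nat.card (famAct f Q hfQ).range = 24 := by
    have h1 := Subgroup.card_mul_index (famAct f Q hfQ).ker
    rw [Subgroup.index_ker, hcard] at h1
    have h2 : Nat.card (famAct f Q hfQ).range ∣ 24 := by
      have := Subgroup.card_subgroup_dvd_card (famAct f Q hfQ).range
      rw [Nat.card_eq_fintype_card (α := Equiv.Perm ↥Q), Fintype.card_perm, Fintype.card_coe,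
        hQ.1] at this
      exact this
    have h4 : Nat.card (famAct f Q hfQ).range ≤ 24 := Nat.le_of_dvd (by norm_num) h2
    generalize Nat.card (famAct f Q hfQ).range = r at h1 h2 h4
    generalize Nat.card (famAct f Q hfQ).ker = k at h1 hK27
    interval_cases r <;> omega
  have hrange : (famAct f Q hfQ).range = ⊤ := by
    apply Subgroup.eq_top_of_card_eq
    rw [hKR.2, Nat.card_eq_fintype_card, Fintype.card_perm, Fintype.card_coe, hQ.1]
    rfl
  -- the subgroup of order 9
  obtain ⟨P, hP⟩ := Sylow.exists_subgroup_card_pow_prime 3 (n := 2)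
    (G := ↥(famAct f Q hfQ).ker) (by rw [hKR.1]; norm_num)
  have hP9 : Nat.card P = 9 := by rw [hP]; norm_num
  have hPidx : P.index = 2 := by
    have := Subgroup.card_mul_index P
    rw [hP9, hKR.1] at this
    omega
  have hPpow : ∀ y : ↥(famAct f Q hfQ).ker, y ∈ P → y ^ 9 = 1 := by
    intro y hy
    have := pow_card_eq_one' (G := ↥P) (x := ⟨y, hy⟩)
    rw [hP9] at this
    exact congrArg Subtype.val this
  -- exponent three on the kernel's 3-elements
  have hcube : ∀ y : ↥(famAct f Q hfQ).ker, y ^ 9 = 1 → y.1 ^ 3 = 1 := by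
    intro y hy
    apply f_one
    apply m12_eq_one_of_fix hd d (by rw [hd.2]; norm_num) (Finset.Subset.refl _) _ (hM _) (hfd _)
    intro p hp
    obtain ⟨t, ht, hpt⟩ := quartet_cover hd hQ hp
    have hinv : ∀ g : ↥(famAct f Q hfQ).ker,
        (f.comp (Subgroup.subtype _)) g • t = t := fun g => (hK g.1).mp g.2 t ht
    have e9 : (restrictHom (f.comp (Subgroup.subtype _)) t hinv y) ^ 9 = 1 := by
      rw [← map_pow, hy, map_one]
    have e6 : (restrictHom (f.comp (Subgroup.subtype _)) t hinv y) ^ 6 = 1 := by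
      have := pow_card_eq_one' (G := Equiv.Perm ↥t)
        (x := restrictHom (f.comp (Subgroup.subtype _)) t hinv y)
      rw [Nat.card_eq_fintype_card, Fintype.card_perm, Fintype.card_coe, h3 t ht] at this
      exact this
    have e3 : (restrictHom (f.comp (Subgroup.subtype _)) t hinv y) ^ 3 = 1 := by
      have : (restrictHom (f.comp (Subgroup.subtype _)) t hinv y) ^ 3 =
          (restrictHom (f.comp (Subgroup.subtype _)) t hinv y) ^ 9 *
            ((restrictHom (f.comp (Subgroup.subtype _)) t hinv y) ^ 6)⁻¹ := by group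
      rw [this, e9, e6, inv_one, mul_one]
    rw [← map_pow] at e3
    have := congrArg (fun e : Equiv.Perm ↥t => ((e ⟨p, hpt⟩ : ↥t) : GolayPt)) e3
    exact this
  -- the subgroup N
  have hNmem : ∀ x : Γ, x ∈ P.map (Subgroup.subtype _) ↔
      ∃ y : ↥(famAct f Q hfQ).ker, y ∈ P ∧ y.1 = x := by
    intro x
    rw [Subgroup.mem_map]
    rfl
  have hN9 : Nat.card (P.map (Subgroup.subtype (famAct f Q hfQ).ker)) = 9 := by
    rw [Subgroup.card_map_of_injective (Subgroup.subtype_injective _), hP9]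
  have hNK : ∀ x ∈ P.map (Subgroup.subtype (famAct f Q hfQ).ker), x ∈ (famAct f Q hfQ).ker := by
    intro x hx
    obtain ⟨y, -, rfl⟩ := (hNmem x).mp hx
    exact y.2
  have hNexp : ∀ x ∈ P.map (Subgroup.subtype (famAct f Q hfQ).ker), x ^ 3 = 1 := by
    intro x hx
    obtain ⟨y, hy, rfl⟩ := (hNmem x).mp hx
    exact hcube y (hPpow y hy)
  have hNnormal : (P.map (Subgroup.subtype (famAct f Q hfQ).ker)).Normal := by
    constructor
    intro x hx g
    obtain ⟨y, hy, rfl⟩ := (hNmem x).mp hx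
    have hz : g * y.1 * g⁻¹ ∈ (famAct f Q hfQ).ker :=
      (MonoidHom.normal_ker (famAct f Q hfQ)).conj_mem y.1 y.2 g
    have hz9 : (⟨g * y.1 * g⁻¹, hz⟩ : ↥(famAct f Q hfQ).ker) ^ 9 = 1 := by
      apply Subtype.ext
      show (g * y.1 * g⁻¹) ^ 9 = 1
      rw [conj_pow]
      have := congrArg Subtype.val (hPpow y hy)
      have h' : y.1 ^ 9 = 1 := this
      rw [h']
      group
    have hz2 := Subgroup.mul_self_mem_of_index_two hPidx
      (⟨g * y.1 * g⁻¹, hz⟩ : ↥(famAct f Q hfQ).ker)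
    have hzP : (⟨g * y.1 * g⁻¹, hz⟩ : ↥(famAct f Q hfQ).ker) ∈ P := by
      have e : (⟨g * y.1 * g⁻¹, hz⟩ : ↥(famAct f Q hfQ).ker) =
          (⟨g * y.1 * g⁻¹, hz⟩ : ↥(famAct f Q hfQ).ker) ^ 9 *
            ((⟨g * y.1 * g⁻¹, hz⟩ * ⟨g * y.1 * g⁻¹, hz⟩ : ↥(famAct f Q hfQ).ker)⁻¹) ^ 4 := by
        group
      rw [e, hz9, one_mul]
      exact P.pow_mem (P.inv_mem hz2) 4
    exact (hNmem _).mpr ⟨_, hzP, rfl⟩
  have hNcomm : ∀ x ∈ P.map (Subgroup.subtype (famAct f Q hfQ).ker),
      ∀ y ∈ P.map (Subgroup.subtype (famAct f Q hfQ).ker), x * y = y * x := by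
    intro x hx y hy
    have := IsPGroup.commutative_of_card_eq_prime_sq (p := 3)
      (G := ↥(P.map (Subgroup.subtype (famAct f Q hfQ).ker))) (by rw [hN9]; norm_num) ⟨x, hx⟩ ⟨y, hy⟩
    exact congrArg Subtype.val this
  -- non-identity elements of N fixing a triple pointwise
  have fixer : ∀ t ∈ Q, ∃ x ∈ P.map (Subgroup.subtype (famAct f Q hfQ).ker), x ≠ 1 ∧
      ∀ a ∈ t, f x a = a := by
    intro t ht
    have hinv : ∀ g : ↥(famAct f Q hfQ).ker,
        (f.comp (Subgroup.subtype _)) g • t = t := fun g => (hK g.1).mp g.2 t ht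
    have hni : ¬ Function.Injective (fun y : ↥P =>
        restrictHom (f.comp (Subgroup.subtype _)) t hinv y.1) := by
      intro hinj
      have := Nat.card_le_card_of_injective _ hinj
      rw [hP9, Nat.card_eq_fintype_card, Fintype.card_perm, Fintype.card_coe, h3 t ht] at this
      exact absurd this (by decide)
    rw [Function.not_injective_iff] at hni
    obtain ⟨y, y', hyy, hne⟩ := hni
    refine ⟨(y.1⁻¹ * y'.1).1, (hNmem _).mpr ⟨y.1⁻¹ * y'.1, P.mul_mem (P.inv_mem y.2) y'.2, rfl⟩,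
      ?_, ?_⟩
    · intro h
      have h' : y.1⁻¹ * y'.1 = 1 := Subtype.ext h
      exact hne (Subtype.ext (inv_mul_eq_one.mp h'))
    · intro a ha
      have e : restrictHom (f.comp (Subgroup.subtype _)) t hinv (y.1⁻¹ * y'.1) = 1 := by
        rw [map_mul, map_inv]
        have hyy' : restrictHom (f.comp (Subgroup.subtype _)) t hinv y.1 =
            restrictHom (f.comp (Subgroup.subtype _)) t hinv y'.1 := hyy
        rw [hyy', inv_mul_cancel]
      have := congrArg (fun e : Equiv.Perm ↥t => ((e ⟨a, ha⟩ : ↥t) : GolayPt)) e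
      exact this
  -- elements of N moving every point of a triple
  have mover : ∀ t ∈ Q, ∃ n ∈ P.map (Subgroup.subtype (famAct f Q hfQ).ker),
      ∀ a ∈ t, f n a ≠ a := by
    intro t ht
    obtain ⟨t', ht', hne⟩ := other t ht
    obtain ⟨x, hx, hx1, hxfix⟩ := fixer t' ht'
    refine ⟨x, hx, fun a ha hfa => hx1 ?_⟩
    exact rigid x (hNK x hx) t' ht' t ht hne hxfix a ha hfa
  have cube_apply : ∀ n ∈ P.map (Subgroup.subtype (famAct f Q hfQ).ker),
      ∀ x, f n (f n (f n x)) = x := by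
    intro n hn x
    have h1 : f (n ^ 3) = 1 := by rw [hNexp n hn, map_one]
    rw [map_pow] at h1
    have := congrArg (fun e : Equiv.Perm GolayPt => e x) h1
    exact this
  -- N is self-centralising
  have hcent : ∀ h : Γ, (∀ x ∈ P.map (Subgroup.subtype (famAct f Q hfQ).ker), h * x = x * h) →
      h ∈ P.map (Subgroup.subtype (famAct f Q hfQ).ker) := by
    intro h hh
    have comm_apply : ∀ x ∈ P.map (Subgroup.subtype (famAct f Q hfQ).ker), ∀ a,
        f h (f x a) = f x (f h a) := by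
      intro x hx a
      have := congrArg (fun e : Equiv.Perm GolayPt => e a) (congrArg f (hh x hx))
      simp only [map_mul] at this
      exact this
    have hhK : h ∈ (famAct f Q hfQ).ker := by
      rw [hK]
      intro t ht
      by_contra hne
      have ht' : f h • t ∈ Q := by
        have := Finset.smul_mem_smul_finset (a := f h) ht
        rw [hfQ h] at this
        exact this
      obtain ⟨x, hx, hx1, hxfix⟩ := fixer t ht
      obtain ⟨a, ha⟩ := Finset.card_pos.mp (by rw [h3 t ht]; norm_num : 0 < t.card)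
      apply hx1
      apply rigid x (hNK x hx) t ht (f h • t) ht' (Ne.symm hne) hxfix (f h a)
        (Finset.smul_mem_smul_finset (a := f h) ha)
      rw [← comm_apply x hx a, hxfix a ha]
    -- now h lies in the kernel
    have hsq := Subgroup.mul_self_mem_of_index_two hPidx (⟨h, hhK⟩ : ↥(famAct f Q hfQ).ker)
    have hh2N : h * h ∈ P.map (Subgroup.subtype (famAct f Q hfQ).ker) :=
      (hNmem _).mpr ⟨_, hsq, rfl⟩
    have hh6 : h ^ 6 = 1 := by
      have := hNexp _ hh2N
      rw [← this, ← pow_two, ← pow_mul]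
    have hu2 : f (h ^ 3) * f (h ^ 3) = 1 := by
      rw [← map_mul, ← pow_add, hh6, map_one]
    have huinv : ∀ x, f (h ^ 3) (f (h ^ 3) x) = x := fun x => by
      have := congrArg (fun e : Equiv.Perm GolayPt => e x) hu2
      exact this
    have hucomm : ∀ x ∈ P.map (Subgroup.subtype (famAct f Q hfQ).ker), ∀ a,
        f (h ^ 3) (f x a) = f x (f (h ^ 3) a) := by
      intro x hx a
      have hc : h ^ 3 * x = x * h ^ 3 := by
        have h1 := hh x hx
        calc h ^ 3 * x = h * (h * (h * x)) := by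
              rw [pow_succ, pow_succ, pow_one]; simp only [mul_assoc]
          _ = h * (h * (x * h)) := by rw [h1]
          _ = h * ((h * x) * h) := by simp only [mul_assoc]
          _ = h * ((x * h) * h) := by rw [h1]
          _ = (h * x) * h * h := by simp only [mul_assoc]
          _ = (x * h) * h * h := by rw [h1]
          _ = x * h ^ 3 := by
              rw [pow_succ, pow_succ, pow_one]; simp only [mul_assoc]
      have := congrArg (fun e : Equiv.Perm GolayPt => e a) (congrArg f hc)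
      simp only [map_mul] at this
      exact this
    have huK : h ^ 3 ∈ (famAct f Q hfQ).ker := Subgroup.pow_mem _ hhK 3
    have hu1 : h ^ 3 = 1 := by
      apply f_one
      apply m12_eq_one_of_fix hd d (by rw [hd.2]; norm_num) (Finset.Subset.refl _) _ (hM _)
        (hfd _)
      intro p hp
      obtain ⟨t, ht, hpt⟩ := quartet_cover hd hQ hp
      have hut : f (h ^ 3) • t = t := (hK _).mp huK t ht
      obtain ⟨a, ha, hua⟩ := invol_fix_three huinv (h3 t ht) hut
      obtain ⟨n, hn, hmove⟩ := mover t ht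
      have hnt : f n • t = t := (hK n).mp (hNK n hn) t ht
      rcases three_cycle_orbit (cube_apply n hn) (h3 t ht) hnt hmove ha p hpt with rfl | rfl | rfl
      · exact hua
      · rw [hucomm n hn, hua]
      · rw [hucomm n hn, hucomm n hn, hua]
    have e : h = h ^ 3 * (h * h)⁻¹ := by group
    rw [e, hu1, one_mul]
    exact Subgroup.inv_mem _ hh2N
  have hidx : Nat.card (GL (Fin 2) (ZMod 3)) ≤
      (P.map (Subgroup.subtype (famAct f Q hfQ).ker)).index := by
    have := Subgroup.card_mul_index (P.map (Subgroup.subtype (famAct f Q hfQ).ker))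
    rw [hN9, hcard] at this
    rw [Crit.card_GL23]
    omega
  refine ⟨⟨P.map (Subgroup.subtype (famAct f Q hfQ).ker), hNnormal, hN9, ?_⟩, ?_⟩
  · haveI := hNnormal
    exact Crit.quot_equiv_GL _ 3 2 (by rw [hN9]; norm_num) hNexp hNcomm hcent hidx
  · intro p hp q hq
    obtain ⟨t, ht, hpt⟩ := quartet_cover hd hQ hp
    obtain ⟨t', ht', hqt'⟩ := quartet_cover hd hQ hq
    have hsw : Equiv.swap (⟨t, ht⟩ : ↥Q) ⟨t', ht'⟩ ∈ (famAct f Q hfQ).range := by
      rw [hrange]; exact Subgroup.mem_top _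
    obtain ⟨h, hh⟩ := hsw
    have hht : f h • t = t' := by
      have := congrArg (fun e : Equiv.Perm ↥Q => ((e ⟨t, ht⟩ : ↥Q) : Finset GolayPt)) hh
      simp only [Equiv.swap_apply_left] at this
      exact this
    have ha : f h p ∈ t' := by
      rw [← hht]
      exact Finset.smul_mem_smul_finset (a := f h) hpt
    obtain ⟨n, hn, hmove⟩ := mover t' ht'
    have hnt : f n • t' = t' := (hK n).mp (hNK n hn) t' ht'
    rcases three_cycle_orbit (cube_apply n hn) (h3 t' ht') hnt hmove ha q hqt' with h1 | h1 | h1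
    · exact ⟨h, h1.symm⟩
    · exact ⟨n * h, by rw [map_mul]; exact h1.symm⟩
    · exact ⟨n * n * h, by rw [map_mul, map_mul]; exact h1.symm⟩

theorem card_quartet_stab {d : Finset GolayPt} (hd : d ∈ dodecads) {Q : Finset (Finset GolayPt)}
    (hQ : Q ∈ quartets d) :
    Nat.card ↥(MulAction.stabilizer M24 d ⊓ MulAction.stabilizer M24 Q) = 432 := by
  have horb : MulAction.orbit ↥(MulAction.stabilizer M24 d) Q = quartets d := by
    ext Q'
    constructor
    · rintro ⟨g, rfl⟩
      have hgd : (g.1.1 : Equiv.Perm GolayPt) • d = d := g.2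
      have := smul_mem_quartets g.1.2 hQ
      rw [hgd] at this
      exact this
    · intro hQ'
      obtain ⟨g, hg, hgd, hgQ⟩ := (quartets_count_transitive d hd).2 Q hQ Q' hQ'
      exact ⟨⟨⟨g, hg⟩, hgd⟩, hgQ⟩
  have h1 := Subgroup.card_mul_index (MulAction.stabilizer ↥(MulAction.stabilizer M24 d) Q)
  rw [MulAction.index_stabilizer, horb, (quartets_count_transitive d hd).1,
    card_stabilizer_dodecad hd] at h1
  have e : Nat.card ↥(MulAction.stabilizer M24 d ⊓ MulAction.stabilizer M24 Q) =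
      Nat.card ↥(MulAction.stabilizer ↥(MulAction.stabilizer M24 d) Q) := by
    apply Nat.card_congr
    exact
      { toFun := fun x => ⟨⟨x.1, x.2.1⟩, x.2.2⟩
        invFun := fun y => ⟨y.1.1, y.1.2, y.2⟩
        left_inv := fun x => rfl
        right_inv := fun y => rfl }
  rw [e]
  omega

/-- S1598. -/
theorem quartet_stab_structure (d : Finset GolayPt) (hd : d ∈ dodecads)
    (Q : Finset (Finset GolayPt)) (hQ : Q ∈ quartets d) :
    Nat.card ↥(MulAction.stabilizer M24 d ⊓ MulAction.stabilizer M24 Q) = 432 ∧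
    (∃ (N : Subgroup ↥(MulAction.stabilizer M24 d ⊓ MulAction.stabilizer M24 Q))
      (_ : N.Normal), Nat.card N = 9 ∧
      Nonempty (↥(MulAction.stabilizer M24 d ⊓ MulAction.stabilizer M24 Q) ⧸ N ≃*
        GL (Fin 2) (ZMod 3))) ∧
    ∀ p ∈ d, ∀ q ∈ d, ∃ g ∈ (MulAction.stabilizer M24 d ⊓ MulAction.stabilizer M24 Q),
      ((g : ↥M24) : Equiv.Perm GolayPt) p = q := by
  have hcard := card_quartet_stab hd hQ
  have hfin : Finite ↥(MulAction.stabilizer M24 d ⊓ MulAction.stabilizer M24 Q) :=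
    Nat.finite_of_card_ne_zero (by rw [hcard]; norm_num)
  obtain ⟨h1, h2⟩ := quartet_group_structure
    (M24.subtype.comp (Subgroup.subtype (MulAction.stabilizer M24 d ⊓ MulAction.stabilizer M24 Q)))
    (fun a b h => Subtype.ext (Subtype.ext h)) hd hQ (fun g => g.1.2) (fun g => g.2.1)
    (fun g => g.2.2) hcard
  refine ⟨hcard, h1, ?_⟩
  intro p hp q hq
  obtain ⟨g, hg⟩ := h2 p hp q hq
  exact ⟨g.1, g.2, hg⟩

end Cfsg.Agent.Lib.helper28
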