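import Mathlib

set_option autoImplicit false

namespace Cfsg.Agent.Lib.helper28

open scoped Pointwise

/-! Recognising a symmetric group: a group of order `n!` acting faithfully on `n` points. -/

section

variable {α : Type*} [DecidableEq α] {Γ : Type*} [Group Γ]

theorem apply_mem_iff_of_smul_finset_eq {g : Equiv.Perm α} {D : Finset α} (h : g • D = D)
    (x : α) : g x ∈ D ↔ x ∈ D := by
  conv_lhs => rw [← h]
  exact Finset.smul_mem_smul_finset_iff g

/-- Restriction of a permutation action to an invariant finite set. -/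
def restrictHom (f : Γ →* Equiv.Perm α) (D : Finset α) (h : ∀ g : Γ, f g • D = D) :
    Γ →* Equiv.Perm ↥D where
  toFun g := (f g).subtypePerm (apply_mem_iff_of_smul_finset_eq (h g))
  map_one' := by
    apply Equiv.ext
    intro x
    apply Subtype.ext
    show (f 1) x = x
    rw [map_one]
    rfl
  map_mul' := fun a b => by
    apply Equiv.ext
    intro x
    apply Subtype.ext
    show (f (a * b)) x = (f a) ((f b) x)
    rw [map_mul]
    rfl

theorem restrictHom_apply (f : Γ →* Equiv.Perm α) (D : Finset α) (h : ∀ g : Γ, f g • D = D)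
    (g : Γ) (x : ↥D) : ((restrictHom f D h g) x : α) = f g x := rfl

theorem restrictHom_injective (f : Γ →* Equiv.Perm α) (D : Finset α)
    (h : ∀ g : Γ, f g • D = D) (hf : ∀ g : Γ, (∀ p ∈ D, f g p = p) → g = 1) :
    Function.Injective (restrictHom f D h) := by
  rw [← MonoidHom.ker_eq_bot_iff, eq_bot_iff]
  intro g hg
  rw [MonoidHom.mem_ker] at hg
  rw [Subgroup.mem_bot]
  apply hf
  intro p hp
  have := congrArg (fun e : Equiv.Perm ↥D => ((e ⟨p, hp⟩ : ↥D) : α)) hg
  exact this

/-- A group of order `n!` acting faithfully on an invariant set of `n` points is isomorphic to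
the symmetric group of degree `n`. -/
theorem nonempty_mulEquiv_perm_of_faithful [Finite Γ] (f : Γ →* Equiv.Perm α) (D : Finset α)
    (h : ∀ g : Γ, f g • D = D) (hf : ∀ g : Γ, (∀ p ∈ D, f g p = p) → g = 1) (n : ℕ)
    (hD : D.card = n) (hΓ : Nat.card Γ = n.factorial) :
    Nonempty (Γ ≃* Equiv.Perm (Fin n)) := by
  have hinj := restrictHom_injective f D h hf
  have hcard : Nat.card (Equiv.Perm ↥D) = n.factorial := by
    rw [Nat.card_eq_fintype_card, Fintype.card_perm, Fintype.card_coe, hD]
  have hbij : Function.Bijective (restrictHom f D h) := by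
    rw [Nat.bijective_iff_injective_and_card]
    exact ⟨hinj, by rw [hΓ, hcard]⟩
  have e : ↥D ≃ Fin n := Fintype.equivFinOfCardEq (by rw [Fintype.card_coe, hD])
  exact ⟨(MulEquiv.ofBijective (restrictHom f D h) hbij).trans e.permCongrHom⟩

end

end Cfsg.Agent.Lib.helper28
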