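import Cfsg.Agent.Lib.helper28.GolaySplit
import Cfsg.Agent.Lib.helper28.PermCrit

set_option autoImplicit false

namespace Cfsg.Agent.Lib.helper28

open Cfsg
open scoped Pointwise

/-! The joint stabiliser of two octads meeting in two points is a symmetric group of degree 6. -/

def o2m : ℕ := 31554

def j2D : ℕ := 1181

def j2Chain : List (ℕ × ℕ × List (List ℕ)) :=
  [(0, 1181,
    [[0, 1, 2, 3, 4, 5, 6, 7, 8, 9, 10, 11, 12, 13, 14, 15, 16, 17, 18, 19, 20, 21, 22, 23],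
     [2, 1, 0, 4, 3, 15, 6, 7, 9, 8, 10, 14, 12, 13, 11, 5, 18, 17, 16, 19, 22, 23, 20, 21],
     [3, 1, 4, 2, 0, 20, 13, 10, 14, 11, 7, 8, 12, 6, 9, 22, 21, 17, 23, 19, 15, 18, 5, 16],
     [4, 1, 3, 0, 2, 22, 13, 10, 11, 14, 7, 9, 12, 6, 8, 20, 23, 17, 21, 19, 5, 16, 15, 18],
     [7, 12, 4, 3, 0, 15, 14, 2, 8, 13, 10, 11, 1, 6, 9, 21, 5, 23, 17, 22, 18, 16, 19, 20],
     [10, 12, 0, 2, 3, 22, 9, 4, 14, 6, 7, 8, 1, 13, 11, 18, 20, 16, 17, 5, 23, 21, 19, 15]]),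
   (2, 1180,
    [[0, 1, 2, 3, 4, 5, 6, 7, 8, 9, 10, 11, 12, 13, 14, 15, 16, 17, 18, 19, 20, 21, 22, 23],
     [0, 1, 3, 10, 4, 17, 13, 7, 14, 8, 2, 6, 12, 11, 9, 16, 20, 21, 18, 22, 15, 5, 23, 19],
     [0, 12, 4, 3, 7, 19, 8, 10, 14, 6, 2, 11, 1, 13, 9, 21, 17, 16, 5, 20, 18, 23, 15, 22],
     [0, 1, 7, 3, 10, 20, 14, 2, 9, 8, 4, 11, 12, 13, 6, 23, 16, 17, 19, 18, 5, 22, 21, 15],
     [0, 12, 10, 3, 2, 18, 9, 4, 6, 14, 7, 11, 1, 13, 8, 22, 17, 16, 20, 5, 19, 15, 23, 21]]),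
   (3, 1176,
    [[0, 1, 2, 3, 4, 5, 6, 7, 8, 9, 10, 11, 12, 13, 14, 15, 16, 17, 18, 19, 20, 21, 22, 23],
     [0, 12, 2, 4, 7, 23, 11, 10, 6, 9, 3, 13, 1, 8, 14, 18, 21, 19, 5, 22, 17, 16, 20, 15],
     [0, 1, 2, 7, 10, 15, 13, 3, 11, 9, 4, 8, 12, 6, 14, 5, 16, 22, 23, 20, 19, 21, 17, 18],
     [0, 12, 2, 10, 3, 18, 8, 4, 13, 9, 7, 6, 1, 11, 14, 23, 21, 20, 15, 17, 22, 16, 19, 5]]),
   (4, 1168,
    [[0, 1, 2, 3, 4, 5, 6, 7, 8, 9, 10, 11, 12, 13, 14, 15, 16, 17, 18, 19, 20, 21, 22, 23],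
     [0, 12, 2, 3, 7, 16, 14, 4, 11, 13, 10, 8, 1, 9, 6, 21, 5, 20, 18, 19, 17, 15, 22, 23],
     [0, 1, 2, 3, 10, 18, 11, 4, 14, 6, 7, 9, 12, 8, 13, 23, 5, 20, 16, 17, 19, 15, 22, 21]]),
   (7, 1152,
    [[0, 1, 2, 3, 4, 5, 6, 7, 8, 9, 10, 11, 12, 13, 14, 15, 16, 17, 18, 19, 20, 21, 22, 23],
     [0, 12, 2, 3, 4, 5, 13, 10, 9, 8, 7, 14, 1, 6, 11, 15, 18, 19, 16, 17, 20, 23, 22, 21]])]

theorem j2Chain_gen : chainGen [o0, o2m] j2Chain = true := by decide +kernel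

theorem j2Chain_prod : chainProd j2Chain = 720 := by decide +kernel

theorem isOct_o2m : isOct o2m = true := by decide +kernel

theorem o2m_lt : o2m < 2 ^ 24 := by decide

theorem j2D_lt : j2D < 2 ^ 24 := by decide

theorem setOf_o2m_mem_octads : setOf o2m ∈ octads := setOf_mem_octads isOct_o2m

theorem card_inter_o0_o2m : (setOf o0 ∩ setOf o2m).card = 2 := by
  rw [card_eq_pc, maskS_inter, maskS_setOf o0_lt, maskS_setOf o2m_lt]
  decide

theorem card_stabM_pair (m1 m2 : ℕ) : Nat.card (stabM [m1, m2]) =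
    Nat.card (MulAction.stabilizer M24 (setOf m1) ⊓ MulAction.stabilizer M24 (setOf m2) :
      Subgroup M24) :=
  Nat.card_congr
    { toFun := fun g => ⟨⟨g.1, g.2.1⟩, ⟨g.2.2 m1 (by simp), g.2.2 m2 (by simp)⟩⟩
      invFun := fun g => ⟨g.1.1, ⟨g.1.2, by
        intro m hm
        simp only [List.mem_cons, List.not_mem_nil, or_false] at hm
        rcases hm with rfl | rfl
        · exact g.2.1
        · exact g.2.2⟩⟩
      left_inv := fun _ => rfl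
      right_inv := fun _ => rfl }

theorem card_stabM_j2 : Nat.card (stabM [o0, o2m]) = 720 := by
  rw [card_stabM_pair]
  exact (card_stab_two_octads _ _ setOf_o0_mem_octads setOf_o2m_mem_octads).2.2
    card_inter_o0_o2m

theorem j2_faithful (g : Equiv.Perm GolayPt) (hg : g ∈ stabM [o0, o2m])
    (hfix : ∀ p ∈ setOf j2D, g p = p) : g = 1 := by
  obtain ⟨-, h2⟩ := chain_drop_card 5 j2Chain [o0, o2m] j2Chain_gen
    (by rw [card_stabM_j2, j2Chain_prod])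
  have h3 : chainInv [o0, o2m] (j2Chain.take 5) =
      [2 ^ 7, 2 ^ 4, 2 ^ 3, 2 ^ 2, 2 ^ 0, o0, o2m] := rfl
  have h4 : chainProd (j2Chain.drop 5) = 1 := rfl
  rw [h3, h4] at h2
  have hbot : stabM [2 ^ 7, 2 ^ 4, 2 ^ 3, 2 ^ 2, 2 ^ 0, o0, o2m] = ⊥ :=
    Subgroup.eq_bot_of_card_le _ h2
  have hpt : ∀ b : ℕ, b < 24 → j2D.testBit b = true → g (pt b) = pt b := by
    intro b hb ht
    apply hfix
    rw [mem_setOf, idx_pt hb]
    exact ht
  have hmem : g ∈ stabM [2 ^ 7, 2 ^ 4, 2 ^ 3, 2 ^ 2, 2 ^ 0, o0, o2m] := by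
    rw [mem_stabM_cons_pt (by norm_num), mem_stabM_cons_pt (by norm_num),
      mem_stabM_cons_pt (by norm_num), mem_stabM_cons_pt (by norm_num),
      mem_stabM_cons_pt (by norm_num)]
    exact ⟨⟨⟨⟨⟨hg, hpt 0 (by norm_num) (by decide)⟩, hpt 2 (by norm_num) (by decide)⟩,
      hpt 3 (by norm_num) (by decide)⟩, hpt 4 (by norm_num) (by decide)⟩,
      hpt 7 (by norm_num) (by decide)⟩
  rw [hbot] at hmem
  exact Subgroup.mem_bot.mp hmem

theorem setOf_sdiff_of_bits {m1 m2 m3 : ℕ}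
    (h : allLt (fun i => m3.testBit i == (m1.testBit i && !m2.testBit i)) 24 = true) :
    setOf m3 = setOf m1 \ setOf m2 := by
  ext p
  rw [Finset.mem_sdiff, mem_setOf, mem_setOf, mem_setOf]
  have := allLt_spec h (idx p) (idx_lt p)
  rw [beq_iff_eq] at this
  rw [this]
  simp

theorem setOf_j2D : setOf j2D = setOf o0 \ setOf o2m := setOf_sdiff_of_bits (by decide +kernel)

theorem exists_pair_frame {o o' : Finset GolayPt} (ho : o ∈ octads) (ho' : o' ∈ octads)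
    (h2 : (o ∩ o').card = 2) : ∃ a ∈ M24, a • setOf o0 = o ∧ a • setOf o2m = o' := by
  obtain ⟨a1, ha1, rfl⟩ := exists_smul_o0_eq ho
  have h1 : a1⁻¹ • o' ∈ octads := smul_mem_octads (M24.inv_mem ha1) ho'
  have hk : (setOf o0 ∩ setOf o2m).card = (setOf o0 ∩ a1⁻¹ • o').card := by
    rw [card_inter_o0_o2m, ← h2, Finset.inter_comm (setOf o0), card_inv_smul_inter,
      Finset.inter_comm]
  obtain ⟨g, hg, hg0, hg2⟩ := octad_stabilizer_orbits setOf_o0_mem_octads setOf_o2m_mem_octads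
    h1 hk
  refine ⟨a1 * g, M24.mul_mem ha1 hg, ?_, ?_⟩
  · rw [mul_smul, hg0]
  · rw [mul_smul, hg2, smul_inv_smul]

/-- S5614. -/
theorem joint_stab_octads_two (o o' : Finset GolayPt) (ho : o ∈ octads) (ho' : o' ∈ octads)
    (h₂ : (o ∩ o').card = 2) :
    Nonempty (↥(MulAction.stabilizer M24 o ⊓ MulAction.stabilizer M24 o') ≃*
      Equiv.Perm (Fin 6)) := by
  have hcard := (card_stab_two_octads o o' ho ho').2.2 h₂
  obtain ⟨a, ha, rfl, rfl⟩ := exists_pair_frame ho ho' h₂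
  have hD : a • setOf j2D = a • setOf o0 \ a • setOf o2m := by
    rw [setOf_j2D, Finset.smul_finset_sdiff]
  apply nonempty_mulEquiv_perm_of_faithful (M24.subtype.comp (Subgroup.subtype _))
    (a • setOf j2D) ?_ ?_ 6 ?_ ?_
  · rintro ⟨g, hg1, hg2⟩
    have h1 : (g : Equiv.Perm GolayPt) • (a • setOf o0) = a • setOf o0 := hg1
    have h2 : (g : Equiv.Perm GolayPt) • (a • setOf o2m) = a • setOf o2m := hg2
    show (g : Equiv.Perm GolayPt) • (a • setOf j2D) = a • setOf j2D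
    rw [hD, Finset.smul_finset_sdiff, h1, h2]
  · rintro ⟨g, hg1, hg2⟩ hfix
    have h1 : (g : Equiv.Perm GolayPt) • (a • setOf o0) = a • setOf o0 := hg1
    have h2 : (g : Equiv.Perm GolayPt) • (a • setOf o2m) = a • setOf o2m := hg2
    have hfix' : ∀ p ∈ a • setOf j2D, (g : Equiv.Perm GolayPt) p = p := hfix
    have h3 : a⁻¹ * (g : Equiv.Perm GolayPt) * a ∈ stabM [o0, o2m] := by
      rw [mem_stabM]
      refine ⟨M24.mul_mem (M24.mul_mem (M24.inv_mem ha) g.2) ha, ?_⟩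
      intro m hm
      simp only [List.mem_cons, List.not_mem_nil, or_false] at hm
      rcases hm with rfl | rfl
      · rw [mul_smul, mul_smul, h1, inv_smul_smul]
      · rw [mul_smul, mul_smul, h2, inv_smul_smul]
    have h4 := j2_faithful _ h3 (fun p hp => by
      rw [conj_apply_eq_iff]
      exact hfix' (a p) (Finset.smul_mem_smul_finset hp))
    have h5 : (g : Equiv.Perm GolayPt) = 1 := by
      have : (g : Equiv.Perm GolayPt) = a * (a⁻¹ * (g : Equiv.Perm GolayPt) * a) * a⁻¹ := by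
        group
      rw [this, h4]
      group
    exact Subtype.ext (Subtype.ext h5)
  · rw [card_smul_finset, card_setOf j2D_lt]
    decide
  · rw [hcard]
    rfl

end Cfsg.Agent.Lib.helper28
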