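import Cfsg.Agent.Lib.helper28.GolaySix
import Cfsg.Prelude.Def_SporadicCombinatorics

set_option autoImplicit false

namespace Cfsg.Agent.Lib.helper28

open Cfsg
open scoped Pointwise

/-! Sextets: every 4-set lies in exactly one sextet, and there are 1771 sextets. -/

/-- The masks of the tetrads of the standard sextet. -/
def sx0 : List ℕ := [15, 5264, 622848, 3416064, 4196928, 8536096]

theorem sx0_check : (sx0.all fun m => decide (m < 2 ^ 24) && (pc m == 4) &&
    sx0.all fun m' => m == m' || isOct (m ||| m')) = true := by decide +kernel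

/-- The standard sextet. -/
def sxS0 : Finset (Finset GolayPt) := (sx0.map setOf).toFinset

theorem setOf_inj {m m' : ℕ} (hm : m < 2 ^ 24) (hm' : m' < 2 ^ 24) (h : setOf m = setOf m') :
    m = m' := by
  rw [← maskS_setOf hm, ← maskS_setOf hm', h]

theorem sx0_lt : ∀ m ∈ sx0, m < 2 ^ 24 := by
  intro m hm
  have := List.all_eq_true.mp sx0_check m hm
  simp only [Bool.and_eq_true, decide_eq_true_eq] at this
  exact this.1.1

theorem mem_sxS0 {t : Finset GolayPt} : t ∈ sxS0 ↔ ∃ m ∈ sx0, setOf m = t := by
  unfold sxS0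
  rw [List.mem_toFinset, List.mem_map]

theorem sxS0_mem : sxS0 ∈ sextets := by
  have hc := List.all_eq_true.mp sx0_check
  refine ⟨?_, ?_, ?_⟩
  · unfold sxS0
    rw [List.toFinset_card_of_nodup]
    · rfl
    · apply List.Nodup.map_on
      · intro m hm m' hm' h
        exact setOf_inj (sx0_lt m hm) (sx0_lt m' hm') h
      · decide
  · intro t ht
    obtain ⟨m, hm, rfl⟩ := mem_sxS0.mp ht
    rw [card_setOf (sx0_lt m hm)]
    have := hc m hm
    simp only [Bool.and_eq_true, decide_eq_true_eq, beq_iff_eq] at this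
    exact this.1.2
  · intro t ht u hu hne
    obtain ⟨m, hm, rfl⟩ := mem_sxS0.mp ht
    obtain ⟨m', hm', rfl⟩ := mem_sxS0.mp hu
    rw [← setOf_or]
    apply setOf_mem_octads
    have := hc m hm
    simp only [Bool.and_eq_true, decide_eq_true_eq] at this
    have h2 := List.all_eq_true.mp this.2 m' hm'
    rw [Bool.or_eq_true, beq_iff_eq] at h2
    rcases h2 with h2 | h2
    · exact absurd (by rw [h2]) hne
    · exact h2

theorem setOf15_mem_sxS0 : setOf 15 ∈ sxS0 := mem_sxS0.mpr ⟨15, by decide, rfl⟩

theorem sextet_disjoint {S : Finset (Finset GolayPt)} (hS : S ∈ sextets) {t u : Finset GolayPt}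
    (ht : t ∈ S) (hu : u ∈ S) (hne : t ≠ u) : Disjoint t u := by
  have h8 := (hS.2.2 t ht u hu hne).2
  have h4t := hS.2.1 t ht
  have h4u := hS.2.1 u hu
  rw [← Finset.card_union_eq_card_add_card]
  omega

theorem smul_mem_sextets {g : Equiv.Perm GolayPt} (hg : g ∈ M24)
    {S : Finset (Finset GolayPt)} (hS : S ∈ sextets) : g • S ∈ sextets := by
  refine ⟨?_, ?_, ?_⟩
  · rw [Finset.card_smul_finset]
    exact hS.1
  · intro t ht
    obtain ⟨t', ht', rfl⟩ := Finset.mem_smul_finset.mp ht
    rw [card_smul_finset]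
    exact hS.2.1 t' ht'
  · intro t ht u hu hne
    obtain ⟨t', ht', rfl⟩ := Finset.mem_smul_finset.mp ht
    obtain ⟨u', hu', rfl⟩ := Finset.mem_smul_finset.mp hu
    rw [← Finset.smul_finset_union]
    exact smul_mem_octads hg (hS.2.2 t' ht' u' hu' (fun h => hne (by rw [h])))

theorem exists_smul_setOf15 {t : Finset GolayPt} (ht : t.card = 4) :
    ∃ a ∈ M24, a • setOf 15 = t := by
  obtain ⟨a, ha, hmap⟩ := exists_mem_M24_map_list [pt 0, pt 1, pt 2, pt 3] t.toList
    (by decide) t.nodup_toList (by rw [Finset.length_toList, ht]; rfl) (by norm_num)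
  refine ⟨a, ha, ?_⟩
  have h15 : (15 : ℕ) = orList ([0, 1, 2, 3].map fun b => 2 ^ b) := by decide
  rw [h15, smul_setOf_orList a [0, 1, 2, 3] (by decide)]
  have : ([0, 1, 2, 3].map fun b => a (pt b)) = [pt 0, pt 1, pt 2, pt 3].map a := rfl
  rw [this, hmap, Finset.toList_toFinset]

theorem count_oct_through15 :
    countLt (fun n => profF [(16777215, 8), (15, 4)] (cwF n)) 4096 = 5 := by decide +kernel

/-- A 4-set lies in exactly five octads. -/
theorem ncard_octads_through {t : Finset GolayPt} (ht : t.card = 4) :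
    {o : Finset GolayPt | o ∈ octads ∧ t ⊆ o}.ncard = 5 := by
  obtain ⟨a, ha, rfl⟩ := exists_smul_setOf15 ht
  have key : ∀ o : Finset GolayPt, (o ∈ octads ∧ a • setOf 15 ⊆ o) ↔
      (o ∈ supports (golayCode : Set (GolayPt → ZMod 2)) ∧
        HasProf (profSets a [(16777215, 8), (15, 4)]) o) := by
    intro o
    rw [profSets_cons, profSets_cons, profSets_nil, hasProf_cons, hasProf_cons, card_inter_full]
    have hsub : a • setOf 15 ⊆ o ↔ (o ∩ a • setOf 15).card = 4 := by
      constructor
      · intro h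
        rw [Finset.inter_eq_right.mpr h]
        exact ht
      · intro h
        have := Finset.eq_of_subset_of_card_le
          (Finset.inter_subset_right (s₁ := o) (s₂ := a • setOf 15)) (by rw [h, ht])
        rw [← this]
        exact Finset.inter_subset_left
    rw [hsub]
    exact ⟨fun ⟨⟨h1, h2⟩, h3⟩ => ⟨h1, h2, h3, hasProf_nil _⟩,
      fun ⟨h1, h2, h3, _⟩ => ⟨⟨h1, h2⟩, h3⟩⟩
  have hlt : ∀ c ∈ [(16777215, 8), (15, 4)], c.1 < 2 ^ 24 := by
    intro c hc
    simp only [List.mem_cons, List.not_mem_nil, or_false] at hc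
    rcases hc with rfl | rfl <;> decide
  rw [Set.ext key]
  exact (ncard_prof ha _ hlt).trans count_oct_through15

/-- The octads through a tetrad of a sextet are its unions with the other tetrads. -/
theorem sextet_octads {S : Finset (Finset GolayPt)} (hS : S ∈ sextets) {t : Finset GolayPt}
    (ht : t ∈ S) :
    (((S.erase t).image (fun u => t ∪ u) : Finset (Finset GolayPt)) : Set (Finset GolayPt)) =
      {o : Finset GolayPt | o ∈ octads ∧ t ⊆ o} := by
  have h4 := hS.2.1 t ht
  apply Set.eq_of_subset_of_ncard_le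
  · intro o ho
    rw [Finset.mem_coe, Finset.mem_image] at ho
    obtain ⟨u, hu, rfl⟩ := ho
    have hu' := Finset.mem_erase.mp hu
    exact ⟨hS.2.2 t ht u hu'.2 (Ne.symm hu'.1), Finset.subset_union_left⟩
  · rw [ncard_octads_through h4, Set.ncard_coe_finset, Finset.card_image_of_injOn,
      Finset.card_erase_of_mem ht, hS.1]
    intro u hu u' hu' heq
    have hu1 := Finset.mem_erase.mp hu
    have hu1' := Finset.mem_erase.mp hu'
    have hd := sextet_disjoint hS ht hu1.2 (Ne.symm hu1.1)
    have hd' := sextet_disjoint hS ht hu1'.2 (Ne.symm hu1'.1)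
    have heq' : t ∪ u = t ∪ u' := heq
    rw [← Finset.union_sdiff_cancel_left hd, ← Finset.union_sdiff_cancel_left hd', heq']
  · exact Set.toFinite _

/-- Two sextets with a common tetrad are equal. -/
theorem sextet_unique {S S' : Finset (Finset GolayPt)} (hS : S ∈ sextets) (hS' : S' ∈ sextets)
    {t : Finset GolayPt} (ht : t ∈ S) (ht' : t ∈ S') : S = S' := by
  have hsub : S' ⊆ S := by
    intro u' hu'
    by_cases hut : u' = t
    · rw [hut]; exact ht
    · have hmem : t ∪ u' ∈ {o : Finset GolayPt | o ∈ octads ∧ t ⊆ o} :=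
        ⟨hS'.2.2 t ht' u' hu' (Ne.symm hut), Finset.subset_union_left⟩
      rw [← sextet_octads hS ht, Finset.mem_coe, Finset.mem_image] at hmem
      obtain ⟨u, hu, heq⟩ := hmem
      have hu1 := Finset.mem_erase.mp hu
      have hd := sextet_disjoint hS ht hu1.2 (Ne.symm hu1.1)
      have hd' := sextet_disjoint hS' ht' hu' (Ne.symm hut)
      have : u = u' := by
        rw [← Finset.union_sdiff_cancel_left hd, ← Finset.union_sdiff_cancel_left hd', heq]
      rw [← this]
      exact hu1.2
  exact (Finset.eq_of_subset_of_card_le hsub (by rw [hS.1, hS'.1])).symm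

theorem exists_sextet {t : Finset GolayPt} (ht : t.card = 4) : ∃ S ∈ sextets, t ∈ S := by
  obtain ⟨a, ha, rfl⟩ := exists_smul_setOf15 ht
  exact ⟨a • sxS0, smul_mem_sextets ha sxS0_mem, Finset.smul_mem_smul_finset setOf15_mem_sxS0⟩

theorem ncard_sextets : sextets.ncard = 1771 := by
  classical
  let f : Finset GolayPt → Finset (Finset GolayPt) := fun t =>
    if h : t.card = 4 then Classical.choose (exists_sextet h) else ∅
  have hf : ∀ (t : Finset GolayPt) (h : t.card = 4), f t ∈ sextets ∧ t ∈ f t := by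
    intro t h
    simp only [f, dif_pos h]
    exact Classical.choose_spec (exists_sextet h)
  have hmaps : ∀ t ∈ Finset.powersetCard 4 (Finset.univ : Finset GolayPt),
      f t ∈ (Set.toFinite sextets).toFinset := by
    intro t ht
    rw [Set.Finite.mem_toFinset]
    exact (hf t (Finset.mem_powersetCard.mp ht).2).1
  have h1 := Finset.card_eq_sum_card_fiberwise hmaps
  have hfib : ∀ S ∈ (Set.toFinite sextets).toFinset,
      ((Finset.powersetCard 4 (Finset.univ : Finset GolayPt)).filter (fun t => f t = S)).card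
        = 6 := by
    intro S hS
    rw [Set.Finite.mem_toFinset] at hS
    have : (Finset.powersetCard 4 (Finset.univ : Finset GolayPt)).filter (fun t => f t = S)
        = S := by
      ext t
      rw [Finset.mem_filter, Finset.mem_powersetCard]
      constructor
      · rintro ⟨⟨_, h4⟩, rfl⟩
        exact (hf t h4).2
      · intro ht
        have h4 := hS.2.1 t ht
        exact ⟨⟨Finset.subset_univ _, h4⟩, sextet_unique (hf t h4).1 hS (hf t h4).2 ht⟩
    rw [this]
    exact hS.1
  rw [Finset.sum_congr rfl hfib, Finset.sum_const, smul_eq_mul, Finset.card_powersetCard,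
    Finset.card_univ] at h1
  have hc : Fintype.card GolayPt = 24 := by decide
  rw [hc] at h1
  have h2 : Nat.choose 24 4 = 10626 := by decide
  rw [Set.ncard_eq_toFinset_card sextets (Set.toFinite _)]
  omega

/-- S1550. -/
theorem tetrad_sextet : (∀ t : Finset GolayPt, t.card = 4 →
    ∃! S : Finset (Finset GolayPt), S ∈ sextets ∧ t ∈ S) ∧ sextets.ncard = 1771 := by
  refine ⟨fun t ht => ?_, ncard_sextets⟩
  obtain ⟨S, hS, htS⟩ := exists_sextet ht
  exact ⟨S, ⟨hS, htS⟩, fun S' hS' => sextet_unique hS'.1 hS hS'.2 htS⟩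

end Cfsg.Agent.Lib.helper28
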