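import Cfsg.Agent.Lib.helper28.GolaySextet

set_option autoImplicit false

namespace Cfsg.Agent.Lib.helper28

open Cfsg
open scoped Pointwise

/-! Sextets against a 3-set. -/

/-- The tetrads of a sextet cover the points. -/
theorem sextet_cover {S : Finset (Finset GolayPt)} (hS : S ∈ sextets) (p : GolayPt) :
    ∃ t ∈ S, p ∈ t := by
  have hd : (S : Set (Finset GolayPt)).PairwiseDisjoint id := by
    intro t ht u hu hne
    exact sextet_disjoint hS ht hu hne
  have hc : (S.biUnion id).card = 24 := by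
    rw [Finset.card_biUnion hd]
    have : ∀ t ∈ S, (id t).card = 4 := fun t ht => hS.2.1 t ht
    rw [Finset.sum_congr rfl this, Finset.sum_const, hS.1]
    rfl
  have hu : S.biUnion id = Finset.univ := by
    apply Finset.eq_univ_of_card
    rw [hc]
    decide
  have hp : p ∈ S.biUnion id := by rw [hu]; exact Finset.mem_univ _
  obtain ⟨t, ht, hpt⟩ := Finset.mem_biUnion.mp hp
  exact ⟨t, ht, hpt⟩

theorem sextet_sum_inter {S : Finset (Finset GolayPt)} (hS : S ∈ sextets) (Y : Finset GolayPt) :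
    ∑ t ∈ S, (t ∩ Y).card = Y.card := by
  have hd : (S : Set (Finset GolayPt)).PairwiseDisjoint (fun t => t ∩ Y) := by
    intro t ht u hu hne
    exact (sextet_disjoint hS ht hu hne).mono Finset.inter_subset_left Finset.inter_subset_left
  rw [← Finset.card_biUnion hd]
  congr 1
  ext p
  rw [Finset.mem_biUnion]
  constructor
  · rintro ⟨t, _, hp⟩
    exact (Finset.mem_inter.mp hp).2
  · intro hp
    obtain ⟨t, ht, hpt⟩ := sextet_cover hS p
    exact ⟨t, ht, Finset.mem_inter.mpr ⟨hpt, hp⟩⟩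

/-- Counting the positive terms of a sum equal to three. -/
theorem count_pos_of_sum_three {α : Type*} [DecidableEq α] (S : Finset α) (c : α → ℕ)
    (h : ∑ t ∈ S, c t = 3) :
    ((S.filter fun t => 0 < c t).card = 1 ↔ ∃ t ∈ S, c t = 3) ∧
    ((S.filter fun t => 0 < c t).card = 2 ↔ ∃ t ∈ S, c t = 2) ∧
    ((S.filter fun t => 0 < c t).card = 3 ↔ ∀ t ∈ S, c t ≤ 1) := by
  have hF : ∑ t ∈ S.filter (fun t => 0 < c t), c t = 3 := by
    rw [Finset.sum_filter_of_ne]
    · exact h
    · intro x _ hx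
      exact Nat.pos_of_ne_zero hx
  have hmem : ∀ t ∈ S, 0 < c t → t ∈ S.filter (fun t => 0 < c t) :=
    fun t ht hc => Finset.mem_filter.mpr ⟨ht, hc⟩
  have hpos : ∀ (t : α) (u : α), u ∈ (S.filter fun t => 0 < c t).erase t → 1 ≤ c u := by
    intro t u hu
    exact (Finset.mem_filter.mp (Finset.mem_erase.mp hu).2).2
  have hsplit : ∀ t ∈ S, 0 < c t →
      c t + ∑ u ∈ (S.filter fun t => 0 < c t).erase t, c u = 3 ∧
      ((S.filter fun t => 0 < c t).erase t).card + 1 = (S.filter fun t => 0 < c t).card ∧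
      ((S.filter fun t => 0 < c t).erase t).card ≤
        ∑ u ∈ (S.filter fun t => 0 < c t).erase t, c u := by
    intro t ht hc
    refine ⟨?_, ?_, ?_⟩
    · rw [Finset.add_sum_erase _ _ (hmem t ht hc)]
      exact hF
    · exact Finset.card_erase_add_one (hmem t ht hc)
    · have := Finset.card_nsmul_le_sum _ c 1 (hpos t)
      simpa using this
  have f1 : (S.filter fun t => 0 < c t).card = 1 → ∃ t ∈ S, c t = 3 := by
    intro hk
    obtain ⟨t, ht⟩ := Finset.card_eq_one.mp hk
    rw [ht, Finset.sum_singleton] at hF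
    have : t ∈ S.filter (fun t => 0 < c t) := by rw [ht]; exact Finset.mem_singleton_self _
    exact ⟨t, (Finset.mem_filter.mp this).1, hF⟩
  have f2 : (S.filter fun t => 0 < c t).card = 2 → ∃ t ∈ S, c t = 2 := by
    intro hk
    obtain ⟨t, u, hne, ht⟩ := Finset.card_eq_two.mp hk
    rw [ht, Finset.sum_pair hne] at hF
    have h1 : t ∈ S.filter (fun t => 0 < c t) := by rw [ht]; exact Finset.mem_insert_self _ _
    have h2 : u ∈ S.filter (fun t => 0 < c t) := by
      rw [ht]; exact Finset.mem_insert_of_mem (Finset.mem_singleton_self _)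
    have h1' := Finset.mem_filter.mp h1
    have h2' := Finset.mem_filter.mp h2
    by_cases hc : c t = 2
    · exact ⟨t, h1'.1, hc⟩
    · exact ⟨u, h2'.1, by omega⟩
  have f3 : (S.filter fun t => 0 < c t).card = 3 → ∀ t ∈ S, c t ≤ 1 := by
    intro hk t ht
    by_contra hc
    obtain ⟨h1, h2, h3⟩ := hsplit t ht (by omega)
    omega
  have b1 : (∃ t ∈ S, c t = 3) → (S.filter fun t => 0 < c t).card = 1 := by
    rintro ⟨t, ht, hc⟩
    obtain ⟨h1, h2, h3⟩ := hsplit t ht (by omega)
    omega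
  have b2 : (∃ t ∈ S, c t = 2) → (S.filter fun t => 0 < c t).card = 2 := by
    rintro ⟨t, ht, hc⟩
    obtain ⟨h1, h2, h3⟩ := hsplit t ht (by omega)
    have h4 : ((S.filter fun t => 0 < c t).erase t).card ≠ 0 := by
      intro h0
      rw [Finset.card_eq_zero] at h0
      rw [h0, Finset.sum_empty] at h1
      omega
    omega
  have b3 : (∀ t ∈ S, c t ≤ 1) → (S.filter fun t => 0 < c t).card = 3 := by
    intro hall
    have : ∑ t ∈ S.filter (fun t => 0 < c t), c t = ∑ t ∈ S.filter (fun t => 0 < c t), 1 := by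
      apply Finset.sum_congr rfl
      intro t ht
      have h1 := Finset.mem_filter.mp ht
      have h2 := hall t h1.1
      omega
    rw [hF, Finset.sum_const, smul_eq_mul, mul_one] at this
    exact this.symm
  exact ⟨⟨f1, b1⟩, ⟨f2, b2⟩, ⟨f3, b3⟩⟩

theorem filter_meet_eq (S : Finset (Finset GolayPt)) (Y : Finset GolayPt) :
    (S.filter fun t => (t ∩ Y).Nonempty) = S.filter fun t => 0 < (t ∩ Y).card := by
  apply Finset.filter_congr
  intro t _
  exact Finset.card_pos.symm

/-- The three classes of sextets against a 3-set. -/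
theorem sextet_classes {S : Finset (Finset GolayPt)} (hS : S ∈ sextets) {Y : Finset GolayPt}
    (hY : Y.card = 3) :
    ((S.filter fun t => (t ∩ Y).Nonempty).card = 1 ↔ ∃ t ∈ S, (t ∩ Y).card = 3) ∧
    ((S.filter fun t => (t ∩ Y).Nonempty).card = 2 ↔ ∃ t ∈ S, (t ∩ Y).card = 2) ∧
    ((S.filter fun t => (t ∩ Y).Nonempty).card = 3 ↔ ∀ t ∈ S, (t ∩ Y).card ≤ 1) := by
  rw [filter_meet_eq]
  exact count_pos_of_sum_three S (fun t => (t ∩ Y).card) ((sextet_sum_inter hS Y).trans hY)

/-- The sextet of a 4-set. -/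
noncomputable def sxOf (t : Finset GolayPt) : Finset (Finset GolayPt) :=
  open Classical in if h : t.card = 4 then Classical.choose (exists_sextet h) else ∅

theorem sxOf_spec {t : Finset GolayPt} (h : t.card = 4) : sxOf t ∈ sextets ∧ t ∈ sxOf t := by
  unfold sxOf
  rw [dif_pos h]
  exact Classical.choose_spec (exists_sextet h)

theorem sxOf_eq {S : Finset (Finset GolayPt)} (hS : S ∈ sextets) {t : Finset GolayPt}
    (ht : t ∈ S) : sxOf t = S :=
  sextet_unique (sxOf_spec (hS.2.1 t ht)).1 hS (sxOf_spec (hS.2.1 t ht)).2 ht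

theorem smul_sextet_eq {S S' : Finset (Finset GolayPt)} (hS : S ∈ sextets) (hS' : S' ∈ sextets)
    {g : Equiv.Perm GolayPt} (hg : g ∈ M24) {t : Finset GolayPt} (ht : t ∈ S)
    (ht' : g • t ∈ S') : g • S = S' :=
  sextet_unique (smul_mem_sextets hg hS) hS' (Finset.smul_mem_smul_finset ht) ht'

theorem ncard_sextets_one {Y : Finset GolayPt} (hY : Y.card = 3) :
    {S : Finset (Finset GolayPt) | S ∈ sextets ∧
      (S.filter fun t => (t ∩ Y).Nonempty).card = 1}.ncard = 21 := by
  classical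
  have key : {S : Finset (Finset GolayPt) | S ∈ sextets ∧
      (S.filter fun t => (t ∩ Y).Nonempty).card = 1} =
      ↑((Finset.univ \ Y).image (fun p => sxOf (insert p Y))) := by
    ext S
    rw [Finset.mem_coe, Finset.mem_image]
    constructor
    · rintro ⟨hS, hk⟩
      obtain ⟨t, ht, hct⟩ := (sextet_classes hS hY).1.mp hk
      have hYt : Y ⊆ t := by
        have := Finset.eq_of_subset_of_card_le
          (Finset.inter_subset_right (s₁ := t) (s₂ := Y)) (by rw [hct, hY])
        rw [← this]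
        exact Finset.inter_subset_left
      have h4 := hS.2.1 t ht
      have h1 : (t \ Y).card = 1 := by
        rw [Finset.card_sdiff_of_subset hYt]; omega
      obtain ⟨p, hp⟩ := Finset.card_eq_one.mp h1
      have hpm : p ∈ t \ Y := by rw [hp]; exact Finset.mem_singleton_self _
      refine ⟨p, Finset.mem_sdiff.mpr ⟨Finset.mem_univ _, (Finset.mem_sdiff.mp hpm).2⟩, ?_⟩
      have : insert p Y = t := by
        rw [Finset.insert_eq, ← hp]
        exact Finset.sdiff_union_of_subset hYt
      rw [this]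
      exact sxOf_eq hS ht
    · rintro ⟨p, hp, rfl⟩
      have h4 : (insert p Y).card = 4 := by
        rw [Finset.card_insert_of_notMem (Finset.mem_sdiff.mp hp).2, hY]
      refine ⟨(sxOf_spec h4).1,
        (sextet_classes (sxOf_spec h4).1 hY).1.mpr ⟨insert p Y, (sxOf_spec h4).2, ?_⟩⟩
      rw [Finset.inter_eq_right.mpr (Finset.subset_insert _ _)]
      exact hY
  rw [key, Set.ncard_coe_finset, Finset.card_image_of_injOn,
    Finset.card_sdiff_of_subset (Finset.subset_univ _), Finset.card_univ, hY]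
  · decide
  · intro p hp p' hp' heq
    have hp1 := (Finset.mem_sdiff.mp hp).2
    have hp1' := (Finset.mem_sdiff.mp hp').2
    have h4 : (insert p Y).card = 4 := by rw [Finset.card_insert_of_notMem hp1, hY]
    have h4' : (insert p' Y).card = 4 := by rw [Finset.card_insert_of_notMem hp1', hY]
    have hm : insert p Y ∈ sxOf (insert p Y) := (sxOf_spec h4).2
    have hm' : insert p' Y ∈ sxOf (insert p Y) := by
      have : sxOf (insert p Y) = sxOf (insert p' Y) := heq
      rw [this]; exact (sxOf_spec h4').2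
    have heq2 : insert p Y = insert p' Y := by
      by_contra hne
      have hd := sextet_disjoint (sxOf_spec h4).1 hm hm' hne
      have hne0 : Y.Nonempty := by rw [← Finset.card_pos, hY]; norm_num
      obtain ⟨y, hy⟩ := hne0
      exact Finset.disjoint_left.mp hd (Finset.mem_insert_of_mem hy) (Finset.mem_insert_of_mem hy)
    have : p ∈ insert p' Y := by rw [← heq2]; exact Finset.mem_insert_self _ _
    rcases Finset.mem_insert.mp this with h | h
    · exact h
    · exact absurd h hp1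

theorem ncard_sextets_two {Y : Finset GolayPt} (hY : Y.card = 3) :
    {S : Finset (Finset GolayPt) | S ∈ sextets ∧
      (S.filter fun t => (t ∩ Y).Nonempty).card = 2}.ncard = 630 := by
  classical
  have key : {S : Finset (Finset GolayPt) | S ∈ sextets ∧
      (S.filter fun t => (t ∩ Y).Nonempty).card = 2} =
      ↑((Finset.powersetCard 2 Y ×ˢ Finset.powersetCard 2 (Finset.univ \ Y)).image
        (fun ab => sxOf (ab.1 ∪ ab.2))) := by
    ext S
    rw [Finset.mem_coe, Finset.mem_image]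
    constructor
    · rintro ⟨hS, hk⟩
      obtain ⟨t, ht, hct⟩ := (sextet_classes hS hY).2.1.mp hk
      have h4 := hS.2.1 t ht
      refine ⟨(t ∩ Y, t \ Y), ?_, ?_⟩
      · rw [Finset.mem_product, Finset.mem_powersetCard, Finset.mem_powersetCard]
        refine ⟨⟨Finset.inter_subset_right, hct⟩, ?_, ?_⟩
        · intro p hp
          exact Finset.mem_sdiff.mpr ⟨Finset.mem_univ _, (Finset.mem_sdiff.mp hp).2⟩
        · show (t \ Y).card = 2
          have := Finset.card_sdiff_add_card_inter t Y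
          omega
      · show sxOf (t ∩ Y ∪ t \ Y) = S
        rw [Finset.union_comm, Finset.sdiff_union_inter]
        exact sxOf_eq hS ht
    · rintro ⟨⟨a, b⟩, hab, rfl⟩
      rw [Finset.mem_product, Finset.mem_powersetCard, Finset.mem_powersetCard] at hab
      obtain ⟨⟨haY, ha2⟩, hbY, hb2⟩ := hab
      have hdisj : Disjoint a b := by
        rw [Finset.disjoint_left]
        intro p hpa hpb
        exact (Finset.mem_sdiff.mp (hbY hpb)).2 (haY hpa)
      have h4 : (a ∪ b).card = 4 := by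
        rw [Finset.card_union_of_disjoint hdisj, ha2, hb2]
      have hinter : (a ∪ b) ∩ Y = a := by
        ext p
        rw [Finset.mem_inter, Finset.mem_union]
        constructor
        · rintro ⟨h | h, hpY⟩
          · exact h
          · exact absurd hpY (Finset.mem_sdiff.mp (hbY h)).2
        · intro h
          exact ⟨Or.inl h, haY h⟩
      refine ⟨(sxOf_spec h4).1,
        (sextet_classes (sxOf_spec h4).1 hY).2.1.mpr ⟨a ∪ b, (sxOf_spec h4).2, ?_⟩⟩
      rw [hinter]
      exact ha2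
  rw [key, Set.ncard_coe_finset, Finset.card_image_of_injOn, Finset.card_product,
    Finset.card_powersetCard, Finset.card_powersetCard,
    Finset.card_sdiff_of_subset (Finset.subset_univ _), Finset.card_univ, hY]
  · decide
  · rintro ⟨a, b⟩ hab ⟨a', b'⟩ hab' heq
    rw [Finset.mem_coe, Finset.mem_product, Finset.mem_powersetCard, Finset.mem_powersetCard]
      at hab hab'
    obtain ⟨⟨haY, ha2⟩, hbY, hb2⟩ := hab
    obtain ⟨⟨haY', ha2'⟩, hbY', hb2'⟩ := hab'
    have hdisj : Disjoint a b := by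
      rw [Finset.disjoint_left]
      intro p hpa hpb
      exact (Finset.mem_sdiff.mp (hbY hpb)).2 (haY hpa)
    have hdisj' : Disjoint a' b' := by
      rw [Finset.disjoint_left]
      intro p hpa hpb
      exact (Finset.mem_sdiff.mp (hbY' hpb)).2 (haY' hpa)
    have h4 : (a ∪ b).card = 4 := by
      rw [Finset.card_union_of_disjoint hdisj, ha2, hb2]
    have h4' : (a' ∪ b').card = 4 := by
      rw [Finset.card_union_of_disjoint hdisj', ha2', hb2']
    have hm : a ∪ b ∈ sxOf (a ∪ b) := (sxOf_spec h4).2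
    have hm' : a' ∪ b' ∈ sxOf (a ∪ b) := by
      have : sxOf (a ∪ b) = sxOf (a' ∪ b') := heq
      rw [this]; exact (sxOf_spec h4').2
    have heq2 : a ∪ b = a' ∪ b' := by
      by_contra hne
      have hd := sextet_disjoint (sxOf_spec h4).1 hm hm' hne
      have hd2 : Disjoint a a' :=
        hd.mono Finset.subset_union_left Finset.subset_union_left
      have h5 : (a ∪ a').card = 4 := by
        rw [Finset.card_union_of_disjoint hd2, ha2, ha2']
      have h6 : (a ∪ a').card ≤ Y.card := Finset.card_le_card (Finset.union_subset haY haY')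
      omega
    have hinter : ∀ (a b : Finset GolayPt), a ⊆ Y → b ⊆ Finset.univ \ Y → (a ∪ b) ∩ Y = a := by
      intro a b haY hbY
      ext p
      rw [Finset.mem_inter, Finset.mem_union]
      constructor
      · rintro ⟨h | h, hpY⟩
        · exact h
        · exact absurd hpY (Finset.mem_sdiff.mp (hbY h)).2
      · intro h
        exact ⟨Or.inl h, haY h⟩
    have hsd : ∀ (a b : Finset GolayPt), a ⊆ Y → b ⊆ Finset.univ \ Y → (a ∪ b) \ Y = b := by
      intro a b haY hbY
      ext p
      rw [Finset.mem_sdiff, Finset.mem_union]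
      constructor
      · rintro ⟨h | h, hpY⟩
        · exact absurd (haY h) hpY
        · exact h
      · intro h
        exact ⟨Or.inr h, (Finset.mem_sdiff.mp (hbY h)).2⟩
    have e1 : a = a' := by
      rw [← hinter a b haY hbY, ← hinter a' b' haY' hbY', heq2]
    have e2 : b = b' := by
      rw [← hsd a b haY hbY, ← hsd a' b' haY' hbY', heq2]
    rw [e1, e2]

theorem sextet_class_range {S : Finset (Finset GolayPt)} (hS : S ∈ sextets) {Y : Finset GolayPt}
    (hY : Y.card = 3) : (S.filter fun t => (t ∩ Y).Nonempty).card ∈ ({1, 2, 3} : Finset ℕ) := by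
  have hsum := (sextet_sum_inter hS Y).trans hY
  rw [filter_meet_eq]
  have hF : ∑ t ∈ S.filter (fun t => 0 < (t ∩ Y).card), (t ∩ Y).card = 3 := by
    rw [Finset.sum_filter_of_ne]
    · exact hsum
    · intro x _ hx
      exact Nat.pos_of_ne_zero hx
  have h1 := Finset.card_nsmul_le_sum (S.filter (fun t => 0 < (t ∩ Y).card))
    (fun t => (t ∩ Y).card) 1 (fun t ht => (Finset.mem_filter.mp ht).2)
  rw [hF, smul_eq_mul, mul_one] at h1
  have h2 : (S.filter (fun t => 0 < (t ∩ Y).card)).card ≠ 0 := by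
    intro h0
    rw [Finset.card_eq_zero] at h0
    rw [h0, Finset.sum_empty] at hF
    omega
  simp only [Finset.mem_insert, Finset.mem_singleton]
  omega

theorem ncard_sextets_three {Y : Finset GolayPt} (hY : Y.card = 3) :
    {S : Finset (Finset GolayPt) | S ∈ sextets ∧
      (S.filter fun t => (t ∩ Y).Nonempty).card = 3}.ncard = 1120 := by
  classical
  have hconv : ∀ k : ℕ, {S : Finset (Finset GolayPt) | S ∈ sextets ∧
      (S.filter fun t => (t ∩ Y).Nonempty).card = k} =
      ↑((Set.toFinite sextets).toFinset.filter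
        (fun S => (S.filter fun t => (t ∩ Y).Nonempty).card = k)) := by
    intro k
    ext S
    rw [Finset.mem_coe, Finset.mem_filter, Set.Finite.mem_toFinset]
    rfl
  have h1 := ncard_sextets_one hY
  have h2 := ncard_sextets_two hY
  rw [hconv, Set.ncard_coe_finset] at h1 h2 ⊢
  have hX : (Set.toFinite sextets).toFinset.card = 1771 := by
    rw [← Set.ncard_eq_toFinset_card sextets (Set.toFinite _)]
    exact ncard_sextets
  have hfib := Finset.card_eq_sum_card_fiberwise (s := (Set.toFinite sextets).toFinset)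
    (t := ({1, 2, 3} : Finset ℕ))
    (f := fun S => (S.filter fun t => (t ∩ Y).Nonempty).card)
    (fun S hS => sextet_class_range ((Set.Finite.mem_toFinset _).mp hS) hY)
  rw [hX, Finset.sum_insert (by decide), Finset.sum_insert (by decide), Finset.sum_singleton,
    h1, h2] at hfib
  omega

theorem sextet_trans_one {Y : Finset GolayPt} (hY : Y.card = 3)
    {S S' : Finset (Finset GolayPt)} (hS : S ∈ sextets) (hS' : S' ∈ sextets)
    (h1 : ∃ t ∈ S, (t ∩ Y).card = 3) (h1' : ∃ t ∈ S', (t ∩ Y).card = 3) :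
    ∃ g ∈ M24, g • Y = Y ∧ g • S = S' := by
  have data : ∀ (S : Finset (Finset GolayPt)), S ∈ sextets → (∃ t ∈ S, (t ∩ Y).card = 3) →
      ∃ p, p ∉ Y ∧ insert p Y ∈ S := by
    intro S hS ⟨t, ht, hct⟩
    have hYt : Y ⊆ t := by
      have := Finset.eq_of_subset_of_card_le
        (Finset.inter_subset_right (s₁ := t) (s₂ := Y)) (by rw [hct, hY])
      rw [← this]
      exact Finset.inter_subset_left
    have h4 := hS.2.1 t ht
    have h1 : (t \ Y).card = 1 := by
      rw [Finset.card_sdiff_of_subset hYt]; omega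
    obtain ⟨p, hp⟩ := Finset.card_eq_one.mp h1
    have hpm : p ∈ t \ Y := by rw [hp]; exact Finset.mem_singleton_self _
    refine ⟨p, (Finset.mem_sdiff.mp hpm).2, ?_⟩
    have : insert p Y = t := by
      rw [Finset.insert_eq, ← hp]
      exact Finset.sdiff_union_of_subset hYt
    rw [this]
    exact ht
  obtain ⟨p, hp, hpS⟩ := data S hS h1
  obtain ⟨p', hp', hpS'⟩ := data S' hS' h1'
  obtain ⟨y1, y2, y3, h12, h13, h23, rfl⟩ := Finset.card_eq_three.mp hY
  simp only [Finset.mem_insert, Finset.mem_singleton, not_or] at hp hp'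
  obtain ⟨g, hg, hmap⟩ := exists_mem_M24_map_list [y1, y2, y3, p] [y1, y2, y3, p']
    (by simp [h12, h13, h23, Ne.symm hp.1, Ne.symm hp.2.1, Ne.symm hp.2.2])
    (by simp [h12, h13, h23, Ne.symm hp'.1, Ne.symm hp'.2.1, Ne.symm hp'.2.2])
    rfl (by norm_num)
  simp only [List.map_cons, List.map_nil, List.cons.injEq, and_true] at hmap
  obtain ⟨e1, e2, e3, e4⟩ := hmap
  have hgY : g • ({y1, y2, y3} : Finset GolayPt) = {y1, y2, y3} := by
    rw [Finset.smul_finset_insert, Finset.smul_finset_insert, Finset.smul_finset_singleton]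
    show ({g y1, g y2, g y3} : Finset GolayPt) = _
    rw [e1, e2, e3]
  refine ⟨g, hg, hgY, smul_sextet_eq hS hS' hg hpS ?_⟩
  rw [Finset.smul_finset_insert, hgY]
  show insert (g p) _ ∈ S'
  rw [e4]
  exact hpS'

theorem sextet_trans_two {Y : Finset GolayPt} (hY : Y.card = 3)
    {S S' : Finset (Finset GolayPt)} (hS : S ∈ sextets) (hS' : S' ∈ sextets)
    (h1 : ∃ t ∈ S, (t ∩ Y).card = 2) (h1' : ∃ t ∈ S', (t ∩ Y).card = 2) :
    ∃ g ∈ M24, g • Y = Y ∧ g • S = S' := by
  have data : ∀ (S : Finset (Finset GolayPt)), S ∈ sextets → (∃ t ∈ S, (t ∩ Y).card = 2) →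
      ∃ y1 y2 y3 a b, [y1, y2, y3, a, b].Nodup ∧ Y = {y1, y2} ∪ {y3} ∧
        ({y1, y2} ∪ {a, b} : Finset GolayPt) ∈ S := by
    intro S hS ⟨t, ht, hct⟩
    have h4 := hS.2.1 t ht
    obtain ⟨y1, y2, h12, e1⟩ := Finset.card_eq_two.mp hct
    have c2 : (Y \ t).card = 1 := by
      have := Finset.card_sdiff_add_card_inter Y t
      rw [Finset.inter_comm] at this
      omega
    obtain ⟨y3, e2⟩ := Finset.card_eq_one.mp c2
    have c3 : (t \ Y).card = 2 := by
      have := Finset.card_sdiff_add_card_inter t Y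
      omega
    obtain ⟨a, b, hab, e3⟩ := Finset.card_eq_two.mp c3
    have m1 : y1 ∈ t ∩ Y := by rw [e1]; exact Finset.mem_insert_self _ _
    have m2 : y2 ∈ t ∩ Y := by
      rw [e1]; exact Finset.mem_insert_of_mem (Finset.mem_singleton_self _)
    have m3 : y3 ∈ Y \ t := by rw [e2]; exact Finset.mem_singleton_self _
    have m4 : a ∈ t \ Y := by rw [e3]; exact Finset.mem_insert_self _ _
    have m5 : b ∈ t \ Y := by
      rw [e3]; exact Finset.mem_insert_of_mem (Finset.mem_singleton_self _)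
    rw [Finset.mem_inter] at m1 m2
    rw [Finset.mem_sdiff] at m3 m4 m5
    refine ⟨y1, y2, y3, a, b, ?_, ?_, ?_⟩
    · have n13 : y1 ≠ y3 := fun h => m3.2 (h ▸ m1.1)
      have n23 : y2 ≠ y3 := fun h => m3.2 (h ▸ m2.1)
      have n1a : y1 ≠ a := fun h => m4.2 (h ▸ m1.2)
      have n1b : y1 ≠ b := fun h => m5.2 (h ▸ m1.2)
      have n2a : y2 ≠ a := fun h => m4.2 (h ▸ m2.2)
      have n2b : y2 ≠ b := fun h => m5.2 (h ▸ m2.2)
      have n3a : y3 ≠ a := fun h => m3.2 (h ▸ m4.1)
      have n3b : y3 ≠ b := fun h => m3.2 (h ▸ m5.1)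
      simp [h12, n13, n23, n1a, n1b, n2a, n2b, n3a, n3b, hab]
    · rw [← e1, ← e2, Finset.inter_comm, Finset.union_comm, Finset.sdiff_union_inter]
    · rw [← e1, ← e3, Finset.union_comm, Finset.sdiff_union_inter]
      exact ht
  obtain ⟨y1, y2, y3, a, b, hnd, eY, hmS⟩ := data S hS h1
  obtain ⟨y1', y2', y3', a', b', hnd', eY', hmS'⟩ := data S' hS' h1'
  obtain ⟨g, hg, hmap⟩ := exists_mem_M24_map_list [y1, y2, y3, a, b] [y1', y2', y3', a', b']
    hnd hnd' rfl (by norm_num)
  simp only [List.map_cons, List.map_nil, List.cons.injEq, and_true] at hmap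
  obtain ⟨e1, e2, e3, e4, e5⟩ := hmap
  have hpair : ∀ u v : GolayPt, g • ({u, v} : Finset GolayPt) = {g u, g v} := by
    intro u v
    rw [Finset.smul_finset_insert, Finset.smul_finset_singleton]
    rfl
  have hgY : g • Y = Y := by
    have : g • ({y1, y2} ∪ {y3} : Finset GolayPt) = {y1', y2'} ∪ {y3'} := by
      rw [Finset.smul_finset_union, hpair, Finset.smul_finset_singleton]
      show ({g y1, g y2} ∪ {g y3} : Finset GolayPt) = _
      rw [e1, e2, e3]
    rw [← eY'] at this
    rw [← eY] at this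
    exact this
  refine ⟨g, hg, hgY, smul_sextet_eq hS hS' hg hmS ?_⟩
  rw [Finset.smul_finset_union, hpair, hpair, e1, e2, e4, e5]
  exact hmS'

theorem sextet_trans_three {Y : Finset GolayPt} (hY : Y.card = 3)
    {S S' : Finset (Finset GolayPt)} (hS : S ∈ sextets) (hS' : S' ∈ sextets)
    (h1 : ∀ t ∈ S, (t ∩ Y).card ≤ 1) (h1' : ∀ t ∈ S', (t ∩ Y).card ≤ 1) :
    ∃ g ∈ M24, g • Y = Y ∧ g • S = S' := by
  obtain ⟨y1, y2, y3, h12, h13, h23, rfl⟩ := Finset.card_eq_three.mp hY
  have m1 : y1 ∈ ({y1, y2, y3} : Finset GolayPt) := by simp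
  have m2 : y2 ∈ ({y1, y2, y3} : Finset GolayPt) := by simp
  have m3 : y3 ∈ ({y1, y2, y3} : Finset GolayPt) := by simp
  have sep : ∀ (S : Finset (Finset GolayPt)), (∀ t ∈ S, (t ∩ {y1, y2, y3}).card ≤ 1) →
      ∀ t ∈ S, ∀ u v : GolayPt, u ∈ ({y1, y2, y3} : Finset GolayPt) →
        v ∈ ({y1, y2, y3} : Finset GolayPt) → u ≠ v → u ∈ t → v ∉ t := by
    intro S h1 t ht u v hu hv hne hut hvt
    have hsub : ({u, v} : Finset GolayPt) ⊆ t ∩ {y1, y2, y3} := by
      intro x hx
      rw [Finset.mem_insert, Finset.mem_singleton] at hx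
      rcases hx with rfl | rfl
      · exact Finset.mem_inter.mpr ⟨hut, hu⟩
      · exact Finset.mem_inter.mpr ⟨hvt, hv⟩
    have := Finset.card_le_card hsub
    rw [Finset.card_pair hne] at this
    have := h1 t ht
    omega
  have data : ∀ (S : Finset (Finset GolayPt)), S ∈ sextets →
      (∀ t ∈ S, (t ∩ {y1, y2, y3}).card ≤ 1) →
      ∃ a b c t2, [y1, y2, a, b, c].Nodup ∧ ({y1, a, b, c} : Finset GolayPt) ∈ S ∧ t2 ∈ S ∧
        y2 ∈ t2 ∧ t2 ≠ {y1, a, b, c} ∧ y3 ∉ ({y1, a, b, c} : Finset GolayPt) ∧ y3 ∉ t2 := by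
    intro S hS h1
    obtain ⟨t1, ht1, hy1⟩ := sextet_cover hS y1
    obtain ⟨t2, ht2, hy2⟩ := sextet_cover hS y2
    have h4 := hS.2.1 t1 ht1
    have c3 : (t1.erase y1).card = 3 := by rw [Finset.card_erase_of_mem hy1, h4]
    obtain ⟨a, b, c, hab, hac, hbc, e⟩ := Finset.card_eq_three.mp c3
    have et : ({y1, a, b, c} : Finset GolayPt) = t1 := by
      rw [← e]
      exact Finset.insert_erase hy1
    have ha : a ∈ t1.erase y1 := by rw [e]; simp
    have hb : b ∈ t1.erase y1 := by rw [e]; simp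
    have hc : c ∈ t1.erase y1 := by rw [e]; simp
    rw [Finset.mem_erase] at ha hb hc
    have hy2t1 : y2 ∉ t1 := sep S h1 t1 ht1 y1 y2 m1 m2 h12 hy1
    have hy3t1 : y3 ∉ t1 := sep S h1 t1 ht1 y1 y3 m1 m3 h13 hy1
    have hy3t2 : y3 ∉ t2 := sep S h1 t2 ht2 y2 y3 m2 m3 h23 hy2
    refine ⟨a, b, c, t2, ?_, ?_, ht2, hy2, ?_, ?_, hy3t2⟩
    · have n2a : y2 ≠ a := fun h => hy2t1 (h ▸ ha.2)
      have n2b : y2 ≠ b := fun h => hy2t1 (h ▸ hb.2)
      have n2c : y2 ≠ c := fun h => hy2t1 (h ▸ hc.2)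
      simp [h12, Ne.symm ha.1, Ne.symm hb.1, Ne.symm hc.1, n2a, n2b, n2c, hab, hac, hbc]
    · rw [et]; exact ht1
    · rw [et]
      intro h
      exact hy2t1 (h ▸ hy2)
    · rw [et]; exact hy3t1
  obtain ⟨a, b, c, t2, hnd, ht1, ht2, hy2, hne, hy3t1, hy3t2⟩ := data S hS h1
  obtain ⟨a', b', c', t2', hnd', ht1', ht2', hy2', hne', hy3t1', hy3t2'⟩ := data S' hS' h1'
  obtain ⟨g1, hg1, hmap⟩ := exists_mem_M24_map_list [y1, y2, a, b, c] [y1, y2, a', b', c']
    hnd hnd' rfl (by norm_num)
  simp only [List.map_cons, List.map_nil, List.cons.injEq, and_true] at hmap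
  obtain ⟨e1, e2, e3, e4, e5⟩ := hmap
  have hg1t : g1 • ({y1, a, b, c} : Finset GolayPt) = {y1, a', b', c'} := by
    rw [Finset.smul_finset_insert, Finset.smul_finset_insert, Finset.smul_finset_insert,
      Finset.smul_finset_singleton]
    show ({g1 y1, g1 a, g1 b, g1 c} : Finset GolayPt) = _
    rw [e1, e3, e4, e5]
  -- the 5-set and its octad
  have hF5 : (insert y2 ({y1, a', b', c'} : Finset GolayPt)).card = 5 := by
    have : insert y2 ({y1, a', b', c'} : Finset GolayPt) = [y2, y1, a', b', c'].toFinset := by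
      simp
    rw [this, List.toFinset_card_of_nodup]
    · rfl
    · simp only [List.nodup_cons, List.mem_cons, List.not_mem_nil, or_false, not_or,
        List.nodup_nil, and_true, not_false_eq_true] at hnd' ⊢
      tauto
  have ho' : ({y1, a', b', c'} : Finset GolayPt) ∪ t2' ∈ octads :=
    hS'.2.2 _ ht1' _ ht2' (Ne.symm hne')
  have hFo' : insert y2 ({y1, a', b', c'} : Finset GolayPt) ⊆ {y1, a', b', c'} ∪ t2' :=
    Finset.insert_subset (Finset.mem_union_right _ hy2') Finset.subset_union_left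
  have ho : g1 • (({y1, a, b, c} : Finset GolayPt) ∪ t2) ∈ octads :=
    smul_mem_octads hg1 (hS.2.2 _ ht1 _ ht2 (Ne.symm hne))
  have hFo : insert y2 ({y1, a', b', c'} : Finset GolayPt) ⊆
      g1 • (({y1, a, b, c} : Finset GolayPt) ∪ t2) := by
    rw [Finset.smul_finset_union, hg1t]
    apply Finset.insert_subset
    · apply Finset.mem_union_right
      rw [← e2]
      exact Finset.smul_mem_smul_finset hy2
    · exact Finset.subset_union_left
  have hoo : g1 • (({y1, a, b, c} : Finset GolayPt) ∪ t2) = {y1, a', b', c'} ∪ t2' :=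
    (octads_isSteinerSystem.2 _ hF5).unique ⟨ho, hFo⟩ ⟨ho', hFo'⟩
  have hp : g1 y3 ∉ ({y1, a', b', c'} : Finset GolayPt) ∪ t2' := by
    rw [← hoo, mem_smul_iff]
    have : g1⁻¹ (g1 y3) = y3 := by simp
    rw [this, Finset.mem_union]
    exact fun h => h.elim hy3t1 hy3t2
  have hq : y3 ∉ ({y1, a', b', c'} : Finset GolayPt) ∪ t2' := by
    rw [Finset.mem_union]
    exact fun h => h.elim hy3t1' hy3t2'
  obtain ⟨h, hh, hhq⟩ := fixer_five_trans hF5 ho' hFo' (fun hx => hp (hFo' hx))
    (fun hx => hq (hFo' hx)) ⟨fun hx => absurd hx hp, fun hx => absurd hx hq⟩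
  have hfix := (mem_fixer.mp hh).2
  have hy1 : h y1 = y1 := hfix y1 (by simp)
  have hy2 : h y2 = y2 := hfix y2 (by simp)
  have hht : h • ({y1, a', b', c'} : Finset GolayPt) = {y1, a', b', c'} :=
    smul_eq_of_fixes (fun p hp => hfix p (Finset.mem_insert_of_mem hp))
  have hgM : h * g1 ∈ M24 := M24.mul_mem (mem_fixer.mp hh).1 hg1
  refine ⟨h * g1, hgM, ?_, smul_sextet_eq hS hS' hgM ht1 ?_⟩
  · rw [Finset.smul_finset_insert, Finset.smul_finset_insert, Finset.smul_finset_singleton]
    show ({h (g1 y1), h (g1 y2), h (g1 y3)} : Finset GolayPt) = _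
    rw [e1, e2, hy1, hy2, hhq]
  · rw [mul_smul, hg1t, hht]
    exact ht1'

/-- S5616. -/
theorem sextets_three_set (Y : Finset GolayPt) (hY : Y.card = 3) :
    {S : Finset (Finset GolayPt) | S ∈ sextets ∧
      (S.filter fun t => (t ∩ Y).Nonempty).card = 1}.ncard = 21 ∧
    {S : Finset (Finset GolayPt) | S ∈ sextets ∧
      (S.filter fun t => (t ∩ Y).Nonempty).card = 2}.ncard = 630 ∧
    {S : Finset (Finset GolayPt) | S ∈ sextets ∧
      (S.filter fun t => (t ∩ Y).Nonempty).card = 3}.ncard = 1120 ∧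
    ∀ S S' : Finset (Finset GolayPt), S ∈ sextets → S' ∈ sextets →
      (S.filter fun t => (t ∩ Y).Nonempty).card = (S'.filter fun t => (t ∩ Y).Nonempty).card →
      ∃ g ∈ M24, g • Y = Y ∧ g • S = S' := by
  refine ⟨ncard_sextets_one hY, ncard_sextets_two hY, ncard_sextets_three hY, ?_⟩
  intro S S' hS hS' hk
  have hr := sextet_class_range hS hY
  obtain ⟨c1, c2, c3⟩ := sextet_classes hS hY
  obtain ⟨c1', c2', c3'⟩ := sextet_classes hS' hY
  simp only [Finset.mem_insert, Finset.mem_singleton] at hr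
  rcases hr with h | h | h
  · exact sextet_trans_one hY hS hS' (c1.mp h) (c1'.mp (hk ▸ h))
  · exact sextet_trans_two hY hS hS' (c2.mp h) (c2'.mp (hk ▸ h))
  · exact sextet_trans_three hY hS hS' (c3.mp h) (c3'.mp (hk ▸ h))

end Cfsg.Agent.Lib.helper28
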