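import Cfsg.Agent.Lib.helper28.GolaySimple

set_option autoImplicit false

namespace Cfsg.Agent.Lib.helper28

open Cfsg
open scoped Pointwise

/-! Simplicity of `M11 = stabM [2 ^ 0, d0]` and `M12 = stabM [d0]`. -/

def n11Chain : List (ℕ × ℕ × List (List ℕ)) :=
  [(19, 16436384,
    [[0, 1, 2, 9, 13, 15, 3, 17, 18, 6, 7, 11, 8, 16, 20, 19, 4, 10, 12, 5, 21, 14, 22, 23],
     [0, 1, 2, 3, 8, 17, 18, 15, 12, 13, 19, 21, 16, 6, 23, 10, 4, 5, 9, 7, 11, 22, 20, 14],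
     [0, 1, 2, 3, 16, 17, 13, 19, 4, 18, 15, 20, 8, 9, 23, 7, 12, 5, 6, 10, 22, 11, 21, 14],
     [0, 1, 2, 3, 18, 23, 16, 20, 6, 8, 21, 15, 13, 4, 17, 22, 9, 14, 12, 11, 10, 7, 19, 5],
     [0, 1, 2, 12, 8, 20, 3, 23, 16, 4, 11, 10, 18, 13, 19, 21, 9, 22, 6, 14, 15, 5, 7, 17],
     [0, 1, 2, 3, 12, 5, 9, 10, 16, 6, 7, 22, 4, 18, 14, 19, 8, 17, 13, 15, 21, 20, 11, 23],
     [0, 1, 2, 18, 9, 7, 3, 5, 6, 13, 19, 20, 4, 12, 22, 10, 16, 15, 8, 17, 11, 23, 21, 14],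
     [0, 1, 2, 3, 4, 5, 6, 7, 8, 9, 10, 11, 12, 13, 14, 15, 16, 17, 18, 19, 20, 21, 22, 23],
     [0, 1, 2, 3, 6, 14, 12, 22, 13, 4, 11, 7, 9, 16, 5, 21, 18, 23, 8, 20, 15, 19, 10, 17],
     [0, 1, 2, 3, 9, 14, 4, 11, 18, 12, 22, 10, 6, 8, 5, 20, 13, 23, 16, 21, 19, 15, 7, 17],
     [0, 1, 2, 3, 13, 23, 8, 21, 9, 16, 20, 19, 18, 12, 17, 11, 6, 14, 4, 22, 7, 10, 15, 5],
     [0, 1, 2, 16, 12, 11, 3, 14, 4, 8, 21, 19, 9, 6, 7, 22, 13, 20, 18, 23, 10, 17, 15, 5]]),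
   (1, 340830,
    [[0, 1, 2, 3, 4, 5, 6, 7, 8, 9, 10, 11, 12, 13, 14, 15, 16, 17, 18, 19, 20, 21, 22, 23],
     [0, 2, 13, 3, 18, 7, 8, 20, 4, 12, 21, 22, 1, 9, 15, 17, 6, 11, 16, 19, 10, 5, 14, 23],
     [0, 3, 9, 12, 8, 11, 6, 5, 16, 13, 20, 7, 1, 2, 14, 22, 4, 10, 18, 19, 17, 15, 21, 23],
     [0, 4, 3, 9, 13, 17, 18, 15, 12, 6, 14, 10, 1, 8, 5, 22, 16, 11, 2, 19, 23, 21, 20, 7],
     [0, 6, 2, 13, 12, 10, 16, 5, 3, 8, 15, 11, 1, 18, 20, 17, 4, 7, 9, 19, 23, 14, 21, 22],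
     [0, 8, 9, 3, 12, 10, 16, 5, 13, 6, 20, 17, 1, 4, 15, 11, 18, 22, 2, 19, 23, 21, 14, 7],
     [0, 9, 3, 13, 4, 22, 6, 15, 18, 12, 14, 7, 1, 2, 20, 11, 8, 17, 16, 19, 10, 5, 21, 23],
     [0, 12, 2, 13, 6, 10, 4, 15, 18, 9, 5, 11, 1, 3, 21, 7, 16, 17, 8, 19, 22, 14, 20, 23],
     [0, 13, 2, 12, 6, 17, 8, 5, 16, 3, 15, 22, 1, 9, 21, 7, 18, 10, 4, 19, 11, 20, 14, 23],
     [0, 16, 18, 8, 13, 7, 3, 5, 6, 12, 14, 10, 1, 9, 15, 23, 4, 11, 2, 19, 22, 20, 21, 17],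
     [0, 18, 8, 6, 9, 11, 12, 15, 4, 13, 21, 17, 1, 2, 14, 23, 16, 10, 3, 19, 7, 5, 20, 22]]),
   (2, 340828,
    [[0, 1, 2, 3, 4, 5, 6, 7, 8, 9, 10, 11, 12, 13, 14, 15, 16, 17, 18, 19, 20, 21, 22, 23],
     [0, 1, 3, 12, 16, 15, 4, 11, 6, 2, 17, 10, 13, 9, 21, 14, 18, 22, 8, 19, 5, 20, 7, 23],
     [0, 1, 4, 8, 18, 5, 16, 17, 12, 9, 22, 10, 3, 6, 15, 21, 13, 23, 2, 19, 20, 14, 11, 7],
     [0, 1, 6, 3, 13, 20, 2, 23, 12, 9, 10, 22, 8, 4, 15, 14, 18, 17, 16, 19, 5, 21, 11, 7],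
     [0, 1, 8, 4, 16, 15, 18, 10, 13, 3, 11, 17, 9, 6, 5, 21, 12, 23, 2, 19, 14, 20, 22, 7],
     [0, 1, 9, 16, 4, 5, 3, 10, 13, 18, 11, 7, 8, 12, 15, 20, 6, 22, 2, 19, 14, 21, 23, 17],
     [0, 1, 12, 18, 13, 21, 2, 22, 6, 8, 10, 23, 9, 16, 5, 14, 3, 7, 4, 19, 15, 20, 11, 17],
     [0, 1, 13, 16, 12, 21, 2, 11, 6, 4, 17, 23, 3, 18, 15, 20, 9, 7, 8, 19, 5, 14, 22, 10],
     [0, 1, 16, 6, 8, 15, 18, 22, 13, 2, 7, 17, 12, 4, 14, 20, 9, 23, 3, 19, 5, 21, 10, 11],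
     [0, 1, 18, 6, 4, 5, 16, 11, 12, 2, 7, 10, 13, 8, 20, 14, 3, 23, 9, 19, 15, 21, 17, 22]]),
   (3, 328472,
    [[0, 1, 2, 3, 4, 5, 6, 7, 8, 9, 10, 11, 12, 13, 14, 15, 16, 17, 18, 19, 20, 21, 22, 23],
     [0, 1, 2, 4, 3, 15, 13, 10, 18, 16, 7, 23, 12, 6, 21, 5, 9, 17, 8, 19, 20, 14, 22, 11],
     [0, 1, 2, 8, 9, 5, 12, 17, 16, 18, 7, 23, 13, 6, 21, 15, 3, 10, 4, 19, 14, 20, 11, 22],
     [0, 1, 2, 9, 8, 15, 6, 7, 4, 3, 17, 22, 13, 12, 20, 5, 18, 10, 16, 19, 14, 21, 11, 23],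
     [0, 1, 2, 16, 18, 5, 13, 10, 3, 4, 17, 22, 6, 12, 20, 15, 8, 7, 9, 19, 21, 14, 23, 11],
     [0, 1, 2, 18, 16, 15, 12, 17, 9, 8, 10, 11, 6, 13, 14, 5, 4, 7, 3, 19, 21, 20, 23, 22]])]

def n11T : List ℕ := [0, 13, 16, 18, 6, 20, 8, 22, 2, 1, 15, 5, 3, 4, 11, 7, 12, 23, 9, 19, 21, 17, 14, 10]

def n11Pows : List (List ℕ) :=
  [[0, 1, 2, 3, 4, 5, 6, 7, 8, 9, 10, 11, 12, 13, 14, 15, 16, 17, 18, 19, 20, 21, 22, 23],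
   [0, 13, 16, 18, 6, 20, 8, 22, 2, 1, 15, 5, 3, 4, 11, 7, 12, 23, 9, 19, 21, 17, 14, 10],
   [0, 4, 12, 9, 8, 21, 2, 14, 16, 13, 7, 20, 18, 6, 5, 22, 3, 10, 1, 19, 17, 23, 11, 15],
   [0, 6, 3, 1, 2, 17, 16, 11, 12, 4, 22, 21, 9, 8, 20, 14, 18, 15, 13, 19, 23, 10, 5, 7],
   [0, 8, 18, 13, 16, 23, 12, 5, 3, 6, 14, 17, 1, 2, 21, 11, 9, 7, 4, 19, 10, 15, 20, 22],
   [0, 2, 9, 4, 12, 10, 3, 20, 18, 8, 11, 23, 13, 16, 17, 5, 1, 22, 6, 19, 15, 7, 21, 14],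
   [0, 16, 1, 6, 3, 15, 18, 21, 9, 2, 5, 10, 4, 12, 23, 20, 13, 14, 8, 19, 7, 22, 17, 11],
   [0, 12, 13, 8, 18, 7, 9, 17, 1, 16, 20, 15, 6, 3, 10, 21, 4, 11, 2, 19, 22, 14, 23, 5],
   [0, 3, 4, 2, 9, 22, 1, 23, 13, 12, 21, 7, 8, 18, 15, 17, 6, 5, 16, 19, 14, 11, 10, 20],
   [0, 18, 6, 16, 1, 14, 13, 10, 4, 3, 17, 22, 2, 9, 7, 23, 8, 20, 12, 19, 11, 5, 15, 21],
   [0, 9, 8, 12, 13, 11, 4, 15, 6, 18, 23, 14, 16, 1, 22, 10, 2, 21, 3, 19, 5, 20, 7, 17]]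

def n11L : List (List ℕ) :=
  [[0, 1, 2, 3, 4, 5, 6, 7, 8, 9, 10, 11, 12, 13, 14, 15, 16, 17, 18, 19, 20, 21, 22, 23],
   [0, 1, 8, 4, 16, 15, 18, 10, 13, 3, 11, 17, 9, 6, 5, 21, 12, 23, 2, 19, 14, 20, 22, 7],
   [0, 1, 18, 9, 3, 14, 13, 23, 2, 12, 7, 10, 16, 8, 20, 5, 4, 11, 6, 19, 21, 15, 22, 17],
   [0, 1, 6, 12, 9, 20, 8, 17, 18, 16, 23, 7, 4, 2, 21, 14, 3, 10, 13, 19, 15, 5, 22, 11],
   [0, 1, 13, 16, 12, 21, 2, 11, 6, 4, 17, 23, 3, 18, 15, 20, 9, 7, 8, 19, 5, 14, 22, 10],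
   [0, 16, 18, 4, 2, 7, 9, 14, 8, 13, 11, 21, 3, 1, 22, 23, 6, 5, 12, 19, 20, 15, 17, 10],
   [0, 16, 12, 13, 4, 22, 1, 10, 18, 3, 14, 11, 6, 8, 20, 7, 2, 21, 9, 19, 15, 23, 17, 5],
   [0, 16, 8, 2, 6, 23, 12, 11, 1, 4, 21, 5, 13, 9, 7, 15, 3, 10, 18, 19, 22, 20, 17, 14],
   [0, 16, 1, 6, 3, 15, 18, 21, 9, 2, 5, 10, 4, 12, 23, 20, 13, 14, 8, 19, 7, 22, 17, 11],
   [0, 16, 9, 3, 13, 20, 8, 5, 12, 6, 10, 14, 2, 18, 15, 22, 4, 11, 1, 19, 23, 7, 17, 21],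
   [0, 4, 6, 3, 18, 23, 12, 20, 2, 8, 10, 15, 9, 1, 22, 17, 13, 14, 16, 19, 21, 5, 11, 7],
   [0, 4, 12, 9, 8, 21, 2, 14, 16, 13, 7, 20, 18, 6, 5, 22, 3, 10, 1, 19, 17, 23, 11, 15],
   [0, 4, 2, 18, 13, 17, 16, 10, 1, 3, 15, 14, 8, 12, 23, 5, 9, 7, 6, 19, 22, 21, 11, 20],
   [0, 4, 16, 8, 3, 22, 1, 7, 6, 9, 20, 10, 13, 2, 21, 23, 18, 15, 12, 19, 5, 17, 11, 14],
   [0, 4, 1, 13, 9, 5, 6, 15, 12, 18, 14, 7, 3, 16, 17, 21, 8, 20, 2, 19, 23, 22, 11, 10],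
   [0, 8, 12, 1, 6, 10, 3, 7, 4, 9, 22, 5, 16, 18, 15, 21, 13, 14, 2, 19, 11, 23, 20, 17],
   [0, 8, 2, 9, 1, 15, 18, 17, 12, 16, 7, 22, 13, 4, 11, 10, 6, 5, 3, 19, 23, 21, 20, 14],
   [0, 8, 3, 16, 9, 11, 4, 14, 2, 13, 17, 7, 6, 12, 23, 15, 1, 22, 18, 19, 21, 10, 20, 5],
   [0, 8, 18, 13, 16, 23, 12, 5, 3, 6, 14, 17, 1, 2, 21, 11, 9, 7, 4, 19, 10, 15, 20, 22],
   [0, 8, 4, 6, 13, 21, 2, 22, 18, 1, 5, 14, 9, 3, 10, 23, 16, 17, 12, 19, 15, 11, 20, 7],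
   [0, 6, 8, 18, 9, 10, 3, 21, 16, 2, 15, 7, 1, 13, 14, 23, 4, 11, 12, 19, 17, 20, 5, 22],
   [0, 6, 3, 1, 2, 17, 16, 11, 12, 4, 22, 21, 9, 8, 20, 14, 18, 15, 13, 19, 23, 10, 5, 7],
   [0, 6, 12, 2, 18, 14, 13, 22, 8, 1, 21, 15, 4, 16, 17, 10, 9, 7, 3, 19, 20, 23, 5, 11],
   [0, 6, 13, 4, 1, 20, 8, 7, 3, 9, 11, 22, 18, 12, 23, 17, 2, 21, 16, 19, 10, 14, 5, 15],
   [0, 6, 16, 9, 4, 23, 12, 15, 13, 18, 7, 11, 2, 3, 10, 20, 1, 22, 8, 19, 14, 17, 5, 21],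
   [0, 12, 2, 16, 8, 10, 3, 5, 13, 6, 17, 20, 4, 1, 22, 7, 18, 15, 9, 19, 14, 21, 23, 11],
   [0, 12, 9, 6, 16, 22, 1, 11, 2, 4, 5, 17, 18, 13, 14, 10, 8, 20, 3, 19, 21, 7, 23, 15],
   [0, 12, 13, 8, 18, 7, 9, 17, 1, 16, 20, 15, 6, 3, 10, 21, 4, 11, 2, 19, 22, 14, 23, 5],
   [0, 12, 1, 18, 4, 21, 2, 20, 3, 8, 15, 11, 16, 9, 7, 14, 6, 5, 13, 19, 10, 22, 23, 17],
   [0, 12, 3, 4, 6, 14, 13, 15, 9, 18, 11, 5, 8, 2, 21, 22, 16, 17, 1, 19, 7, 10, 23, 20],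
   [0, 13, 2, 6, 12, 7, 9, 15, 4, 18, 5, 23, 1, 8, 20, 17, 3, 10, 16, 19, 11, 21, 14, 22],
   [0, 13, 16, 18, 6, 20, 8, 22, 2, 1, 15, 5, 3, 4, 11, 7, 12, 23, 9, 19, 21, 17, 14, 10],
   [0, 13, 4, 12, 3, 17, 16, 5, 8, 6, 23, 10, 18, 9, 7, 21, 1, 22, 2, 19, 20, 11, 14, 15],
   [0, 13, 8, 3, 1, 21, 2, 23, 9, 12, 10, 22, 6, 16, 17, 11, 18, 15, 4, 19, 7, 20, 14, 5],
   [0, 13, 9, 1, 18, 11, 4, 10, 16, 3, 22, 15, 12, 2, 21, 20, 6, 5, 8, 19, 17, 7, 14, 23],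
   [0, 3, 13, 9, 6, 17, 16, 21, 18, 2, 7, 5, 12, 1, 22, 11, 8, 20, 4, 19, 15, 14, 10, 23],
   [0, 3, 16, 12, 2, 15, 18, 20, 4, 8, 23, 21, 6, 13, 14, 22, 9, 7, 1, 19, 11, 17, 10, 5],
   [0, 3, 18, 6, 8, 11, 4, 7, 1, 9, 5, 20, 2, 16, 17, 14, 12, 23, 13, 19, 22, 15, 10, 21],
   [0, 3, 4, 2, 9, 22, 1, 23, 13, 12, 21, 7, 8, 18, 15, 17, 6, 5, 16, 19, 14, 11, 10, 20],
   [0, 3, 1, 8, 12, 14, 13, 5, 16, 6, 20, 23, 9, 4, 11, 15, 2, 21, 18, 19, 17, 22, 10, 7],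
   [0, 18, 13, 2, 3, 11, 4, 20, 12, 8, 21, 10, 1, 6, 5, 7, 16, 17, 9, 19, 23, 14, 15, 22],
   [0, 18, 4, 1, 8, 23, 12, 17, 9, 16, 22, 20, 3, 13, 14, 5, 2, 21, 6, 19, 7, 11, 15, 10],
   [0, 18, 9, 8, 2, 5, 6, 22, 13, 1, 20, 21, 16, 12, 23, 11, 3, 10, 4, 19, 14, 7, 15, 17],
   [0, 18, 6, 16, 1, 14, 13, 10, 4, 3, 17, 22, 2, 9, 7, 23, 8, 20, 12, 19, 11, 5, 15, 21],
   [0, 18, 12, 3, 16, 7, 9, 21, 6, 2, 10, 17, 8, 4, 11, 14, 1, 22, 13, 19, 5, 23, 15, 20],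
   [0, 9, 3, 18, 12, 22, 1, 17, 8, 16, 15, 23, 2, 6, 5, 11, 13, 14, 4, 19, 20, 10, 7, 21],
   [0, 9, 4, 16, 18, 5, 6, 21, 3, 2, 17, 15, 13, 8, 20, 22, 12, 23, 1, 19, 10, 11, 7, 14],
   [0, 9, 8, 12, 13, 11, 4, 15, 6, 18, 23, 14, 16, 1, 22, 10, 2, 21, 3, 19, 5, 20, 7, 17],
   [0, 9, 6, 13, 2, 10, 3, 23, 1, 12, 14, 21, 18, 4, 11, 20, 16, 17, 8, 19, 22, 5, 7, 15],
   [0, 9, 1, 2, 16, 20, 8, 14, 4, 13, 21, 17, 12, 3, 10, 5, 18, 15, 6, 19, 11, 22, 7, 23],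
   [0, 2, 18, 12, 1, 5, 6, 11, 16, 4, 23, 22, 8, 3, 10, 7, 13, 14, 9, 19, 17, 15, 21, 20],
   [0, 2, 16, 1, 13, 7, 9, 23, 3, 12, 22, 14, 4, 6, 5, 15, 8, 20, 18, 19, 10, 17, 21, 11],
   [0, 2, 3, 13, 8, 15, 18, 22, 6, 1, 14, 20, 12, 9, 7, 17, 4, 11, 16, 19, 5, 10, 21, 23],
   [0, 2, 6, 8, 4, 17, 16, 14, 9, 13, 20, 11, 1, 18, 15, 10, 12, 23, 3, 19, 7, 5, 21, 22],
   [0, 2, 9, 4, 12, 10, 3, 20, 18, 8, 11, 23, 13, 16, 17, 5, 1, 22, 6, 19, 15, 7, 21, 14]]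

def n11S : List ℕ := [0, 1, 8, 4, 16, 15, 18, 10, 13, 3, 11, 17, 9, 6, 5, 21, 12, 23, 2, 19, 14, 20, 22, 7]


theorem n11T_in : tabIn [2 ^ 0, d0] n11T = true := by decide +kernel
theorem n11S_in : tabIn [2 ^ 0, d0] n11S = true := by decide +kernel
theorem n11T_in' : tabIn [d0] n11T = true := by decide +kernel
theorem n11S_in' : tabIn [d0] n11S = true := by decide +kernel
theorem n11Chain_ok : chainGen [2 ^ 0, d0] n11Chain = true := by decide +kernel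
theorem n11Chain_prod : chainProd n11Chain = 7920 := by decide +kernel
theorem n11T_pow : powTab n11T 11 = idTab := by decide +kernel
theorem n11S_pow : powTab n11S 5 = idTab := by decide +kernel
theorem n11_conj : mulTab n11S n11T = mulTab (powTab n11T 3) n11S := by decide +kernel
theorem n11Pows_eq : n11Pows = (List.range 11).map (powTab n11T) := by decide +kernel
theorem n11L_lt : (n11L.all fun l => allLt (fun j => decide (l.getD j 0 < 32)) 24) = true := by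
  decide +kernel
theorem n11L_length : n11L.length = 55 := by decide +kernel
theorem n11_fix : ((List.range 11).all fun j => j == 0 ||
    allLt (fun q => !((powTab n11T j).getD q 0 == q) || (524289 : ℕ).testBit q) 24) = true := by
  decide +kernel
theorem n11_enum : enumW (normW (pack n11T) (n11Pows.map pack) (n11L.map pack) 1 2)
    (packChain n11Chain) [] = true := by decide +kernel

theorem n11_norm : ∀ g ∈ stabM [2 ^ 0, d0],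
    g * tp [2 ^ 0, d0] n11T n11T_in * g⁻¹ ∈ Subgroup.zpowers (tp [2 ^ 0, d0] n11T n11T_in) →
      ∃ l ∈ n11L, IsTable g l :=
  normalizer_tables_fast (isTable_tp _ _ _) (by norm_num) n11T_pow n11Pows n11L n11Pows_eq n11L_lt
    1 2 (by norm_num) (by norm_num) n11Chain_ok (by rw [card_stabM_d0_pt, n11Chain_prod]) n11_enum

theorem n12_norm : ∀ g ∈ stabM [d0],
    g * tp [d0] n11T n11T_in' * g⁻¹ ∈ Subgroup.zpowers (tp [d0] n11T n11T_in') →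
      ∃ l ∈ n11L, IsTable g l := by
  intro g hg hn
  have hT := isTable_tp [d0] n11T n11T_in'
  have ht0 : tp [d0] n11T n11T_in' (pt 0) = pt 0 := by
    have h := getD_of_isTable hT (i := 0) (by norm_num)
    apply idx_injective
    rw [← h, idx_pt (by norm_num)]
    rfl
  have h1 := fix_of_normalizes hT (by norm_num) n11T_pow 524289 n11_fix
    (ne_one_of_table hT (i := 1) (by norm_num) (by decide)) hn ht0
  have h2 : g (pt 0) ∈ setOf d0 :=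
    (mem_iff_of_smul_eq (hg.2 d0 (by simp)) (pt 0)).mpr (by
      rw [mem_setOf, idx_pt (by norm_num)]; decide)
  have h3 : g (pt 0) = pt 0 := by
    rw [mem_setOf] at h1 h2
    have key : ∀ q, q < 24 → (524289 : ℕ).testBit q = true → d0.testBit q = true → q = 0 := by
      decide
    have h4 := key _ (idx_lt _) h1 h2
    rw [← pt_idx (g (pt 0)), h4]
  exact n11_norm g ((mem_stabM_cons_pt (by norm_num)).mpr ⟨hg, h3⟩) hn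

/-! ### Normal subgroups -/

theorem invariant_d0 : ∀ g ∈ stabM [d0], ∀ x ∈ setOf d0, g x ∈ setOf d0 :=
  fun g hg x hx => (mem_iff_of_smul_eq (hg.2 d0 (by simp)) x).mpr hx

theorem m12Chain_in : ∀ c ∈ m12Chain, c.1 < 24 ∧ d0.testBit c.1 = true := by decide +kernel

theorem faithful_d0 : ∀ g ∈ stabM [d0], (∀ x ∈ setOf d0, g x = x) → g = 1 := by
  intro g hg hfix
  have h1 : g ∈ stabM (chainInv [d0] m12Chain) := by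
    rw [mem_stabM_chainInv m12Chain [d0] (fun c hc => (m12Chain_in c hc).1)]
    refine ⟨hg, fun c hc => hfix _ ?_⟩
    rw [mem_setOf, idx_pt (m12Chain_in c hc).1]
    exact (m12Chain_in c hc).2
  rw [m12_final_bot] at h1
  exact h1

theorem card_setOf_d0 : (setOf d0).card = 12 := by
  rw [card_setOf (by decide)]; decide +kernel

theorem pt0_mem_d0 : pt 0 ∈ setOf d0 := by
  rw [mem_setOf, idx_pt (by norm_num)]; decide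

theorem m12_hdiv (N : Subgroup (Equiv.Perm GolayPt)) (hN : N ≤ stabM [d0])
    (hnorm : ∀ g ∈ stabM [d0], ∀ n ∈ N, g * n * g⁻¹ ∈ N) (hne : N ≠ ⊥) : 11 ∣ Nat.card N := by
  have := card_dvd_of_normal_three_trans (stabM [d0]) (setOf d0) invariant_d0 faithful_d0
    (listTrans_d0.two (by norm_num)) (listTrans_d0.three (by norm_num)) 2 3 (by norm_num)
    (by norm_num) (by norm_num) (by rw [card_setOf_d0]; norm_num) (by rw [card_setOf_d0]; norm_num)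
    N hN hnorm hne
  rwa [card_setOf_d0] at this

theorem stabM_d0_pt_eq : stabM [2 ^ 0, d0] =
    stabM [d0] ⊓ MulAction.stabilizer (Equiv.Perm GolayPt) (pt 0) :=
  stabM_cons_pt_eq (by norm_num)

theorem m11_hdiv (N : Subgroup (Equiv.Perm GolayPt)) (hN : N ≤ stabM [2 ^ 0, d0])
    (hnorm : ∀ g ∈ stabM [2 ^ 0, d0], ∀ n ∈ N, g * n * g⁻¹ ∈ N) (hne : N ≠ ⊥) :
    11 ∣ Nat.card N := by
  rw [stabM_d0_pt_eq] at hN hnorm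
  have := card_dvd_of_normal_two_trans _ ((setOf d0).erase (pt 0))
    (invariant_stab invariant_d0 (pt 0)) (faithful_stab faithful_d0 (pt 0))
    ((listTrans_d0.stab pt0_mem_d0).two (by norm_num)) N hN hnorm hne
  rwa [Finset.card_erase_of_mem pt0_mem_d0, card_setOf_d0] at this

/-! ### Simplicity -/

theorem m11_simple : IsSimpleGroup (stabM [2 ^ 0, d0]) := by
  have : Fact (Nat.Prime 11) := ⟨by norm_num⟩
  exact stabM_simple [2 ^ 0, d0] 11 5 (by norm_num) (by norm_num) n11T n11S n11T_in n11S_in n11T_pow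
    1 (by norm_num) (by decide) n11S_pow 2 (by norm_num) (by decide) 3 n11_conj n11L
    (by rw [n11L_length]) n11_norm (by rw [card_stabM_d0_pt]; norm_num)
    (by rw [card_stabM_d0_pt]; norm_num) m11_hdiv

theorem m12_simple : IsSimpleGroup (stabM [d0]) := by
  have : Fact (Nat.Prime 11) := ⟨by norm_num⟩
  exact stabM_simple [d0] 11 5 (by norm_num) (by norm_num) n11T n11S n11T_in' n11S_in' n11T_pow
    1 (by norm_num) (by decide) n11S_pow 2 (by norm_num) (by decide) 3 n11_conj n11L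
    (by rw [n11L_length]) n12_norm (by rw [card_stabM_d0]; norm_num)
    (by rw [card_stabM_d0]; norm_num) m12_hdiv

/-- S0388. -/
theorem simple_stabilizer_dodecad_point {d : Finset GolayPt} (hd : d ∈ dodecads) {p : GolayPt}
    (hp : p ∈ d) :
    IsSimpleGroup ↥(MulAction.stabilizer M24 d ⊓ MulAction.stabilizer M24 p) := by
  obtain ⟨a, ha, had, hap⟩ := exists_M24_flag hd hp
  apply isSimpleGroup_of_conj_equiv M24 _ (stabM [2 ^ 0, d0]) (stabM_le_M24 _) a ha _ m11_simple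
  intro g
  rw [Subgroup.mem_inf, MulAction.mem_stabilizer_iff, MulAction.mem_stabilizer_iff,
    mem_stabM_cons_pt (by norm_num), mem_stabM, conj_apply_eq_iff, hap]
  simp only [List.mem_singleton, forall_eq]
  rw [conj_smul_eq_iff, had]
  constructor
  · rintro ⟨h1, h2⟩
    exact ⟨⟨M24.mul_mem (M24.mul_mem (M24.inv_mem ha) g.2) ha, h1⟩, h2⟩
  · rintro ⟨⟨_, h1⟩, h2⟩
    exact ⟨h1, h2⟩

/-- S0383. -/
theorem simple_stabilizer_dodecad {d : Finset GolayPt} (hd : d ∈ dodecads) :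
    IsSimpleGroup (MulAction.stabilizer M24 d) := by
  obtain ⟨a, ha, had⟩ := exists_smul_d0_eq hd
  apply isSimpleGroup_of_conj_equiv M24 _ (stabM [d0]) (stabM_le_M24 _) a ha _ m12_simple
  intro g
  rw [MulAction.mem_stabilizer_iff, mem_stabM]
  simp only [List.mem_singleton, forall_eq]
  rw [conj_smul_eq_iff, had]
  constructor
  · intro h1
    exact ⟨M24.mul_mem (M24.mul_mem (M24.inv_mem ha) g.2) ha, h1⟩
  · rintro ⟨_, h1⟩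
    exact h1

end Cfsg.Agent.Lib.helper28
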