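import Cfsg.Agent.Lib.helper28.GolayGraph

set_option autoImplicit false

namespace Cfsg.Agent.Lib.helper28

open Cfsg
open scoped Pointwise

/-! The group of the code induces the symmetric group on every 6-set. -/

theorem card_fixer6 : Nat.card (fixer (setOf 63)) = 3 := by
  have s7 := card_fixer_step (F := 63) (b := 7) (by norm_num) (by norm_num) lev7_ok (by
    intro g hg
    have h1 := smul_baseOctad (mem_fixer.mp hg).1 (fixesMask_of_mem_fixer hg) (by norm_num)
      (by decide +kernel)
    have h2 : g (pt 7) ∈ setOf 5279 := by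
      rw [← h1]
      apply Finset.smul_mem_smul_finset
      rw [mem_setOf, idx_pt (by norm_num)]
      decide
    have h3 : g (pt 7) ∉ setOf 63 := by
      apply apply_not_mem_of_mem_fixer hg
      rw [mem_setOf, idx_pt (by norm_num)]
      decide
    rw [mem_setOf] at h2 h3 ⊢
    have hlt := idx_lt (g (pt 7))
    revert h2 h3
    generalize idx (g (pt 7)) = k at hlt ⊢
    revert k
    decide)
  have s8 : Nat.card (fixer (setOf 191)) = 1 := by
    rw [fixer7_eq_bot]
    exact Subgroup.card_bot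
  have p7 : pc 5248 = 3 := by decide
  rw [p7] at s7
  have t7 : Nat.card (fixer (setOf 63)) = 3 * Nat.card (fixer (setOf 191)) := s7
  rw [t7, s8]

theorem exists_smul_setOf31 {F : Finset GolayPt} (hF : F.card = 5) :
    ∃ a ∈ M24, a • setOf 31 = F := by
  obtain ⟨a, ha, hmap⟩ := exists_mem_M24_map_list [pt 0, pt 1, pt 2, pt 3, pt 4] F.toList
    (by decide) F.nodup_toList (by rw [Finset.length_toList, hF]; rfl) (by norm_num)
  refine ⟨a, ha, ?_⟩
  have h31 : (31 : ℕ) = orList ([0, 1, 2, 3, 4].map fun b => 2 ^ b) := by decide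
  rw [h31, smul_setOf_orList a [0, 1, 2, 3, 4] (by decide)]
  have : ([0, 1, 2, 3, 4].map fun b => a (pt b)) = [pt 0, pt 1, pt 2, pt 3, pt 4].map a := rfl
  rw [this, hmap, Finset.toList_toFinset]

theorem setOf31_subset_63 : setOf 31 ⊆ setOf 63 := by
  intro p
  rw [mem_setOf, mem_setOf]
  have hlt := idx_lt p
  generalize idx p = k at hlt ⊢
  revert k
  decide

theorem setOf31_subset_o0 : setOf 31 ⊆ setOf o0 := by
  intro p
  rw [mem_setOf, mem_setOf]
  have hlt := idx_lt p
  generalize idx p = k at hlt ⊢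
  revert k
  decide

theorem fixer_anti {F F' : Finset GolayPt} (h : F ⊆ F') : fixer F' ≤ fixer F := by
  intro g hg
  rw [mem_fixer] at hg ⊢
  exact ⟨hg.1, fun p hp => hg.2 p (h hp)⟩

theorem fixer5_trans {p q : GolayPt} (hp : p ∉ setOf 31) (hq : q ∉ setOf 31)
    (h : p ∈ setOf o0 ↔ q ∈ setOf o0) : ∃ g ∈ fixer (setOf 31), g p = q := by
  have key : ∀ p : GolayPt, p ∉ setOf 31 →
      ((p ∉ setOf o0 → ∃ g ∈ fixer (setOf 31), g (pt 5) = p) ∧
        (p ∈ setOf o0 → ∃ g ∈ fixer (setOf 31), g (pt 7) = p)) := by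
    intro p hp
    constructor
    · intro hpo
      refine levelOK_sound (by norm_num) lev6_ok p ?_
      have : (16771936 : ℕ) = (2 ^ 24 - 1) ^^^ 5279 := by decide
      rw [this, mem_setOf_compl]
      exact hpo
    · intro hpo
      have hp' : p ∈ setOf 5248 := by
        rw [mem_setOf] at hp hpo ⊢
        have hlt := idx_lt p
        revert hp hpo
        generalize idx p = k at hlt ⊢
        revert k
        decide
      obtain ⟨g, hg, hgp⟩ := levelOK_sound (by norm_num) lev7_ok p hp'
      exact ⟨g, fixer_anti setOf31_subset_63 hg, hgp⟩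
  by_cases hpo : p ∈ setOf o0
  · obtain ⟨g1, hg1, h1⟩ := (key p hp).2 hpo
    obtain ⟨g2, hg2, h2⟩ := (key q hq).2 (h.mp hpo)
    refine ⟨g2 * g1⁻¹, (fixer _).mul_mem hg2 ((fixer _).inv_mem hg1), ?_⟩
    rw [Equiv.Perm.mul_apply, ← h1]
    have : g1⁻¹ (g1 (pt 7)) = pt 7 := by simp
    rw [this, h2]
  · obtain ⟨g1, hg1, h1⟩ := (key p hp).1 hpo
    obtain ⟨g2, hg2, h2⟩ := (key q hq).1 (fun hq' => hpo (h.mpr hq'))
    refine ⟨g2 * g1⁻¹, (fixer _).mul_mem hg2 ((fixer _).inv_mem hg1), ?_⟩
    rw [Equiv.Perm.mul_apply, ← h1]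
    have : g1⁻¹ (g1 (pt 5)) = pt 5 := by simp
    rw [this, h2]

/-- The pointwise stabiliser of five points is transitive on the three remaining points of their
octad and on the sixteen points outside it. -/
theorem fixer_five_trans {F : Finset GolayPt} (hF : F.card = 5) {o : Finset GolayPt}
    (ho : o ∈ octads) (hFo : F ⊆ o) {p q : GolayPt} (hp : p ∉ F) (hq : q ∉ F)
    (h : p ∈ o ↔ q ∈ o) : ∃ g ∈ fixer F, g p = q := by
  obtain ⟨a, ha, rfl⟩ := exists_smul_setOf31 hF
  have ho0 : a • setOf o0 = o :=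
    (octads_isSteinerSystem.2 _ hF).unique
      ⟨smul_mem_octads ha setOf_o0_mem_octads,
        Finset.smul_finset_subset_smul_finset setOf31_subset_o0⟩ ⟨ho, hFo⟩
  rw [← ho0] at h
  rw [mem_smul_iff] at hp hq
  rw [mem_smul_iff, mem_smul_iff] at h
  obtain ⟨g, hg, hgp⟩ := fixer5_trans hp hq h
  refine ⟨a * g * a⁻¹, ?_, ?_⟩
  · rw [mem_fixer_smul_iff ha]
    have : a⁻¹ * (a * g * a⁻¹) * a = g := by group
    rw [this]
    exact hg
  · show a (g (a⁻¹ p)) = q
    rw [hgp]
    simp

/-- Every permutation of a 6-set is induced by the group of the code. -/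
theorem six_induce (E : Finset GolayPt) (hE : E.card = 6) (τ : Equiv.Perm GolayPt)
    (hτ : ∀ p ∈ E, τ p ∈ E) : ∃ g ∈ M24, ∀ p ∈ E, g p = τ p := by
  have hne : E.Nonempty := by
    rw [← Finset.card_pos, hE]; norm_num
  obtain ⟨x0, hx0⟩ := hne
  have h5 : (E.erase x0).card = 5 := by
    rw [Finset.card_erase_of_mem hx0, hE]
  obtain ⟨g0, hg0, hmap⟩ := exists_mem_M24_map_list (E.erase x0).toList
    ((E.erase x0).toList.map τ) (Finset.nodup_toList _)
    ((Finset.nodup_toList _).map τ.injective) (by rw [List.length_map])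
    (by rw [Finset.length_toList, h5])
  have hg0e : ∀ e ∈ E.erase x0, g0 e = τ e := by
    intro e he
    exact List.map_inj_left.mp hmap e (Finset.mem_toList.mpr he)
  have hF5 : ((E.erase x0).image τ).card = 5 := by
    rw [Finset.card_image_of_injective _ τ.injective, h5]
  obtain ⟨o, ho, hFo⟩ := exists_octad_of_card_five _ hF5
  have hx : g0 x0 ∉ (E.erase x0).image τ := by
    intro h
    rw [Finset.mem_image] at h
    obtain ⟨e, he, hee⟩ := h
    rw [← hg0e e he] at hee
    have := g0.injective hee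
    rw [this] at he
    exact Finset.notMem_erase x0 E he
  have hy : τ x0 ∉ (E.erase x0).image τ := by
    intro h
    rw [Finset.mem_image] at h
    obtain ⟨e, he, hee⟩ := h
    have := τ.injective hee
    rw [this] at he
    exact Finset.notMem_erase x0 E he
  have hτE : insert (τ x0) ((E.erase x0).image τ) = E := by
    have h1 : E.image τ = E := Finset.eq_of_subset_of_card_le (by
      intro p hp
      rw [Finset.mem_image] at hp
      obtain ⟨e, he, rfl⟩ := hp
      exact hτ e he) (by rw [Finset.card_image_of_injective _ τ.injective])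
    rw [← Finset.image_insert, Finset.insert_erase hx0, h1]
  have hiff : g0 x0 ∈ o ↔ τ x0 ∈ o := by
    constructor
    · intro hxo
      have hE1 : E ⊆ g0⁻¹ • o := by
        intro p hp
        rw [mem_inv_smul_iff]
        by_cases hpx : p = x0
        · rw [hpx]; exact hxo
        · rw [hg0e p (Finset.mem_erase.mpr ⟨hpx, hp⟩)]
          exact hFo (Finset.mem_image_of_mem τ (Finset.mem_erase.mpr ⟨hpx, hp⟩))
      have hFE : (E.erase x0).image τ ⊆ E := by
        conv_rhs => rw [← hτE]
        exact Finset.subset_insert _ _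
      have := (octads_isSteinerSystem.2 _ hF5).unique
        ⟨smul_mem_octads (M24.inv_mem hg0) ho, hFE.trans hE1⟩ ⟨ho, hFo⟩
      rw [← this]
      exact hE1 (hτ x0 hx0)
    · intro hyo
      have hEo : E ⊆ o := by
        rw [← hτE]
        exact Finset.insert_subset hyo hFo
      have hsub : (E.erase x0).image τ ⊆ g0 • o := by
        intro p hp
        rw [Finset.mem_image] at hp
        obtain ⟨e, he, rfl⟩ := hp
        rw [← hg0e e he]
        exact Finset.smul_mem_smul_finset (a := g0) (hEo (Finset.mem_of_mem_erase he))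
      have := (octads_isSteinerSystem.2 _ hF5).unique
        ⟨smul_mem_octads hg0 ho, hsub⟩ ⟨ho, hFo⟩
      rw [← this]
      exact Finset.smul_mem_smul_finset (a := g0) (hEo hx0)
  obtain ⟨h, hh, hhx⟩ := fixer_five_trans hF5 ho hFo hx hy hiff
  refine ⟨h * g0, M24.mul_mem (mem_fixer.mp hh).1 hg0, ?_⟩
  intro p hp
  show h (g0 p) = τ p
  by_cases hpx : p = x0
  · rw [hpx, hhx]
  · have he := Finset.mem_erase.mpr ⟨hpx, hp⟩
    rw [hg0e p he]
    exact (mem_fixer.mp hh).2 _ (Finset.mem_image_of_mem τ he)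

/-- An element of the code's group fixing six points of an octad fixes the octad pointwise. -/
theorem fixer_six_in_octad {E : Finset GolayPt} (hE : E.card = 6) {o : Finset GolayPt}
    (ho : o ∈ octads) (hEo : E ⊆ o) : fixer E = fixer o := by
  apply le_antisymm _ (fixer_anti hEo)
  intro g hg
  rw [mem_fixer] at hg
  obtain ⟨F, hFE, hF5⟩ := Finset.exists_subset_card_eq (show 5 ≤ E.card by rw [hE]; norm_num)
  have hgo : g • o = o := by
    have hsub : F ⊆ g • o := by
      intro p hp
      rw [← hg.2 p (hFE hp)]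
      exact Finset.smul_mem_smul_finset (a := g) (hEo (hFE hp))
    exact (octads_isSteinerSystem.2 _ hF5).unique ⟨smul_mem_octads hg.1 ho, hsub⟩
      ⟨ho, hFE.trans hEo⟩
  have hmem := apply_mem_iff_of_smul_eq hgo
  have h2 : (o \ E).card = 2 := by
    rw [Finset.card_sdiff_of_subset hEo, ho.2, hE]
  obtain ⟨u, v, huv, huvE⟩ := Finset.card_eq_two.mp h2
  have hu : u ∈ o ∧ u ∉ E := by
    rw [← Finset.mem_sdiff, huvE]; simp
  have hv : v ∈ o ∧ v ∉ E := by
    rw [← Finset.mem_sdiff, huvE]; simp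
  have hcases : ∀ x ∈ o, x ∈ E ∨ x = u ∨ x = v := by
    intro x hx
    by_cases hxE : x ∈ E
    · exact Or.inl hxE
    · right
      have : x ∈ o \ E := Finset.mem_sdiff.mpr ⟨hx, hxE⟩
      rw [huvE] at this
      simpa using this
  have hnotE : ∀ x, x ∉ E → g x ∉ E := by
    intro x hx hgx
    have := hg.2 _ hgx
    exact hx (by rw [← g.injective this]; exact hgx)
  have hgu : g u = u ∨ g u = v := by
    rcases hcases (g u) ((hmem u).mpr hu.1) with h | h | h
    · exact absurd h (hnotE u hu.2)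
    · exact Or.inl h
    · exact Or.inr h
  have hgv : g v = u ∨ g v = v := by
    rcases hcases (g v) ((hmem v).mpr hv.1) with h | h | h
    · exact absurd h (hnotE v hv.2)
    · exact Or.inl h
    · exact Or.inr h
  rw [mem_fixer]
  refine ⟨hg.1, ?_⟩
  rcases hgu with hgu | hgu
  · have hgv' : g v = v := by
      rcases hgv with h | h
      · exact absurd (g.injective (h.trans hgu.symm)) (Ne.symm huv)
      · exact h
    intro p hp
    rcases hcases p hp with h | h | h
    · exact hg.2 p h
    · rw [h, hgu]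
    · rw [h, hgv']
  · exfalso
    have hgv' : g v = u := by
      rcases hgv with h | h
      · exact h
      · exact absurd (g.injective (hgu.trans h.symm)) huv
    have hπ : resHom o ⟨g, mem_stabP.mpr ⟨hg.1, hgo⟩⟩ =
        Equiv.swap (⟨u, hu.1⟩ : ↥o) ⟨v, hv.1⟩ := by
      apply Equiv.ext
      intro x
      apply Subtype.ext
      show g x.1 = ((Equiv.swap (⟨u, hu.1⟩ : ↥o) ⟨v, hv.1⟩) x).1
      rcases hcases x.1 x.2 with h | h | h
      · have hxu : x ≠ ⟨u, hu.1⟩ := fun hh => hu.2 (by
          have h' : x.1 = u := congrArg Subtype.val hh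
          rw [← h']; exact h)
        have hxv : x ≠ ⟨v, hv.1⟩ := fun hh => hv.2 (by
          have h' : x.1 = v := congrArg Subtype.val hh
          rw [← h']; exact h)
        rw [Equiv.swap_apply_of_ne_of_ne hxu hxv]
        exact hg.2 _ h
      · have hxu : x = ⟨u, hu.1⟩ := Subtype.ext h
        rw [hxu, Equiv.swap_apply_left]
        exact hgu
      · have hxv : x = ⟨v, hv.1⟩ := Subtype.ext h
        rw [hxv, Equiv.swap_apply_right]
        exact hgv'
    have hmemA : resHom o ⟨g, mem_stabP.mpr ⟨hg.1, hgo⟩⟩ ∈ alternatingGroup ↥o := by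
      rw [← range_resHom_eq ho]
      exact ⟨_, rfl⟩
    rw [hπ, Equiv.Perm.mem_alternatingGroup, Equiv.Perm.sign_swap] at hmemA
    · exact absurd hmemA (by decide)
    · intro hh
      exact huv (congrArg Subtype.val hh)

/-- A 6-set not contained in an octad is the image of the standard one. -/
theorem exists_smul_setOf63 {E : Finset GolayPt} (hE : E.card = 6)
    (hno : ¬ ∃ o ∈ octads, E ⊆ o) : ∃ a ∈ M24, a • setOf 63 = E := by
  have hne : E.Nonempty := by
    rw [← Finset.card_pos, hE]; norm_num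
  obtain ⟨x0, hx0⟩ := hne
  have h5 : (E.erase x0).card = 5 := by
    rw [Finset.card_erase_of_mem hx0, hE]
  obtain ⟨a0, ha0, ha0F⟩ := exists_smul_setOf31 h5
  have ho : a0 • setOf o0 ∈ octads := smul_mem_octads ha0 setOf_o0_mem_octads
  have hFo : E.erase x0 ⊆ a0 • setOf o0 := by
    rw [← ha0F]
    exact Finset.smul_finset_subset_smul_finset setOf31_subset_o0
  have hx0o : x0 ∉ a0 • setOf o0 := by
    intro h
    apply hno
    refine ⟨_, ho, ?_⟩
    rw [← Finset.insert_erase hx0]
    exact Finset.insert_subset h hFo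
  have hq1 : a0 (pt 5) ∉ a0 • setOf o0 := by
    rw [mem_smul_iff]
    have : a0⁻¹ (a0 (pt 5)) = pt 5 := by simp
    rw [this, mem_setOf, idx_pt (by norm_num)]
    decide
  have hq2 : a0 (pt 5) ∉ E.erase x0 := fun h => hq1 (hFo h)
  obtain ⟨h, hh, hhq⟩ := fixer_five_trans h5 ho hFo hq2 (Finset.notMem_erase x0 E)
    ⟨fun h => absurd h hq1, fun h => absurd h hx0o⟩
  refine ⟨h * a0, M24.mul_mem (mem_fixer.mp hh).1 ha0, ?_⟩
  have h63 : (63 : ℕ) = 31 ||| 2 ^ 5 := by decide
  rw [h63, setOf_or_two_pow 31 (by norm_num), mul_smul, Finset.smul_finset_insert,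
    Finset.smul_finset_insert, ha0F, smul_eq_of_fixes (mem_fixer.mp hh).2]
  show insert (h (a0 (pt 5))) (E.erase x0) = E
  rw [hhq, Finset.insert_erase hx0]

/-- S5600. -/
theorem six_sets (E : Finset GolayPt) (hE : E.card = 6) :
    (∀ σ : Equiv.Perm ↥E, ∃ g ∈ M24, ∀ p : ↥E, g p = σ p) ∧
    ((∃ o ∈ octads, E ⊆ o) →
      Nat.card {g : Equiv.Perm GolayPt // g ∈ M24 ∧ ∀ p ∈ E, g p = p} = 16) ∧
    ((¬ ∃ o ∈ octads, E ⊆ o) →
      Nat.card {g : Equiv.Perm GolayPt // g ∈ M24 ∧ ∀ p ∈ E, g p = p} = 3 ∧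
        Nat.card ↥(MulAction.stabilizer M24 E) = 2160) := by
  have hsub : Nat.card {g : Equiv.Perm GolayPt // g ∈ M24 ∧ ∀ p ∈ E, g p = p} =
      Nat.card (fixer E) :=
    Nat.card_congr (Equiv.subtypeEquivRight (fun g => mem_fixer.symm))
  have part1 : ∀ σ : Equiv.Perm ↥E, ∃ g ∈ M24, ∀ p : ↥E, g p = σ p := by
    intro σ
    obtain ⟨g, hg, hgp⟩ := six_induce E hE (Equiv.Perm.ofSubtype σ) (by
      intro p hp
      rw [Equiv.Perm.ofSubtype_apply_of_mem σ hp]
      exact (σ ⟨p, hp⟩).2)
    refine ⟨g, hg, fun p => ?_⟩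
    rw [hgp p.1 p.2, Equiv.Perm.ofSubtype_apply_coe]
  refine ⟨part1, ?_, ?_⟩
  · rintro ⟨o, ho, hEo⟩
    rw [hsub, fixer_six_in_octad hE ho hEo]
    exact (octad_pointwise_stabilizer ho).1
  · intro hno
    obtain ⟨a, ha, haE⟩ := exists_smul_setOf63 hE hno
    have h3 : Nat.card (fixer E) = 3 := by
      rw [← haE, ← card_fixer6]
      exact card_conj_eq _ _ a (mem_fixer_smul_iff ha _)
    refine ⟨by rw [hsub, h3], ?_⟩
    have hsurj : Function.Surjective (resHom E) := by
      intro σ
      obtain ⟨g, hg, hgσ⟩ := part1 σ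
      have hgE : g • E = E := by
        apply Finset.eq_of_subset_of_card_le
        · intro p hp
          rw [mem_smul_iff] at hp
          have := hgσ ⟨g⁻¹ p, hp⟩
          have h2 : g (g⁻¹ p) = p := by simp
          rw [h2] at this
          rw [this]
          exact (σ ⟨g⁻¹ p, hp⟩).2
        · rw [card_smul_finset]
      refine ⟨⟨g, mem_stabP.mpr ⟨hg, hgE⟩⟩, ?_⟩
      apply Equiv.ext
      intro x
      apply Subtype.ext
      exact hgσ x
    have h1 := Subgroup.card_mul_index (resHom E).ker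
    rw [Subgroup.index_ker, card_ker_resHom, h3, card_stabP,
      MonoidHom.range_eq_top.mpr hsurj, Subgroup.card_top, Nat.card_eq_fintype_card,
      Fintype.card_perm, Fintype.card_coe, hE] at h1
    rw [← h1]
    rfl

end Cfsg.Agent.Lib.helper28
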