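import Cfsg.Agent.Lib.helper28.GolayA8

set_option autoImplicit false

namespace Cfsg.Agent.Lib.helper28

open Cfsg
open scoped Pointwise

/-! The octad stabiliser is a split extension of the pointwise stabiliser by `A₈`. -/

theorem fixer_o0_trans (p : GolayPt) (hp : p ∉ setOf o0) :
    ∃ g ∈ fixer (setOf o0), g (pt 5) = p := by
  have h := chainOK_cons (show chainOK octInv6 ((5, 16771936, _) :: []) = true from octChainB_ok)
  have hp' : p ∈ setOf 16771936 := by
    have : (16771936 : ℕ) = (2 ^ 24 - 1) ^^^ o0 := by decide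
    rw [this, mem_setOf_compl]
    exact hp
  obtain ⟨l, _, g, hg, _, hgp⟩ := levOK_sound h.1 h.2.2.1 p hp'
  rw [← fixer_o0_eq] at hg
  exact ⟨g, hg, hgp⟩

theorem fixer_octad_trans {o : Finset GolayPt} (ho : o ∈ octads) {p q : GolayPt} (hp : p ∉ o)
    (hq : q ∉ o) : ∃ g ∈ fixer o, g p = q := by
  obtain ⟨a, ha, rfl⟩ := exists_smul_o0_eq ho
  rw [mem_smul_iff] at hp hq
  obtain ⟨g1, hg1, h1⟩ := fixer_o0_trans _ hp
  obtain ⟨g2, hg2, h2⟩ := fixer_o0_trans _ hq
  refine ⟨a * (g2 * g1⁻¹) * a⁻¹, ?_, ?_⟩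
  · rw [mem_fixer_smul_iff ha]
    have : a⁻¹ * (a * (g2 * g1⁻¹) * a⁻¹) * a = g2 * g1⁻¹ := by group
    rw [this]
    exact (fixer _).mul_mem hg2 ((fixer _).inv_mem hg1)
  · show a (g2 (g1⁻¹ (a⁻¹ p))) = q
    rw [← h1]
    have : g1⁻¹ (g1 (pt 5)) = pt 5 := by simp
    rw [this, h2]
    simp

theorem fixer_octad_comm {o : Finset GolayPt} (ho : o ∈ octads) {g k : Equiv.Perm GolayPt}
    (hg : g ∈ fixer o) (hk : k ∈ fixer o) : g * k = k * g := by
  have h1 := (octad_pointwise_stabilizer ho).2 g hg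
  have h2 := (octad_pointwise_stabilizer ho).2 k hk
  have h3 := (octad_pointwise_stabilizer ho).2 (g * k) ((fixer o).mul_mem hg hk)
  have h4 : g * k = g * (g * k * (g * k)) * k := by rw [h3, mul_one]
  have h5 : g * (g * k * (g * k)) * k = (g * g) * (k * g) * (k * k) := by group
  rw [h4, h5, h1, h2, one_mul, mul_one]

/-- S1554. -/
theorem octad_split (o : Finset GolayPt) (ho : o ∈ octads) (p : GolayPt) (hp : p ∉ o) :
    fixer o ⊓ (stabP o ⊓ MulAction.stabilizer (Equiv.Perm GolayPt) p) = ⊥ ∧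
    fixer o ⊔ (stabP o ⊓ MulAction.stabilizer (Equiv.Perm GolayPt) p) = stabP o ∧
    Nonempty (↥(stabP o ⊓ MulAction.stabilizer (Equiv.Perm GolayPt) p) ≃*
      alternatingGroup (Fin 8)) := by
  have part1 : fixer o ⊓ (stabP o ⊓ MulAction.stabilizer (Equiv.Perm GolayPt) p) = ⊥ := by
    rw [eq_bot_iff]
    rintro g ⟨hg, -, hgp⟩
    rw [Subgroup.mem_bot]
    have hgp' : g p = p := hgp
    apply Equiv.ext
    intro x
    by_cases hx : x ∈ o
    · exact (mem_fixer.mp hg).2 x hx
    · obtain ⟨k, hk, hkp⟩ := fixer_octad_trans ho hp hx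
      have hc := fixer_octad_comm ho hg hk
      have : g (k p) = k (g p) := congrArg (fun e : Equiv.Perm GolayPt => e p) hc
      rw [← hkp, this, hgp']
      rfl
  have decomp : ∀ g ∈ stabP o, ∃ k ∈ fixer o,
      ∃ h ∈ stabP o ⊓ MulAction.stabilizer (Equiv.Perm GolayPt) p, g = k * h := by
    intro g hg
    have hgp : g p ∉ o := fun h => hp ((apply_mem_iff_of_smul_eq (mem_stabP.mp hg).2 p).mp h)
    obtain ⟨k, hk, hkp⟩ := fixer_octad_trans ho hp hgp
    refine ⟨k, hk, k⁻¹ * g,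
      ⟨(stabP o).mul_mem ((stabP o).inv_mem (fixer_le_stabP o hk)) hg, ?_⟩, by group⟩
    show k⁻¹ (g p) = p
    rw [← hkp]
    simp
  refine ⟨part1, ?_, ?_⟩
  · apply le_antisymm
    · exact sup_le (fixer_le_stabP o) inf_le_left
    · intro g hg
      obtain ⟨k, hk, h, hh, rfl⟩ := decomp g hg
      exact Subgroup.mul_mem_sup hk hh
  · have hinj : Function.Injective ((resHom o).comp
        (Subgroup.inclusion (inf_le_left : stabP o ⊓
          MulAction.stabilizer (Equiv.Perm GolayPt) p ≤ stabP o))) := by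
      rw [← MonoidHom.ker_eq_bot_iff, eq_bot_iff]
      rintro ⟨g, hg⟩ h
      rw [MonoidHom.mem_ker, MonoidHom.comp_apply, ← MonoidHom.mem_ker, mem_ker_resHom] at h
      have h2 : g ∈ fixer o ⊓ (stabP o ⊓ MulAction.stabilizer (Equiv.Perm GolayPt) p) :=
        ⟨h, hg⟩
      rw [part1, Subgroup.mem_bot] at h2
      rw [Subgroup.mem_bot]
      exact Subtype.ext h2
    have hrange : ((resHom o).comp
        (Subgroup.inclusion (inf_le_left : stabP o ⊓
          MulAction.stabilizer (Equiv.Perm GolayPt) p ≤ stabP o))).range =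
        alternatingGroup ↥o := by
      rw [← range_resHom_eq ho]
      apply le_antisymm
      · rintro _ ⟨h, rfl⟩
        exact ⟨_, rfl⟩
      · rintro _ ⟨⟨g, hg⟩, rfl⟩
        obtain ⟨k, hk, h, hh, hkh⟩ := decomp g hg
        refine ⟨⟨h, hh⟩, ?_⟩
        apply Equiv.ext
        intro x
        apply Subtype.ext
        show h x = g x
        rw [hkh]
        have hx : h x ∈ o := (apply_mem_iff_of_smul_eq (mem_stabP.mp hh.1).2 x).mpr x.2
        exact ((mem_fixer.mp hk).2 _ hx).symm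
    have e : ↥o ≃ Fin 8 := Fintype.equivFinOfCardEq (by rw [Fintype.card_coe, ho.2])
    exact ⟨(MonoidHom.ofInjective hinj).trans
      ((MulEquiv.subgroupCongr hrange).trans (Equiv.altCongrHom e))⟩

end Cfsg.Agent.Lib.helper28
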