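import Cfsg.Agent.Lib.helper28.GolaySimpleA
import Cfsg.Agent.Lib.helper28.GolaySimpleC

set_option autoImplicit false

namespace Cfsg.Agent.Lib.helper28

open Cfsg
open scoped Pointwise

/-! Enumeration of the subsets of given size of the 24 points (as masks): universal checks, counts,
orbits of subsets under the groups `stabM Inv`. -/

theorem popc_mod (m n : ℕ) : popc (m % 2 ^ n) n = popc m n := by
  rw [popc_eq_sum, popc_eq_sum]
  apply Finset.sum_congr rfl
  intro i hi
  rw [Finset.mem_range] at hi
  rw [Nat.testBit_mod_two_pow]; simp [hi]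

theorem eq_zero_of_popc {m n : ℕ} (hm : m < 2 ^ n) (h : popc m n = 0) : m = 0 := by
  apply Nat.eq_of_testBit_eq
  intro i
  rw [Nat.zero_testBit]
  by_cases hi : i < n
  · rw [popc_eq_sum] at h
    have := (Finset.sum_eq_zero_iff.mp h) i (Finset.mem_range.mpr hi)
    cases hb : m.testBit i
    · rfl
    · rw [hb] at this; simp at this
  · exact Nat.testBit_lt_two_pow (lt_of_lt_of_le hm (Nat.pow_le_pow_right (by norm_num) (by omega)))

theorem lt_of_testBit_false {m n : ℕ} (hm : m < 2 ^ (n + 1)) (h : m.testBit n = false) :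
    m < 2 ^ n := by
  by_contra hge
  push Not at hge
  have h1 : m / 2 ^ n = 1 := by
    rw [pow_succ] at hm
    exact Nat.div_eq_of_lt_le (by omega) (by omega)
  have : m.testBit n = true := by
    rw [Nat.testBit_eq_decide_div_mod_eq, h1]; rfl
  rw [this] at h; exact absurd h (by decide)

theorem ge_of_testBit_true {m n : ℕ} (h : m.testBit n = true) : 2 ^ n ≤ m :=
  Nat.ge_two_pow_of_testBit h

theorem or_two_pow_sub {m n : ℕ} (hm : m < 2 ^ (n + 1)) (h : m.testBit n = true) :
    2 ^ n ||| (m - 2 ^ n) = m := by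
  have hge := ge_of_testBit_true h
  have hlt : m - 2 ^ n < 2 ^ n := by rw [pow_succ] at hm; omega
  have h1 := Nat.two_pow_add_eq_or_of_lt hlt 1
  rw [mul_one] at h1
  rw [← h1]
  omega

theorem popc_sub_two_pow {m n : ℕ} (hm : m < 2 ^ (n + 1)) (h : m.testBit n = true) :
    popc (m - 2 ^ n) n = popc m n := by
  have hge := ge_of_testBit_true h
  have hlt : m - 2 ^ n < 2 ^ n := by rw [pow_succ] at hm; omega
  have : m - 2 ^ n = m % 2 ^ n := by
    rw [Nat.mod_eq_sub_mod hge, Nat.mod_eq_of_lt hlt]
  rw [this, popc_mod]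


/-! ### Enumeration of the subsets of given size -/

/-- All the masks obtained from `acc` by adding `k` of the bits below `n` satisfy `Q`. -/
def subAll (Q : ℕ → Bool) : ℕ → ℕ → ℕ → Bool
  | _, 0, acc => Q acc
  | 0, _ + 1, _ => true
  | n + 1, k + 1, acc =>
    subAll Q n (k + 1) acc && subAll Q n k (Nat.lor acc (Nat.shiftLeft 1 n))

/-- The number of the masks obtained from `acc` by adding `k` of the bits below `n` that
satisfy `Q`. -/
def subCount (Q : ℕ → Bool) : ℕ → ℕ → ℕ → ℕ
  | _, 0, acc => cond (Q acc) 1 0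
  | 0, _ + 1, _ => 0
  | n + 1, k + 1, acc =>
    Nat.add (subCount Q n (k + 1) acc) (subCount Q n k (Nat.lor acc (Nat.shiftLeft 1 n)))

theorem lor_shift (acc n : ℕ) : Nat.lor acc (Nat.shiftLeft 1 n) = acc ||| 2 ^ n := by
  show acc ||| 1 <<< n = _
  rw [Nat.one_shiftLeft]

theorem subAll_spec (Q : ℕ → Bool) : ∀ n k acc, subAll Q n k acc = true →
    ∀ m, m < 2 ^ n → popc m n = k → Q (acc ||| m) = true := by
  intro n
  induction n with
  | zero =>
    intro k acc h m hm hk
    have hm0 : m = 0 := by omega
    subst hm0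
    rw [popc] at hk
    subst hk
    rw [subAll] at h
    rw [Nat.or_zero]; exact h
  | succ n ih =>
    intro k acc h m hm hk
    cases k with
    | zero =>
      have hm0 := eq_zero_of_popc hm hk
      subst hm0
      rw [subAll] at h
      rw [Nat.or_zero]; exact h
    | succ k =>
      rw [subAll, Bool.and_eq_true, lor_shift] at h
      rw [popc] at hk
      cases hb : m.testBit n
      · rw [hb] at hk
        simp only [Bool.toNat_false, zero_add] at hk
        exact ih (k + 1) acc h.1 m (lt_of_testBit_false hm hb) hk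
      · rw [hb] at hk
        simp only [Bool.toNat_true] at hk
        have hge := ge_of_testBit_true hb
        have hlt : m - 2 ^ n < 2 ^ n := by rw [pow_succ] at hm; omega
        have := ih k (acc ||| 2 ^ n) h.2 (m - 2 ^ n) hlt (by rw [popc_sub_two_pow hm hb]; omega)
        rwa [Nat.or_assoc, or_two_pow_sub hm hb] at this

theorem subCount_spec (Q : ℕ → Bool) : ∀ n k acc,
    {m : ℕ | m < 2 ^ n ∧ popc m n = k ∧ Q (acc ||| m) = true}.ncard = subCount Q n k acc := by
  intro n
  induction n with
  | zero =>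
    intro k acc
    cases k with
    | zero =>
      rw [subCount]
      cases hQ : Q acc
      · have : {m : ℕ | m < 2 ^ 0 ∧ popc m 0 = 0 ∧ Q (acc ||| m) = true} = ∅ := by
          ext m
          simp only [Set.mem_ofPred_eq, Set.mem_empty_iff_false, iff_false, not_and]
          intro hm _
          have hm0 : m = 0 := by omega
          rw [hm0, Nat.or_zero, hQ]; simp
        rw [this, Set.ncard_empty]; rfl
      · have : {m : ℕ | m < 2 ^ 0 ∧ popc m 0 = 0 ∧ Q (acc ||| m) = true} = {0} := by
          ext m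
          simp only [Set.mem_ofPred_eq, Set.mem_singleton_iff]
          constructor
          · intro h; omega
          · intro h; subst h
            exact ⟨by norm_num, rfl, by rw [Nat.or_zero]; exact hQ⟩
        rw [this, Set.ncard_singleton]; rfl
    | succ k =>
      rw [subCount]
      have : {m : ℕ | m < 2 ^ 0 ∧ popc m 0 = k + 1 ∧ Q (acc ||| m) = true} = ∅ := by
        ext m
        simp only [Set.mem_ofPred_eq, Set.mem_empty_iff_false, iff_false, not_and]
        intro _ h
        rw [popc] at h; omega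
      rw [this, Set.ncard_empty]
  | succ n ih =>
    intro k acc
    cases k with
    | zero =>
      rw [subCount]
      cases hQ : Q acc
      · have : {m : ℕ | m < 2 ^ (n + 1) ∧ popc m (n + 1) = 0 ∧ Q (acc ||| m) = true} = ∅ := by
          ext m
          simp only [Set.mem_ofPred_eq, Set.mem_empty_iff_false, iff_false, not_and]
          intro hm hk
          have hm0 := eq_zero_of_popc hm hk
          rw [hm0, Nat.or_zero, hQ]; simp
        rw [this, Set.ncard_empty]; rfl
      · have : {m : ℕ | m < 2 ^ (n + 1) ∧ popc m (n + 1) = 0 ∧ Q (acc ||| m) = true} = {0} := by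
          ext m
          simp only [Set.mem_ofPred_eq, Set.mem_singleton_iff]
          constructor
          · intro h; exact eq_zero_of_popc h.1 h.2.1
          · intro h; subst h
            refine ⟨Nat.pos_of_ne_zero (by positivity), ?_, by rw [Nat.or_zero]; exact hQ⟩
            rw [popc_eq_sum]
            apply Finset.sum_eq_zero
            intro i _
            rw [Nat.zero_testBit]; rfl
        rw [this, Set.ncard_singleton]; rfl
    | succ k =>
      rw [subCount, lor_shift]
      have hsplit : {m : ℕ | m < 2 ^ (n + 1) ∧ popc m (n + 1) = k + 1 ∧ Q (acc ||| m) = true} =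
          {m : ℕ | m < 2 ^ n ∧ popc m n = k + 1 ∧ Q (acc ||| m) = true} ∪
          (fun m => m + 2 ^ n) '' {m : ℕ | m < 2 ^ n ∧ popc m n = k ∧
            Q (acc ||| 2 ^ n ||| m) = true} := by
        ext m
        simp only [Set.mem_ofPred_eq, Set.mem_union, Set.mem_image]
        constructor
        · rintro ⟨hm, hk, hQ⟩
          rw [popc] at hk
          cases hb : m.testBit n
          · left
            rw [hb] at hk
            simp only [Bool.toNat_false, zero_add] at hk
            exact ⟨lt_of_testBit_false hm hb, hk, hQ⟩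
          · right
            rw [hb] at hk
            simp only [Bool.toNat_true] at hk
            have hge := ge_of_testBit_true hb
            have hlt : m - 2 ^ n < 2 ^ n := by rw [pow_succ] at hm; omega
            refine ⟨m - 2 ^ n, ⟨hlt, by rw [popc_sub_two_pow hm hb]; omega, ?_⟩, by omega⟩
            rw [Nat.or_assoc, or_two_pow_sub hm hb]; exact hQ
        · rintro (⟨hm, hk, hQ⟩ | ⟨m', ⟨hm', hk', hQ'⟩, rfl⟩)
          · refine ⟨lt_of_lt_of_le hm (Nat.pow_le_pow_right (by norm_num) (by omega)), ?_, hQ⟩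
            rw [popc, Nat.testBit_lt_two_pow hm, hk]; simp
          · have hlt : m' + 2 ^ n < 2 ^ (n + 1) := by rw [pow_succ]; omega
            have hb : (m' + 2 ^ n).testBit n = true := by
              rw [Nat.testBit_eq_decide_div_mod_eq]
              have : (m' + 2 ^ n) / 2 ^ n = 1 :=
                Nat.div_eq_of_lt_le (by omega) (by omega)
              rw [this]; rfl
            have hsub : m' + 2 ^ n - 2 ^ n = m' := by omega
            refine ⟨hlt, ?_, ?_⟩
            · rw [popc, hb, ← popc_sub_two_pow hlt hb, hsub, hk']; simp; omega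
            · have := or_two_pow_sub hlt hb
              rw [hsub] at this
              rw [← this, ← Nat.or_assoc]; exact hQ'
      have hfin1 : {m : ℕ | m < 2 ^ n ∧ popc m n = k + 1 ∧ Q (acc ||| m) = true}.Finite :=
        Set.Finite.subset (Set.finite_lt_nat (2 ^ n)) (fun m hm => hm.1)
      have hfin2 : {m : ℕ | m < 2 ^ n ∧ popc m n = k ∧ Q (acc ||| 2 ^ n ||| m) = true}.Finite :=
        Set.Finite.subset (Set.finite_lt_nat (2 ^ n)) (fun m hm => hm.1)
      have hdisj : Disjoint {m : ℕ | m < 2 ^ n ∧ popc m n = k + 1 ∧ Q (acc ||| m) = true}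
          ((fun m => m + 2 ^ n) '' {m : ℕ | m < 2 ^ n ∧ popc m n = k ∧
            Q (acc ||| 2 ^ n ||| m) = true}) := by
        rw [Set.disjoint_left]
        rintro m ⟨hm, _, _⟩ ⟨m', _, hm'⟩
        simp only at hm'
        omega
      rw [hsplit, Set.ncard_union_eq hdisj hfin1 (hfin2.image _),
        Set.ncard_image_of_injective _ (fun a b h => by simpa using h), ih, ih]
      rfl


/-! ### Subsets of the 24 points -/

theorem forall_card_of_subAll (Q : ℕ → Bool) (k : ℕ) (h : subAll Q 24 k 0 = true)
    (s : Finset GolayPt) (hs : s.card = k) : Q (maskS s) = true := by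
  have := subAll_spec Q 24 k 0 h (maskS s) (maskS_lt s) (by rw [← hs, card_eq_pc]; rfl)
  rwa [Nat.zero_or] at this

theorem ncard_card_eq (Q : ℕ → Bool) (k : ℕ) :
    {s : Finset GolayPt | s.card = k ∧ Q (maskS s) = true}.ncard = subCount Q 24 k 0 := by
  rw [← subCount_spec]
  have : maskS '' {s : Finset GolayPt | s.card = k ∧ Q (maskS s) = true} =
      {m : ℕ | m < 2 ^ 24 ∧ popc m 24 = k ∧ Q (0 ||| m) = true} := by
    ext m
    constructor
    · rintro ⟨s, ⟨hs, hQ⟩, rfl⟩
      exact ⟨maskS_lt s, by rw [← hs, card_eq_pc]; rfl, by rwa [Nat.zero_or]⟩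
    · rintro ⟨hm, hk, hQ⟩
      refine ⟨setOf m, ⟨?_, ?_⟩, maskS_setOf hm⟩
      · rw [card_setOf hm]; exact hk
      · rw [maskS_setOf hm]; rwa [Nat.zero_or] at hQ
  rw [← this, Set.ncard_image_of_injective _ maskS_injective]

/-- Counting the `k`-subsets with a property, transported to standard position. -/
theorem ncard_sub (a : Equiv.Perm GolayPt) (k : ℕ) (P : Finset GolayPt → Prop) (Q : ℕ → Bool)
    (h : ∀ s : Finset GolayPt, s.card = k → (P (a • s) ↔ Q (maskS s) = true)) :
    {s : Finset GolayPt | s.card = k ∧ P s}.ncard = subCount Q 24 k 0 := by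
  rw [← ncard_card_eq]
  apply ncard_smul_transport a
  intro s
  rw [card_smul_finset]
  constructor
  · rintro ⟨hs, hP⟩
    exact ⟨hs, (h s hs).mp hP⟩
  · rintro ⟨hs, hQ⟩
    exact ⟨hs, (h s hs).mpr hQ⟩

/-- Orbits of subsets: if the search from `root` reaches all the `k`-subsets with the property
`Q`, they are all images of `root` under `stabM Inv`. -/
theorem subset_orbit {Inv : List ℕ} {gens : List (List ℕ × ℕ)} (hg : gensOKF Inv gens = true)
    (k : ℕ) (Q : ℕ → Bool) (root fuel : ℕ) (hroot : root < 2 ^ 24)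
    (h : forceNat (orbitN gens (fun m => m) fuel root)
      (fun B => subAll (fun m => !(Q m) || B.testBit m) 24 k 0) = true)
    (s : Finset GolayPt) (hs : s.card = k) (hQ : Q (maskS s) = true) :
    ∃ g ∈ stabM Inv, g • setOf root = s := by
  rw [forceNat_eq] at h
  have h1 := forall_card_of_subAll _ k h s hs
  rw [hQ] at h1
  simp only [Bool.not_true, Bool.false_or] at h1
  obtain ⟨m, hm, hmn, g, hg', hgm⟩ := orbitN_sound hg (fun m => m) hroot fuel h1
  have hmn' : m = maskS s := hmn
  rw [hmn', setOf_maskS] at hgm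
  exact ⟨g, hg', hgm⟩

/-- Orbits of subsets, transported along `a`. -/
theorem orbit_sub {Inv : List ℕ} {gens : List (List ℕ × ℕ)} (hg : gensOKF Inv gens = true)
    (k : ℕ) (Q : ℕ → Bool) (root fuel : ℕ) (hroot : root < 2 ^ 24)
    (h : forceNat (orbitN gens (fun m => m) fuel root)
      (fun B => subAll (fun m => !(Q m) || B.testBit m) 24 k 0) = true)
    {a : Equiv.Perm GolayPt} (ha : a ∈ M24) {s s' : Finset GolayPt} (hs : s.card = k)
    (hs' : s'.card = k) (hQ : Q (maskS (a⁻¹ • s)) = true) (hQ' : Q (maskS (a⁻¹ • s')) = true) :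
    ∃ g ∈ M24, (∀ m ∈ Inv, g • (a • setOf m) = a • setOf m) ∧ g • s = s' := by
  obtain ⟨g1, hg1, h1⟩ := subset_orbit hg k Q root fuel hroot h (a⁻¹ • s)
    (by rw [card_smul_finset]; exact hs) hQ
  obtain ⟨g2, hg2, h2⟩ := subset_orbit hg k Q root fuel hroot h (a⁻¹ • s')
    (by rw [card_smul_finset]; exact hs') hQ'
  refine ⟨a * (g2 * g1⁻¹) * a⁻¹, M24.mul_mem (M24.mul_mem ha
    (M24.mul_mem hg2.1 (M24.inv_mem hg1.1))) (M24.inv_mem ha), ?_, ?_⟩
  · intro m hm
    have e1 : g1⁻¹ • setOf m = setOf m := by
      rw [inv_smul_eq_iff]; exact (hg1.2 m hm).symm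
    rw [mul_smul, mul_smul, inv_smul_smul, mul_smul, e1, hg2.2 m hm]
  · have e1 : g1⁻¹ • (a⁻¹ • s) = setOf root := by
      rw [inv_smul_eq_iff]; exact h1.symm
    rw [mul_smul, mul_smul, mul_smul, e1, h2, smul_inv_smul]

/-! ### Translations between sets and masks -/

theorem disjoint_iff_mask (s t : Finset GolayPt) : Disjoint s t ↔ maskS s &&& maskS t = 0 := by
  rw [Finset.disjoint_iff_inter_eq_empty, ← maskS_inter, maskS_eq_zero]

theorem subset_iff_mask (s t : Finset GolayPt) : s ⊆ t ↔ maskS s &&& maskS t = maskS s := by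
  rw [← maskS_inter]
  constructor
  · intro h
    rw [Finset.inter_eq_left.mpr h]
  · intro h
    exact Finset.inter_eq_left.mp (maskS_injective h)

theorem mem_iff_mask (p : GolayPt) (s : Finset GolayPt) :
    p ∈ s ↔ (maskS s).testBit (idx p) = true := by
  rw [testBit_maskS_idx]; simp

/-- Deciding whether a set containing `setOf t0` lies in an octad, from the list of the octads
containing `setOf t0`. -/
theorem exists_octad_superset_iff (os : List ℕ) (t0 : ℕ)
    (hos : (os.all fun o => isOct o) = true)
    (hcomplete : allLt (fun n => !(Nat.beq (pcF (cwF n)) 8 && Nat.beq (Nat.land t0 (cwF n)) t0) ||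
      os.contains (cwF n)) 4096 = true)
    (x : ℕ) (hxt : t0 &&& x = t0) (s : Finset GolayPt) (hs : maskS s = x) :
    (∃ o ∈ octads, s ⊆ o) ↔ (os.any fun o => x &&& o == x) = true := by
  constructor
  · rintro ⟨o, ho, hso⟩
    obtain ⟨n, hn, hcw⟩ := (mem_supports_iff_exists o).mp ho.1
    have h8 : pc (cw n) = 8 := by rw [← hcw, ← card_eq_pc]; exact ho.2
    have hsub := (subset_iff_mask s o).mp hso
    rw [hs, hcw] at hsub
    have ht : t0 &&& cw n = t0 := by
      rw [← hxt, Nat.and_assoc, hsub]
    have h1 := allLt_spec hcomplete n hn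
    have hlt : cw n < 2 ^ 24 := by rw [← hcw]; exact maskS_lt o
    rw [cwF_eq hn, pcF_eq hlt, natBeq_eq, natBeq_eq] at h1
    have h2 : ((pc (cw n) == 8) && (Nat.land t0 (cw n) == t0)) = true := by
      rw [Bool.and_eq_true, beq_iff_eq, beq_iff_eq]
      exact ⟨h8, ht⟩
    rw [h2] at h1
    simp only [Bool.not_true, Bool.false_or] at h1
    rw [List.any_eq_true]
    exact ⟨cw n, List.contains_iff_mem.mp h1, beq_iff_eq.mpr hsub⟩
  · intro h
    rw [List.any_eq_true] at h
    obtain ⟨o, ho, hxo⟩ := h
    have hoct := List.all_eq_true.mp hos o ho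
    refine ⟨setOf o, setOf_mem_octads hoct, ?_⟩
    rw [subset_iff_mask, hs, maskS_setOf (lt_of_isOct hoct)]
    exact beq_iff_eq.mp hxo

end Cfsg.Agent.Lib.helper28
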