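import Cfsg.Agent.Lib.helper28.GolayOrbS
import Cfsg.Agent.Lib.helper28.GolayEnum

set_option autoImplicit false

namespace Cfsg.Agent.Lib.helper28

open Cfsg
open scoped Pointwise

/-! The subgroup of the group of the code fixing each tetrad of the standard sextet has order 192. -/

def sxKChain : List (ℕ × ℕ × List (List ℕ)) :=
  [(0, 15,
    [[0, 1, 2, 3, 4, 5, 6, 7, 8, 9, 10, 11, 12, 13, 14, 15, 16, 17, 18, 19, 20, 21, 22, 23],
     [1, 0, 3, 2, 4, 5, 9, 7, 15, 6, 10, 22, 12, 20, 14, 8, 19, 17, 21, 16, 13, 18, 11, 23],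
     [2, 0, 1, 3, 4, 5, 22, 12, 16, 9, 7, 6, 10, 21, 23, 8, 15, 14, 18, 19, 13, 20, 11, 17],
     [3, 0, 2, 1, 4, 5, 6, 10, 19, 22, 12, 9, 7, 18, 17, 8, 16, 23, 20, 15, 13, 21, 11, 14]]),
   (1, 14,
    [[0, 1, 2, 3, 4, 5, 6, 7, 8, 9, 10, 11, 12, 13, 14, 15, 16, 17, 18, 19, 20, 21, 22, 23],
     [0, 2, 3, 1, 4, 5, 9, 12, 8, 22, 7, 11, 10, 13, 23, 16, 19, 14, 20, 15, 21, 18, 6, 17],
     [0, 3, 1, 2, 4, 5, 22, 10, 8, 6, 12, 11, 7, 13, 17, 19, 15, 23, 21, 16, 18, 20, 9, 14]]),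
   (4, 5264,
    [[0, 1, 2, 3, 4, 5, 6, 7, 8, 9, 10, 11, 12, 13, 14, 15, 16, 17, 18, 19, 20, 21, 22, 23],
     [0, 1, 2, 3, 7, 5, 22, 4, 15, 11, 12, 9, 10, 21, 14, 8, 19, 17, 20, 16, 18, 13, 6, 23],
     [0, 1, 2, 3, 10, 5, 11, 12, 19, 22, 4, 6, 7, 20, 14, 16, 15, 17, 21, 8, 13, 18, 9, 23],
     [0, 1, 2, 3, 12, 5, 9, 10, 16, 6, 7, 22, 4, 18, 14, 19, 8, 17, 13, 15, 21, 20, 11, 23]]),
   (5, 8536096,
    [[0, 1, 2, 3, 4, 5, 6, 7, 8, 9, 10, 11, 12, 13, 14, 15, 16, 17, 18, 19, 20, 21, 22, 23],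
     [0, 1, 2, 3, 4, 14, 9, 7, 19, 6, 10, 22, 12, 21, 5, 16, 15, 23, 20, 8, 18, 13, 11, 17],
     [0, 1, 2, 3, 4, 17, 22, 7, 16, 11, 10, 9, 12, 20, 23, 19, 8, 5, 21, 15, 13, 18, 6, 14],
     [0, 1, 2, 3, 4, 23, 11, 7, 15, 22, 10, 6, 12, 18, 17, 8, 19, 14, 13, 16, 21, 20, 9, 5]])]

def sxW : List (List ℕ) :=
  [[0, 1, 2, 3, 4, 5, 6, 7, 8, 9, 10, 11, 12, 13, 14, 15, 16, 17, 18, 19, 20, 21, 22, 23],
   [0, 1, 2, 3, 4, 5, 16, 10, 13, 19, 12, 8, 7, 11, 23, 20, 21, 14, 9, 18, 22, 6, 15, 17],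
   [0, 1, 2, 3, 4, 5, 21, 12, 11, 18, 7, 13, 10, 8, 17, 22, 6, 23, 19, 9, 15, 16, 20, 14],
   [0, 1, 3, 2, 4, 5, 18, 7, 8, 21, 12, 13, 10, 11, 17, 15, 19, 14, 6, 16, 22, 9, 20, 23],
   [0, 1, 3, 2, 4, 5, 9, 10, 13, 6, 7, 11, 12, 8, 14, 20, 18, 23, 16, 21, 15, 19, 22, 17],
   [0, 1, 3, 2, 4, 5, 19, 12, 11, 16, 10, 8, 7, 13, 23, 22, 9, 17, 21, 6, 20, 18, 15, 14]]

theorem sxKChain_ok : chainOK sx0 sxKChain = true := by decide +kernel

theorem sxKChain_prod : chainProd sxKChain = 192 := by decide +kernel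

theorem sxKChain_inv : chainInv sx0 sxKChain = 2 ^ 5 :: 2 ^ 4 :: 2 ^ 1 :: 2 ^ 0 :: sx0 := by
  decide +kernel

theorem sxW_ok : sxW.all (fun l => tabIn [] l && (!(invOK l sx0) || l == idTab)) = true := by
  decide +kernel

theorem sxW_cover : allLt (fun a => allLt (fun b => allLt (fun c =>
    !(Nat.testBit 12 a && Nat.testBit 12 b && a != b && Nat.testBit 5248 c) ||
      sxW.any (fun l => l.getD 0 0 == 0 && l.getD 1 0 == 1 && l.getD 2 0 == a &&
        l.getD 3 0 == b && l.getD 4 0 == 4 && l.getD 5 0 == 5 && l.getD 7 0 == c)) 24) 24) 24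
      = true := by
  decide +kernel

theorem sxK_closed2 : closedOK (2 ^ 5 :: 2 ^ 4 :: 2 ^ 1 :: 2 ^ 0 :: sx0) 2 12 = true := by
  decide +kernel

theorem sxK_closed3 : closedOK (2 ^ 5 :: 2 ^ 4 :: 2 ^ 1 :: 2 ^ 0 :: sx0) 3 12 = true := by
  decide +kernel

theorem sxK_closed7 : closedOK (2 ^ 5 :: 2 ^ 4 :: 2 ^ 1 :: 2 ^ 0 :: sx0) 7 5248 = true := by
  decide +kernel

theorem bits191 : ∀ i, i < 24 → Nat.testBit 191 i = true →
    i = 0 ∨ i = 1 ∨ i = 2 ∨ i = 3 ∨ i = 4 ∨ i = 5 ∨ i = 7 := by decide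

theorem sxK_final_bot : stabM (chainInv sx0 sxKChain) = ⊥ := by
  rw [Subgroup.eq_bot_iff_forall]
  intro g hg
  rw [sxKChain_inv] at hg
  have hg5 := (mem_stabM_cons_pt (by norm_num)).mp hg
  have hg4 := (mem_stabM_cons_pt (by norm_num)).mp hg5.1
  have hg1 := (mem_stabM_cons_pt (by norm_num)).mp hg4.1
  have hg0 := (mem_stabM_cons_pt (by norm_num)).mp hg1.1
  have hK : g ∈ stabM sx0 := hg0.1
  have e0 : idx (g (pt 0)) = 0 := by rw [hg0.2]; exact idx_pt (by norm_num)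
  have e1 : idx (g (pt 1)) = 1 := by rw [hg1.2]; exact idx_pt (by norm_num)
  have e4 : idx (g (pt 4)) = 4 := by rw [hg4.2]; exact idx_pt (by norm_num)
  have e5 : idx (g (pt 5)) = 5 := by rw [hg5.2]; exact idx_pt (by norm_num)
  have h2 := (mem_setOf _ _).mp (closedOK_sound (by norm_num) sxK_closed2 hg)
  have h3 := (mem_setOf _ _).mp (closedOK_sound (by norm_num) sxK_closed3 hg)
  have h7 := (mem_setOf _ _).mp (closedOK_sound (by norm_num) sxK_closed7 hg)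
  have hne : idx (g (pt 2)) ≠ idx (g (pt 3)) := by
    intro h
    have h' := g.injective (idx_injective h)
    have : idx (pt 2) = idx (pt 3) := by rw [h']
    rw [idx_pt (by norm_num), idx_pt (by norm_num)] at this
    omega
  have hc := allLt_spec (allLt_spec (allLt_spec sxW_cover _ (idx_lt (g (pt 2)))) _
    (idx_lt (g (pt 3)))) _ (idx_lt (g (pt 7)))
  rw [Bool.or_eq_true] at hc
  rcases hc with hc | hc
  · exfalso
    simp only [Bool.not_eq_true', Bool.and_eq_false_iff, bne_eq_false_iff_eq] at hc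
    rcases hc with ((hc | hc) | hc) | hc
    · rw [h2] at hc; exact absurd hc (by decide)
    · rw [h3] at hc; exact absurd hc (by decide)
    · exact hne hc
    · rw [h7] at hc; exact absurd hc (by decide)
  · rw [List.any_eq_true] at hc
    obtain ⟨l, hl, hv⟩ := hc
    simp only [Bool.and_eq_true, beq_iff_eq] at hv
    obtain ⟨⟨⟨⟨⟨⟨v0, v1⟩, v2⟩, v3⟩, v4⟩, v5⟩, v7⟩ := hv
    have hok := List.all_eq_true.mp sxW_ok l hl
    rw [Bool.and_eq_true] at hok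
    obtain ⟨u, hu, hul⟩ := tabIn_spec hok.1
    have hgu : g = u := by
      have hmem : u⁻¹ * g ∈ fixer (setOf 191) := by
        rw [mem_fixer]
        refine ⟨M24.mul_mem (M24.inv_mem (stabM_le_M24 _ hu)) (stabM_le_M24 _ hK), ?_⟩
        intro p hp
        rw [mem_setOf] at hp
        show u⁻¹ (g p) = p
        rw [Equiv.Perm.inv_eq_iff_eq]
        apply idx_injective
        rw [← hul p]
        have hp' := pt_idx p
        rcases bits191 _ (idx_lt p) hp with h | h | h | h | h | h | h <;>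
          rw [h] at hp' ⊢ <;> rw [← hp']
        · rw [v0, e0]
        · rw [v1, e1]
        · rw [v2]
        · rw [v3]
        · rw [v4, e4]
        · rw [v5, e5]
        · rw [v7]
      rw [fixer7_eq_bot, Subgroup.mem_bot] at hmem
      have : g = u * (u⁻¹ * g) := by group
      rw [this, hmem, mul_one]
    rw [← hgu] at hul
    have hinv : invOK l sx0 = true := by
      unfold invOK
      rw [List.all_eq_true]
      intro m hm
      rw [beq_iff_eq]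
      apply setOf_inj (preMask_lt _ _) (sx0_lt m hm)
      rw [← inv_smul_setOf hul, inv_smul_eq_iff]
      exact (hK.2 m hm).symm
    have h2' := hok.2
    rw [hinv] at h2'
    simp only [Bool.not_true, Bool.false_or, beq_iff_eq] at h2'
    rw [h2'] at hul
    exact one_of_isTable_idTab hul

theorem card_stabM_sx0 : Nat.card (stabM sx0) = 192 := by
  have h := card_stabM_chain sxKChain sx0 sxKChain_ok
  rw [sxK_final_bot, sxKChain_prod, Subgroup.card_bot] at h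
  omega

end Cfsg.Agent.Lib.helper28
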