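import Cfsg.Agent.Lib.helper28.GolaySxK
import Cfsg.Agent.Lib.helper28.GolaySextet3

set_option autoImplicit false

namespace Cfsg.Agent.Lib.helper28

open Cfsg
open scoped Pointwise

/-! Structure of the sextet stabiliser. -/

theorem smul_pairF (g : Equiv.Perm GolayPt) (d e : Finset GolayPt) :
    g • ({d, e} : Finset (Finset GolayPt)) = {g • d, g • e} := by
  rw [Finset.smul_finset_insert, Finset.smul_finset_singleton]

theorem smul_pairP (g : Equiv.Perm GolayPt) (p q : GolayPt) :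
    g • ({p, q} : Finset GolayPt) = {g p, g q} := by
  rw [Finset.smul_finset_insert, Finset.smul_finset_singleton]
  rfl

/-- The elements of the group of the code fixing each member of the family `S`. -/
def sxK (S : Finset (Finset GolayPt)) : Subgroup (Equiv.Perm GolayPt) where
  carrier := {g | g ∈ M24 ∧ ∀ t ∈ S, g • t = t}
  mul_mem' := by
    rintro a b ⟨ha, ha'⟩ ⟨hb, hb'⟩
    exact ⟨M24.mul_mem ha hb, fun t ht => by rw [mul_smul, hb' t ht, ha' t ht]⟩
  one_mem' := ⟨M24.one_mem, fun t _ => one_smul _ _⟩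
  inv_mem' := by
    rintro a ⟨ha, ha'⟩
    exact ⟨M24.inv_mem ha, fun t ht => by rw [inv_smul_eq_iff, ha' t ht]⟩

/-- The elements fixing each member `t` of `S` and each partition of `t` into two pairs. -/
def sxN (S : Finset (Finset GolayPt)) : Subgroup (Equiv.Perm GolayPt) where
  carrier := {g | g ∈ M24 ∧ (∀ t ∈ S, g • t = t) ∧ ∀ t ∈ S, ∀ d : Finset GolayPt, d ⊆ t →
    d.card = 2 → g • ({d, t \ d} : Finset (Finset GolayPt)) = {d, t \ d}}
  mul_mem' := by
    rintro a b ⟨ha, ha', ha''⟩ ⟨hb, hb', hb''⟩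
    exact ⟨M24.mul_mem ha hb, fun t ht => by rw [mul_smul, hb' t ht, ha' t ht],
      fun t ht d hd hc => by rw [mul_smul, hb'' t ht d hd hc, ha'' t ht d hd hc]⟩
  one_mem' := ⟨M24.one_mem, fun t _ => one_smul _ _, fun t _ d _ _ => one_smul _ _⟩
  inv_mem' := by
    rintro a ⟨ha, ha', ha''⟩
    exact ⟨M24.inv_mem ha, fun t ht => by rw [inv_smul_eq_iff, ha' t ht],
      fun t ht d hd hc => by rw [inv_smul_eq_iff, ha'' t ht d hd hc]⟩

theorem mem_sxK {S : Finset (Finset GolayPt)} {g : Equiv.Perm GolayPt} :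
    g ∈ sxK S ↔ g ∈ M24 ∧ ∀ t ∈ S, g • t = t := Iff.rfl

theorem mem_sxN {S : Finset (Finset GolayPt)} {g : Equiv.Perm GolayPt} :
    g ∈ sxN S ↔ g ∈ M24 ∧ (∀ t ∈ S, g • t = t) ∧ ∀ t ∈ S, ∀ d : Finset GolayPt, d ⊆ t →
    d.card = 2 → g • ({d, t \ d} : Finset (Finset GolayPt)) = {d, t \ d} := Iff.rfl

theorem sxN_le_sxK (S : Finset (Finset GolayPt)) : sxN S ≤ sxK S := fun _ hg => ⟨hg.1, hg.2.1⟩

theorem sxK_eq_stabM : sxK sxS0 = stabM sx0 := by
  ext g
  rw [mem_sxK, mem_stabM]
  constructor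
  · rintro ⟨h1, h2⟩
    exact ⟨h1, fun m hm => h2 _ (mem_sxS0.mpr ⟨m, hm, rfl⟩)⟩
  · rintro ⟨h1, h2⟩
    refine ⟨h1, fun t ht => ?_⟩
    obtain ⟨m, hm, rfl⟩ := mem_sxS0.mp ht
    exact h2 m hm

/-- In `sxN S`, a pair inside a member of `S` is mapped to itself or to its complement. -/
theorem sxN_pair {S : Finset (Finset GolayPt)} {g : Equiv.Perm GolayPt} (hg : g ∈ sxN S)
    {t : Finset GolayPt} (ht : t ∈ S) {d : Finset GolayPt} (hd : d ⊆ t) (hc : d.card = 2) :
    g • d = d ∨ g • d = t \ d := by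
  have h := hg.2.2 t ht d hd hc
  rw [smul_pairF] at h
  have h1 : g • d ∈ ({g • d, g • (t \ d)} : Finset (Finset GolayPt)) := Finset.mem_insert_self _ _
  rw [h, Finset.mem_insert, Finset.mem_singleton] at h1
  exact h1

theorem apply_mem_of_smul_eq {g : Equiv.Perm GolayPt} {t : Finset GolayPt} (h : g • t = t)
    {a : GolayPt} (ha : a ∈ t) : g a ∈ t := by
  rw [← h]
  exact Finset.smul_mem_smul_finset (a := g) ha

theorem apply_mem_smul (g : Equiv.Perm GolayPt) {d : Finset GolayPt} {a : GolayPt} (ha : a ∈ d) :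
    g a ∈ g • d := Finset.smul_mem_smul_finset (a := g) ha

theorem sxN_invol {S : Finset (Finset GolayPt)} {g : Equiv.Perm GolayPt} (hg : g ∈ sxN S)
    {t : Finset GolayPt} (ht : t ∈ S) {a : GolayPt} (ha : a ∈ t) : g (g a) = a := by
  by_cases hab : g a = a
  · rw [hab, hab]
  · have hb : g a ∈ t := apply_mem_of_smul_eq (hg.2.1 t ht) ha
    have hd : ({a, g a} : Finset GolayPt) ⊆ t := by
      intro x hx
      rw [Finset.mem_insert, Finset.mem_singleton] at hx
      rcases hx with rfl | rfl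
      · exact ha
      · exact hb
    have hc : ({a, g a} : Finset GolayPt).card = 2 := Finset.card_pair (Ne.symm hab)
    have hmem : g a ∈ g • ({a, g a} : Finset GolayPt) :=
      apply_mem_smul g (Finset.mem_insert_self _ _)
    have hmem2 : g (g a) ∈ g • ({a, g a} : Finset GolayPt) :=
      apply_mem_smul g (Finset.mem_insert_of_mem (Finset.mem_singleton_self _))
    rcases sxN_pair hg ht hd hc with h | h
    · rw [h, Finset.mem_insert, Finset.mem_singleton] at hmem2
      rcases hmem2 with h2 | h2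
      · exact h2
      · exact absurd (g.injective h2) hab
    · rw [h, Finset.mem_sdiff] at hmem
      exact absurd (Finset.mem_insert_of_mem (Finset.mem_singleton_self _)) hmem.2

theorem sxN_fix {S : Finset (Finset GolayPt)} {g : Equiv.Perm GolayPt} (hg : g ∈ sxN S)
    {t : Finset GolayPt} (ht : t ∈ S) {a : GolayPt} (ha : a ∈ t) (hga : g a = a) :
    ∀ x ∈ t, g x = x := by
  intro x hx
  by_cases hxa : x = a
  · rw [hxa, hga]
  · have hd : ({a, x} : Finset GolayPt) ⊆ t := by
      intro y hy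
      rw [Finset.mem_insert, Finset.mem_singleton] at hy
      rcases hy with rfl | rfl
      · exact ha
      · exact hx
    have hc : ({a, x} : Finset GolayPt).card = 2 := Finset.card_pair (Ne.symm hxa)
    have hmem : a ∈ g • ({a, x} : Finset GolayPt) := by
      have := apply_mem_smul g (Finset.mem_insert_self a ({x} : Finset GolayPt))
      rw [hga] at this
      exact this
    have hmem2 : g x ∈ g • ({a, x} : Finset GolayPt) :=
      apply_mem_smul g (Finset.mem_insert_of_mem (Finset.mem_singleton_self _))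
    rcases sxN_pair hg ht hd hc with h | h
    · rw [h, Finset.mem_insert, Finset.mem_singleton] at hmem2
      rcases hmem2 with h2 | h2
      · rw [← hga] at h2
        exact absurd (g.injective h2) hxa
      · exact h2
    · rw [h, Finset.mem_sdiff] at hmem
      exact absurd (Finset.mem_insert_self _ _) hmem.2

theorem sxN_sq {S : Finset (Finset GolayPt)} (hS : S ∈ sextets) {g : Equiv.Perm GolayPt}
    (hg : g ∈ sxN S) : g * g = 1 := by
  apply Equiv.ext
  intro p
  obtain ⟨t, ht, hp⟩ := sextet_cover hS p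
  show g (g p) = p
  exact sxN_invol hg ht hp

theorem sxK_conj_mem {S : Finset (Finset GolayPt)} {a g : Equiv.Perm GolayPt} (ha : a ∈ M24)
    (hg : g ∈ sxK S) : a * g * a⁻¹ ∈ sxK (a • S) := by
  refine ⟨M24.mul_mem (M24.mul_mem ha hg.1) (M24.inv_mem ha), ?_⟩
  intro t' ht'
  obtain ⟨t, ht, rfl⟩ := Finset.mem_smul_finset.mp ht'
  rw [mul_smul, mul_smul, inv_smul_smul, hg.2 t ht]

theorem sxN_conj_mem {S : Finset (Finset GolayPt)} {a g : Equiv.Perm GolayPt} (ha : a ∈ M24)
    (hg : g ∈ sxN S) : a * g * a⁻¹ ∈ sxN (a • S) := by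
  refine ⟨M24.mul_mem (M24.mul_mem ha hg.1) (M24.inv_mem ha), ?_, ?_⟩
  · intro t' ht'
    obtain ⟨t, ht, rfl⟩ := Finset.mem_smul_finset.mp ht'
    rw [mul_smul, mul_smul, inv_smul_smul, hg.2.1 t ht]
  · intro t' ht' d' hd' hc'
    obtain ⟨t, ht, rfl⟩ := Finset.mem_smul_finset.mp ht'
    have hd : a⁻¹ • d' ⊆ t := by
      have := Finset.smul_finset_subset_smul_finset (a := a⁻¹) hd'
      rw [inv_smul_smul] at this
      exact this
    have hc : (a⁻¹ • d').card = 2 := by rw [Finset.card_smul_finset]; exact hc'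
    have h := hg.2.2 t ht _ hd hc
    have e : ({d', a • t \ d'} : Finset (Finset GolayPt)) = a • {a⁻¹ • d', t \ a⁻¹ • d'} := by
      rw [smul_pairF, Finset.smul_finset_sdiff, smul_inv_smul]
    rw [e, mul_smul, mul_smul, inv_smul_smul, h]

theorem mem_sxK_smul_iff {S : Finset (Finset GolayPt)} {a : Equiv.Perm GolayPt} (ha : a ∈ M24)
    (g : Equiv.Perm GolayPt) : g ∈ sxK (a • S) ↔ a⁻¹ * g * a ∈ sxK S := by
  constructor
  · intro hg
    have := sxK_conj_mem (M24.inv_mem ha) hg
    rw [inv_smul_smul, inv_inv] at this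
    exact this
  · intro hg
    have := sxK_conj_mem ha hg
    have e : a * (a⁻¹ * g * a) * a⁻¹ = g := by group
    rw [e] at this
    exact this

theorem mem_sxN_smul_iff {S : Finset (Finset GolayPt)} {a : Equiv.Perm GolayPt} (ha : a ∈ M24)
    (g : Equiv.Perm GolayPt) : g ∈ sxN (a • S) ↔ a⁻¹ * g * a ∈ sxN S := by
  constructor
  · intro hg
    have := sxN_conj_mem (M24.inv_mem ha) hg
    rw [inv_smul_smul, inv_inv] at this
    exact this
  · intro hg
    have := sxN_conj_mem ha hg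
    have e : a * (a⁻¹ * g * a) * a⁻¹ = g := by group
    rw [e] at this
    exact this

/-- A map fixing `t` and mapping the pair `d` to itself or its complement fixes the partition. -/
theorem pair_fix {g : Equiv.Perm GolayPt} {t d : Finset GolayPt} (ht : g • t = t) (hd : d ⊆ t)
    (h : g • d = d ∨ g • d = t \ d) :
    g • ({d, t \ d} : Finset (Finset GolayPt)) = {d, t \ d} := by
  rw [smul_pairF, Finset.smul_finset_sdiff, ht]
  rcases h with h | h
  · rw [h]
  · rw [h, Finset.sdiff_sdiff_eq_self hd, Finset.pair_comm]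

/-- Table test for membership of `sxN sxS0`. -/
def v4T (l : List ℕ) : Bool :=
  sx0.all fun m => allLt (fun i => allLt (fun j =>
    !(m.testBit i && m.testBit j && i != j) ||
      ((l.getD i 0 == i && l.getD j 0 == j) || (l.getD i 0 == j && l.getD j 0 == i) ||
       (l.getD i 0 != i && l.getD i 0 != j && l.getD j 0 != i && l.getD j 0 != j))) 24) 24

theorem mem_sxN_of_v4T {g : Equiv.Perm GolayPt} {l : List ℕ} (hg : g ∈ stabM sx0)
    (hl : IsTable g l) (hv : v4T l = true) : g ∈ sxN sxS0 := by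
  have hK : g ∈ sxK sxS0 := by rw [sxK_eq_stabM]; exact hg
  refine ⟨hg.1, hK.2, ?_⟩
  intro t ht d hd hc
  obtain ⟨m, hm, rfl⟩ := mem_sxS0.mp ht
  obtain ⟨p, q, hpq, rfl⟩ := Finset.card_eq_two.mp hc
  have hp : p ∈ setOf m := hd (Finset.mem_insert_self _ _)
  have hq : q ∈ setOf m := hd (Finset.mem_insert_of_mem (Finset.mem_singleton_self _))
  have hgt := hK.2 _ ht
  apply pair_fix hgt hd
  have h1 := allLt_spec (allLt_spec (List.all_eq_true.mp hv m hm) _ (idx_lt p)) _ (idx_lt q)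
  rw [Bool.or_eq_true] at h1
  rcases h1 with h1 | h1
  · exfalso
    simp only [Bool.not_eq_true', Bool.and_eq_false_iff, bne_eq_false_iff_eq] at h1
    rw [mem_setOf] at hp hq
    rcases h1 with (h1 | h1) | h1
    · rw [hp] at h1; exact absurd h1 (by decide)
    · rw [hq] at h1; exact absurd h1 (by decide)
    · exact hpq (idx_injective h1)
  · rw [hl p, hl q] at h1
    simp only [Bool.or_eq_true, Bool.and_eq_true, beq_iff_eq, bne_iff_ne] at h1
    rw [smul_pairP]
    rcases h1 with (⟨h1, h2⟩ | ⟨h1, h2⟩) | ⟨⟨⟨h1, h2⟩, h3⟩, h4⟩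
    · left
      rw [idx_injective h1, idx_injective h2]
    · left
      rw [idx_injective h1, idx_injective h2, Finset.pair_comm]
    · right
      have hsub : ({g p, g q} : Finset GolayPt) ⊆ setOf m \ {p, q} := by
        intro x hx
        rw [Finset.mem_insert, Finset.mem_singleton] at hx
        rw [Finset.mem_sdiff, Finset.mem_insert, Finset.mem_singleton]
        rcases hx with rfl | rfl
        · refine ⟨apply_mem_of_smul_eq hgt hp, ?_⟩
          rintro (h | h)
          · exact h1 (by rw [h])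
          · exact h2 (by rw [h])
        · refine ⟨apply_mem_of_smul_eq hgt hq, ?_⟩
          rintro (h | h)
          · exact h3 (by rw [h])
          · exact h4 (by rw [h])
      apply Finset.eq_of_subset_of_card_le hsub
      rw [Finset.card_sdiff_of_subset hd, sxS0_mem.2.1 _ ht, Finset.card_pair hpq,
        Finset.card_pair (fun h => hpq (g.injective h))]

def sxC : List ℕ :=
  [0, 2, 3, 1, 4, 5, 9, 12, 8, 22, 7, 11, 10, 13, 23, 16, 19, 14, 20, 15, 21, 18, 6, 17]

theorem sxC_ok : tabIn sx0 sxC = true := by decide +kernel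

theorem sxK_all : chainAll (fun l => v4T l || v4T (mulTab sxC l) ||
    v4T (mulTab sxC (mulTab sxC l))) sxKChain idTab = true := by decide +kernel

theorem sxK_cosets : ∃ c ∈ stabM sx0, ∀ g ∈ stabM sx0,
    g ∈ sxN sxS0 ∨ c * g ∈ sxN sxS0 ∨ c * (c * g) ∈ sxN sxS0 := by
  obtain ⟨c, hc, hcl⟩ := tabIn_spec sxC_ok
  refine ⟨c, hc, fun g hg => ?_⟩
  obtain ⟨l, hl, hQ⟩ := chainAll_sound _ sxKChain sx0 idTab 1 isTable_one sxKChain_ok
    sxK_final_bot sxK_all g hg
  rw [one_mul] at hl
  simp only [Bool.or_eq_true] at hQ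
  rcases hQ with (hQ | hQ) | hQ
  · exact Or.inl (mem_sxN_of_v4T hg hl hQ)
  · exact Or.inr (Or.inl (mem_sxN_of_v4T ((stabM sx0).mul_mem hc hg) (isTable_mulTab hcl hl) hQ))
  · exact Or.inr (Or.inr (mem_sxN_of_v4T ((stabM sx0).mul_mem hc ((stabM sx0).mul_mem hc hg))
      (isTable_mulTab hcl (isTable_mulTab hcl hl)) hQ))

theorem card_sxN_sxS0 : Nat.card (sxN sxS0) = 64 := by
  have h192 : Nat.card (sxK sxS0) = 192 := by rw [sxK_eq_stabM]; exact card_stabM_sx0
  have hdvd : Nat.card (sxN sxS0) ∣ 192 := by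
    rw [← h192]
    exact Subgroup.card_dvd_of_le (sxN_le_sxK sxS0)
  have hp : IsPGroup 2 (sxN sxS0) := by
    intro g
    refine ⟨1, ?_⟩
    apply Subtype.ext
    rw [pow_one, pow_two]
    exact sxN_sq sxS0_mem g.2
  have hfact : Fact (Nat.Prime 2) := ⟨Nat.prime_two⟩
  obtain ⟨n, hn⟩ := IsPGroup.iff_card.mp hp
  have hle : 192 ≤ 3 * Nat.card (sxN sxS0) := by
    obtain ⟨c, hc, hcov⟩ := sxK_cosets
    have hsub : (stabM sx0 : Set (Equiv.Perm GolayPt)) ⊆
        ((sxN sxS0 : Set (Equiv.Perm GolayPt)) ∪ (fun x => c⁻¹ * x) '' (sxN sxS0 : Set _)) ∪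
          (fun x => c⁻¹ * (c⁻¹ * x)) '' (sxN sxS0 : Set _) := by
      intro g hg
      rcases hcov g hg with h | h | h
      · exact Or.inl (Or.inl h)
      · exact Or.inl (Or.inr ⟨_, h, by group⟩)
      · exact Or.inr ⟨_, h, by group⟩
    have h1 := Set.ncard_le_ncard hsub (Set.toFinite _)
    have h2 := Set.ncard_union_le ((sxN sxS0 : Set (Equiv.Perm GolayPt)) ∪
      (fun x => c⁻¹ * x) '' (sxN sxS0 : Set _)) ((fun x => c⁻¹ * (c⁻¹ * x)) '' (sxN sxS0 : Set _))
    have h3 := Set.ncard_union_le (sxN sxS0 : Set (Equiv.Perm GolayPt))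
      ((fun x => c⁻¹ * x) '' (sxN sxS0 : Set _))
    have h4 := Set.ncard_image_le (f := fun x => c⁻¹ * x) (Set.toFinite (sxN sxS0 : Set _))
    have h5 := Set.ncard_image_le (f := fun x => c⁻¹ * (c⁻¹ * x)) (Set.toFinite (sxN sxS0 : Set _))
    have e1 : (stabM sx0 : Set (Equiv.Perm GolayPt)).ncard = 192 := by
      rw [← card_stabM_sx0]
      exact (Nat.card_coe_set_eq _).symm
    have e2 : (sxN sxS0 : Set (Equiv.Perm GolayPt)).ncard = Nat.card (sxN sxS0) :=
      (Nat.card_coe_set_eq _).symm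
    omega
  rw [hn] at hdvd hle ⊢
  rcases lt_trichotomy n 6 with h | h | h
  · interval_cases n <;> omega
  · rw [h]; norm_num
  · exfalso
    have : 2 ^ 7 ∣ 192 := dvd_trans (pow_dvd_pow 2 h) hdvd
    norm_num at this

theorem card_sxK {S : Finset (Finset GolayPt)} (hS : S ∈ sextets) : Nat.card (sxK S) = 192 := by
  obtain ⟨a, ha, rfl⟩ := exists_smul_sxS0 hS
  rw [card_conj_eq (sxK sxS0) _ a (mem_sxK_smul_iff ha), sxK_eq_stabM, card_stabM_sx0]

theorem card_sxN {S : Finset (Finset GolayPt)} (hS : S ∈ sextets) : Nat.card (sxN S) = 64 := by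
  obtain ⟨a, ha, rfl⟩ := exists_smul_sxS0 hS
  rw [card_conj_eq (sxN sxS0) _ a (mem_sxN_smul_iff ha), card_sxN_sxS0]

theorem smul_eq_of_forall_smul {g : Equiv.Perm GolayPt} {S : Finset (Finset GolayPt)}
    (h : ∀ t ∈ S, g • t = t) : g • S = S := by
  ext t
  rw [Finset.mem_smul_finset]
  constructor
  · rintro ⟨t', ht', rfl⟩
    rw [h t' ht']; exact ht'
  · intro ht
    exact ⟨t, ht, h t ht⟩

theorem sxAct_mem (S : Finset (Finset GolayPt)) (g : ↥(MulAction.stabilizer M24 S)) (t : ↥S) :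
    (g.1.1 : Equiv.Perm GolayPt) • t.1 ∈ S := by
  have h : (g.1.1 : Equiv.Perm GolayPt) • S = S := g.2
  have := Finset.smul_mem_smul_finset (a := (g.1.1 : Equiv.Perm GolayPt)) t.2
  rw [h] at this
  exact this

theorem sxAct_mem' (S : Finset (Finset GolayPt)) (g : ↥(MulAction.stabilizer M24 S)) (t : ↥S) :
    (g.1.1 : Equiv.Perm GolayPt)⁻¹ • t.1 ∈ S := by
  have h : (g.1.1 : Equiv.Perm GolayPt) • S = S := g.2
  have h' : (g.1.1 : Equiv.Perm GolayPt)⁻¹ • S = S := inv_smul_eq_iff.mpr h.symm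
  have := Finset.smul_mem_smul_finset (a := (g.1.1 : Equiv.Perm GolayPt)⁻¹) t.2
  rw [h'] at this
  exact this

/-- The action of the stabiliser of `S` on the members of `S`. -/
def sxAct (S : Finset (Finset GolayPt)) : ↥(MulAction.stabilizer M24 S) →* Equiv.Perm ↥S where
  toFun g :=
    { toFun := fun t => ⟨(g.1.1 : Equiv.Perm GolayPt) • t.1, sxAct_mem S g t⟩
      invFun := fun t => ⟨(g.1.1 : Equiv.Perm GolayPt)⁻¹ • t.1, sxAct_mem' S g t⟩
      left_inv := fun t => Subtype.ext (inv_smul_smul _ _)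
      right_inv := fun t => Subtype.ext (smul_inv_smul _ _) }
  map_one' := by
    apply Equiv.ext
    intro t
    apply Subtype.ext
    show (1 : Equiv.Perm GolayPt) • t.1 = t.1
    rw [one_smul]
  map_mul' := fun g h => by
    apply Equiv.ext
    intro t
    apply Subtype.ext
    show ((g.1.1 : Equiv.Perm GolayPt) * h.1.1) • t.1 = g.1.1 • h.1.1 • t.1
    rw [mul_smul]

theorem sxAct_apply (S : Finset (Finset GolayPt)) (g : ↥(MulAction.stabilizer M24 S)) (t : ↥S) :
    ((sxAct S g t : ↥S) : Finset GolayPt) = (g.1.1 : Equiv.Perm GolayPt) • t.1 := rfl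

theorem mem_ker_sxAct (S : Finset (Finset GolayPt)) (g : ↥(MulAction.stabilizer M24 S)) :
    g ∈ (sxAct S).ker ↔ ∀ t ∈ S, (g.1.1 : Equiv.Perm GolayPt) • t = t := by
  rw [MonoidHom.mem_ker]
  constructor
  · intro h t ht
    have := congrArg (fun e : Equiv.Perm ↥S => ((e ⟨t, ht⟩ : ↥S) : Finset GolayPt)) h
    exact this
  · intro h
    apply Equiv.ext
    intro t
    apply Subtype.ext
    exact h t.1 t.2

theorem card_fix_members {S : Finset (Finset GolayPt)} (hS : S ∈ sextets) :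
    Nat.card {g : ↥(MulAction.stabilizer M24 S) // ∀ t ∈ S,
      ((g : M24) : Equiv.Perm GolayPt) • t = t} = 192 := by
  rw [← card_sxK hS]
  apply Nat.card_congr
  exact
    { toFun := fun x => ⟨x.1.1.1, x.1.1.2, x.2⟩
      invFun := fun y => ⟨⟨⟨y.1, y.2.1⟩, smul_eq_of_forall_smul y.2.2⟩, y.2.2⟩
      left_inv := fun x => rfl
      right_inv := fun y => rfl }

theorem sxAct_surj {S : Finset (Finset GolayPt)} (hS : S ∈ sextets) : (sxAct S).range = ⊤ := by
  have hk : Nat.card (sxAct S).ker = 192 := by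
    rw [← card_fix_members hS]
    exact Nat.card_congr (Equiv.subtypeEquivRight (mem_ker_sxAct S))
  have h1 := Subgroup.card_mul_index (sxAct S).ker
  rw [Subgroup.index_ker, hk, card_stabilizer_sextet hS] at h1
  apply Subgroup.eq_top_of_card_eq
  have h2 : Nat.card (Equiv.Perm ↥S) = 720 := by
    rw [Nat.card_eq_fintype_card, Fintype.card_perm, Fintype.card_coe, hS.1]
    rfl
  rw [h2]
  omega

/-- S1551. -/
theorem sextet_stab_structure (S : Finset (Finset GolayPt)) (hS : S ∈ sextets) :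
    (∀ e : Equiv.Perm ↥S, ∃ g ∈ MulAction.stabilizer M24 S, ∀ t : ↥S,
      (g : Equiv.Perm GolayPt) • (t : Finset GolayPt) = ((e t : ↥S) : Finset GolayPt)) ∧
    Nat.card {g : ↥(MulAction.stabilizer M24 S) // ∀ t ∈ S,
      ((g : M24) : Equiv.Perm GolayPt) • t = t} = 192 ∧
    ∃ N : Subgroup ↥(MulAction.stabilizer M24 S), N.Normal ∧ Nat.card N = 64 ∧
      ∀ x ∈ N, x * x = 1 := by
  refine ⟨?_, card_fix_members hS, ?_⟩
  · intro e
    have he : e ∈ (sxAct S).range := by rw [sxAct_surj hS]; exact Subgroup.mem_top _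
    obtain ⟨g, rfl⟩ := he
    exact ⟨g.1, g.2, fun t => rfl⟩
  · refine ⟨(sxN S).comap ((M24.subtype).comp (MulAction.stabilizer M24 S).subtype), ?_, ?_, ?_⟩
    · constructor
      intro n hn g
      show (g.1.1 : Equiv.Perm GolayPt) * n.1.1 * (g.1.1)⁻¹ ∈ sxN S
      have hn' : (n.1.1 : Equiv.Perm GolayPt) ∈ sxN S := hn
      have := sxN_conj_mem (a := (g.1.1 : Equiv.Perm GolayPt)) g.1.2 hn'
      have hgS : (g.1.1 : Equiv.Perm GolayPt) • S = S := g.2
      rw [hgS] at this
      exact this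
    · rw [← card_sxN hS]
      apply Nat.card_congr
      exact
        { toFun := fun x => ⟨x.1.1.1, x.2⟩
          invFun := fun y => ⟨⟨⟨y.1, y.2.1⟩, smul_eq_of_forall_smul y.2.2.1⟩, y.2⟩
          left_inv := fun x => rfl
          right_inv := fun y => rfl }
    · intro x hx
      apply Subtype.ext
      apply Subtype.ext
      exact sxN_sq hS hx

end Cfsg.Agent.Lib.helper28
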