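import Cfsg.Agent.Lib.helper28.GolaySextet
import Mathlib.GroupTheory.SpecificGroups.Alternating.Simple

set_option autoImplicit false

namespace Cfsg.Agent.Lib.helper28

open Cfsg
open scoped Pointwise

/-! Trios of pairwise disjoint octads. -/

theorem compl_union_mem_octads {o o' : Finset GolayPt} (ho : o ∈ octads) (ho' : o' ∈ octads)
    (hd : Disjoint o o') : (o ∪ o')ᶜ ∈ octads := by
  have h1 := symmDiff_mem_supports ho.1 ho'.1
  rw [hd.symmDiff_eq_sup] at h1
  refine ⟨compl_mem_supports h1, ?_⟩
  rw [Finset.card_compl]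
  have : (o ∪ o').card = 16 := by
    rw [Finset.card_union_of_disjoint hd, ho.2, ho'.2]
  rw [this]
  decide

theorem ne_of_disjoint_octads {o o' : Finset GolayPt} (ho : o ∈ octads) (hd : Disjoint o o') :
    o ≠ o' := by
  rintro rfl
  rw [disjoint_self] at hd
  have := ho.2
  rw [hd] at this
  exact absurd this (by decide)

/-- The trio through two disjoint octads. -/
def trioOf (o o' : Finset GolayPt) : Finset (Finset GolayPt) := {o, o', (o ∪ o')ᶜ}

theorem disjoint_compl_union_left (o o' : Finset GolayPt) : Disjoint o (o ∪ o')ᶜ :=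
  (disjoint_compl_right (a := o ∪ o')).mono_left Finset.subset_union_left

theorem disjoint_compl_union_right (o o' : Finset GolayPt) : Disjoint o' (o ∪ o')ᶜ :=
  (disjoint_compl_right (a := o ∪ o')).mono_left Finset.subset_union_right

theorem trioOf_mem_trios {o o' : Finset GolayPt} (ho : o ∈ octads) (ho' : o' ∈ octads)
    (hd : Disjoint o o') : trioOf o o' ∈ trios := by
  have hc := compl_union_mem_octads ho ho' hd
  have d1 := disjoint_compl_union_left o o'
  have d2 := disjoint_compl_union_right o o'
  refine ⟨?_, ?_, ?_⟩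
  · exact Finset.card_eq_three.mpr ⟨o, o', (o ∪ o')ᶜ, ne_of_disjoint_octads ho hd,
      ne_of_disjoint_octads ho d1, ne_of_disjoint_octads ho' d2, rfl⟩
  · intro x hx
    unfold trioOf at hx
    simp only [Finset.mem_insert, Finset.mem_singleton] at hx
    rcases hx with rfl | rfl | rfl
    · exact ho
    · exact ho'
    · exact hc
  · intro a ha b hb hne
    unfold trioOf at ha hb
    simp only [Finset.mem_insert, Finset.mem_singleton] at ha hb
    rcases ha with rfl | rfl | rfl <;> rcases hb with rfl | rfl | rfl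
    · exact absurd rfl hne
    · exact hd
    · exact d1
    · exact hd.symm
    · exact absurd rfl hne
    · exact d2
    · exact d1.symm
    · exact d2.symm
    · exact absurd rfl hne

theorem left_mem_trioOf (o o' : Finset GolayPt) : o ∈ trioOf o o' := by
  unfold trioOf; simp

theorem right_mem_trioOf (o o' : Finset GolayPt) : o' ∈ trioOf o o' := by
  unfold trioOf; simp

theorem compl_mem_trioOf (o o' : Finset GolayPt) : (o ∪ o')ᶜ ∈ trioOf o o' := by
  unfold trioOf; simp

theorem trio_eq_trioOf {T : Finset (Finset GolayPt)} (hT : T ∈ trios) {o o' : Finset GolayPt}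
    (ho : o ∈ T) (ho' : o' ∈ T) (hne : o ≠ o') : T = trioOf o o' := by
  have hd := hT.2.2 o ho o' ho' hne
  have h1 : ((T.erase o).erase o').card = 1 := by
    rw [Finset.card_erase_of_mem (Finset.mem_erase.mpr ⟨Ne.symm hne, ho'⟩),
      Finset.card_erase_of_mem ho, hT.1]
  obtain ⟨x, hx⟩ := Finset.card_eq_one.mp h1
  have hxm : x ∈ (T.erase o).erase o' := by rw [hx]; exact Finset.mem_singleton_self _
  rw [Finset.mem_erase, Finset.mem_erase] at hxm
  obtain ⟨hxo', hxo, hxT⟩ := hxm
  have d1 : Disjoint x o := hT.2.2 x hxT o ho hxo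
  have d2 : Disjoint x o' := hT.2.2 x hxT o' ho' hxo'
  have hsub : x ⊆ (o ∪ o')ᶜ := by
    intro p hp
    rw [Finset.mem_compl, Finset.mem_union]
    rintro (h | h)
    · exact Finset.disjoint_left.mp d1 hp h
    · exact Finset.disjoint_left.mp d2 hp h
  have hxc : x = (o ∪ o')ᶜ := by
    apply Finset.eq_of_subset_of_card_le hsub
    rw [(compl_union_mem_octads (hT.2.1 o ho) (hT.2.1 o' ho') hd).2, (hT.2.1 x hxT).2]
  unfold trioOf
  rw [← hxc, ← hx, Finset.insert_erase (Finset.mem_erase.mpr ⟨Ne.symm hne, ho'⟩),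
    Finset.insert_erase ho]

theorem card_disjoint_octads {o : Finset GolayPt} (ho : o ∈ octads) :
    (octadFinset.filter (fun x => Disjoint o x)).card = 30 := by
  have h := ncard_octads_inter ho 0
  rw [oct_count_k0] at h
  have : {x : Finset GolayPt | x ∈ octads ∧ (o ∩ x).card = 0} =
      ↑(octadFinset.filter (fun x => Disjoint o x)) := by
    ext x
    rw [Finset.mem_coe, Finset.mem_filter, mem_octadFinset, Finset.disjoint_iff_inter_eq_empty,
      ← Finset.card_eq_zero]
    rfl
  rw [this, Set.ncard_coe_finset] at h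
  exact h

set_option linter.constructorNameAsVariable false in
theorem ncard_trios : trios.ncard = 3795 := by
  classical
  have hP : ((octadFinset ×ˢ octadFinset).filter (fun p => Disjoint p.1 p.2)).card = 22770 := by
    have h1 : ((octadFinset ×ˢ octadFinset).filter (fun p => Disjoint p.1 p.2)).card =
        ∑ o ∈ octadFinset, (octadFinset.filter (fun x => Disjoint o x)).card := by
      simp only [Finset.card_filter, Finset.sum_product]
    rw [h1, Finset.sum_congr rfl (fun o ho => card_disjoint_octads ((mem_octadFinset o).mp ho)),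
      Finset.sum_const, card_octadFinset, smul_eq_mul]
  have hmem : ∀ p : Finset GolayPt × Finset GolayPt,
      p ∈ (octadFinset ×ˢ octadFinset).filter (fun p => Disjoint p.1 p.2) ↔
        p.1 ∈ octads ∧ p.2 ∈ octads ∧ Disjoint p.1 p.2 := by
    intro p
    rw [Finset.mem_filter, Finset.mem_product, mem_octadFinset, mem_octadFinset, and_assoc]
  have hmaps : ∀ p ∈ (octadFinset ×ˢ octadFinset).filter (fun p => Disjoint p.1 p.2),
      trioOf p.1 p.2 ∈ (Set.toFinite trios).toFinset := by
    intro p hp
    rw [hmem] at hp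
    rw [Set.Finite.mem_toFinset]
    exact trioOf_mem_trios hp.1 hp.2.1 hp.2.2
  have h1 := Finset.card_eq_sum_card_fiberwise hmaps
  have hfib : ∀ T ∈ (Set.toFinite trios).toFinset,
      (((octadFinset ×ˢ octadFinset).filter (fun p => Disjoint p.1 p.2)).filter
        (fun p => trioOf p.1 p.2 = T)).card = 6 := by
    intro T hT
    rw [Set.Finite.mem_toFinset] at hT
    have : ((octadFinset ×ˢ octadFinset).filter (fun p => Disjoint p.1 p.2)).filter
        (fun p => trioOf p.1 p.2 = T) = T.offDiag := by
      ext p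
      rw [Finset.mem_filter, Finset.mem_offDiag, hmem]
      constructor
      · rintro ⟨hp, rfl⟩
        exact ⟨left_mem_trioOf _ _, right_mem_trioOf _ _, ne_of_disjoint_octads hp.1 hp.2.2⟩
      · rintro ⟨ho, ho', hne⟩
        exact ⟨⟨hT.2.1 _ ho, hT.2.1 _ ho', hT.2.2 _ ho _ ho' hne⟩,
          (trio_eq_trioOf hT ho ho' hne).symm⟩
    rw [this, Finset.offDiag_card, hT.1]
  rw [Finset.sum_congr rfl hfib, Finset.sum_const, smul_eq_mul, hP] at h1
  rw [Set.ncard_eq_toFinset_card trios (Set.toFinite _)]
  omega

/-- S1557. -/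
theorem trios_count : (∀ o o' : Finset GolayPt, o ∈ octads → o' ∈ octads → Disjoint o o' →
    (o ∪ o')ᶜ ∈ octads) ∧ trios.ncard = 3795 :=
  ⟨fun _ _ ho ho' hd => compl_union_mem_octads ho ho' hd, ncard_trios⟩

end Cfsg.Agent.Lib.helper28
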