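import Cfsg.Agent.Lib.helper28.Steiner24
import Cfsg.Agent.Lib.helper28.CodeAbs
import Cfsg.Agent.Lib.helper28.GolayAut
import Cfsg.Agent.S0358

set_option autoImplicit false
set_option linter.unusedSectionVars false

namespace Cfsg.Agent.Lib.helper28.GolayUniq

open Cfsg
open Cfsg.Agent.Lib.helper28
open Cfsg.Agent.Lib.helper28.CodeAbs

/-- A binary code of length 24, dimension 12 and minimum weight at least 8 (all weights divisible
by 4, none equal to 4) is equivalent to the Golay code. -/
theorem golay_unique (C : Submodule (ZMod 2) (Fin 24 → ZMod 2))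
    (hdim : Module.finrank (ZMod 2) C = 12)
    (h4 : ∀ w ∈ C, 4 ∣ hammingNorm w) (hno4 : ∀ w ∈ C, hammingNorm w ≠ 4) :
    ∃ e : Fin 24 ≃ GolayPt, ∀ w : GolayPt → ZMod 2,
      w ∈ golayCode ↔ (fun i => w (e i)) ∈ C := by
  classical
  have hcardC : Nat.card C = 4096 := card_of_finrank C hdim
  have hmin : ∀ w ∈ C, w ≠ 0 → 8 ≤ hammingNorm w := by
    intro w hw hw0
    have h1 := h4 w hw
    have h2 := hno4 w hw
    have h3 : hammingNorm w ≠ 0 := by
      rw [Ne, hammingNorm_eq_zero]; exact hw0
    obtain ⟨k, hk⟩ := h1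
    omega
  have hbin : IsBinCode (codeFam C) := isBinCode_codeFam hmin
  have hcd : (codeFam C).card = 4096 := (card_codeFam C).trans hcardC
  have h24 : Fintype.card (Fin 24) = 24 := Fintype.card_fin 24
  let B : Set (Finset (Fin 24)) := {s | s ∈ codeFam C ∧ s.card = 8}
  have hBdef : ∀ s : Finset (Fin 24), s ∈ B ↔ (s ∈ codeFam C ∧ s.card = 8) := fun s => Iff.rfl
  have hB : IsSteinerSystem 5 8 B := by
    refine ⟨fun b hb => ((hBdef b).mp hb).2, fun s hs => ?_⟩
    obtain ⟨o, ho, ho8, hso⟩ := exists_octad h24 hbin hcd s hs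
    refine ⟨o, ⟨(hBdef o).mpr ⟨ho, ho8⟩, hso⟩, ?_⟩
    rintro o' ⟨hoB', hso'⟩
    obtain ⟨ho', ho8'⟩ := (hBdef o').mp hoB'
    exact octad_unique hbin (le_of_eq hs.symm) ho' ho ho8' ho8 hso' hso
  obtain ⟨e, hbij, hiff⟩ := S24.embed24 h24 hB
  let E : Fin 24 ≃ GolayPt := Equiv.ofBijective e hbij
  have hE : ∀ i, E i = e i := fun i => rfl
  have hfw : ∀ s ∈ supports (golayCode : Set (GolayPt → ZMod 2)),
      (fun i => indVec s (E i)) ∈ C := by
    refine supports_induction (P := fun s => (fun i => indVec s (E i)) ∈ C) ?_ ?_ ?_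
    · show (fun i => indVec (∅ : Finset GolayPt) (E i)) ∈ C
      have h0 : (fun i : Fin 24 => indVec (∅ : Finset GolayPt) (E i)) = 0 := by
        funext i
        show indVec (∅ : Finset GolayPt) (E i) = 0
        unfold indVec
        rw [if_neg (Finset.notMem_empty _)]
      rw [h0]; exact C.zero_mem
    · intro o ho
      show (fun i => indVec o (E i)) ∈ C
      have h1 : (o.image E.symm).image e = o := by
        rw [Finset.image_image]
        have h1' : (e ∘ ⇑E.symm) = id := by
          funext p
          exact E.apply_symm_apply p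
        rw [h1', Finset.image_id]
      have h2 : o.image E.symm ∈ B := (hiff _).mpr (by rw [h1]; exact ho)
      obtain ⟨v, hv, hvs⟩ := mem_codeFam.mp ((hBdef _).mp h2).1
      have h3 : (fun i => indVec o (E i)) = v := by
        apply support₂_injective
        rw [hvs]
        ext i
        rw [mem_support₂, Finset.mem_image]
        show indVec o (E i) = 1 ↔ _
        unfold indVec
        constructor
        · intro h
          by_cases hi : E i ∈ o
          · exact ⟨E i, hi, E.symm_apply_apply i⟩
          · rw [if_neg hi] at h; exact absurd h (by decide)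
        · rintro ⟨p, hp, rfl⟩
          rw [E.apply_symm_apply, if_pos hp]
      rw [h3]; exact hv
    · intro s t hs ht
      show (fun i => indVec (symmDiff s t) (E i)) ∈ C
      have h1 : (fun i => indVec (symmDiff s t) (E i)) =
          (fun i => indVec s (E i)) + (fun i => indVec t (E i)) := by
        funext i
        show indVec (symmDiff s t) (E i) = indVec s (E i) + indVec t (E i)
        unfold indVec
        by_cases h1 : E i ∈ s <;> by_cases h2 : E i ∈ t <;>
          simp [Finset.mem_symmDiff, h1, h2] <;> decide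
      rw [h1]; exact C.add_mem hs ht
  have hfw' : ∀ w ∈ golayCode, (fun i => w (E i)) ∈ C := by
    intro w hw
    have h1 := hfw (support₂ w) ⟨w, hw, rfl⟩
    have h2 : indVec (support₂ w) = w := support₂_injective (support₂_indVec _)
    rw [h2] at h1
    exact h1
  refine ⟨E, fun w => ⟨hfw' w, fun hw => ?_⟩⟩
  let Φ : golayCode → C := fun w => ⟨fun i => w.1 (E i), hfw' w.1 w.2⟩
  have hΦinj : Function.Injective Φ := by
    intro a b hab
    apply Subtype.ext
    funext p
    have h1 : a.1 (E (E.symm p)) = b.1 (E (E.symm p)) :=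
      congrFun (congrArg Subtype.val hab) (E.symm p)
    rw [E.apply_symm_apply] at h1
    exact h1
  have hΦsurj : Function.Surjective Φ :=
    (hΦinj.bijective_of_nat_card_le (by rw [hcardC, Cfsg.Agent.S0358.card_code])).2
  obtain ⟨w', hw'⟩ := hΦsurj ⟨_, hw⟩
  have h1 : w'.1 = w := by
    funext p
    have h2 : w'.1 (E (E.symm p)) = w (E (E.symm p)) :=
      congrFun (congrArg Subtype.val hw') (E.symm p)
    rw [E.apply_symm_apply] at h2
    exact h2
  rw [← h1]; exact w'.2

end Cfsg.Agent.Lib.helper28.GolayUniq
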