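import Mathlib
import Cfsg.Prelude.Def_MonsterType

set_option autoImplicit false

namespace Cfsg.Agent.Lib.helper28.Crit

open Cfsg
open scoped commutatorElement

/-! A criterion for the centraliser of an involution to have the shape `2^{1+6} : L₃(2)` with a
large extraspecial `2`-core. -/

/-- Hypotheses, in elementwise form, on an involution `z` and subgroups `Q`, `K`, `E`. -/
structure LES {G : Type*} [Group G] (z : G) (Q K E : Subgroup G) : Prop where
  hz1 : z ≠ 1
  hzz : z * z = 1
  hzE : z ∈ E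
  hQC : ∀ q ∈ Q, q * z = z * q
  hQn : ∀ c : G, c * z = z * c → ∀ q ∈ Q, c * q * c⁻¹ ∈ Q
  hQcard : Nat.card Q = 128
  hcomm : ∀ x ∈ Q, ∀ y ∈ Q, x * y = y * x ∨ x * y = z * (y * x)
  hnc : ∃ x ∈ Q, ∃ y ∈ Q, x * y ≠ y * x
  hcent : ∀ g : G, (∀ q ∈ Q, g * q = q * g) → g = 1 ∨ g = z
  hEQ : ∀ e ∈ E, e ∈ Q
  hEcard : Nat.card E = 16
  hEab : ∀ x ∈ E, ∀ y ∈ E, x * y = y * x
  hE2 : ∀ x ∈ E, x * x = 1
  hEt : ∃ t ∈ E, t ≠ 1 ∧ t ≠ z
  hEn : ∀ k : G, ∀ t ∈ E, t ≠ 1 → k * t = t * k → ∀ e ∈ E, k * e * k⁻¹ ∈ E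
  hKC : ∀ k ∈ K, k * z = z * k
  hQK : ∀ x ∈ Q, x ∈ K → x = 1
  hfact : ∀ c : G, c * z = z * c → ∃ q ∈ Q, ∃ k ∈ K, c = q * k
  hK2 : ∀ k ∈ K, k ≠ 1 → ∃ g ∈ K, k * (g * k * g⁻¹) ≠ 1 ∧
    ((k * (g * k * g⁻¹)) ^ 3 = 1 ∨ (k * (g * k * g⁻¹)) ^ 7 = 1)
  hKiso : Nonempty (↥K ≃* Matrix.SpecialLinearGroup (Fin 3) (ZMod 2))

/-- The preimage of a subgroup under an isomorphism is isomorphic to it. -/
def comapEquiv {G G' : Type*} [Group G] [Group G'] (φ : G ≃* G') (K : Subgroup G') :
    ↥(K.comap φ.toMonoidHom) ≃* ↥K where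
  toFun x := ⟨φ x.1, x.2⟩
  invFun y := ⟨φ.symm y.1, by
    show φ (φ.symm y.1) ∈ K
    rw [φ.apply_symm_apply]; exact y.2⟩
  left_inv x := Subtype.ext (φ.symm_apply_apply _)
  right_inv y := Subtype.ext (φ.apply_symm_apply _)
  map_mul' x y := Subtype.ext (map_mul φ _ _)

theorem LES.comap {G G' : Type*} [Group G] [Group G'] (φ : G ≃* G') {z : G}
    {Q K E : Subgroup G'} (h : LES (φ z) Q K E) :
    LES z (Q.comap φ.toMonoidHom) (K.comap φ.toMonoidHom) (E.comap φ.toMonoidHom) := by
  have hmem : ∀ (H : Subgroup G') (x : G), x ∈ H.comap φ.toMonoidHom ↔ φ x ∈ H :=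
    fun H x => Iff.rfl
  have hsymm : ∀ (H : Subgroup G') (y : G'), y ∈ H → φ.symm y ∈ H.comap φ.toMonoidHom := by
    intro H y hy
    rw [hmem, φ.apply_symm_apply]; exact hy
  refine ⟨?_, ?_, ?_, ?_, ?_, ?_, ?_, ?_, ?_, ?_, ?_, ?_, ?_, ?_, ?_, ?_, ?_, ?_, ?_, ?_⟩
  · intro hz
    exact h.hz1 (by rw [hz, map_one])
  · apply φ.injective
    rw [map_mul, map_one]; exact h.hzz
  · exact (hmem _ _).mpr h.hzE
  · intro q hq
    apply φ.injective
    rw [map_mul, map_mul]
    exact h.hQC (φ q) hq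
  · intro c hc q hq
    rw [hmem, map_mul, map_mul, map_inv]
    exact h.hQn (φ c) (by rw [← map_mul, hc, map_mul]) (φ q) hq
  · rw [Nat.card_congr (comapEquiv φ Q).toEquiv]; exact h.hQcard
  · intro x hx y hy
    rcases h.hcomm (φ x) hx (φ y) hy with h1 | h1
    · left; apply φ.injective; rw [map_mul, map_mul]; exact h1
    · right; apply φ.injective; rw [map_mul, map_mul, map_mul]; exact h1
  · obtain ⟨x, hx, y, hy, hne⟩ := h.hnc
    refine ⟨φ.symm x, hsymm _ _ hx, φ.symm y, hsymm _ _ hy, fun heq => hne ?_⟩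
    have := congrArg φ heq
    rwa [map_mul, map_mul, φ.apply_symm_apply, φ.apply_symm_apply] at this
  · intro g hg
    have h1 := h.hcent (φ g) (fun q hq => by
      have := congrArg φ (hg (φ.symm q) (hsymm _ _ hq))
      rwa [map_mul, map_mul, φ.apply_symm_apply] at this)
    rcases h1 with h1 | h1
    · left; apply φ.injective; rw [map_one]; exact h1
    · right; exact φ.injective h1
  · intro e he
    exact h.hEQ (φ e) he
  · rw [Nat.card_congr (comapEquiv φ E).toEquiv]; exact h.hEcard
  · intro x hx y hy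
    apply φ.injective; rw [map_mul, map_mul]; exact h.hEab (φ x) hx (φ y) hy
  · intro x hx
    apply φ.injective; rw [map_mul, map_one]; exact h.hE2 (φ x) hx
  · obtain ⟨t, ht, ht1, htz⟩ := h.hEt
    refine ⟨φ.symm t, hsymm _ _ ht, fun heq => ht1 ?_, fun heq => htz ?_⟩
    · have := congrArg φ heq
      rwa [φ.apply_symm_apply, map_one] at this
    · have := congrArg φ heq
      rwa [φ.apply_symm_apply] at this
  · intro k t ht ht1 hkt e he
    rw [hmem, map_mul, map_mul, map_inv]
    exact h.hEn (φ k) (φ t) ht (fun heq => ht1 (φ.injective (by rw [map_one]; exact heq)))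
      (by rw [← map_mul, hkt, map_mul]) (φ e) he
  · intro k hk
    apply φ.injective; rw [map_mul, map_mul]; exact h.hKC (φ k) hk
  · intro x hx hxK
    apply φ.injective; rw [map_one]; exact h.hQK (φ x) hx hxK
  · intro c hc
    obtain ⟨q, hq, k, hk, hck⟩ := h.hfact (φ c) (by rw [← map_mul, hc, map_mul])
    refine ⟨φ.symm q, hsymm _ _ hq, φ.symm k, hsymm _ _ hk, ?_⟩
    apply φ.injective
    rw [map_mul, φ.apply_symm_apply, φ.apply_symm_apply]; exact hck
  · intro k hk hk1
    obtain ⟨g, hg, h1, h2⟩ := h.hK2 (φ k) hk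
      (fun heq => hk1 (φ.injective (by rw [map_one]; exact heq)))
    have hφ : φ (k * (φ.symm g * k * (φ.symm g)⁻¹)) = φ k * (g * φ k * g⁻¹) := by
      rw [map_mul, map_mul, map_mul, map_inv, φ.apply_symm_apply]
    refine ⟨φ.symm g, hsymm _ _ hg, fun heq => h1 ?_, ?_⟩
    · rw [← hφ, heq, map_one]
    · rcases h2 with h2 | h2
      · left; apply φ.injective; rw [map_pow, hφ, map_one]; exact h2
      · right; apply φ.injective; rw [map_pow, hφ, map_one]; exact h2
  · obtain ⟨e⟩ := h.hKiso
    exact ⟨(comapEquiv φ K).trans e⟩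

theorem comm_central_left {G : Type*} [Group G] (m c h : G) (hc : ∀ x : G, x * c = c * x) :
    ⁅m * c, h⁆ = ⁅m, h⁆ := by
  rw [commutatorElement_def, commutatorElement_def]
  calc m * c * h * (m * c)⁻¹ * h⁻¹ = m * (c * h) * (m * c)⁻¹ * h⁻¹ := by group
    _ = m * (h * c) * (m * c)⁻¹ * h⁻¹ := by rw [hc h]
    _ = m * h * m⁻¹ * h⁻¹ := by group

theorem comm_central_right {G : Type*} [Group G] (g m c : G) (hc : ∀ x : G, x * c = c * x) :
    ⁅g, m * c⁆ = ⁅g, m⁆ := by
  rw [commutatorElement_def, commutatorElement_def]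
  calc g * (m * c) * g⁻¹ * (m * c)⁻¹ = g * m * (c * g⁻¹) * (m * c)⁻¹ := by group
    _ = g * m * (g⁻¹ * c) * (m * c)⁻¹ := by rw [hc g⁻¹]
    _ = g * m * g⁻¹ * m⁻¹ := by group

/-- A finite group in which all commutators lie in `{1, z}` for a central involution `z`, with
centre `{1, z}` and not commutative, is extraspecial. -/
theorem extraspecial_of_comm {P : Type*} [Group P] [Finite P] (z : P) (n : ℕ)
    (hcard : Nat.card P = 2 ^ n) (hz1 : z ≠ 1) (hzz : z * z = 1)
    (hzc : ∀ x : P, x * z = z * x)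
    (hcomm : ∀ x y : P, x * y = y * x ∨ x * y = z * (y * x))
    (hnc : ∃ x y : P, x * y ≠ y * x)
    (hcent : ∀ g : P, (∀ q : P, g * q = q * g) → g = 1 ∨ g = z) :
    IsExtraspecial 2 P := by
  have hzZ : z ∈ Subgroup.center P := Subgroup.mem_center_iff.mpr hzc
  have hZ : ∀ g : P, g ∈ Subgroup.center P → g = 1 ∨ g = z := by
    intro g hg
    exact hcent g (fun q => ((Subgroup.mem_center_iff.mp hg) q).symm)
  have hcm : ∀ x y : P, ⁅x, y⁆ = 1 ∨ ⁅x, y⁆ = z := by
    intro x y
    rw [commutatorElement_def]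
    rcases hcomm x y with h | h
    · left; rw [h]; group
    · right; rw [h]; group
  have hcomZ : commutator P = Subgroup.center P := by
    rw [commutator_def]
    apply le_antisymm
    · rw [Subgroup.commutator_le]
      intro x _ y _
      rcases hcm x y with h | h
      · rw [h]; exact Subgroup.one_mem _
      · rw [h]; exact hzZ
    · intro g hg
      rcases hZ g hg with rfl | rfl
      · exact Subgroup.one_mem _
      · obtain ⟨x, y, hxy⟩ := hnc
        have h1 : ⁅x, y⁆ = g := by
          rcases hcm x y with h | h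
          · exfalso
            apply hxy
            rw [commutatorElement_def] at h
            have : x * y = (x * y * x⁻¹ * y⁻¹) * (y * x) := by group
            rw [this, h, one_mul]
          · exact h
        rw [← h1]
        exact Subgroup.commutator_mem_commutator (Subgroup.mem_top x) (Subgroup.mem_top y)
  have hfrat : frattini P = Subgroup.center P := by
    apply le_antisymm
    · intro x hx
      rw [Subgroup.mem_center_iff]
      intro y
      by_contra hne
      have hco : IsCoatom (Subgroup.centralizer ({y} : Set P)) := by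
        constructor
        · intro htop
          apply hne
          have : x ∈ Subgroup.centralizer ({y} : Set P) := by rw [htop]; exact Subgroup.mem_top x
          rw [Subgroup.mem_centralizer_iff] at this
          exact this y rfl
        · intro L hL
          obtain ⟨g, hgL, hgC⟩ := SetLike.exists_of_lt hL
          have hgy : g * y = z * (y * g) := by
            rcases hcomm g y with h | h
            · exfalso
              apply hgC
              rw [Subgroup.mem_centralizer_iff]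
              intro w hw
              rw [Set.mem_singleton_iff] at hw
              rw [hw]; exact h.symm
            · exact h
          rw [eq_top_iff]
          intro w _
          by_cases hwC : w ∈ Subgroup.centralizer ({y} : Set P)
          · exact hL.le hwC
          · have hwy : w * y = z * (y * w) := by
              rcases hcomm w y with h | h
              · exfalso
                apply hwC
                rw [Subgroup.mem_centralizer_iff]
                intro v hv
                rw [Set.mem_singleton_iff] at hv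
                rw [hv]; exact h.symm
              · exact h
            have h1 : g⁻¹ * w ∈ Subgroup.centralizer ({y} : Set P) := by
              rw [Subgroup.mem_centralizer_iff]
              intro v hv
              rw [Set.mem_singleton_iff] at hv
              rw [hv]
              -- y * (g⁻¹ * w) = g⁻¹ * w * y
              have e1 : g⁻¹ * w * y = g⁻¹ * (z * (y * w)) := by rw [mul_assoc, hwy]
              have e2 : y = g⁻¹ * (z * (y * g)) := by rw [← hgy]; group
              have e3 : g⁻¹ * (z * (y * w)) = (g⁻¹ * (z * (y * g))) * (g⁻¹ * w) := by group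
              rw [e1, e3, ← e2]
            have : w = g * (g⁻¹ * w) := by group
            rw [this]
            exact L.mul_mem hgL (hL.le h1)
      have := frattini_le_coatom hco hx
      rw [Subgroup.mem_centralizer_iff] at this
      exact hne (this y rfl)
    · intro g hg
      have hmem : ∀ M : Subgroup P, IsCoatom M → z ∈ M := by
        intro M hM
        by_contra hzM
        have hlt : M < M ⊔ Subgroup.center P := by
          apply lt_of_le_of_ne le_sup_left
          intro heq
          apply hzM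
          rw [heq]
          exact (le_sup_right : Subgroup.center P ≤ M ⊔ Subgroup.center P) hzZ
        have htop := hM.2 _ hlt
        have hdec : ∀ w : P, ∃ m ∈ M, ∃ c ∈ Subgroup.center P, w = m * c := by
          intro w
          have hw : w ∈ ((M ⊔ Subgroup.center P : Subgroup P) : Set P) := by
            rw [htop]; exact Subgroup.mem_top w
          rw [Subgroup.mul_normal] at hw
          obtain ⟨m, hm, c, hc, rfl⟩ := Set.mem_mul.mp hw
          exact ⟨m, hm, c, hc, rfl⟩
        have hle : commutator P ≤ M := by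
          rw [commutator_def, Subgroup.commutator_le]
          intro x _ y _
          obtain ⟨m, hm, c, hc, rfl⟩ := hdec x
          obtain ⟨m', hm', c', hc', rfl⟩ := hdec y
          rw [comm_central_left m c _ (Subgroup.mem_center_iff.mp hc),
            comm_central_right m m' c' (Subgroup.mem_center_iff.mp hc'), commutatorElement_def]
          exact M.mul_mem (M.mul_mem (M.mul_mem hm hm') (M.inv_mem hm)) (M.inv_mem hm')
        exact hzM (hle (hcomZ ▸ hzZ))
      rcases hZ g hg with rfl | rfl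
      · exact Subgroup.one_mem _
      · unfold frattini Order.radical
        simp only [Subgroup.mem_iInf, Set.mem_ofPred_eq]
        intro M hM
        exact hmem M hM
  refine ⟨⟨IsPGroup.of_card hcard, hfrat, hcomZ⟩, ?_⟩
  rw [Nat.card_eq_two_iff]
  refine ⟨1, ⟨z, hzZ⟩, ?_, ?_⟩
  · intro heq
    apply hz1
    exact (congrArg Subtype.val heq).symm
  · ext w
    simp only [Set.mem_insert_iff, Set.mem_singleton_iff, Set.mem_univ, iff_true]
    rcases hZ w.1 w.2 with h | h
    · left; exact Subtype.ext h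
    · right; exact Subtype.ext h

theorem LES.mem_centralizer {G : Type*} [Group G] (z g : G) :
    g ∈ Subgroup.centralizer ({z} : Set G) ↔ g * z = z * g := by
  rw [Subgroup.mem_centralizer_iff]
  constructor
  · intro h; exact (h z rfl).symm
  · intro h w hw
    rw [Set.mem_singleton_iff] at hw
    rw [hw]; exact h.symm

theorem LES.extraspecial {G : Type*} [Group G] [Finite G] {z : G} {Q K E : Subgroup G}
    (h : LES z Q K E) : IsExtraspecial 2 ↥Q := by
  have hzQ : z ∈ Q := h.hEQ z h.hzE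
  apply extraspecial_of_comm (⟨z, hzQ⟩ : ↥Q) 7 (by rw [h.hQcard]; norm_num)
  · intro heq
    exact h.hz1 (congrArg Subtype.val heq)
  · exact Subtype.ext h.hzz
  · intro x
    exact Subtype.ext (h.hQC x.1 x.2)
  · intro x y
    rcases h.hcomm x.1 x.2 y.1 y.2 with h1 | h1
    · left; exact Subtype.ext h1
    · right; exact Subtype.ext h1
  · obtain ⟨x, hx, y, hy, hne⟩ := h.hnc
    exact ⟨⟨x, hx⟩, ⟨y, hy⟩, fun heq => hne (congrArg Subtype.val heq)⟩
  · intro g hg
    rcases h.hcent g.1 (fun q hq => congrArg Subtype.val (hg ⟨q, hq⟩)) with h1 | h1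
    · left; exact Subtype.ext h1
    · right; exact Subtype.ext h1

theorem LES.odd {G : Type*} [Group G] [Finite G] {z : G} {Q K E : Subgroup G}
    (h : LES z Q K E) (L : Subgroup G) (hodd : Odd (Nat.card L))
    (hN : Q ≤ Subgroup.normalizer (L : Set G)) : L = ⊥ := by
  have hzQ : z ∈ Q := h.hEQ z h.hzE
  have hzi : z⁻¹ = z := inv_eq_of_mul_eq_one_left h.hzz
  -- elements of 2-power order in L are trivial
  have F1 : ∀ x ∈ L, ∀ n : ℕ, x ^ 2 ^ n = 1 → x = 1 := by
    intro x hx n hxn
    have h1 : orderOf x ∣ 2 ^ n := orderOf_dvd_of_pow_eq_one hxn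
    have h2 : orderOf x ∣ Nat.card L := by
      have := orderOf_dvd_natCard (⟨x, hx⟩ : ↥L)
      rwa [Subgroup.orderOf_mk] at this
    have hcop : Nat.Coprime (2 ^ n) (Nat.card L) :=
      Nat.Coprime.pow_left n (Nat.coprime_two_left.mpr hodd)
    have h3 : orderOf x = 1 := Nat.eq_one_of_dvd_coprimes hcop h1 h2
    exact orderOf_eq_one_iff.mp h3
  have F1Q : ∀ x ∈ L, x ∈ Q → x = 1 := by
    intro x hx hxQ
    apply F1 x hx 7
    have := pow_card_eq_one' (G := ↥Q) (x := ⟨x, hxQ⟩)
    rw [h.hQcard] at this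
    have h2 := congrArg Subtype.val this
    simpa using h2
  have F2 : ∀ q ∈ Q, ∀ x ∈ L, q * x * q⁻¹ ∈ L := by
    intro q hq x hx
    exact ((Subgroup.mem_normalizer_iff.mp (hN hq)) x).mp hx
  have F3 : ∀ x ∈ L, x * z = z * x → x = 1 := by
    intro x hx hxz
    have hxc : ∀ q ∈ Q, x * q = q * x := by
      intro q hq
      have hw1 : x * q * x⁻¹ * q⁻¹ ∈ Q := Q.mul_mem (h.hQn x hxz q hq) (Q.inv_mem hq)
      have hw2 : x * q * x⁻¹ * q⁻¹ ∈ L := by
        have : x * q * x⁻¹ * q⁻¹ = x * (q * x⁻¹ * q⁻¹) := by group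
        rw [this]
        exact L.mul_mem hx (F2 q hq _ (L.inv_mem hx))
      have hw := F1Q _ hw2 hw1
      have : x * q = (x * q * x⁻¹ * q⁻¹) * (q * x) := by group
      rw [this, hw, one_mul]
    rcases h.hcent x hxc with h1 | h1
    · exact h1
    · exact F1Q x hx (h1 ▸ hzQ)
  have F4 : ∀ x ∈ L, z * x * z = x⁻¹ := by
    let f : ↥L → ↥L := fun x => ⟨x.1⁻¹ * (z * x.1 * z⁻¹), L.mul_mem (L.inv_mem x.2) (F2 z hzQ _ x.2)⟩
    have hinj : Function.Injective f := by
      intro x y hxy
      have h1 : x.1⁻¹ * (z * x.1 * z⁻¹) = y.1⁻¹ * (z * y.1 * z⁻¹) := congrArg Subtype.val hxy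
      have h2 : (y.1 * x.1⁻¹) * z = z * (y.1 * x.1⁻¹) := by
        have e1 : (y.1 * x.1⁻¹) * z = y.1 * (x.1⁻¹ * (z * x.1 * z⁻¹)) * z * x.1⁻¹ := by group
        rw [e1, h1]; group
      have h3 := F3 _ (L.mul_mem y.2 (L.inv_mem x.2)) h2
      apply Subtype.ext
      have : y.1 = (y.1 * x.1⁻¹) * x.1 := by group
      rw [this, h3, one_mul]
    have hsurj : Function.Surjective f := Finite.injective_iff_surjective.mp hinj
    intro x hx
    obtain ⟨y, hy⟩ := hsurj ⟨x, hx⟩
    have hx' : x = y.1⁻¹ * (z * y.1 * z) := by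
      have := congrArg Subtype.val hy
      simp only [f] at this
      rw [hzi] at this
      exact this.symm
    rw [hx']
    have e1 : z * (y.1⁻¹ * (z * y.1 * z)) * z = z * y.1⁻¹ * z * y.1 * (z * z) := by group
    have e2 : (y.1⁻¹ * (z * y.1 * z))⁻¹ = z⁻¹ * y.1⁻¹ * z⁻¹ * y.1 := by group
    rw [e1, e2, h.hzz, mul_one, hzi]
  have F5 : ∀ a ∈ L, ∀ b ∈ L, a * b = b * a := by
    intro a ha b hb
    have h1 := F4 (a * b) (L.mul_mem ha hb)
    have h2 : z * (a * b) * z = (z * a * z) * (z * b * z) := by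
      have : (z * a * z) * (z * b * z) = z * a * (z * z) * b * z := by group
      rw [this, h.hzz]; group
    rw [h2, F4 a ha, F4 b hb] at h1
    have h3 := congrArg (fun w => w⁻¹) h1
    simp only [mul_inv_rev, inv_inv] at h3
    exact h3.symm
  -- an element of L normalising E is trivial
  have F6 : ∀ x ∈ L, (∀ e ∈ E, x * e * x⁻¹ ∈ E) → x = 1 := by
    intro x hx hxE
    have h1 : x * z * x⁻¹ * z⁻¹ ∈ E := E.mul_mem (hxE z h.hzE) (E.inv_mem h.hzE)
    have h2 : x * z * x⁻¹ * z⁻¹ = x * x := by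
      have e1 := F4 x⁻¹ (L.inv_mem hx)
      rw [inv_inv] at e1
      have : x * z * x⁻¹ * z⁻¹ = x * (z * x⁻¹ * z⁻¹) := by group
      rw [this, hzi, e1]
    rw [h2] at h1
    have h3 := h.hE2 _ h1
    apply F1 x hx 2
    have : x ^ 2 ^ 2 = x * x * (x * x) := by
      rw [show (2 : ℕ) ^ 2 = 2 + 2 from rfl, pow_add, pow_two]
    rw [this, h3]
  obtain ⟨t, htE, ht1, htz⟩ := h.hEt
  have htQ : t ∈ Q := h.hEQ t htE
  have htz' : t * z = z * t := h.hEab t htE z h.hzE
  have htt : t * t = 1 := h.hE2 t htE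
  have hti : t⁻¹ = t := inv_eq_of_mul_eq_one_left htt
  -- t inverts L
  have F7 : ∀ x ∈ L, t * x * t⁻¹ = x⁻¹ := by
    intro x hx
    have hy : t * x * t⁻¹ ∈ L := F2 t htQ x hx
    have hu : x * (t * x * t⁻¹) ∈ L := L.mul_mem hx hy
    have hut : x * (t * x * t⁻¹) * t = t * (x * (t * x * t⁻¹)) := by
      have e1 : x * (t * x * t⁻¹) * t = x * t * x := by group
      have e2 : t * (x * (t * x * t⁻¹)) = (t * x * t⁻¹) * (t * t) * x * t⁻¹ := by group
      rw [e1, e2, htt, mul_one, hti]
      have e3 := F5 x hx (t * x * t⁻¹) hy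
      rw [hti] at e3
      have e4 : x * t * x = x * (t * x * t) * t⁻¹ := by group
      rw [e4, e3, hti]
    have hu1 := F6 _ hu (h.hEn _ t htE ht1 hut)
    exact (eq_inv_of_mul_eq_one_right hu1)
  rw [Subgroup.eq_bot_iff_forall]
  intro x hx
  apply F6 x hx
  apply h.hEn x (t * z) (E.mul_mem htE h.hzE)
  · intro heq
    apply htz
    have : t = (t * z) * z⁻¹ := by group
    rw [this, heq, one_mul, hzi]
  · have e1 := F7 x hx
    have e2 := F4 x hx
    -- x * (t * z) = (t * z) * x
    have e3 : t * z * x = t * (z * x * z) * z⁻¹ := by group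
    rw [e3, e2]
    have e4 : t * x⁻¹ * z⁻¹ = (t * x * t⁻¹)⁻¹ * t * z⁻¹ := by group
    rw [e4, e1, inv_inv, hzi]
    group

theorem LES.main {G : Type*} [Group G] [Finite G] {z : G} {Q₁ K E : Subgroup G}
    (h : LES z Q₁ K E) (Q : Subgroup G)
    (hQ : Q = (pCore 2 ↥(Subgroup.centralizer ({z} : Set G))).map
      (Subgroup.centralizer ({z} : Set G)).subtype) :
    IsExtraspecial 2 ↥Q ∧ Nat.card ↥Q = 2 ^ 7 ∧
      (∃ E : Subgroup G, E ≤ Q ∧ IsElementaryAbelian 2 E ∧ Nat.card ↥E = 2 ^ 4) ∧
      IsLargeExtraspecial Q ∧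
      ∃ K : Subgroup G, K ≤ Subgroup.centralizer ({z} : Set G) ∧ Q ⊓ K = ⊥ ∧
        Q ⊔ K = Subgroup.centralizer ({z} : Set G) ∧
        Nonempty (↥K ≃* Matrix.SpecialLinearGroup (Fin 3) (ZMod 2)) := by
  have hzQ : z ∈ Q₁ := h.hEQ z h.hzE
  have hQC : Q₁ ≤ Subgroup.centralizer ({z} : Set G) := fun q hq =>
    (LES.mem_centralizer z q).mpr (h.hQC q hq)
  have hKC : K ≤ Subgroup.centralizer ({z} : Set G) := fun k hk =>
    (LES.mem_centralizer z k).mpr (h.hKC k hk)
  -- identify the 2-core
  have hQeq : Q = Q₁ := by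
    rw [hQ]
    have hn : (Q₁.subgroupOf (Subgroup.centralizer ({z} : Set G))).Normal := by
      constructor
      intro n hn g
      rw [Subgroup.mem_subgroupOf] at hn ⊢
      exact h.hQn g.1 ((LES.mem_centralizer z g.1).mp g.2) n.1 hn
    have hp : IsPGroup 2 ↥(Q₁.subgroupOf (Subgroup.centralizer ({z} : Set G))) := by
      apply IsPGroup.of_card (n := 7)
      rw [Nat.card_congr (Subgroup.subgroupOfEquivOfLe hQC).toEquiv, h.hQcard]
      norm_num
    have hle : Q₁.subgroupOf (Subgroup.centralizer ({z} : Set G)) ≤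
        pCore 2 ↥(Subgroup.centralizer ({z} : Set G)) := le_sSup ⟨hn, hp⟩
    have hPn : (pCore 2 ↥(Subgroup.centralizer ({z} : Set G))).Normal :=
      Subgroup.sSup_normal _ (fun _ h => h.1)
    have hPp : IsPGroup 2 ↥(pCore 2 ↥(Subgroup.centralizer ({z} : Set G))) :=
      Sylow.sSup_of_normal _ (fun _ h => h.2) (fun _ h => h.1)
    have hge : pCore 2 ↥(Subgroup.centralizer ({z} : Set G)) ≤
        Q₁.subgroupOf (Subgroup.centralizer ({z} : Set G)) := by
      intro x hx
      rw [Subgroup.mem_subgroupOf]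
      obtain ⟨q, hq, k, hk, hxqk⟩ := h.hfact x.1 ((LES.mem_centralizer z x.1).mp x.2)
      have hk1 : k = 1 := by
        by_contra hk1
        obtain ⟨g, hg, hc1, hc2⟩ := h.hK2 k hk hk1
        have hkP : (⟨k, hKC hk⟩ : ↥(Subgroup.centralizer ({z} : Set G))) ∈
            pCore 2 ↥(Subgroup.centralizer ({z} : Set G)) := by
          have : (⟨k, hKC hk⟩ : ↥(Subgroup.centralizer ({z} : Set G))) =
              (⟨q, hQC hq⟩ : ↥(Subgroup.centralizer ({z} : Set G)))⁻¹ * x := by
            apply Subtype.ext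
            show k = q⁻¹ * x.1
            rw [hxqk]; group
          rw [this]
          exact Subgroup.mul_mem _ (Subgroup.inv_mem _ (hle (Subgroup.mem_subgroupOf.mpr hq))) hx
        have hcP : (⟨k, hKC hk⟩ : ↥(Subgroup.centralizer ({z} : Set G))) *
            ((⟨g, hKC hg⟩ : ↥(Subgroup.centralizer ({z} : Set G))) * ⟨k, hKC hk⟩ *
              (⟨g, hKC hg⟩ : ↥(Subgroup.centralizer ({z} : Set G)))⁻¹) ∈
            pCore 2 ↥(Subgroup.centralizer ({z} : Set G)) :=
          Subgroup.mul_mem _ hkP (hPn.conj_mem _ hkP _)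
        obtain ⟨n, hn⟩ := hPp ⟨_, hcP⟩
        have hn' : (k * (g * k * g⁻¹)) ^ 2 ^ n = 1 := by
          have h1 := congrArg Subtype.val hn
          have h2 := congrArg Subtype.val h1
          simpa using h2
        have h1 : orderOf (k * (g * k * g⁻¹)) ∣ 2 ^ n := orderOf_dvd_of_pow_eq_one hn'
        have h3 : orderOf (k * (g * k * g⁻¹)) = 1 := by
          rcases hc2 with hc2 | hc2
          · have h2 : orderOf (k * (g * k * g⁻¹)) ∣ 3 := orderOf_dvd_of_pow_eq_one hc2
            exact Nat.eq_one_of_dvd_coprimes (Nat.Coprime.pow_left n (by norm_num)) h1 h2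
          · have h2 : orderOf (k * (g * k * g⁻¹)) ∣ 7 := orderOf_dvd_of_pow_eq_one hc2
            exact Nat.eq_one_of_dvd_coprimes (Nat.Coprime.pow_left n (by norm_num)) h1 h2
        exact hc1 (orderOf_eq_one_iff.mp h3)
      rw [hxqk, hk1, mul_one]
      exact hq
    rw [le_antisymm hge hle, Subgroup.subgroupOf_map_subtype]
    exact inf_eq_left.mpr hQC
  subst hQeq
  have hes := h.extraspecial
  refine ⟨hes, by rw [h.hQcard]; norm_num, ⟨E, h.hEQ, ⟨⟨⟨fun a b => Subtype.ext (h.hEab a.1 a.2 b.1 b.2)⟩⟩,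
    fun a ha => by rw [pow_two]; exact h.hE2 a ha⟩, by rw [h.hEcard]; norm_num⟩, ⟨hes, ?_, ?_, ?_⟩,
    ⟨K, hKC, ?_, ?_, h.hKiso⟩⟩
  · ext g
    rw [Subgroup.mem_centralizer_iff, Subgroup.mem_map]
    constructor
    · intro hg
      have hgQ : g ∈ Q := by
        rcases h.hcent g (fun q hq => (hg q hq).symm) with h1 | h1
        · rw [h1]; exact Subgroup.one_mem _
        · rw [h1]; exact hzQ
      refine ⟨⟨g, hgQ⟩, ?_, rfl⟩
      rw [Subgroup.mem_center_iff]
      intro q
      exact Subtype.ext (hg q.1 q.2)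
    · rintro ⟨x, hx, rfl⟩ q hq
      have := (Subgroup.mem_center_iff.mp hx) ⟨q, hq⟩
      exact congrArg Subtype.val this
  · intro g hg
    rw [Subgroup.mem_centralizer_iff] at hg
    have hgz : g * z = z * g := by
      have hzm : z ∈ (((Subgroup.center ↥Q).map Q.subtype : Subgroup G) : Set G) := by
        refine ⟨⟨z, hzQ⟩, ?_, rfl⟩
        show (⟨z, hzQ⟩ : ↥Q) ∈ Subgroup.center ↥Q
        rw [Subgroup.mem_center_iff]
        intro q
        exact Subtype.ext (h.hQC q.1 q.2)
      exact (hg z hzm).symm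
    have hgz' : g⁻¹ * z = z * g⁻¹ := by
      have : g⁻¹ * z = g⁻¹ * (z * g) * g⁻¹ := by group
      rw [this, ← hgz]; group
    rw [Subgroup.mem_normalizer_iff]
    intro q
    constructor
    · intro hq
      exact h.hQn g hgz q hq
    · intro hq
      have := h.hQn g⁻¹ hgz' _ hq
      have e : g⁻¹ * (g * q * g⁻¹) * g⁻¹⁻¹ = q := by group
      rwa [e] at this
  · intro L hL hN
    exact h.odd L hL hN
  · rw [Subgroup.eq_bot_iff_forall]
    rintro x ⟨hx1, hx2⟩
    exact h.hQK x hx1 hx2
  · apply le_antisymm (sup_le hQC hKC)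
    intro c hc
    obtain ⟨q, hq, k, hk, rfl⟩ := h.hfact c ((LES.mem_centralizer z c).mp hc)
    exact Subgroup.mul_mem_sup hq hk

theorem gl_equiv_sl : Nonempty (Matrix.GeneralLinearGroup (Fin 3) (ZMod 2) ≃*
    Matrix.SpecialLinearGroup (Fin 3) (ZMod 2)) := by
  have hdet : ∀ g : Matrix.GeneralLinearGroup (Fin 3) (ZMod 2),
      (g : Matrix (Fin 3) (Fin 3) (ZMod 2)).det = 1 := by
    intro g
    have hu : IsUnit (g : Matrix (Fin 3) (Fin 3) (ZMod 2)).det :=
      (Matrix.isUnit_iff_isUnit_det _).mp g.isUnit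
    have key : ∀ x : ZMod 2, x = 0 ∨ x = 1 := by decide
    rcases key (g : Matrix (Fin 3) (Fin 3) (ZMod 2)).det with h | h
    · rw [h] at hu
      exact absurd hu not_isUnit_zero
    · exact h
  let f : Matrix.GeneralLinearGroup (Fin 3) (ZMod 2) →* Matrix.SpecialLinearGroup (Fin 3) (ZMod 2) :=
    { toFun := fun g => ⟨g.1, hdet g⟩
      map_one' := Subtype.ext rfl
      map_mul' := fun a b => Subtype.ext rfl }
  refine ⟨MulEquiv.ofBijective f ⟨?_, ?_⟩⟩
  · intro a b hab
    apply Units.ext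
    exact congrArg Subtype.val hab
  · intro s
    refine ⟨Matrix.SpecialLinearGroup.toGL s, ?_⟩
    apply Subtype.ext
    rfl

end Cfsg.Agent.Lib.helper28.Crit
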