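import Cfsg.Agent.Lib.helper28.LeechPairs

set_option autoImplicit false

namespace Cfsg.Agent.Lib.helper28.XI

open Cfsg
open Cfsg.Agent.Lib.helper28
open Cfsg.Agent.Lib.helper27
open Cfsg.Agent.Lib.helper28.LC

/-! Census of the minimal vectors by inner product with a fixed minimal vector. -/

theorem dot_comm (x y : GolayPt → ℤ) : dotInt x y = dotInt y x := by
  unfold dotInt
  exact Finset.sum_congr rfl (fun i _ => mul_comm _ _)

theorem dot_self (x : GolayPt → ℤ) : dotInt x x = sqNorm x := by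
  unfold dotInt sqNorm
  exact Finset.sum_congr rfl (fun i _ => (sq (x i)).symm)

theorem dot_add_right (x y z : GolayPt → ℤ) : dotInt x (y + z) = dotInt x y + dotInt x z := by
  unfold dotInt
  rw [← Finset.sum_add_distrib]
  exact Finset.sum_congr rfl (fun i _ => mul_add _ _ _)

theorem dot_sub_right (x y z : GolayPt → ℤ) : dotInt x (y - z) = dotInt x y - dotInt x z := by
  unfold dotInt
  rw [← Finset.sum_sub_distrib]
  exact Finset.sum_congr rfl (fun i _ => mul_sub _ _ _)

theorem dot_two_right (x y : GolayPt → ℤ) : dotInt x (2 • y) = 2 * dotInt x y := by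
  unfold dotInt
  rw [Finset.mul_sum]
  apply Finset.sum_congr rfl
  intro i _
  rw [two_smul_apply]
  ring

theorem sqNorm_two (x : GolayPt → ℤ) : sqNorm (2 • x) = 4 * sqNorm x := by
  unfold sqNorm
  rw [Finset.mul_sum]
  apply Finset.sum_congr rfl
  intro i _
  rw [two_smul_apply]
  ring

theorem co0_dot (g : ↥Co0) (v w : ↥leechLattice) :
    dotInt ((g • v : ↥leechLattice) : GolayPt → ℤ) ((g • w : ↥leechLattice) : GolayPt → ℤ) =
      dotInt (v : GolayPt → ℤ) (w : GolayPt → ℤ) := by
  have h1 := sqNorm_add ((g • v : ↥leechLattice) : GolayPt → ℤ)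
    ((g • w : ↥leechLattice) : GolayPt → ℤ)
  have h2 := sqNorm_add (v : GolayPt → ℤ) (w : GolayPt → ℤ)
  have h3 : ((g • v : ↥leechLattice) : GolayPt → ℤ) + ((g • w : ↥leechLattice) : GolayPt → ℤ) =
      ((g • (v + w) : ↥leechLattice) : GolayPt → ℤ) := by
    rw [co0_add]
    rfl
  have h4 : (v : GolayPt → ℤ) + (w : GolayPt → ℤ) = ((v + w : ↥leechLattice) : GolayPt → ℤ) := rfl
  rw [h3, co0_norm, co0_norm, co0_norm] at h1
  rw [h4] at h2
  linarith

/-- The minimal vectors having inner product `k` with `u`. -/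
def Bk (u : ↥leechLattice) (k : ℤ) : Set ↥leechLattice :=
  {w | sqNorm (w : GolayPt → ℤ) = 32 ∧ dotInt (u : GolayPt → ℤ) (w : GolayPt → ℤ) = k}

theorem Bk_smul_sub (g : ↥Co0) (u : ↥leechLattice) (k : ℤ) :
    (fun v => g • v) '' Bk u k ⊆ Bk (g • u) k := by
  rintro _ ⟨v, ⟨h1, h2⟩, rfl⟩
  exact ⟨by rw [co0_norm]; exact h1, by rw [co0_dot]; exact h2⟩

theorem Bk_smul (g : ↥Co0) (u : ↥leechLattice) (k : ℤ) :
    (fun v => g • v) '' Bk u k = Bk (g • u) k := by
  apply Set.Subset.antisymm (Bk_smul_sub g u k)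
  intro w hw
  refine ⟨g⁻¹ • w, ?_, smul_inv_smul g w⟩
  have := Bk_smul_sub g⁻¹ (g • u) k ⟨w, hw, rfl⟩
  rw [inv_smul_smul] at this
  exact this

theorem ncard_Bk_smul (g : ↥Co0) (u : ↥leechLattice) (k : ℤ) :
    (Bk (g • u) k).ncard = (Bk u k).ncard := by
  rw [← Bk_smul, Set.ncard_image_of_injective _ (MulAction.injective g)]

/-- The number of minimal vectors having inner product `k` with `v`. -/
noncomputable def Nk (v : GolayPt → ℤ) (k : ℤ) : ℕ := (S32.filter (fun w => dotInt v w = k)).card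

theorem ncard_Bk (u : ↥leechLattice) (k : ℤ) : (Bk u k).ncard = Nk u.1 k := by
  unfold Nk
  rw [← Set.ncard_coe_finset, ← Set.ncard_image_of_injective _ Subtype.val_injective]
  congr 1
  ext w
  rw [Finset.mem_coe, Finset.mem_filter, mem_S32]
  constructor
  · rintro ⟨w', ⟨h1, h2⟩, rfl⟩
    exact ⟨⟨w'.2, h1⟩, h2⟩
  · rintro ⟨⟨h1, h2⟩, h3⟩
    exact ⟨⟨w, h1⟩, ⟨h2, h3⟩, rfl⟩

theorem Nk_const {v v' : GolayPt → ℤ} (hv : v ∈ S32) (hv' : v' ∈ S32) (k : ℤ) :
    Nk v k = Nk v' k := by
  rw [mem_S32] at hv hv'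
  obtain ⟨g, hg⟩ := transitive32 ⟨v, hv.1⟩ ⟨v', hv'.1⟩ hv.2 hv'.2
  have h := ncard_Bk_smul g ⟨v, hv.1⟩ k
  rw [hg, ncard_Bk, ncard_Bk] at h
  exact h.symm

theorem sum_Nk {v : GolayPt → ℤ} (hv : v ∈ S32) (k : ℤ) :
    ∑ w ∈ S32, Nk w k = 196560 * Nk v k := by
  rw [Finset.sum_congr rfl (fun w hw => Nk_const hw hv k), Finset.sum_const, card_S32,
    smul_eq_mul]

theorem set_eq_Nk (v : GolayPt → ℤ) (k : ℤ) :
    {w : GolayPt → ℤ | w ∈ leechLattice ∧ sqNorm w = 32 ∧ dotInt v w = k}.ncard = Nk v k := by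
  unfold Nk
  rw [← Set.ncard_coe_finset]
  congr 1
  ext w
  rw [Finset.mem_coe, Finset.mem_filter, mem_S32]
  exact ⟨fun ⟨h1, h2, h3⟩ => ⟨⟨h1, h2⟩, h3⟩, fun ⟨⟨h1, h2⟩, h3⟩ => ⟨h1, h2, h3⟩⟩

/-! ### Orthogonal pairs -/

theorem cnt64 {v : GolayPt → ℤ} (hv : v ∈ S32) :
    (S64.filter (fun t => dotInt v t = 32)).card = Nk v 0 := by
  rw [mem_S32] at hv
  unfold Nk
  symm
  apply Finset.card_nbij' (fun w => v + w) (fun t => t - v)
  · intro w hw
    rw [Finset.mem_coe, Finset.mem_filter, mem_S32] at hw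
    rw [Finset.mem_coe, Finset.mem_filter, mem_S64]
    refine ⟨⟨add_mem hv.1 hw.1.1, ?_⟩, ?_⟩
    · rw [sqNorm_add, hv.2, hw.1.2, hw.2]
      norm_num
    · rw [dot_add_right, dot_self, hv.2, hw.2]
      norm_num
  · intro t ht
    rw [Finset.mem_coe, Finset.mem_filter, mem_S64] at ht
    rw [Finset.mem_coe, Finset.mem_filter, mem_S32]
    refine ⟨⟨sub_mem ht.1.1 hv.1, ?_⟩, ?_⟩
    · rw [sqNorm_sub', hv.2, ht.1.2, dot_comm, ht.2]
      norm_num
    · rw [dot_sub_right, dot_self, hv.2, ht.2]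
      norm_num
  · intro w _
    exact add_sub_cancel_left v w
  · intro t _
    exact add_sub_cancel v t

open Classical in
theorem cnt46 {t : GolayPt → ℤ} (ht : t ∈ S64) :
    (S32.filter (fun v => dotInt v t = 32)).card = 46 := by
  have htS := ht
  rw [mem_S64] at ht
  have hF := counting.2 (rho t) (Finset.mem_image.mpr ⟨t, htS, rfl⟩)
  have himg : (S32.filter (fun v => dotInt v t = 32)).image (fun v => t - 2 • v) =
      (S64.filter (fun x => rho x = rho t)) \ {t, -t} := by
    ext y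
    rw [Finset.mem_image, Finset.mem_sdiff, Finset.mem_filter, mem_S64, Finset.mem_insert,
      Finset.mem_singleton]
    constructor
    · rintro ⟨v, hv, rfl⟩
      rw [Finset.mem_filter, mem_S32] at hv
      obtain ⟨⟨hvL, hvn⟩, hd⟩ := hv
      have hyL : t - 2 • v ∈ leechLattice := sub_mem ht.1 (nsmul_mem hvL 2)
      have hyn : sqNorm (t - 2 • v) = 64 := by
        rw [sqNorm_sub', sqNorm_two, dot_two_right, dot_comm t v, ht.2, hvn, hd]
        norm_num
      refine ⟨⟨⟨hyL, hyn⟩, ?_⟩, ?_⟩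
      · rw [rho_eq_iff hyL ht.1]
        refine ⟨-v, neg_mem hvL, ?_⟩
        funext i
        show t i - (2 • v) i - t i = (2 • (-v)) i
        rw [two_smul_apply, two_smul_apply]
        show _ = 2 * (-(v i))
        ring
      · rintro (h | h)
        · have h0 : v = 0 := by
            funext i
            have := congrFun h i
            have e : (t - 2 • v) i = t i - 2 * v i := by
              show t i - (2 • v) i = _
              rw [two_smul_apply]
            rw [e] at this
            show v i = 0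
            omega
          rw [h0, sqNorm_zero] at hvn
          norm_num at hvn
        · have h0 : v = t := by
            funext i
            have := congrFun h i
            have e : (t - 2 • v) i = t i - 2 * v i := by
              show t i - (2 • v) i = _
              rw [two_smul_apply]
            rw [e] at this
            have e2 : (-t) i = -(t i) := rfl
            rw [e2] at this
            omega
          rw [h0, ht.2] at hvn
          norm_num at hvn
    · rintro ⟨⟨⟨hyL, hyn⟩, hr⟩, hne⟩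
      rw [not_or] at hne
      rcases congr_cases hyL ht.1 (le_of_eq hyn) (le_of_eq ht.2) hr with h | h | ⟨-, -, h0⟩
      · exact absurd h hne.1
      · exact absurd h hne.2
      · obtain ⟨z, hz, hyz⟩ := (rho_eq_iff hyL ht.1).mp hr
        have h1 : sqNorm (y - t) = 128 := by
          rw [sqNorm_sub', hyn, ht.2, h0]
          norm_num
        rw [hyz, sqNorm_two] at h1
        have h2 : dotInt t (y - t) = -64 := by
          rw [dot_sub_right, dot_self, dot_comm, h0, ht.2]
          norm_num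
        rw [hyz, dot_two_right] at h2
        refine ⟨-z, ?_, ?_⟩
        · rw [Finset.mem_filter, mem_S32]
          refine ⟨⟨neg_mem hz, by rw [sqNorm_neg]; omega⟩, ?_⟩
          rw [dot_comm, dotInt_neg_right]
          omega
        · funext i
          have := congrFun hyz i
          have e : (y - t) i = y i - t i := rfl
          rw [e, two_smul_apply] at this
          show t i - (2 • (-z)) i = y i
          rw [two_smul_apply]
          show t i - 2 * (-(z i)) = y i
          omega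
  have hinj : Function.Injective (fun v : GolayPt → ℤ => t - 2 • v) := by
    intro a b h
    funext i
    have := congrFun h i
    have e : ∀ v : GolayPt → ℤ, (t - 2 • v) i = t i - 2 * v i := by
      intro v
      show t i - (2 • v) i = _
      rw [two_smul_apply]
    simp only [e] at this
    omega
  have hcard := Finset.card_image_of_injective (S32.filter (fun v => dotInt v t = 32)) hinj
  have hne : t ≠ -t := by
    intro h
    have h0 : t = 0 := by
      funext i
      have := congrFun h i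
      have e2 : (-t) i = -(t i) := rfl
      rw [e2] at this
      show t i = 0
      omega
    have := ht.2
    rw [h0, sqNorm_zero] at this
    norm_num at this
  have hsub : ({t, -t} : Finset (GolayPt → ℤ)) ⊆ S64.filter (fun x => rho x = rho t) := by
    intro y hy
    rw [Finset.mem_insert, Finset.mem_singleton] at hy
    rw [Finset.mem_filter, mem_S64]
    rcases hy with rfl | rfl
    · exact ⟨ht, rfl⟩
    · refine ⟨⟨neg_mem ht.1, by rw [sqNorm_neg]; exact ht.2⟩, ?_⟩
      rw [rho_eq_iff (neg_mem ht.1) ht.1]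
      refine ⟨-t, neg_mem ht.1, ?_⟩
      funext i
      show -(t i) - t i = (2 • (-t)) i
      rw [two_smul_apply]
      show _ = 2 * (-(t i))
      ring
  rw [himg, Finset.card_sdiff_of_subset hsub, hF, Finset.card_pair hne] at hcard
  omega

theorem n0 {v : GolayPt → ℤ} (hv : v ∈ S32) : Nk v 0 = 93150 := by
  have h := Finset.sum_card_bipartiteAbove_eq_sum_card_bipartiteBelow
    (s := S32) (t := S64) (r := fun v t => dotInt v t = 32)
  have h1 : ∑ a ∈ S32, (Finset.bipartiteAbove (fun v t => dotInt v t = 32) S64 a).card =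
      ∑ a ∈ S32, Nk a 0 := Finset.sum_congr rfl (fun a ha => cnt64 ha)
  have h2 : ∑ b ∈ S64, (Finset.bipartiteBelow (fun v t => dotInt v t = 32) S32 b).card =
      ∑ _b ∈ S64, 46 := Finset.sum_congr rfl (fun b hb => cnt46 hb)
  rw [h1, h2, sum_Nk hv, Finset.sum_const, card_S64, smul_eq_mul] at h
  omega

/-! ### Inner product `-8` -/

theorem cnt48 {v : GolayPt → ℤ} (hv : v ∈ S32) :
    (S48.filter (fun t => sqNorm (t - v) = 32)).card = Nk v (-8) := by
  rw [mem_S32] at hv
  unfold Nk
  symm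
  apply Finset.card_nbij' (fun w => v + w) (fun t => t - v)
  · intro w hw
    rw [Finset.mem_coe, Finset.mem_filter, mem_S32] at hw
    rw [Finset.mem_coe, Finset.mem_filter, mem_S48]
    refine ⟨⟨add_mem hv.1 hw.1.1, ?_⟩, ?_⟩
    · rw [sqNorm_add, hv.2, hw.1.2, hw.2]
      norm_num
    · show sqNorm (v + w - v) = 32
      rw [add_sub_cancel_left]
      exact hw.1.2
  · intro t ht
    rw [Finset.mem_coe, Finset.mem_filter, mem_S48] at ht
    rw [Finset.mem_coe, Finset.mem_filter, mem_S32]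
    refine ⟨⟨sub_mem ht.1.1 hv.1, ht.2⟩, ?_⟩
    have h := ht.2
    rw [sqNorm_sub', hv.2, ht.1.2, dot_comm] at h
    rw [dot_sub_right, dot_self, hv.2]
    omega
  · intro w _
    exact add_sub_cancel_left v w
  · intro t _
    exact add_sub_cancel v t

theorem cnt552 {t : GolayPt → ℤ} (ht : t ∈ S48) :
    (S32.filter (fun v => sqNorm (t - v) = 32)).card = 552 := by
  rw [mem_S48] at ht
  rw [← pairs552 ⟨t, ht.1⟩ ht.2, ← Set.ncard_coe_finset,
    ← Set.ncard_image_of_injective _ Subtype.val_injective]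
  congr 1
  ext w
  rw [Finset.mem_coe, Finset.mem_filter, mem_S32]
  constructor
  · rintro ⟨⟨h1, h2⟩, h3⟩
    exact ⟨⟨w, h1⟩, ⟨h2, h3⟩, rfl⟩
  · rintro ⟨w', ⟨h1, h2⟩, rfl⟩
    exact ⟨⟨w'.2, h1⟩, h2⟩

theorem n8 {v : GolayPt → ℤ} (hv : v ∈ S32) : Nk v (-8) = 47104 := by
  have h := Finset.sum_card_bipartiteAbove_eq_sum_card_bipartiteBelow
    (s := S32) (t := S48) (r := fun v t => sqNorm (t - v) = 32)
  have h1 : ∑ a ∈ S32, (Finset.bipartiteAbove (fun v t => sqNorm (t - v) = 32) S48 a).card =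
      ∑ a ∈ S32, Nk a (-8) := Finset.sum_congr rfl (fun a ha => cnt48 ha)
  have h2 : ∑ b ∈ S48, (Finset.bipartiteBelow (fun v t => sqNorm (t - v) = 32) S32 b).card =
      ∑ _b ∈ S48, 552 := Finset.sum_congr rfl (fun b hb => cnt552 hb)
  rw [h1, h2, sum_Nk hv, Finset.sum_const, card_S48, smul_eq_mul] at h
  omega

/-! ### The remaining inner products -/

theorem dot_vals {v w : GolayPt → ℤ} (hv : v ∈ S32) (hw : w ∈ S32) :
    (dotInt v w = 32 ∧ w = v) ∨ (dotInt v w = -32 ∧ w = -v) ∨ dotInt v w = 16 ∨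
      dotInt v w = 8 ∨ dotInt v w = 0 ∨ dotInt v w = -8 ∨ dotInt v w = -16 := by
  rw [mem_S32] at hv hw
  obtain ⟨d, hd⟩ := eight_dvd_dotInt hv.1 hw.1
  have h1 := sqNorm_sub' v w
  have h2 := sqNorm_add v w
  rw [hv.2, hw.2] at h1 h2
  by_cases e1 : v - w = 0
  · left
    have e : w = v := (sub_eq_zero.mp e1).symm
    subst e
    rw [dot_self]
    exact ⟨hv.2, rfl⟩
  · by_cases e2 : v + w = 0
    · right; left
      have e : w = -v := (neg_eq_of_add_eq_zero_right e2).symm
      subst e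
      rw [dotInt_neg_right, dot_self, hv.2]
      exact ⟨rfl, rfl⟩
    · have h3 := leechLattice_le_sqNorm (sub_mem hv.1 hw.1) e1
      have h4 := leechLattice_le_sqNorm (add_mem hv.1 hw.1) e2
      right; right
      omega

theorem Nk_pos32 {v : GolayPt → ℤ} (hv : v ∈ S32) : Nk v 32 = 1 := by
  unfold Nk
  rw [Finset.card_eq_one]
  refine ⟨v, ?_⟩
  ext w
  rw [Finset.mem_filter, Finset.mem_singleton]
  constructor
  · rintro ⟨hw, hd⟩
    rcases dot_vals hv hw with h | h | h | h | h | h | h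
    · exact h.2
    all_goals (first | (rw [h.1] at hd; norm_num at hd) | (rw [h] at hd; norm_num at hd))
  · rintro rfl
    exact ⟨hv, by rw [dot_self]; exact ((mem_S32 w).mp hv).2⟩

theorem neg_mem_S32 {w : GolayPt → ℤ} (hw : w ∈ S32) : -w ∈ S32 := by
  rw [mem_S32] at hw ⊢
  exact ⟨neg_mem hw.1, by rw [sqNorm_neg]; exact hw.2⟩

theorem Nk_neg32 {v : GolayPt → ℤ} (hv : v ∈ S32) : Nk v (-32) = 1 := by
  unfold Nk
  rw [Finset.card_eq_one]
  refine ⟨-v, ?_⟩
  ext w
  rw [Finset.mem_filter, Finset.mem_singleton]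
  constructor
  · rintro ⟨hw, hd⟩
    rcases dot_vals hv hw with h | h | h | h | h | h | h
    · rw [h.1] at hd; norm_num at hd
    · exact h.2
    all_goals (rw [h] at hd; norm_num at hd)
  · rintro rfl
    exact ⟨neg_mem_S32 hv, by rw [dotInt_neg_right, dot_self, ((mem_S32 v).mp hv).2]⟩

theorem Nk_neg (v : GolayPt → ℤ) (k : ℤ) : Nk v (-k) = Nk v k := by
  unfold Nk
  apply Finset.card_nbij' (fun w => -w) (fun w => -w)
  · intro w hw
    rw [Finset.mem_coe, Finset.mem_filter] at hw ⊢
    exact ⟨neg_mem_S32 hw.1, by rw [dotInt_neg_right, hw.2, neg_neg]⟩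
  · intro w hw
    rw [Finset.mem_coe, Finset.mem_filter] at hw ⊢
    exact ⟨neg_mem_S32 hw.1, by rw [dotInt_neg_right, hw.2]⟩
  · intro w _
    exact neg_neg w
  · intro w _
    exact neg_neg w

theorem total {v : GolayPt → ℤ} (hv : v ∈ S32) :
    196560 = 2 + 2 * Nk v (-16) + 2 * Nk v (-8) + Nk v 0 := by
  have H : ∀ w ∈ S32, dotInt v w ∈ ({32, 16, 8, 0, -8, -16, -32} : Finset ℤ) := by
    intro w hw
    simp only [Finset.mem_insert, Finset.mem_singleton]
    rcases dot_vals hv hw with h | h | h | h | h | h | h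
    · exact Or.inl h.1
    · exact Or.inr (Or.inr (Or.inr (Or.inr (Or.inr (Or.inr h.1)))))
    · exact Or.inr (Or.inl h)
    · exact Or.inr (Or.inr (Or.inl h))
    · exact Or.inr (Or.inr (Or.inr (Or.inl h)))
    · exact Or.inr (Or.inr (Or.inr (Or.inr (Or.inl h))))
    · exact Or.inr (Or.inr (Or.inr (Or.inr (Or.inr (Or.inl h)))))
  have h := Finset.card_eq_sum_card_fiberwise H
  have e : ∀ k, (S32.filter (fun a => dotInt v a = k)).card = Nk v k := fun k => rfl
  rw [card_S32, Finset.sum_insert (by decide), Finset.sum_insert (by decide),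
    Finset.sum_insert (by decide), Finset.sum_insert (by decide), Finset.sum_insert (by decide),
    Finset.sum_insert (by decide), Finset.sum_singleton] at h
  simp only [e] at h
  have a1 := Nk_neg v 16
  have a2 := Nk_neg v 8
  rw [Nk_pos32 hv, Nk_neg32 hv] at h
  omega

/-- S1573. -/
theorem census (v : GolayPt → ℤ) (hv : v ∈ leechLattice) (hvn : sqNorm v = 32) :
    {w : GolayPt → ℤ | w ∈ leechLattice ∧ sqNorm w = 32 ∧ dotInt v w = -16}.ncard = 4600 ∧
    {w : GolayPt → ℤ | w ∈ leechLattice ∧ sqNorm w = 32 ∧ dotInt v w = -8}.ncard = 47104 ∧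
    {w : GolayPt → ℤ | w ∈ leechLattice ∧ sqNorm w = 32 ∧ dotInt v w = 0}.ncard = 93150 := by
  have hS : v ∈ S32 := (mem_S32 v).mpr ⟨hv, hvn⟩
  rw [set_eq_Nk, set_eq_Nk, set_eq_Nk]
  have h0 := n0 hS
  have h8 := n8 hS
  have ht := total hS
  refine ⟨?_, h8, h0⟩
  omega

end Cfsg.Agent.Lib.helper28.XI
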