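import Cfsg.Agent.Lib.helper27.Leech2

set_option autoImplicit false

namespace Cfsg.Agent.Lib.helper28.LC

open Cfsg
open Cfsg.Agent.Lib.helper28
open Cfsg.Agent.Lib.helper27

/-! Counting lattice vectors of small norm: generic tools. -/

/-- The supports of the code words, as a finset. -/
def codeFinset : Finset (Finset GolayPt) := (Finset.range 4096).image fun n => setOf (cw n)

theorem mem_codeFinset (s : Finset GolayPt) : s ∈ codeFinset ↔ s ∈ GC := by
  unfold codeFinset
  rw [mem_supports_iff_exists]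
  simp only [Finset.mem_image, Finset.mem_range]
  constructor
  · rintro ⟨n, hn, rfl⟩
    exact ⟨n, hn, maskS_setOf (cw_lt hn)⟩
  · rintro ⟨n, hn, h⟩
    exact ⟨n, hn, by rw [← h, setOf_maskS]⟩

theorem card_codeFinset : codeFinset.card = 4096 := by
  unfold codeFinset
  rw [Finset.card_image_of_injOn setOf_cw_injOn, Finset.card_range]

open Classical in
/-- A class of vectors given by a parametrisation. -/
noncomputable def cls {ι κ β : Type*} (I : Finset ι) (K : ι → Finset κ) (F : ι → κ → β) :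
    Finset β := (I.sigma K).image fun p => F p.1 p.2

theorem mem_cls {ι κ β : Type*} (I : Finset ι) (K : ι → Finset κ) (F : ι → κ → β) (x : β) :
    x ∈ cls I K F ↔ ∃ i ∈ I, ∃ k ∈ K i, x = F i k := by
  classical
  unfold cls
  simp only [Finset.mem_image, Finset.mem_sigma, Sigma.exists]
  constructor
  · rintro ⟨i, k, ⟨hi, hk⟩, rfl⟩; exact ⟨i, hi, k, hk, rfl⟩
  · rintro ⟨i, hi, k, hk, rfl⟩; exact ⟨i, k, ⟨hi, hk⟩, rfl⟩

theorem card_cls {ι κ β : Type*} (I : Finset ι) (K : ι → Finset κ) (F : ι → κ → β)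
    (hinj : ∀ i ∈ I, ∀ k ∈ K i, ∀ i' ∈ I, ∀ k' ∈ K i', F i k = F i' k' → i = i' ∧ k = k')
    (m : ℕ) (hK : ∀ i ∈ I, (K i).card = m) : (cls I K F).card = I.card * m := by
  classical
  unfold cls
  rw [Finset.card_image_of_injOn, Finset.card_sigma, Finset.sum_const_nat hK]
  rintro ⟨i, k⟩ hp ⟨i', k'⟩ hp' h
  rw [Finset.mem_coe, Finset.mem_sigma] at hp hp'
  obtain ⟨rfl, rfl⟩ := hinj i hp.1 k hp.2 i' hp'.1 k' hp'.2 h
  rfl

attribute [irreducible] cls

/-! ### Sign twists -/

/-- Change the signs of the coordinates in `s`. -/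
def tw (s : Finset GolayPt) (a : GolayPt → ℤ) : GolayPt → ℤ := fun j => if j ∈ s then -a j else a j

theorem tw_tw (s : Finset GolayPt) (a : GolayPt → ℤ) : tw s (tw s a) = a := by
  funext j
  unfold tw
  split_ifs <;> simp

theorem sqNorm_tw (s : Finset GolayPt) (a : GolayPt → ℤ) : sqNorm (tw s a) = sqNorm a := by
  unfold sqNorm tw
  apply Finset.sum_congr rfl
  intro j _
  split_ifs <;> ring

theorem sum_tw (s : Finset GolayPt) (a : GolayPt → ℤ) :
    ∑ j, tw s a j = ∑ j, a j - 2 * ∑ j ∈ s, a j := by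
  have h : ∀ j, tw s a j = a j - 2 * (if j ∈ s then a j else 0) := by
    intro j; unfold tw; split_ifs <;> ring
  rw [Finset.sum_congr rfl (fun j _ => h j), Finset.sum_sub_distrib, ← Finset.mul_sum,
    sum_ite_mem_univ]

/-- Sums of two-valued functions. -/
theorem sum_ite_mem_const (T : Finset GolayPt) (A B : ℤ) :
    ∑ j : GolayPt, (if j ∈ T then A else B) = 24 * B + T.card * (A - B) := by
  have h : ∀ j : GolayPt, (if j ∈ T then A else B) = B + (if j ∈ T then A - B else 0) := by
    intro j; split_ifs <;> ring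
  rw [Finset.sum_congr rfl (fun j _ => h j), Finset.sum_add_distrib, sum_ite_mem_univ,
    Finset.sum_const, Finset.sum_const, Finset.card_univ,
    show Fintype.card GolayPt = 24 from by decide]
  simp only [nsmul_eq_mul]
  push_cast
  ring

/-! ### Pigeonhole tools -/

theorem pigeon_big (f : GolayPt → ℤ) (M : ℤ) (hnn : ∀ j, 0 ≤ f j) (hs : ∑ j, f j = M)
    (j0 : GolayPt) (hj0 : M ≤ f j0) : f j0 = M ∧ ∀ j, j ≠ j0 → f j = 0 := by
  have hsplit := Finset.add_sum_erase Finset.univ f (Finset.mem_univ j0)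
  have hrest_nn : 0 ≤ ∑ j ∈ Finset.univ.erase j0, f j := Finset.sum_nonneg (fun j _ => hnn j)
  have hrest : ∑ j ∈ Finset.univ.erase j0, f j = 0 := by omega
  have hz := (Finset.sum_eq_zero_iff_of_nonneg (fun j _ => hnn j)).mp hrest
  exact ⟨by omega, fun j hj => hz j (Finset.mem_erase.mpr ⟨hj, Finset.mem_univ j⟩)⟩

theorem pigeon_one (f : GolayPt → ℤ) (M : ℤ) (hM : 0 < M) (h0 : ∀ j, f j = 0 ∨ M ≤ f j)
    (hs : ∑ j, f j = M) : ∃ j0, f j0 = M ∧ ∀ j, j ≠ j0 → f j = 0 := by
  have hnn : ∀ j, 0 ≤ f j := fun j => by rcases h0 j with h | h <;> omega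
  have hex : ∃ j0, f j0 ≠ 0 := by
    by_contra hall
    push Not at hall
    rw [Finset.sum_eq_zero (fun j _ => hall j)] at hs
    omega
  obtain ⟨j0, hj0⟩ := hex
  have hge : M ≤ f j0 := by
    rcases h0 j0 with h | h
    · exact absurd h hj0
    · exact h
  exact ⟨j0, pigeon_big f M hnn hs j0 hge⟩

theorem level_sum (f : GolayPt → ℤ) (M : ℤ) (h0 : ∀ j, f j = 0 ∨ f j = M) :
    ∑ j, f j = M * ((Finset.univ.filter fun j => f j ≠ 0).card : ℤ) := by
  have h : ∀ j, f j = if j ∈ Finset.univ.filter (fun j => f j ≠ 0) then M else 0 := by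
    intro j
    by_cases hM : f j = 0
    · have : j ∉ Finset.univ.filter (fun j => f j ≠ 0) := by simp [hM]
      rw [if_neg this, hM]
    · have : j ∈ Finset.univ.filter (fun j => f j ≠ 0) := by simp [hM]
      rw [if_pos this]
      rcases h0 j with h | h
      · exact absurd h hM
      · exact h
  rw [Finset.sum_congr rfl (fun j _ => h j), sum_ite_mem_const]
  ring

theorem eq_of_le_of_sum_eq (f g : GolayPt → ℤ) (hle : ∀ j, g j ≤ f j)
    (hs : ∑ j, f j = ∑ j, g j) : ∀ j, f j = g j := by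
  have h0 : ∑ j, (f j - g j) = 0 := by rw [Finset.sum_sub_distrib, hs, sub_self]
  have hz := (Finset.sum_eq_zero_iff_of_nonneg (fun j _ => by have := hle j; omega)).mp h0
  intro j
  have := hz j (Finset.mem_univ j)
  omega

/-! ### Squares of integers in a residue class modulo 4 -/

theorem sq_cases_one {a : ℤ} (h : a % 4 = 1) : a = 1 ∨ a = -3 ∨ a = 5 ∨ 49 ≤ a ^ 2 := by
  by_cases h1 : a ≤ -7
  · right; right; right; nlinarith
  by_cases h2 : 7 ≤ a
  · right; right; right; nlinarith
  have : a = 1 ∨ a = -3 ∨ a = 5 := by omega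
  tauto

theorem sq_cases_two {a : ℤ} (h : a % 4 = 2) : a = 2 ∨ a = -2 ∨ 36 ≤ a ^ 2 := by
  by_cases h1 : a ≤ -6
  · right; right; nlinarith
  by_cases h2 : 6 ≤ a
  · right; right; nlinarith
  have : a = 2 ∨ a = -2 := by omega
  tauto

theorem sq_cases_zero {a : ℤ} (h : a % 4 = 0) : a = 0 ∨ a = 4 ∨ a = -4 ∨ 64 ≤ a ^ 2 := by
  by_cases h1 : a ≤ -8
  · right; right; right; nlinarith
  by_cases h2 : 8 ≤ a
  · right; right; right; nlinarith
  have : a = 0 ∨ a = 4 ∨ a = -4 := by omega
  tauto

/-! ### Subsets of given parity -/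

theorem card_parity_subsets (o : Finset GolayPt) (ho : o.Nonempty) (e : ℕ) (he : e < 2) :
    (o.powerset.filter fun s => s.card % 2 = e).card = 2 ^ (o.card - 1) := by
  have h1 := Finset.sum_powerset_neg_one_pow_card_of_nonempty ho
  have h2 : ∀ m ∈ o.powerset, ((-1 : ℤ)) ^ m.card =
      (if m.card % 2 = 0 then 1 else 0) - (if m.card % 2 = 1 then 1 else 0) := by
    intro m _
    rcases Nat.even_or_odd m.card with hev | hod
    · rw [hev.neg_one_pow]
      have : m.card % 2 = 0 := Nat.even_iff.mp hev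
      simp [this]
    · rw [hod.neg_one_pow]
      have : m.card % 2 = 1 := Nat.odd_iff.mp hod
      simp [this]
  rw [Finset.sum_congr rfl h2, Finset.sum_sub_distrib, Finset.sum_boole, Finset.sum_boole] at h1
  have h3 := Finset.card_filter_add_card_filter_not (s := o.powerset)
    (fun s : Finset GolayPt => s.card % 2 = 0)
  have h4 : (o.powerset.filter fun s : Finset GolayPt => ¬ s.card % 2 = 0) =
      o.powerset.filter fun s : Finset GolayPt => s.card % 2 = 1 :=
    Finset.filter_congr (fun s _ => by omega)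
  rw [h4, Finset.card_powerset] at h3
  have h5 : 2 ^ o.card = 2 * 2 ^ (o.card - 1) := by
    have := Finset.card_pos.mpr ho
    rw [← pow_succ']
    congr 1
    omega
  have h6 : ((o.powerset.filter fun s : Finset GolayPt => s.card % 2 = 0).card : ℤ) =
      (o.powerset.filter fun s : Finset GolayPt => s.card % 2 = 1).card := by linarith
  have h7 : (o.powerset.filter fun s : Finset GolayPt => s.card % 2 = 0).card =
      (o.powerset.filter fun s : Finset GolayPt => s.card % 2 = 1).card := by exact_mod_cast h6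
  interval_cases e
  · omega
  · omega

end Cfsg.Agent.Lib.helper28.LC
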