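import Cfsg.Agent.Lib.helper28.LeechCnt1

set_option autoImplicit false

namespace Cfsg.Agent.Lib.helper28.LC

open Cfsg
open Cfsg.Agent.Lib.helper28
open Cfsg.Agent.Lib.helper27

/-! Counting lattice vectors of small norm: membership criteria and the odd vectors. -/

theorem resSet_congr (x : GolayPt → ℤ) {k k' : ℤ} (h : k % 4 = k' % 4) :
    resSet x k = resSet x k' := by
  ext i; rw [mem_resSet, mem_resSet, h]

theorem mem_leech_of_odd {x : GolayPt → ℤ} (h1 : ∀ i, x i % 2 = 1) (h2 : (∑ i, x i) % 8 = 4)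
    (h3 : resSet x 3 ∈ GC) : x ∈ leechLattice := by
  rw [mem_leechLattice_iff, mem_leechSet_iff]
  refine ⟨1, fun i => by rw [h1 i]; rfl, by rw [h2]; rfl, fun k => ?_⟩
  have hk : k % 4 = 0 ∨ k % 4 = 1 ∨ k % 4 = 2 ∨ k % 4 = 3 := by omega
  rcases hk with hk | hk | hk | hk
  · have : resSet x k = ∅ := by
      ext i
      rw [mem_resSet, hk]
      have := h1 i
      simp only [Finset.notMem_empty, iff_false]
      omega
    rw [this]; exact empty_mem_supports
  · have : resSet x k = (resSet x 3)ᶜ := by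
      ext i
      rw [Finset.mem_compl, mem_resSet, mem_resSet, hk]
      have := h1 i
      omega
    rw [this]; exact compl_mem_supports h3
  · have : resSet x k = ∅ := by
      ext i
      rw [mem_resSet, hk]
      have := h1 i
      simp only [Finset.notMem_empty, iff_false]
      omega
    rw [this]; exact empty_mem_supports
  · rw [resSet_congr x (k' := 3) (by rw [hk]; rfl)]; exact h3

theorem mem_leech_of_even {x : GolayPt → ℤ} (h1 : ∀ i, x i % 2 = 0) (h2 : (∑ i, x i) % 8 = 0)
    (h3 : resSet x 2 ∈ GC) : x ∈ leechLattice := by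
  rw [mem_leechLattice_iff, mem_leechSet_iff]
  refine ⟨0, fun i => by rw [h1 i]; rfl, by rw [h2]; rfl, fun k => ?_⟩
  have hk : k % 4 = 0 ∨ k % 4 = 1 ∨ k % 4 = 2 ∨ k % 4 = 3 := by omega
  rcases hk with hk | hk | hk | hk
  · have : resSet x k = (resSet x 2)ᶜ := by
      ext i
      rw [Finset.mem_compl, mem_resSet, mem_resSet, hk]
      have := h1 i
      omega
    rw [this]; exact compl_mem_supports h3
  · have : resSet x k = ∅ := by
      ext i
      rw [mem_resSet, hk]
      have := h1 i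
      simp only [Finset.notMem_empty, iff_false]
      omega
    rw [this]; exact empty_mem_supports
  · rw [resSet_congr x (k' := 2) (by rw [hk]; rfl)]; exact h3
  · have : resSet x k = ∅ := by
      ext i
      rw [mem_resSet, hk]
      have := h1 i
      simp only [Finset.notMem_empty, iff_false]
      omega
    rw [this]; exact empty_mem_supports

/-! ### Odd vectors -/

theorem resSet_tw {a : GolayPt → ℤ} (h1 : ∀ j, a j % 4 = 1) (c : Finset GolayPt) :
    resSet (tw c a) 3 = c := by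
  ext j
  rw [mem_resSet]
  unfold tw
  have := h1 j
  by_cases hj : j ∈ c
  · rw [if_pos hj]; simp only [hj, iff_true]; omega
  · rw [if_neg hj]; simp only [hj, iff_false]; omega

theorem odd_of_mem {x : GolayPt → ℤ} (n : ℤ) (hx : x ∈ leechLattice) (hn : sqNorm x = n)
    (hodd : ∀ i, x i % 2 = 1) :
    ∃ c ∈ GC, ∃ a : GolayPt → ℤ, (∀ j, a j % 4 = 1) ∧ sqNorm a = n ∧ x = tw c a := by
  rw [mem_leechLattice_iff] at hx
  rcases leechSet_cases hx with ⟨h1, -, -⟩ | ⟨h1, h2, h3⟩
  · have := h1 none; have := hodd none; omega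
  · refine ⟨resSet x 3, h3, tw (resSet x 3) x, ?_, ?_, (tw_tw _ _).symm⟩
    · intro j
      unfold tw
      have := h1 j
      by_cases hj : j ∈ resSet x 3
      · rw [if_pos hj]; rw [mem_resSet] at hj; omega
      · rw [if_neg hj]; rw [mem_resSet] at hj; omega
    · rw [sqNorm_tw, hn]

theorem mem_of_odd {c : Finset GolayPt} (hc : c ∈ GC) {a : GolayPt → ℤ} (h1 : ∀ j, a j % 4 = 1)
    (h2 : (∑ j, a j) % 8 = 4) : tw c a ∈ leechLattice := by
  apply mem_leech_of_odd
  · intro i; unfold tw; have := h1 i; split_ifs <;> omega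
  · rw [sum_tw]
    have h4 : (∑ j ∈ c, a j) % 4 = 0 := by
      have := modEq_sum c a (fun _ => 1) 4 (fun j _ => by rw [h1 j]; rfl)
      rw [this, Finset.sum_const]
      obtain ⟨q, hq⟩ := four_dvd_card_of_mem_supports hc
      rw [hq]
      simp
    omega
  · rw [resSet_tw h1]; exact hc

/-- The pattern with `v` on `T` and `1` elsewhere. -/
def pt1 (v : ℤ) (T : Finset GolayPt) : GolayPt → ℤ := fun j => if j ∈ T then v else 1

theorem sqNorm_pt1 (v : ℤ) (T : Finset GolayPt) :
    sqNorm (pt1 v T) = 24 + T.card * (v ^ 2 - 1) := by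
  unfold sqNorm pt1
  have : ∀ j : GolayPt, (if j ∈ T then v else 1) ^ 2 = if j ∈ T then v ^ 2 else 1 := by
    intro j; split_ifs <;> ring
  rw [Finset.sum_congr rfl (fun j _ => this j), sum_ite_mem_const]; ring

theorem sum_pt1 (v : ℤ) (T : Finset GolayPt) : ∑ j, pt1 v T j = 24 + T.card * (v - 1) := by
  unfold pt1; rw [sum_ite_mem_const]; ring

theorem pt1_mod {v : ℤ} (hv : v % 4 = 1) (T : Finset GolayPt) (j : GolayPt) : pt1 v T j % 4 = 1 := by
  unfold pt1
  split_ifs
  · exact hv
  · rfl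

theorem sum_sq_sub_one (a : GolayPt → ℤ) : ∑ j, (a j ^ 2 - 1) = sqNorm a - 24 := by
  unfold sqNorm
  rw [Finset.sum_sub_distrib, Finset.sum_const, Finset.card_univ,
    show Fintype.card GolayPt = 24 from by decide]
  simp

theorem pat32 {a : GolayPt → ℤ} (h1 : ∀ j, a j % 4 = 1) (hn : sqNorm a = 32) :
    ∃ T : Finset GolayPt, T.card = 1 ∧ a = pt1 (-3) T := by
  have hs : ∑ j, (a j ^ 2 - 1) = 8 := by rw [sum_sq_sub_one, hn]; norm_num
  have h0 : ∀ j, (a j ^ 2 - 1 = 0) ∨ 8 ≤ a j ^ 2 - 1 := by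
    intro j
    rcases sq_cases_one (h1 j) with h | h | h | h
    · left; rw [h]; norm_num
    · right; rw [h]; norm_num
    · right; rw [h]; norm_num
    · right; omega
  obtain ⟨j0, hj0, hrest⟩ := pigeon_one _ 8 (by norm_num) h0 hs
  refine ⟨{j0}, Finset.card_singleton j0, ?_⟩
  funext j
  unfold pt1
  by_cases hj : j = j0
  · rw [if_pos (Finset.mem_singleton.mpr hj), hj]
    rcases sq_cases_one (h1 j0) with h | h | h | h
    · rw [h] at hj0; norm_num at hj0
    · exact h
    · rw [h] at hj0; norm_num at hj0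
    · omega
  · rw [if_neg (by rw [Finset.mem_singleton]; exact hj)]
    have := hrest j hj
    rcases sq_cases_one (h1 j) with h | h | h | h
    · exact h
    · rw [h] at this; norm_num at this
    · rw [h] at this; norm_num at this
    · omega

theorem pat48 {a : GolayPt → ℤ} (h1 : ∀ j, a j % 4 = 1) (hn : sqNorm a = 48) :
    (∃ T : Finset GolayPt, T.card = 3 ∧ a = pt1 (-3) T) ∨
      (∃ T : Finset GolayPt, T.card = 1 ∧ a = pt1 5 T) := by
  have hs : ∑ j, (a j ^ 2 - 1) = 24 := by rw [sum_sq_sub_one, hn]; norm_num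
  have hnn : ∀ j, 0 ≤ a j ^ 2 - 1 := by
    intro j
    rcases sq_cases_one (h1 j) with h | h | h | h
    · rw [h]; norm_num
    · rw [h]; norm_num
    · rw [h]; norm_num
    · omega
  by_cases hbig : ∃ j0, 24 ≤ a j0 ^ 2 - 1
  · obtain ⟨j0, hj0⟩ := hbig
    obtain ⟨he, hrest⟩ := pigeon_big _ 24 hnn hs j0 hj0
    right
    refine ⟨{j0}, Finset.card_singleton j0, ?_⟩
    funext j
    unfold pt1
    by_cases hj : j = j0
    · rw [if_pos (Finset.mem_singleton.mpr hj), hj]
      rcases sq_cases_one (h1 j0) with h | h | h | h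
      · rw [h] at he; norm_num at he
      · rw [h] at he; norm_num at he
      · exact h
      · omega
    · rw [if_neg (by rw [Finset.mem_singleton]; exact hj)]
      have := hrest j hj
      rcases sq_cases_one (h1 j) with h | h | h | h
      · exact h
      · rw [h] at this; norm_num at this
      · rw [h] at this; norm_num at this
      · omega
  · push Not at hbig
    left
    have h0 : ∀ j, a j ^ 2 - 1 = 0 ∨ a j ^ 2 - 1 = 8 := by
      intro j
      have := hbig j
      rcases sq_cases_one (h1 j) with h | h | h | h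
      · left; rw [h]; norm_num
      · right; rw [h]; norm_num
      · rw [h] at this; norm_num at this
      · omega
    have hl := level_sum _ 8 h0
    rw [hs] at hl
    refine ⟨Finset.univ.filter (fun j => a j ^ 2 - 1 ≠ 0), by omega, ?_⟩
    funext j
    unfold pt1
    by_cases hj : a j ^ 2 - 1 = 0
    · rw [if_neg (by simp [hj])]
      rcases sq_cases_one (h1 j) with h | h | h | h
      · exact h
      · rw [h] at hj; norm_num at hj
      · rw [h] at hj; norm_num at hj
      · omega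
    · rw [if_pos (by simp [hj])]
      rcases h0 j with h' | h'
      · exact absurd h' hj
      · rcases sq_cases_one (h1 j) with h | h | h | h
        · rw [h] at h'; norm_num at h'
        · exact h
        · rw [h] at h'; norm_num at h'
        · omega

/-- The class of odd vectors with pattern `pt1 v T`, `T` of size `r`. -/
noncomputable def clsO (v : ℤ) (r : ℕ) : Finset (GolayPt → ℤ) :=
  cls codeFinset (fun _ => Finset.powersetCard r Finset.univ) (fun c T => tw c (pt1 v T))

theorem mem_clsO (v : ℤ) (r : ℕ) (x : GolayPt → ℤ) :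
    x ∈ clsO v r ↔ ∃ c ∈ GC, ∃ T : Finset GolayPt, T.card = r ∧ x = tw c (pt1 v T) := by
  unfold clsO
  rw [mem_cls]
  constructor
  · rintro ⟨c, hc, T, hT, rfl⟩
    exact ⟨c, (mem_codeFinset c).mp hc, T, (Finset.mem_powersetCard.mp hT).2, rfl⟩
  · rintro ⟨c, hc, T, hT, rfl⟩
    exact ⟨c, (mem_codeFinset c).mpr hc, T,
      Finset.mem_powersetCard.mpr ⟨Finset.subset_univ _, hT⟩, rfl⟩

theorem card_clsO (v : ℤ) (hv : v % 4 = 1) (hv1 : v ≠ 1) (r : ℕ) :
    (clsO v r).card = 4096 * Nat.choose 24 r := by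
  unfold clsO
  rw [card_cls _ _ _ _ (Nat.choose 24 r) (fun _ _ => by
    rw [Finset.card_powersetCard, Finset.card_univ, show Fintype.card GolayPt = 24 from by decide]),
    card_codeFinset]
  intro c hc T hT c' hc' T' hT' h
  have hcc : c = c' := by
    rw [← resSet_tw (pt1_mod hv T) c, h, resSet_tw (pt1_mod hv T') c']
  subst hcc
  have h2 : pt1 v T = pt1 v T' := by rw [← tw_tw c (pt1 v T), h, tw_tw]
  refine ⟨rfl, ?_⟩
  ext j
  have := congrFun h2 j
  unfold pt1 at this
  constructor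
  · intro hj
    by_contra hj'
    rw [if_pos hj, if_neg hj'] at this
    exact hv1 this
  · intro hj
    by_contra hj'
    rw [if_neg hj', if_pos hj] at this
    exact hv1 this.symm

theorem odd32 {x : GolayPt → ℤ} (hx : x ∈ leechLattice) (hn : sqNorm x = 32)
    (hodd : ∀ i, x i % 2 = 1) : x ∈ clsO (-3) 1 := by
  rw [mem_clsO]
  obtain ⟨c, hc, a, h1, h2, hxa⟩ := odd_of_mem 32 hx hn hodd
  obtain ⟨T, hT, haT⟩ := pat32 h1 h2
  exact ⟨c, hc, T, hT, by rw [hxa, haT]⟩

theorem odd48 {x : GolayPt → ℤ} (hx : x ∈ leechLattice) (hn : sqNorm x = 48)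
    (hodd : ∀ i, x i % 2 = 1) : x ∈ clsO (-3) 3 ∨ x ∈ clsO 5 1 := by
  rw [mem_clsO, mem_clsO]
  obtain ⟨c, hc, a, h1, h2, hxa⟩ := odd_of_mem 48 hx hn hodd
  rcases pat48 h1 h2 with ⟨T, hT, haT⟩ | ⟨T, hT, haT⟩
  · exact Or.inl ⟨c, hc, T, hT, by rw [hxa, haT]⟩
  · exact Or.inr ⟨c, hc, T, hT, by rw [hxa, haT]⟩

set_option linter.constructorNameAsVariable false in
theorem clsO_props {v : ℤ} {r : ℕ} {x : GolayPt → ℤ} (hv : v % 4 = 1)
    (hsum : (24 + (r : ℤ) * (v - 1)) % 8 = 4) (hx : x ∈ clsO v r) :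
    x ∈ leechLattice ∧ sqNorm x = 24 + r * (v ^ 2 - 1) ∧
      (∀ i, x i = 1 ∨ x i = -1 ∨ x i = v ∨ x i = -v) ∧
      ∃ T : Finset GolayPt, T.card = r ∧ ∀ i ∈ T, x i = v ∨ x i = -v := by
  rw [mem_clsO] at hx
  obtain ⟨c, hc, T, hT, hxe⟩ := hx
  rw [hxe]
  refine ⟨mem_of_odd hc (pt1_mod hv T) (by rw [sum_pt1, hT]; exact hsum),
    by rw [sqNorm_tw, sqNorm_pt1, hT], ?_, T, hT, ?_⟩
  · intro i
    unfold tw pt1
    split_ifs <;> simp
  · intro i hi
    unfold tw pt1
    rw [if_pos hi]
    split_ifs <;> simp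

end Cfsg.Agent.Lib.helper28.LC
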