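import Cfsg.Agent.Lib.helper28.LeechCnt2

set_option autoImplicit false

namespace Cfsg.Agent.Lib.helper28.LC

open Cfsg
open Cfsg.Agent.Lib.helper28
open Cfsg.Agent.Lib.helper27

/-! Counting lattice vectors of small norm: the even vectors. -/

/-- The pattern with `v` on `p` and `0` elsewhere. -/
def pat (v : ℤ) (p : Finset GolayPt) : GolayPt → ℤ := fun j => if j ∈ p then v else 0

theorem sum_pat (v : ℤ) (p : Finset GolayPt) : ∑ j, pat v p j = p.card * v := by
  unfold pat; rw [sum_ite_mem_const]; ring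

theorem sqNorm_pat (v : ℤ) (p : Finset GolayPt) : sqNorm (pat v p) = p.card * v ^ 2 := by
  unfold sqNorm pat
  have : ∀ j : GolayPt, (if j ∈ p then v else 0) ^ 2 = if j ∈ p then v ^ 2 else 0 := by
    intro j; split_ifs <;> ring
  rw [Finset.sum_congr rfl (fun j _ => this j), sum_ite_mem_const]; ring

theorem sum_pat_on (v : ℤ) (p s : Finset GolayPt) (hs : s ⊆ p) :
    ∑ j ∈ s, pat v p j = s.card * v := by
  unfold pat
  rw [Finset.sum_congr rfl (fun j hj => if_pos (hs hj)), Finset.sum_const]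
  simp

theorem sum_tw_pat (v : ℤ) (p s : Finset GolayPt) (hs : s ⊆ p) :
    ∑ j, tw s (pat v p) j = (p.card - 2 * s.card) * v := by
  rw [sum_tw, sum_pat, sum_pat_on v p s hs]; ring

theorem sqNorm_tw_pat (v : ℤ) (p s : Finset GolayPt) :
    sqNorm (tw s (pat v p)) = p.card * v ^ 2 := by
  rw [sqNorm_tw, sqNorm_pat]

theorem tw_pat_mem (v : ℤ) {p : Finset GolayPt} (s : Finset GolayPt) {j : GolayPt} (hj : j ∈ p) :
    tw s (pat v p) j = v ∨ tw s (pat v p) j = -v := by
  unfold tw pat
  rw [if_pos hj]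
  split_ifs <;> simp

theorem tw_pat_not_mem (v : ℤ) {p : Finset GolayPt} (s : Finset GolayPt) {j : GolayPt}
    (hj : j ∉ p) : tw s (pat v p) j = 0 := by
  unfold tw pat
  rw [if_neg hj]
  split_ifs <;> simp

theorem tw_pat_ne_zero_iff {v : ℤ} (hv : 0 < v) (p s : Finset GolayPt) (j : GolayPt) :
    tw s (pat v p) j ≠ 0 ↔ j ∈ p := by
  constructor
  · intro h
    by_contra hj
    exact h (tw_pat_not_mem v s hj)
  · intro hj
    rcases tw_pat_mem v s hj with h | h <;> rw [h] <;> omega

theorem tw_pat_neg_iff {v : ℤ} (hv : 0 < v) {p s : Finset GolayPt} (hs : s ⊆ p) (j : GolayPt) :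
    tw s (pat v p) j < 0 ↔ j ∈ s := by
  unfold tw pat
  by_cases hj : j ∈ s
  · rw [if_pos hj, if_pos (hs hj)]
    simp only [hj, iff_true]
    omega
  · rw [if_neg hj]
    simp only [hj, iff_false]
    split_ifs <;> omega

theorem tw_pat_inj {v : ℤ} (hv : 0 < v) {p s p' s' : Finset GolayPt} (hs : s ⊆ p) (hs' : s' ⊆ p')
    (h : tw s (pat v p) = tw s' (pat v p')) : p = p' ∧ s = s' := by
  constructor
  · ext j
    rw [← tw_pat_ne_zero_iff hv p s j, ← tw_pat_ne_zero_iff hv p' s' j, h]
  · ext j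
    rw [← tw_pat_neg_iff hv hs j, ← tw_pat_neg_iff hv hs' j, h]

theorem resSet_tw_pat2 (p s : Finset GolayPt) : resSet (tw s (pat 2 p)) 2 = p := by
  ext j
  rw [mem_resSet]
  by_cases hj : j ∈ p
  · simp only [hj, iff_true]
    rcases tw_pat_mem 2 s hj with h | h <;> rw [h] <;> decide
  · simp only [hj, iff_false]
    rw [tw_pat_not_mem 2 s hj]
    decide

theorem resSet_tw_pat4 (p s : Finset GolayPt) : resSet (tw s (pat 4 p)) 2 = ∅ := by
  ext j
  rw [mem_resSet]
  simp only [Finset.notMem_empty, iff_false]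
  by_cases hj : j ∈ p
  · rcases tw_pat_mem 4 s hj with h | h <;> rw [h] <;> decide
  · rw [tw_pat_not_mem 4 s hj]
    decide

theorem tw_pat_even {v : ℤ} (hv : v % 2 = 0) (p s : Finset GolayPt) (j : GolayPt) :
    tw s (pat v p) j % 2 = 0 := by
  by_cases hj : j ∈ p
  · rcases tw_pat_mem v s hj with h | h <;> rw [h] <;> omega
  · rw [tw_pat_not_mem v s hj]; rfl

/-! ### Structure of even vectors -/

theorem even_core {x : GolayPt → ℤ} (h1 : ∀ i, x i % 2 = 0) (j : GolayPt) :
    (j ∈ resSet x 2 → (x j = 2 ∨ x j = -2) ∨ 36 ≤ x j ^ 2) ∧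
    (j ∉ resSet x 2 → x j = 0 ∨ (x j = 4 ∨ x j = -4) ∨ 64 ≤ x j ^ 2) := by
  rw [mem_resSet]
  have := h1 j
  constructor
  · intro hj
    rcases sq_cases_two (a := x j) (by omega) with h | h | h
    · exact Or.inl (Or.inl h)
    · exact Or.inl (Or.inr h)
    · exact Or.inr h
  · intro hj
    rcases sq_cases_zero (a := x j) (by omega) with h | h | h | h
    · exact Or.inl h
    · exact Or.inr (Or.inl (Or.inl h))
    · exact Or.inr (Or.inl (Or.inr h))
    · exact Or.inr (Or.inr h)

theorem even_f {x : GolayPt → ℤ} (h1 : ∀ i, x i % 2 = 0) :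
    (∀ j, x j ^ 2 - (if j ∈ resSet x 2 then 4 else 0) = 0 ∨
      16 ≤ x j ^ 2 - (if j ∈ resSet x 2 then 4 else 0)) ∧
    ∑ j, (x j ^ 2 - (if j ∈ resSet x 2 then 4 else 0)) = sqNorm x - 4 * (resSet x 2).card := by
  constructor
  · intro j
    by_cases hj : j ∈ resSet x 2
    · rw [if_pos hj]
      rcases (even_core h1 j).1 hj with (h | h) | h
      · left; rw [h]; norm_num
      · left; rw [h]; norm_num
      · right; omega
    · rw [if_neg hj]
      rcases (even_core h1 j).2 hj with h | (h | h) | h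
      · left; rw [h]; norm_num
      · right; rw [h]; norm_num
      · right; rw [h]; norm_num
      · right; omega
  · rw [Finset.sum_sub_distrib, sum_ite_mem_const]
    unfold sqNorm
    ring

theorem card_resSet_le {x : GolayPt → ℤ} (h1 : ∀ i, x i % 2 = 0) :
    4 * ((resSet x 2).card : ℤ) ≤ sqNorm x := by
  obtain ⟨h0, hs⟩ := even_f h1
  have : 0 ≤ ∑ j, (x j ^ 2 - (if j ∈ resSet x 2 then 4 else 0)) :=
    Finset.sum_nonneg (fun j _ => by rcases h0 j with h | h <;> omega)
  omega

/-- Even vectors whose norm is four times the number of coordinates `≡ 2 (mod 4)`. -/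
theorem even_tight {x : GolayPt → ℤ} (h1 : ∀ i, x i % 2 = 0)
    (hn : sqNorm x = 4 * (resSet x 2).card) :
    ∃ s ⊆ resSet x 2, x = tw s (pat 2 (resSet x 2)) := by
  obtain ⟨h0, hs⟩ := even_f h1
  rw [hn, sub_self] at hs
  have hz := (Finset.sum_eq_zero_iff_of_nonneg (fun j _ => by
    rcases h0 j with h | h <;> omega)).mp hs
  refine ⟨(resSet x 2).filter (fun j => x j < 0), Finset.filter_subset _ _, ?_⟩
  funext j
  have hj0 := hz j (Finset.mem_univ j)
  unfold tw pat
  by_cases hj : j ∈ resSet x 2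
  · rw [if_pos hj] at hj0
    rw [if_pos hj]
    rcases (even_core h1 j).1 hj with (h | h) | h
    · rw [if_neg (by rw [Finset.mem_filter]; omega), h]
    · rw [if_pos (by rw [Finset.mem_filter]; exact ⟨hj, by omega⟩), h]
    · omega
  · rw [if_neg hj] at hj0
    rw [if_neg hj]
    have hx0 : x j = 0 := by
      rcases (even_core h1 j).2 hj with h | (h | h) | h
      · exact h
      · rw [h] at hj0; norm_num at hj0
      · rw [h] at hj0; norm_num at hj0
      · omega
    rw [hx0]
    split_ifs <;> simp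

/-- Even vectors with all coordinates divisible by 4 and norm less than 64. -/
theorem even_zero {x : GolayPt → ℤ} (h1 : ∀ i, x i % 2 = 0) (hc : resSet x 2 = ∅)
    (hn : sqNorm x < 64) :
    ∃ T : Finset GolayPt, sqNorm x = 16 * T.card ∧ ∃ s ⊆ T, x = tw s (pat 4 T) := by
  have hle : ∀ j, x j ^ 2 ≤ sqNorm x := by
    intro j
    unfold sqNorm
    exact Finset.single_le_sum (f := fun i => x i ^ 2) (fun i _ => sq_nonneg (x i))
      (Finset.mem_univ j)
  have hv : ∀ j, x j = 0 ∨ x j = 4 ∨ x j = -4 := by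
    intro j
    have := hle j
    rcases (even_core h1 j).2 (by rw [hc]; exact Finset.notMem_empty j) with h | (h | h) | h
    · exact Or.inl h
    · exact Or.inr (Or.inl h)
    · exact Or.inr (Or.inr h)
    · omega
  have hl := level_sum (fun j => x j ^ 2) 16 (fun j => by
    rcases hv j with h | h | h
    · left; rw [h]; norm_num
    · right; rw [h]; norm_num
    · right; rw [h]; norm_num)
  refine ⟨Finset.univ.filter (fun j => x j ^ 2 ≠ 0), hl,
    (Finset.univ.filter (fun j => x j ^ 2 ≠ 0)).filter (fun j => x j < 0),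
    Finset.filter_subset _ _, ?_⟩
  funext j
  unfold tw pat
  rcases hv j with h | h | h
  · have hj : j ∉ Finset.univ.filter (fun j => x j ^ 2 ≠ 0) := by simp [h]
    rw [if_neg hj, if_neg (fun h' => hj (Finset.mem_of_mem_filter j h')), h]
  · have hj : j ∈ Finset.univ.filter (fun j => x j ^ 2 ≠ 0) := by simp [h]
    rw [if_pos hj, if_neg (by rw [Finset.mem_filter]; omega), h]
  · have hj : j ∈ Finset.univ.filter (fun j => x j ^ 2 ≠ 0) := by simp [h]
    rw [if_pos hj, if_pos (by rw [Finset.mem_filter]; exact ⟨hj, by omega⟩), h]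

/-- Even vectors whose norm exceeds by 16 four times the number of coordinates
`≡ 2 (mod 4)`. -/
theorem even_plus {x : GolayPt → ℤ} (h1 : ∀ i, x i % 2 = 0)
    (hn : sqNorm x = 4 * (resSet x 2).card + 16) :
    ∃ j0, j0 ∉ resSet x 2 ∧ ∃ w : ℤ, (w = 4 ∨ w = -4) ∧ ∃ s ⊆ resSet x 2,
      x = fun j => tw s (pat 2 (resSet x 2)) j + pat w {j0} j := by
  obtain ⟨h0, hs⟩ := even_f h1
  rw [hn, add_sub_cancel_left] at hs
  obtain ⟨j0, hj0, hrest⟩ := pigeon_one _ 16 (by norm_num) h0 hs
  have hj0c : j0 ∉ resSet x 2 := by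
    intro hj
    rw [if_pos hj] at hj0
    rcases (even_core h1 j0).1 hj with (h | h) | h
    · rw [h] at hj0; norm_num at hj0
    · rw [h] at hj0; norm_num at hj0
    · omega
  rw [if_neg hj0c] at hj0
  have hw : x j0 = 4 ∨ x j0 = -4 := by
    rcases (even_core h1 j0).2 hj0c with h | (h | h) | h
    · rw [h] at hj0; norm_num at hj0
    · exact Or.inl h
    · exact Or.inr h
    · omega
  refine ⟨j0, hj0c, x j0, hw, (resSet x 2).filter (fun j => x j < 0), Finset.filter_subset _ _, ?_⟩
  funext j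
  unfold tw pat
  by_cases hjj : j = j0
  · rw [hjj, if_neg hj0c, if_pos (Finset.mem_singleton_self j0),
      if_neg (fun h' => hj0c (Finset.mem_of_mem_filter j0 h'))]
    ring
  · have hz := hrest j hjj
    have hsing : j ∉ ({j0} : Finset GolayPt) := by rw [Finset.mem_singleton]; exact hjj
    rw [if_neg hsing, add_zero]
    by_cases hj : j ∈ resSet x 2
    · rw [if_pos hj] at hz
      rw [if_pos hj]
      rcases (even_core h1 j).1 hj with (h | h) | h
      · rw [if_neg (by rw [Finset.mem_filter]; omega), h]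
      · rw [if_pos (by rw [Finset.mem_filter]; exact ⟨hj, by omega⟩), h]
      · omega
    · rw [if_neg hj] at hz
      rw [if_neg hj]
      have hx0 : x j = 0 := by
        rcases (even_core h1 j).2 hj with h | (h | h) | h
        · exact h
        · rw [h] at hz; norm_num at hz
        · rw [h] at hz; norm_num at hz
        · omega
      rw [hx0]
      split_ifs <;> simp

end Cfsg.Agent.Lib.helper28.LC
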