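import Cfsg.Agent.Lib.helper28.LeechCnt3

set_option autoImplicit false

namespace Cfsg.Agent.Lib.helper28.LC

open Cfsg
open Cfsg.Agent.Lib.helper28
open Cfsg.Agent.Lib.helper27

/-! Counting lattice vectors of small norm: the classes of even vectors. -/

/-- The subsets of `o` of given parity. -/
def par (e : ℕ) (o : Finset GolayPt) : Finset (Finset GolayPt) :=
  o.powerset.filter fun s => s.card % 2 = e

theorem mem_par {e : ℕ} {o s : Finset GolayPt} : s ∈ par e o ↔ s ⊆ o ∧ s.card % 2 = e := by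
  unfold par; rw [Finset.mem_filter, Finset.mem_powerset]

theorem card_par (e : ℕ) (he : e < 2) {o : Finset GolayPt} {m : ℕ} (ho : o.card = m + 1) :
    (par e o).card = 2 ^ m := by
  unfold par
  rw [card_parity_subsets o (Finset.card_pos.mp (by omega)) e he, ho, Nat.add_sub_cancel]

/-- The class of the vectors `tw s (pat v p)`. -/
noncomputable def clsE (v : ℤ) (I : Finset (Finset GolayPt))
    (K : Finset GolayPt → Finset (Finset GolayPt)) : Finset (GolayPt → ℤ) :=
  cls I K (fun p s => tw s (pat v p))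

theorem mem_clsE (v : ℤ) (I : Finset (Finset GolayPt))
    (K : Finset GolayPt → Finset (Finset GolayPt)) (x : GolayPt → ℤ) :
    x ∈ clsE v I K ↔ ∃ p ∈ I, ∃ s ∈ K p, x = tw s (pat v p) := mem_cls _ _ _ _

theorem card_clsE {v : ℤ} (hv : 0 < v) (I : Finset (Finset GolayPt))
    (K : Finset GolayPt → Finset (Finset GolayPt)) (hK : ∀ p ∈ I, ∀ s ∈ K p, s ⊆ p) (m : ℕ)
    (hm : ∀ p ∈ I, (K p).card = m) : (clsE v I K).card = I.card * m := by
  unfold clsE
  apply card_cls _ _ _ _ m hm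
  intro p hp s hs p' hp' s' hs' h
  exact tw_pat_inj hv (hK p hp s hs) (hK p' hp' s' hs') h

/-- Shape `(±4)^2`. -/
noncomputable def E0 : Finset (GolayPt → ℤ) :=
  clsE 4 (Finset.powersetCard 2 Finset.univ) (fun p => p.powerset)

/-- Shape `(±2)^8`. -/
noncomputable def E1 : Finset (GolayPt → ℤ) := clsE 2 octadFinset (par 0)

/-- Shape `(±2)^12`. -/
noncomputable def E2 : Finset (GolayPt → ℤ) := clsE 2 dodecadFinset (par 0)

theorem card_E0 : E0.card = 1104 := by
  unfold E0
  rw [card_clsE (by norm_num) _ _ (fun p _ s hs => Finset.mem_powerset.mp hs) 4 (fun p hp => by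
    rw [Finset.card_powerset, (Finset.mem_powersetCard.mp hp).2]; rfl),
    Finset.card_powersetCard, Finset.card_univ, show Fintype.card GolayPt = 24 from by decide]
  decide

theorem card_E1 : E1.card = 97152 := by
  unfold E1
  rw [card_clsE (by norm_num) _ _ (fun p _ s hs => (mem_par.mp hs).1) (2 ^ 7) (fun p hp =>
    card_par 0 (by norm_num) (by rw [((mem_octadFinset p).mp hp).2])), card_octadFinset]
  norm_num

theorem card_E2 : E2.card = 5275648 := by
  unfold E2
  rw [card_clsE (by norm_num) _ _ (fun p _ s hs => (mem_par.mp hs).1) (2 ^ 11) (fun p hp =>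
    card_par 0 (by norm_num) (by rw [((mem_dodecadFinset p).mp hp).2])), card_dodecadFinset]
  norm_num

/-! ### Shape `(±4)(±2)^8` -/

/-- The vector with `±2` on the octad `o` (signs `-` on `s`) and `w` at the point `i`. -/
def f3 (o : Finset GolayPt) (q : (GolayPt × ℤ) × Finset GolayPt) : GolayPt → ℤ :=
  fun j => tw q.2 (pat 2 o) j + pat q.1.2 {q.1.1} j

theorem f3_mem {o : Finset GolayPt} {i : GolayPt} (w : ℤ) (s : Finset GolayPt) (hi : i ∉ o)
    {j : GolayPt} (hj : j ∈ o) : f3 o ((i, w), s) j = tw s (pat 2 o) j := by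
  have hji : j ∉ ({i} : Finset GolayPt) := by
    rw [Finset.mem_singleton]; rintro rfl; exact hi hj
  have hp : pat w {i} j = 0 := by unfold pat; rw [if_neg hji]
  show tw s (pat 2 o) j + pat w {i} j = _
  rw [hp, add_zero]

theorem f3_not_mem {o : Finset GolayPt} (i : GolayPt) (w : ℤ) (s : Finset GolayPt)
    {j : GolayPt} (hj : j ∉ o) : f3 o ((i, w), s) j = pat w {i} j := by
  show tw s (pat 2 o) j + pat w {i} j = _
  rw [tw_pat_not_mem 2 s hj, zero_add]

theorem f3_at {o : Finset GolayPt} {i : GolayPt} (w : ℤ) (s : Finset GolayPt) (hi : i ∉ o) :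
    f3 o ((i, w), s) i = w := by
  rw [f3_not_mem i w s hi]
  unfold pat
  rw [if_pos (Finset.mem_singleton_self i)]

theorem f3_vals {o : Finset GolayPt} {i : GolayPt} {w : ℤ} (s : Finset GolayPt) (hi : i ∉ o)
    (hw : w = 4 ∨ w = -4) (j : GolayPt) :
    f3 o ((i, w), s) j = 0 ∨ f3 o ((i, w), s) j = 2 ∨ f3 o ((i, w), s) j = -2 ∨
      f3 o ((i, w), s) j = 4 ∨ f3 o ((i, w), s) j = -4 := by
  by_cases hj : j ∈ o
  · rw [f3_mem w s hi hj]
    rcases tw_pat_mem 2 s hj with h | h
    · exact Or.inr (Or.inl h)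
    · exact Or.inr (Or.inr (Or.inl h))
  · rw [f3_not_mem i w s hj]
    unfold pat
    split_ifs
    · rcases hw with h | h
      · exact Or.inr (Or.inr (Or.inr (Or.inl h)))
      · exact Or.inr (Or.inr (Or.inr (Or.inr h)))
    · exact Or.inl rfl

theorem resSet_f3 {o : Finset GolayPt} {i : GolayPt} {w : ℤ} (s : Finset GolayPt) (hi : i ∉ o)
    (hw : w = 4 ∨ w = -4) : resSet (f3 o ((i, w), s)) 2 = o := by
  ext j
  rw [mem_resSet]
  by_cases hj : j ∈ o
  · rw [f3_mem w s hi hj]
    simp only [hj, iff_true]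
    rcases tw_pat_mem 2 s hj with h | h <;> rw [h] <;> decide
  · rw [f3_not_mem i w s hj]
    simp only [hj, iff_false]
    unfold pat
    split_ifs
    · rcases hw with h | h <;> rw [h] <;> decide
    · decide

theorem sum_f3 {o : Finset GolayPt} (i : GolayPt) (w : ℤ) {s : Finset GolayPt} (hs : s ⊆ o) :
    ∑ j, f3 o ((i, w), s) j = (o.card - 2 * s.card) * 2 + w := by
  show ∑ j, (tw s (pat 2 o) j + pat w {i} j) = _
  rw [Finset.sum_add_distrib, sum_tw_pat 2 o s hs, sum_pat, Finset.card_singleton]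
  push_cast
  ring

theorem sqNorm_f3 {o : Finset GolayPt} {i : GolayPt} (w : ℤ) (s : Finset GolayPt) (hi : i ∉ o) :
    sqNorm (f3 o ((i, w), s)) = o.card * 4 + w ^ 2 := by
  have hpt : ∀ j, f3 o ((i, w), s) j ^ 2 = tw s (pat 2 o) j ^ 2 + pat w {i} j ^ 2 := by
    intro j
    by_cases hj : j ∈ o
    · have hji : j ∉ ({i} : Finset GolayPt) := by
        rw [Finset.mem_singleton]; rintro rfl; exact hi hj
      have hp : pat w {i} j = 0 := by unfold pat; rw [if_neg hji]
      rw [f3_mem w s hi hj, hp]; ring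
    · rw [f3_not_mem i w s hj, tw_pat_not_mem 2 s hj]; ring
  have h1 := sqNorm_tw_pat 2 o s
  have h2 := sqNorm_pat w {i}
  unfold sqNorm at h1 h2 ⊢
  rw [Finset.sum_congr rfl (fun j _ => hpt j), Finset.sum_add_distrib, h1, h2,
    Finset.card_singleton]
  push_cast
  ring

theorem f3_even {o : Finset GolayPt} {i : GolayPt} {w : ℤ} (s : Finset GolayPt) (hi : i ∉ o)
    (hw : w = 4 ∨ w = -4) (j : GolayPt) : f3 o ((i, w), s) j % 2 = 0 := by
  rcases f3_vals s hi hw j with h | h | h | h | h <;> rw [h] <;> decide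

theorem f3_inj {o o' : Finset GolayPt} {i i' : GolayPt} {w w' : ℤ} {s s' : Finset GolayPt}
    (hi : i ∉ o) (hw : w = 4 ∨ w = -4) (hs : s ⊆ o) (hi' : i' ∉ o') (hw' : w' = 4 ∨ w' = -4)
    (hs' : s' ⊆ o') (h : f3 o ((i, w), s) = f3 o' ((i', w'), s')) :
    o = o' ∧ ((i, w), s) = ((i', w'), s') := by
  have ho : o = o' := by rw [← resSet_f3 s hi hw, h, resSet_f3 s' hi' hw']
  subst ho
  have hss : s = s' := by
    ext j
    by_cases hj : j ∈ o
    · rw [← tw_pat_neg_iff (by norm_num : (0 : ℤ) < 2) hs j,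
        ← tw_pat_neg_iff (by norm_num : (0 : ℤ) < 2) hs' j, ← f3_mem w s hi hj,
        ← f3_mem w' s' hi' hj, h]
    · exact ⟨fun h' => absurd (hs h') hj, fun h' => absurd (hs' h') hj⟩
  subst hss
  have hii : i = i' := by
    by_contra hne
    have h1 := congrFun h i
    rw [f3_at w s hi, f3_not_mem i' w' s hi] at h1
    unfold pat at h1
    rw [if_neg (by rw [Finset.mem_singleton]; exact hne)] at h1
    rcases hw with h' | h' <;> omega
  subst hii
  have hww : w = w' := by
    have h1 := congrFun h i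
    rwa [f3_at w s hi, f3_at w' s hi] at h1
  subst hww
  exact ⟨rfl, rfl⟩

/-- Shape `(±4)(±2)^8`. -/
noncomputable def E3 : Finset (GolayPt → ℤ) :=
  cls octadFinset (fun o => (oᶜ ×ˢ ({4, -4} : Finset ℤ)) ×ˢ par 1 o) f3

theorem mem_E3 (x : GolayPt → ℤ) : x ∈ E3 ↔ ∃ o ∈ octads, ∃ i, i ∉ o ∧ ∃ w : ℤ,
    (w = 4 ∨ w = -4) ∧ ∃ s ⊆ o, s.card % 2 = 1 ∧ x = f3 o ((i, w), s) := by
  unfold E3
  rw [mem_cls]
  constructor
  · rintro ⟨o, ho, q, hq, hx⟩
    rw [Finset.mem_product, Finset.mem_product, Finset.mem_compl, Finset.mem_insert,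
      Finset.mem_singleton, mem_par] at hq
    exact ⟨o, (mem_octadFinset o).mp ho, q.1.1, hq.1.1, q.1.2, hq.1.2, q.2, hq.2.1, hq.2.2, hx⟩
  · rintro ⟨o, ho, i, hi, w, hw, s, hs, hs1, hx⟩
    refine ⟨o, (mem_octadFinset o).mpr ho, ((i, w), s), ?_, hx⟩
    rw [Finset.mem_product, Finset.mem_product, Finset.mem_compl, Finset.mem_insert,
      Finset.mem_singleton, mem_par]
    exact ⟨⟨hi, hw⟩, hs, hs1⟩

theorem card_E3 : E3.card = 3108864 := by
  unfold E3
  rw [card_cls _ _ _ _ 4096, card_octadFinset]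
  · intro o ho
    have h8 : o.card = 8 := ((mem_octadFinset o).mp ho).2
    rw [Finset.card_product, Finset.card_product, Finset.card_compl, h8,
      card_par 1 (by norm_num) (m := 7) (by rw [h8]),
      show Fintype.card GolayPt = 24 from by decide]
    rfl
  · intro o ho q hq o' ho' q' hq' h
    rw [Finset.mem_product, Finset.mem_product, Finset.mem_compl, Finset.mem_insert,
      Finset.mem_singleton, mem_par] at hq hq'
    exact f3_inj (i := q.1.1) (w := q.1.2) (s := q.2) (i' := q'.1.1) (w' := q'.1.2) (s' := q'.2)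
      hq.1.1 hq.1.2 hq.2.1 hq'.1.1 hq'.1.2 hq'.2.1 h

end Cfsg.Agent.Lib.helper28.LC
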