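import Cfsg.Agent.Lib.helper28.LeechCnt4

set_option autoImplicit false

namespace Cfsg.Agent.Lib.helper28.LC

open Cfsg
open Cfsg.Agent.Lib.helper28
open Cfsg.Agent.Lib.helper27

/-! Counting lattice vectors of small norm: classification and the counts. -/

theorem parity_cases {x : GolayPt → ℤ} (hx : x ∈ leechLattice) :
    (∀ i, x i % 2 = 0) ∨ (∀ i, x i % 2 = 1) := by
  rw [mem_leechLattice_iff] at hx
  rcases leechSet_cases hx with ⟨h1, -, -⟩ | ⟨h1, -, -⟩
  · exact Or.inl h1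
  · exact Or.inr h1

theorem even_data {x : GolayPt → ℤ} (hx : x ∈ leechLattice) (hev : ∀ i, x i % 2 = 0) :
    (∑ i, x i) % 8 = 0 ∧ resSet x 2 ∈ GC := by
  rw [mem_leechLattice_iff] at hx
  rcases leechSet_cases hx with ⟨-, h2, h3⟩ | ⟨h1, -, -⟩
  · exact ⟨h2, h3⟩
  · have := h1 none; have := hev none; omega

theorem even32 {x : GolayPt → ℤ} (hx : x ∈ leechLattice) (hn : sqNorm x = 32)
    (h1 : ∀ i, x i % 2 = 0) : x ∈ E1 ∨ x ∈ E0 := by
  unfold E1 E0
  rw [mem_clsE, mem_clsE]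
  obtain ⟨h2, h3⟩ := even_data hx h1
  have hle := card_resSet_le h1
  rw [hn] at hle
  rcases card_of_mem_supports h3 with hc | hc | hc | hc | hc
  · right
    have hc0 : resSet x 2 = ∅ := Finset.card_eq_zero.mp hc
    obtain ⟨T, hT, s, hs, hxe⟩ := even_zero h1 hc0 (by rw [hn]; norm_num)
    rw [hn] at hT
    exact ⟨T, Finset.mem_powersetCard.mpr ⟨Finset.subset_univ _, by omega⟩, s,
      Finset.mem_powerset.mpr hs, hxe⟩
  · left
    obtain ⟨s, hs, hxe⟩ := even_tight h1 (by rw [hn, hc]; norm_num)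
    have hsum := sum_tw_pat 2 (resSet x 2) s hs
    rw [← hxe, hc] at hsum
    exact ⟨resSet x 2, (mem_octadFinset _).mpr ⟨h3, hc⟩, s, mem_par.mpr ⟨hs, by omega⟩, hxe⟩
  · omega
  · omega
  · omega

theorem even48 {x : GolayPt → ℤ} (hx : x ∈ leechLattice) (hn : sqNorm x = 48)
    (h1 : ∀ i, x i % 2 = 0) : x ∈ E2 ∨ x ∈ E3 := by
  unfold E2
  rw [mem_clsE, mem_E3]
  obtain ⟨h2, h3⟩ := even_data hx h1
  have hle := card_resSet_le h1
  rw [hn] at hle
  rcases card_of_mem_supports h3 with hc | hc | hc | hc | hc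
  · exfalso
    have hc0 : resSet x 2 = ∅ := Finset.card_eq_zero.mp hc
    obtain ⟨T, hT, s, hs, hxe⟩ := even_zero h1 hc0 (by rw [hn]; norm_num)
    rw [hn] at hT
    have hsum := sum_tw_pat 4 T s hs
    rw [← hxe] at hsum
    omega
  · right
    obtain ⟨j0, hj0, w, hw, s, hs, hxe⟩ := even_plus h1 (by rw [hn, hc]; norm_num)
    have hsum := sum_f3 j0 w hs
    have hxe' : x = f3 (resSet x 2) ((j0, w), s) := hxe
    rw [← hxe', hc] at hsum
    exact ⟨resSet x 2, ⟨h3, hc⟩, j0, hj0, w, hw, s, hs, by rcases hw with h | h <;> omega, hxe'⟩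
  · left
    obtain ⟨s, hs, hxe⟩ := even_tight h1 (by rw [hn, hc]; norm_num)
    have hsum := sum_tw_pat 2 (resSet x 2) s hs
    rw [← hxe, hc] at hsum
    exact ⟨resSet x 2, (mem_dodecadFinset _).mpr ⟨h3, hc⟩, s, mem_par.mpr ⟨hs, by omega⟩, hxe⟩
  · omega
  · omega

/-! ### Properties of the classes -/

theorem E0_props {x : GolayPt → ℤ} (hx : x ∈ E0) :
    x ∈ leechLattice ∧ sqNorm x = 32 ∧ (∀ i, x i % 2 = 0) ∧ resSet x 2 = ∅ := by
  unfold E0 at hx
  rw [mem_clsE] at hx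
  obtain ⟨p, hp, s, hs, hxe⟩ := hx
  rw [Finset.mem_powersetCard] at hp
  rw [Finset.mem_powerset] at hs
  rw [hxe]
  have hev := tw_pat_even (v := 4) (by decide) p s
  refine ⟨mem_leech_of_even hev ?_ ?_, ?_, hev, resSet_tw_pat4 p s⟩
  · rw [sum_tw_pat 4 p s hs, hp.2]
    have := Finset.card_le_card hs
    omega
  · rw [resSet_tw_pat4]; exact empty_mem_supports
  · rw [sqNorm_tw_pat, hp.2]; norm_num

theorem E1_props {x : GolayPt → ℤ} (hx : x ∈ E1) :
    x ∈ leechLattice ∧ sqNorm x = 32 ∧ (∀ i, x i % 2 = 0) ∧ (resSet x 2).card = 8 := by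
  unfold E1 at hx
  rw [mem_clsE] at hx
  obtain ⟨p, hp, s, hs, hxe⟩ := hx
  rw [mem_octadFinset] at hp
  rw [mem_par] at hs
  rw [hxe]
  have hev := tw_pat_even (v := 2) (by decide) p s
  have h8 : p.card = 8 := hp.2
  refine ⟨mem_leech_of_even hev ?_ ?_, ?_, hev, by rw [resSet_tw_pat2]; exact h8⟩
  · rw [sum_tw_pat 2 p s hs.1, h8]
    omega
  · rw [resSet_tw_pat2]; exact hp.1
  · rw [sqNorm_tw_pat, h8]; norm_num

theorem E2_props {x : GolayPt → ℤ} (hx : x ∈ E2) :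
    x ∈ leechLattice ∧ sqNorm x = 48 ∧ ∀ i, x i = 0 ∨ x i = 2 ∨ x i = -2 := by
  unfold E2 at hx
  rw [mem_clsE] at hx
  obtain ⟨p, hp, s, hs, hxe⟩ := hx
  rw [mem_dodecadFinset] at hp
  rw [mem_par] at hs
  rw [hxe]
  have hev := tw_pat_even (v := 2) (by decide) p s
  have h12 : p.card = 12 := hp.2
  refine ⟨mem_leech_of_even hev ?_ ?_, ?_, ?_⟩
  · rw [sum_tw_pat 2 p s hs.1, h12]
    omega
  · rw [resSet_tw_pat2]; exact hp.1
  · rw [sqNorm_tw_pat, h12]; norm_num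
  · intro i
    by_cases hi : i ∈ p
    · exact Or.inr (tw_pat_mem 2 s hi)
    · exact Or.inl (tw_pat_not_mem 2 s hi)

theorem E3_props {x : GolayPt → ℤ} (hx : x ∈ E3) :
    x ∈ leechLattice ∧ sqNorm x = 48 ∧
      (∀ i, x i = 0 ∨ x i = 2 ∨ x i = -2 ∨ x i = 4 ∨ x i = -4) ∧ ∃ i, x i = 4 ∨ x i = -4 := by
  rw [mem_E3] at hx
  obtain ⟨o, ho, i, hi, w, hw, s, hs, hs1, hxe⟩ := hx
  rw [hxe]
  have h8 : o.card = 8 := ho.2
  refine ⟨mem_leech_of_even (f3_even s hi hw) ?_ ?_, ?_, f3_vals s hi hw, i, ?_⟩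
  · rw [sum_f3 i w hs, h8]
    rcases hw with h | h <;> omega
  · rw [resSet_f3 s hi hw]; exact ho.1
  · rw [sqNorm_f3 w s hi, h8]
    rcases hw with h | h <;> rw [h] <;> norm_num
  · rw [f3_at w s hi]; exact hw

theorem O3_props {x : GolayPt → ℤ} (hx : x ∈ clsO (-3) 1) :
    x ∈ leechLattice ∧ sqNorm x = 32 ∧ ∀ i, x i % 2 = 1 := by
  obtain ⟨h1, h2, h3, -⟩ := clsO_props (v := -3) (r := 1) (by decide) (by decide) hx
  refine ⟨h1, by rw [h2]; norm_num, fun i => ?_⟩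
  rcases h3 i with h | h | h | h <;> rw [h] <;> decide

theorem O33_props {x : GolayPt → ℤ} (hx : x ∈ clsO (-3) 3) :
    x ∈ leechLattice ∧ sqNorm x = 48 ∧ (∀ i, x i = 1 ∨ x i = -1 ∨ x i = -3 ∨ x i = 3) ∧
      ∃ T : Finset GolayPt, T.card = 3 ∧ ∀ i ∈ T, x i = -3 ∨ x i = 3 := by
  obtain ⟨h1, h2, h3, T, hT, h4⟩ := clsO_props (v := -3) (r := 3) (by decide) (by decide) hx
  refine ⟨h1, by rw [h2]; norm_num, fun i => ?_, T, hT, fun i hi => ?_⟩
  · rcases h3 i with h | h | h | h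
    · exact Or.inl h
    · exact Or.inr (Or.inl h)
    · exact Or.inr (Or.inr (Or.inl h))
    · exact Or.inr (Or.inr (Or.inr (by rw [h]; norm_num)))
  · rcases h4 i hi with h | h
    · exact Or.inl h
    · exact Or.inr (by rw [h]; norm_num)

theorem O5_props {x : GolayPt → ℤ} (hx : x ∈ clsO 5 1) :
    x ∈ leechLattice ∧ sqNorm x = 48 ∧ (∀ i, x i = 1 ∨ x i = -1 ∨ x i = 5 ∨ x i = -5) ∧
      ∃ i, x i = 5 ∨ x i = -5 := by
  obtain ⟨h1, h2, h3, T, hT, h4⟩ := clsO_props (v := 5) (r := 1) (by decide) (by decide) hx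
  obtain ⟨i, hi⟩ := Finset.card_pos.mp (by rw [hT]; norm_num : 0 < T.card)
  exact ⟨h1, by rw [h2]; norm_num, h3, i, h4 i hi⟩

/-! ### Norm 32 -/

theorem count32 : {x : GolayPt → ℤ | x ∈ leechLattice ∧ sqNorm x = 32}.ncard = 196560 := by
  have hset : {x : GolayPt → ℤ | x ∈ leechLattice ∧ sqNorm x = 32} =
      ↑(clsO (-3) 1 ∪ E1 ∪ E0) := by
    ext x
    rw [Finset.mem_coe, Finset.mem_union, Finset.mem_union]
    constructor
    · rintro ⟨hx, hn⟩
      rcases parity_cases hx with h | h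
      · rcases even32 hx hn h with h' | h'
        · exact Or.inl (Or.inr h')
        · exact Or.inr h'
      · exact Or.inl (Or.inl (odd32 hx hn h))
    · rintro ((h | h) | h)
      · exact ⟨(O3_props h).1, (O3_props h).2.1⟩
      · exact ⟨(E1_props h).1, (E1_props h).2.1⟩
      · exact ⟨(E0_props h).1, (E0_props h).2.1⟩
  have hd1 : Disjoint (clsO (-3) 1) E1 := by
    rw [Finset.disjoint_left]
    intro x h h'
    have := (O3_props h).2.2 none
    have := (E1_props h').2.2.1 none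
    omega
  have hd2 : Disjoint (clsO (-3) 1 ∪ E1) E0 := by
    rw [Finset.disjoint_left]
    intro x h h'
    rcases Finset.mem_union.mp h with h | h
    · have := (O3_props h).2.2 none
      have := (E0_props h').2.2.1 none
      omega
    · have h8 := (E1_props h).2.2.2
      rw [(E0_props h').2.2.2] at h8
      simp at h8
  rw [hset, Set.ncard_coe_finset, Finset.card_union_of_disjoint hd2,
    Finset.card_union_of_disjoint hd1, card_clsO (-3) (by decide) (by decide), card_E1, card_E0]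
  decide

end Cfsg.Agent.Lib.helper28.LC
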