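import Cfsg.Agent.Lib.helper28.LeechCnt5

set_option autoImplicit false

namespace Cfsg.Agent.Lib.helper28.LC

open Cfsg
open Cfsg.Agent.Lib.helper28
open Cfsg.Agent.Lib.helper27

/-! Counting lattice vectors of norm 48 by shape. -/

theorem class48 {x : GolayPt → ℤ} (hx : x ∈ leechLattice) (hn : sqNorm x = 48) :
    x ∈ E2 ∨ x ∈ clsO (-3) 3 ∨ x ∈ E3 ∨ x ∈ clsO 5 1 := by
  rcases parity_cases hx with h | h
  · rcases even48 hx hn h with h' | h'
    · exact Or.inl h'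
    · exact Or.inr (Or.inr (Or.inl h'))
  · rcases odd48 hx hn h with h' | h'
    · exact Or.inr (Or.inl h')
    · exact Or.inr (Or.inr (Or.inr h'))

/-- Shape `(±2)^12`. -/
def cA (x : GolayPt → ℤ) : Prop := ∀ i, x i = 0 ∨ x i = 2 ∨ x i = -2

/-- Shape `(±3)^3 (±1)^21`. -/
def cB (x : GolayPt → ℤ) : Prop :=
  ∃ i j k, i ≠ j ∧ j ≠ k ∧ i ≠ k ∧ |x i| = 3 ∧ |x j| = 3 ∧ |x k| = 3

/-- Shape `(±4)(±2)^8`. -/
def cC (x : GolayPt → ℤ) : Prop := ∃ i, |x i| = 4

/-- Shape `(±5)(±1)^23`. -/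
def cD (x : GolayPt → ℤ) : Prop := ∃ i, |x i| = 5

theorem E2_shape {x : GolayPt → ℤ} (hx : x ∈ E2) : cA x ∧ ¬ cB x ∧ ¬ cC x ∧ ¬ cD x := by
  obtain ⟨-, -, h⟩ := E2_props hx
  refine ⟨h, ?_, ?_, ?_⟩
  · rintro ⟨i, j, k, -, -, -, hi, -, -⟩
    rw [abs_eq (by norm_num)] at hi
    rcases h i with h' | h' | h' <;> omega
  · rintro ⟨i, hi⟩
    rw [abs_eq (by norm_num)] at hi
    rcases h i with h' | h' | h' <;> omega
  · rintro ⟨i, hi⟩
    rw [abs_eq (by norm_num)] at hi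
    rcases h i with h' | h' | h' <;> omega

theorem O33_shape {x : GolayPt → ℤ} (hx : x ∈ clsO (-3) 3) :
    ¬ cA x ∧ cB x ∧ ¬ cC x ∧ ¬ cD x := by
  obtain ⟨-, -, h, T, hT, hTv⟩ := O33_props hx
  refine ⟨?_, ?_, ?_, ?_⟩
  · intro hA
    rcases hA none with h' | h' | h' <;> rcases h none with h'' | h'' | h'' | h'' <;> omega
  · obtain ⟨i, j, k, hij, hik, hjk, hTe⟩ := Finset.card_eq_three.mp hT
    have hi : i ∈ T := by rw [hTe]; simp
    have hj : j ∈ T := by rw [hTe]; simp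
    have hk : k ∈ T := by rw [hTe]; simp
    refine ⟨i, j, k, hij, hjk, hik, ?_, ?_, ?_⟩
    · rw [abs_eq (by norm_num)]; exact (hTv i hi).symm
    · rw [abs_eq (by norm_num)]; exact (hTv j hj).symm
    · rw [abs_eq (by norm_num)]; exact (hTv k hk).symm
  · rintro ⟨i, hi⟩
    rw [abs_eq (by norm_num)] at hi
    rcases h i with h' | h' | h' | h' <;> omega
  · rintro ⟨i, hi⟩
    rw [abs_eq (by norm_num)] at hi
    rcases h i with h' | h' | h' | h' <;> omega

theorem E3_shape {x : GolayPt → ℤ} (hx : x ∈ E3) : ¬ cA x ∧ ¬ cB x ∧ cC x ∧ ¬ cD x := by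
  obtain ⟨-, -, h, i0, hi0⟩ := E3_props hx
  refine ⟨?_, ?_, ?_, ?_⟩
  · intro hA
    rcases hA i0 with h' | h' | h' <;> omega
  · rintro ⟨i, j, k, -, -, -, hi, -, -⟩
    rw [abs_eq (by norm_num)] at hi
    rcases h i with h' | h' | h' | h' | h' <;> omega
  · exact ⟨i0, by rw [abs_eq (by norm_num)]; exact hi0⟩
  · rintro ⟨i, hi⟩
    rw [abs_eq (by norm_num)] at hi
    rcases h i with h' | h' | h' | h' | h' <;> omega

theorem O5_shape {x : GolayPt → ℤ} (hx : x ∈ clsO 5 1) : ¬ cA x ∧ ¬ cB x ∧ ¬ cC x ∧ cD x := by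
  obtain ⟨-, -, h, i0, hi0⟩ := O5_props hx
  refine ⟨?_, ?_, ?_, ?_⟩
  · intro hA
    rcases hA i0 with h' | h' | h' <;> omega
  · rintro ⟨i, j, k, -, -, -, hi, -, -⟩
    rw [abs_eq (by norm_num)] at hi
    rcases h i with h' | h' | h' | h' <;> omega
  · rintro ⟨i, hi⟩
    rw [abs_eq (by norm_num)] at hi
    rcases h i with h' | h' | h' | h' <;> omega
  · exact ⟨i0, by rw [abs_eq (by norm_num)]; exact hi0⟩

theorem set48A : {x : GolayPt → ℤ | x ∈ leechLattice ∧ sqNorm x = 48 ∧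
    ∀ i, x i = 0 ∨ x i = 2 ∨ x i = -2} = ↑E2 := by
  ext x
  rw [Finset.mem_coe]
  constructor
  · rintro ⟨hx, hn, hA⟩
    rcases class48 hx hn with h | h | h | h
    · exact h
    · exact absurd hA (O33_shape h).1
    · exact absurd hA (E3_shape h).1
    · exact absurd hA (O5_shape h).1
  · intro h
    exact ⟨(E2_props h).1, (E2_props h).2.1, (E2_shape h).1⟩

theorem set48B : {x : GolayPt → ℤ | x ∈ leechLattice ∧ sqNorm x = 48 ∧
    ∃ i j k, i ≠ j ∧ j ≠ k ∧ i ≠ k ∧ |x i| = 3 ∧ |x j| = 3 ∧ |x k| = 3} = ↑(clsO (-3) 3) := by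
  ext x
  rw [Finset.mem_coe]
  constructor
  · rintro ⟨hx, hn, hB⟩
    rcases class48 hx hn with h | h | h | h
    · exact absurd hB (E2_shape h).2.1
    · exact h
    · exact absurd hB (E3_shape h).2.1
    · exact absurd hB (O5_shape h).2.1
  · intro h
    exact ⟨(O33_props h).1, (O33_props h).2.1, (O33_shape h).2.1⟩

theorem set48C : {x : GolayPt → ℤ | x ∈ leechLattice ∧ sqNorm x = 48 ∧ ∃ i, |x i| = 4} = ↑E3 := by
  ext x
  rw [Finset.mem_coe]
  constructor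
  · rintro ⟨hx, hn, hC⟩
    rcases class48 hx hn with h | h | h | h
    · exact absurd hC (E2_shape h).2.2.1
    · exact absurd hC (O33_shape h).2.2.1
    · exact h
    · exact absurd hC (O5_shape h).2.2.1
  · intro h
    exact ⟨(E3_props h).1, (E3_props h).2.1, (E3_shape h).2.2.1⟩

theorem set48D : {x : GolayPt → ℤ | x ∈ leechLattice ∧ sqNorm x = 48 ∧ ∃ i, |x i| = 5} =
    ↑(clsO 5 1) := by
  ext x
  rw [Finset.mem_coe]
  constructor
  · rintro ⟨hx, hn, hD⟩
    rcases class48 hx hn with h | h | h | h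
    · exact absurd hD (E2_shape h).2.2.2
    · exact absurd hD (O33_shape h).2.2.2
    · exact absurd hD (E3_shape h).2.2.2
    · exact h
  · intro h
    exact ⟨(O5_props h).1, (O5_props h).2.1, (O5_shape h).2.2.2⟩

theorem card_O33 : (clsO (-3) 3).card = 8290304 := by
  rw [card_clsO (-3) (by decide) (by decide)]
  decide

theorem card_O5 : (clsO 5 1).card = 98304 := by
  rw [card_clsO 5 (by decide) (by decide)]
  decide

/-- S1568. -/
theorem count48_shapes :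
    {x : GolayPt → ℤ | x ∈ leechLattice ∧ sqNorm x = 48 ∧
      ∀ i, x i = 0 ∨ x i = 2 ∨ x i = -2}.ncard = 5275648 ∧
    {x : GolayPt → ℤ | x ∈ leechLattice ∧ sqNorm x = 48 ∧
      ∃ i j k, i ≠ j ∧ j ≠ k ∧ i ≠ k ∧ |x i| = 3 ∧ |x j| = 3 ∧ |x k| = 3}.ncard = 8290304 ∧
    {x : GolayPt → ℤ | x ∈ leechLattice ∧ sqNorm x = 48 ∧ ∃ i, |x i| = 4}.ncard = 3108864 ∧
    {x : GolayPt → ℤ | x ∈ leechLattice ∧ sqNorm x = 48 ∧ ∃ i, |x i| = 5}.ncard = 98304 := by
  refine ⟨?_, ?_, ?_, ?_⟩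
  · rw [set48A, Set.ncard_coe_finset, card_E2]
  · rw [set48B, Set.ncard_coe_finset, card_O33]
  · rw [set48C, Set.ncard_coe_finset, card_E3]
  · rw [set48D, Set.ncard_coe_finset, card_O5]

/-- S0395. -/
theorem count48 : {x : GolayPt → ℤ | x ∈ leechLattice ∧ sqNorm x = 48}.ncard = 16773120 := by
  have hset : {x : GolayPt → ℤ | x ∈ leechLattice ∧ sqNorm x = 48} =
      ↑(E2 ∪ clsO (-3) 3 ∪ E3 ∪ clsO 5 1) := by
    ext x
    rw [Finset.mem_coe, Finset.mem_union, Finset.mem_union, Finset.mem_union]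
    constructor
    · rintro ⟨hx, hn⟩
      rcases class48 hx hn with h | h | h | h
      · exact Or.inl (Or.inl (Or.inl h))
      · exact Or.inl (Or.inl (Or.inr h))
      · exact Or.inl (Or.inr h)
      · exact Or.inr h
    · rintro (((h | h) | h) | h)
      · exact ⟨(E2_props h).1, (E2_props h).2.1⟩
      · exact ⟨(O33_props h).1, (O33_props h).2.1⟩
      · exact ⟨(E3_props h).1, (E3_props h).2.1⟩
      · exact ⟨(O5_props h).1, (O5_props h).2.1⟩
  have hd1 : Disjoint E2 (clsO (-3) 3) := by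
    rw [Finset.disjoint_left]
    intro x h h'
    exact (O33_shape h').1 (E2_shape h).1
  have hd2 : Disjoint (E2 ∪ clsO (-3) 3) E3 := by
    rw [Finset.disjoint_left]
    intro x h h'
    rcases Finset.mem_union.mp h with h | h
    · exact (E2_shape h).2.2.1 (E3_shape h').2.2.1
    · exact (O33_shape h).2.2.1 (E3_shape h').2.2.1
  have hd3 : Disjoint (E2 ∪ clsO (-3) 3 ∪ E3) (clsO 5 1) := by
    rw [Finset.disjoint_left]
    intro x h h'
    rcases Finset.mem_union.mp h with h | h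
    · rcases Finset.mem_union.mp h with h | h
      · exact (E2_shape h).2.2.2 (O5_shape h').2.2.2
      · exact (O33_shape h).2.2.2 (O5_shape h').2.2.2
    · exact (E3_shape h).2.2.2 (O5_shape h').2.2.2
  rw [hset, Set.ncard_coe_finset, Finset.card_union_of_disjoint hd3,
    Finset.card_union_of_disjoint hd2, Finset.card_union_of_disjoint hd1, card_E2, card_O33,
    card_E3, card_O5]

end Cfsg.Agent.Lib.helper28.LC
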