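import Cfsg.Agent.Lib.helper28.LeechCnt6

set_option autoImplicit false

namespace Cfsg.Agent.Lib.helper28.LC

open Cfsg
open Cfsg.Agent.Lib.helper28
open Cfsg.Agent.Lib.helper27

/-! Even lattice vectors with all coordinates of absolute value less than 8. -/

/-- The pattern `2` on `o` plus `4` on `T`. -/
def pp (o T : Finset GolayPt) : GolayPt → ℤ := fun j => pat 2 o j + pat 4 T j

theorem pp_apply (o T : Finset GolayPt) (j : GolayPt) :
    pp o T j = (if j ∈ o then 2 else 0) + (if j ∈ T then 4 else 0) := rfl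

theorem pp_nonneg (o T : Finset GolayPt) (j : GolayPt) : 0 ≤ pp o T j := by
  rw [pp_apply]; split_ifs <;> norm_num

theorem pp_mem_iff (o T : Finset GolayPt) (j : GolayPt) : j ∈ o ↔ pp o T j % 4 = 2 := by
  rw [pp_apply]
  by_cases h1 : j ∈ o <;> by_cases h2 : j ∈ T <;> simp [h1, h2]

theorem pp_mem_iff' (o T : Finset GolayPt) (j : GolayPt) : j ∈ T ↔ 4 ≤ pp o T j := by
  rw [pp_apply]
  by_cases h1 : j ∈ o <;> by_cases h2 : j ∈ T <;> simp [h1, h2]

theorem pp_inj {o T o' T' : Finset GolayPt} (h : pp o T = pp o' T') : o = o' ∧ T = T' := by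
  constructor
  · ext j; rw [pp_mem_iff o T j, pp_mem_iff o' T' j, h]
  · ext j; rw [pp_mem_iff' o T j, pp_mem_iff' o' T' j, h]

theorem pp_empty (T : Finset GolayPt) : pp ∅ T = pat 4 T := by
  funext j
  rw [pp_apply]
  unfold pat
  simp

theorem sqNorm_pp (o T : Finset GolayPt) :
    sqNorm (pp o T) = 4 * o.card + 16 * T.card + 16 * (o ∩ T).card := by
  unfold sqNorm
  have h : ∀ j, pp o T j ^ 2 = (if j ∈ o then 4 else 0) + (if j ∈ T then 16 else 0) +
      (if j ∈ o ∩ T then (16 : ℤ) else 0) := by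
    intro j
    rw [pp_apply]
    by_cases h1 : j ∈ o <;> by_cases h2 : j ∈ T <;> simp [h1, h2]
  rw [Finset.sum_congr rfl (fun j _ => h j), Finset.sum_add_distrib, Finset.sum_add_distrib,
    sum_ite_mem_const, sum_ite_mem_const, sum_ite_mem_const]
  ring

theorem sum_tw_pp (o T u : Finset GolayPt) :
    (∑ j, tw u (pp o T) j) % 8 = (2 * (o.card : ℤ) + 4 * T.card + 4 * (u ∩ o).card) % 8 := by
  rw [sum_tw]
  have h1 : ∑ j, pp o T j = 2 * (o.card : ℤ) + 4 * T.card := by
    show ∑ j, (pat 2 o j + pat 4 T j) = _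
    rw [Finset.sum_add_distrib, sum_pat, sum_pat]; ring
  have h2 : (∑ j ∈ u, 2 * pp o T j) % 8 = (∑ j ∈ u, if j ∈ o then (4 : ℤ) else 0) % 8 := by
    apply modEq_sum
    intro j _
    rw [pp_apply]
    by_cases h1 : j ∈ o <;> by_cases h2 : j ∈ T <;> simp [h1, h2]
  rw [← Finset.mul_sum] at h2
  have h3 : ∑ j ∈ u, (if j ∈ o then (4 : ℤ) else 0) = 4 * ((u ∩ o).card : ℤ) := by
    rw [← Finset.sum_filter, Finset.filter_mem_eq_inter, Finset.sum_const]
    simp
    ring
  rw [h3] at h2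
  rw [h1]
  omega

theorem resSet_tw_pp (o T u : Finset GolayPt) : resSet (tw u (pp o T)) 2 = o := by
  ext j
  rw [mem_resSet]
  unfold tw
  rw [pp_apply]
  by_cases h1 : j ∈ o <;> by_cases h2 : j ∈ T <;> by_cases h3 : j ∈ u <;> simp [h1, h2, h3]

theorem tw_pp_even (o T u : Finset GolayPt) (j : GolayPt) : tw u (pp o T) j % 2 = 0 := by
  unfold tw
  rw [pp_apply]
  by_cases h1 : j ∈ o <;> by_cases h2 : j ∈ T <;> by_cases h3 : j ∈ u <;> simp [h1, h2, h3]

theorem abs_tw {a : GolayPt → ℤ} (ha : ∀ j, 0 ≤ a j) (s : Finset GolayPt) (j : GolayPt) :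
    |tw s a j| = a j := by
  unfold tw
  split_ifs
  · rw [abs_neg, abs_of_nonneg (ha j)]
  · exact abs_of_nonneg (ha j)

theorem tw_neg_iff {a : GolayPt → ℤ} (ha : ∀ j, 0 ≤ a j) {s : Finset GolayPt}
    (hs : ∀ j ∈ s, a j ≠ 0) (j : GolayPt) : tw s a j < 0 ↔ j ∈ s := by
  unfold tw
  by_cases hj : j ∈ s
  · rw [if_pos hj]
    have := ha j
    have := hs j hj
    simp only [hj, iff_true]
    omega
  · rw [if_neg hj]
    have := ha j
    simp only [hj, iff_false]
    omega

theorem tw_inj_nonneg {a a' : GolayPt → ℤ} (ha : ∀ j, 0 ≤ a j) (ha' : ∀ j, 0 ≤ a' j)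
    {s s' : Finset GolayPt} (hs : ∀ j ∈ s, a j ≠ 0) (hs' : ∀ j ∈ s', a' j ≠ 0)
    (h : tw s a = tw s' a') : a = a' ∧ s = s' := by
  constructor
  · funext j
    rw [← abs_tw ha s j, ← abs_tw ha' s' j, h]
  · ext j
    rw [← tw_neg_iff ha hs j, ← tw_neg_iff ha' hs' j, h]

/-- Structure of an even vector with small coordinates. -/
theorem even_pp {x : GolayPt → ℤ} (h1 : ∀ i, x i % 2 = 0) (hb : ∀ j, x j ^ 2 < 64) :
    ∃ T u : Finset GolayPt, u ⊆ resSet x 2 ∪ T ∧ x = tw u (pp (resSet x 2) T) := by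
  have hv : ∀ j, x j = 0 ∨ x j = 2 ∨ x j = -2 ∨ x j = 4 ∨ x j = -4 ∨ x j = 6 ∨ x j = -6 := by
    intro j
    have := h1 j
    have := hb j
    have h8 : -8 < x j ∧ x j < 8 := by constructor <;> nlinarith
    omega
  have hmem : ∀ j, j ∈ resSet x 2 ↔ x j % 4 = 2 := by
    intro j; rw [mem_resSet]; norm_num
  refine ⟨Finset.univ.filter fun j => 16 ≤ x j ^ 2, Finset.univ.filter fun j => x j < 0, ?_, ?_⟩
  · intro j hj
    rw [Finset.mem_filter] at hj
    rw [Finset.mem_union, hmem, Finset.mem_filter]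
    rcases hv j with h | h | h | h | h | h | h <;> rw [h] at hj ⊢ <;> norm_num at hj <;> norm_num
  · funext j
    unfold tw
    rw [pp_apply]
    simp only [Finset.mem_filter, Finset.mem_univ, true_and, hmem]
    rcases hv j with h | h | h | h | h | h | h <;> rw [h] <;> norm_num

/-! ### Classes of vectors `tw u (pp o T)` -/

/-- The class of the vectors `tw u (pp o T)` with `o ∈ I`, `T ∈ J o`, and `u ⊆ o ∪ T` meeting `o`
in a set of the parity of `T`. -/
noncomputable def clsP (I : Finset (Finset GolayPt))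
    (J : Finset GolayPt → Finset (Finset GolayPt)) : Finset (GolayPt → ℤ) :=
  cls (I.sigma J) (fun q => par (q.2.card % 2) q.1 ×ˢ (q.2 \ q.1).powerset)
    (fun q st => tw (st.1 ∪ st.2) (pp q.1 q.2))

theorem mem_clsP (I : Finset (Finset GolayPt)) (J : Finset GolayPt → Finset (Finset GolayPt))
    (x : GolayPt → ℤ) : x ∈ clsP I J ↔ ∃ o ∈ I, ∃ T ∈ J o, ∃ u : Finset GolayPt, u ⊆ o ∪ T ∧
      (u ∩ o).card % 2 = T.card % 2 ∧ x = tw u (pp o T) := by
  unfold clsP
  rw [mem_cls]
  constructor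
  · rintro ⟨⟨o, T⟩, hq, ⟨s, t⟩, hst, hx⟩
    rw [Finset.mem_sigma] at hq
    rw [Finset.mem_product, mem_par, Finset.mem_powerset] at hst
    refine ⟨o, hq.1, T, hq.2, s ∪ t, ?_, ?_, hx⟩
    · exact Finset.union_subset (hst.1.1.trans Finset.subset_union_left)
        (hst.2.trans (Finset.sdiff_subset.trans Finset.subset_union_right))
    · have : (s ∪ t) ∩ o = s := by
        ext j
        rw [Finset.mem_inter, Finset.mem_union]
        constructor
        · rintro ⟨h | h, h'⟩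
          · exact h
          · exact absurd h' (Finset.mem_sdiff.mp (hst.2 h)).2
        · intro h
          exact ⟨Or.inl h, hst.1.1 h⟩
      rw [this]
      exact hst.1.2
  · rintro ⟨o, ho, T, hT, u, hu, hpar, hx⟩
    refine ⟨⟨o, T⟩, Finset.mem_sigma.mpr ⟨ho, hT⟩, (u ∩ o, u \ o), ?_, ?_⟩
    · rw [Finset.mem_product, mem_par, Finset.mem_powerset]
      refine ⟨⟨Finset.inter_subset_right, hpar⟩, ?_⟩
      intro j hj
      rw [Finset.mem_sdiff] at hj ⊢
      rcases Finset.mem_union.mp (hu hj.1) with h | h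
      · exact absurd h hj.2
      · exact ⟨h, hj.2⟩
    · have : u ∩ o ∪ u \ o = u := by
        ext j
        rw [Finset.mem_union, Finset.mem_inter, Finset.mem_sdiff]
        tauto
      show x = tw (u ∩ o ∪ u \ o) (pp o T)
      rw [this]
      exact hx

theorem card_clsP (I : Finset (Finset GolayPt)) (J : Finset GolayPt → Finset (Finset GolayPt))
    (a b n : ℕ) (hI : ∀ o ∈ I, o.card = a + 1) (hJ : ∀ o ∈ I, (J o).card = n)
    (hb : ∀ o ∈ I, ∀ T ∈ J o, (T \ o).card = b) :
    (clsP I J).card = I.card * n * (2 ^ a * 2 ^ b) := by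
  unfold clsP
  rw [card_cls _ _ _ _ (2 ^ a * 2 ^ b), Finset.card_sigma, Finset.sum_const_nat hJ]
  · rintro ⟨o, T⟩ hq
    rw [Finset.mem_sigma] at hq
    rw [Finset.card_product, Finset.card_powerset, hb o hq.1 T hq.2,
      card_par _ (Nat.mod_lt _ (by norm_num)) (hI o hq.1)]
  · rintro ⟨o, T⟩ hq ⟨s, t⟩ hst ⟨o', T'⟩ hq' ⟨s', t'⟩ hst' h
    rw [Finset.mem_product, mem_par, Finset.mem_powerset] at hst hst'
    have hne : ∀ (o T s t : Finset GolayPt), s ⊆ o → t ⊆ T \ o →
        ∀ j ∈ s ∪ t, pp o T j ≠ 0 := by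
      intro o T s t hs ht j hj
      rcases Finset.mem_union.mp hj with h | h
      · have := (pp_mem_iff o T j).mp (hs h)
        omega
      · have := (pp_mem_iff' o T j).mp (Finset.mem_sdiff.mp (ht h)).1
        omega
    obtain ⟨h1, h2⟩ := tw_inj_nonneg (pp_nonneg o T) (pp_nonneg o' T')
      (hne o T s t hst.1.1 hst.2) (hne o' T' s' t' hst'.1.1 hst'.2) h
    obtain ⟨rfl, rfl⟩ := pp_inj h1
    have h2' : s ∪ t = s' ∪ t' := h2
    have hs : s = s' := by
      ext j
      constructor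
      · intro hj
        have : j ∈ s' ∪ t' := by rw [← h2']; exact Finset.mem_union_left _ hj
        rcases Finset.mem_union.mp this with h | h
        · exact h
        · exact absurd (hst.1.1 hj) (Finset.mem_sdiff.mp (hst'.2 h)).2
      · intro hj
        have : j ∈ s ∪ t := by rw [h2']; exact Finset.mem_union_left _ hj
        rcases Finset.mem_union.mp this with h | h
        · exact h
        · exact absurd (hst'.1.1 hj) (Finset.mem_sdiff.mp (hst.2 h)).2
    have ht : t = t' := by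
      ext j
      constructor
      · intro hj
        have : j ∈ s' ∪ t' := by rw [← h2']; exact Finset.mem_union_right _ hj
        rcases Finset.mem_union.mp this with h | h
        · exact absurd (hst'.1.1 h) (Finset.mem_sdiff.mp (hst.2 hj)).2
        · exact h
      · intro hj
        have : j ∈ s ∪ t := by rw [h2']; exact Finset.mem_union_right _ hj
        rcases Finset.mem_union.mp this with h | h
        · exact absurd (hst.1.1 h) (Finset.mem_sdiff.mp (hst'.2 hj)).2
        · exact h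
    rw [hs, ht]
    exact ⟨rfl, rfl⟩

theorem clsP_props {I : Finset (Finset GolayPt)} {J : Finset GolayPt → Finset (Finset GolayPt)}
    {x : GolayPt → ℤ} (hI : ∀ o ∈ I, o ∈ GC) (hx : x ∈ clsP I J) :
    ∃ o ∈ I, ∃ T ∈ J o, x ∈ leechLattice ∧
      sqNorm x = 4 * o.card + 16 * T.card + 16 * (o ∩ T).card ∧ (∀ i, x i % 2 = 0) ∧
      resSet x 2 = o ∧ ∀ i, |x i| = pp o T i := by
  rw [mem_clsP] at hx
  obtain ⟨o, ho, T, hT, u, hu, hpar, hxe⟩ := hx
  refine ⟨o, ho, T, hT, ?_⟩
  rw [hxe]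
  have h4 := four_dvd_card_of_mem_supports (hI o ho)
  refine ⟨mem_leech_of_even (tw_pp_even o T u) ?_ ?_, ?_, tw_pp_even o T u, resSet_tw_pp o T u,
    abs_tw (pp_nonneg o T) u⟩
  · rw [sum_tw_pp]
    omega
  · rw [resSet_tw_pp]; exact hI o ho
  · rw [sqNorm_tw, sqNorm_pp]

end Cfsg.Agent.Lib.helper28.LC
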