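import Cfsg.Agent.Lib.helper28.LeechCnt7

set_option autoImplicit false

namespace Cfsg.Agent.Lib.helper28.LC

open Cfsg
open Cfsg.Agent.Lib.helper28
open Cfsg.Agent.Lib.helper27

/-! Lattice vectors of norm 64: the classes. -/

/-- The code words of weight 16. -/
def hex16 : Finset (Finset GolayPt) := octadFinset.image fun o => oᶜ

theorem card_hex16 : hex16.card = 759 := by
  unfold hex16
  rw [Finset.card_image_of_injective _ compl_injective, card_octadFinset]

theorem mem_hex16 (h : Finset GolayPt) : h ∈ hex16 ↔ h ∈ GC ∧ h.card = 16 := by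
  unfold hex16
  rw [Finset.mem_image]
  constructor
  · rintro ⟨o, ho, hoe⟩
    rw [mem_octadFinset] at ho
    rw [← hoe]
    refine ⟨compl_mem_supports ho.1, ?_⟩
    rw [Finset.card_compl, show Fintype.card GolayPt = 24 from by decide, ho.2]
  · rintro ⟨h1, h2⟩
    refine ⟨hᶜ, (mem_octadFinset _).mpr ⟨compl_mem_supports h1, ?_⟩, compl_compl h⟩
    rw [Finset.card_compl, show Fintype.card GolayPt = 24 from by decide, h2]

/-- Shape `(±2)^16`. -/
noncomputable def H16 : Finset (GolayPt → ℤ) := clsP hex16 (fun _ => {∅})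

/-- Shape `(±4)(±2)^12`. -/
noncomputable def E4b : Finset (GolayPt → ℤ) :=
  clsP dodecadFinset (fun d => Finset.powersetCard 1 dᶜ)

/-- Shape `(±6)(±2)^7`. -/
noncomputable def E6 : Finset (GolayPt → ℤ) := clsP octadFinset (fun o => Finset.powersetCard 1 o)

/-- Shape `(±4)^2(±2)^8`. -/
noncomputable def E7 : Finset (GolayPt → ℤ) :=
  clsP octadFinset (fun o => Finset.powersetCard 2 oᶜ)

/-- Shape `(±4)^4`. -/
noncomputable def E44 : Finset (GolayPt → ℤ) :=
  clsE 4 (Finset.powersetCard 4 Finset.univ) (fun p => p.powerset)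

/-- Shape `(±8)`. -/
noncomputable def E8 : Finset (GolayPt → ℤ) :=
  clsE 8 (Finset.powersetCard 1 Finset.univ) (fun p => p.powerset)

theorem sdiff_of_subset_compl {o T : Finset GolayPt} (h : T ⊆ oᶜ) : T \ o = T := by
  ext j
  rw [Finset.mem_sdiff]
  constructor
  · exact fun h' => h'.1
  · exact fun h' => ⟨h', Finset.mem_compl.mp (h h')⟩

theorem card_H16 : H16.card = 24870912 := by
  unfold H16
  rw [card_clsP _ _ 15 0 1 (fun o ho => ((mem_hex16 o).mp ho).2) (fun o _ => Finset.card_singleton _)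
    (fun o _ T hT => by rw [Finset.mem_singleton.mp hT]; simp), card_hex16]
  norm_num

theorem card_E4b : E4b.card = 126615552 := by
  unfold E4b
  rw [card_clsP _ _ 11 1 12 (fun o ho => ((mem_dodecadFinset o).mp ho).2) (fun o ho => by
      rw [Finset.card_powersetCard, Finset.card_compl, ((mem_dodecadFinset o).mp ho).2,
        show Fintype.card GolayPt = 24 from by decide]; rfl)
    (fun o _ T hT => by
      rw [Finset.mem_powersetCard] at hT
      rw [sdiff_of_subset_compl hT.1, hT.2]), card_dodecadFinset]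
  norm_num

theorem card_E6 : E6.card = 777216 := by
  unfold E6
  rw [card_clsP _ _ 7 0 8 (fun o ho => ((mem_octadFinset o).mp ho).2) (fun o ho => by
      rw [Finset.card_powersetCard, ((mem_octadFinset o).mp ho).2]; rfl)
    (fun o _ T hT => by
      rw [Finset.mem_powersetCard] at hT
      rw [Finset.sdiff_eq_empty_iff_subset.mpr hT.1, Finset.card_empty]), card_octadFinset]
  norm_num

theorem card_E7 : E7.card = 46632960 := by
  unfold E7
  rw [card_clsP _ _ 7 2 120 (fun o ho => ((mem_octadFinset o).mp ho).2) (fun o ho => by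
      rw [Finset.card_powersetCard, Finset.card_compl, ((mem_octadFinset o).mp ho).2,
        show Fintype.card GolayPt = 24 from by decide]; rfl)
    (fun o _ T hT => by
      rw [Finset.mem_powersetCard] at hT
      rw [sdiff_of_subset_compl hT.1, hT.2]), card_octadFinset]
  norm_num

theorem card_E44 : E44.card = 170016 := by
  unfold E44
  rw [card_clsE (by norm_num) _ _ (fun p _ s hs => Finset.mem_powerset.mp hs) 16 (fun p hp => by
    rw [Finset.card_powerset, (Finset.mem_powersetCard.mp hp).2]; rfl),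
    Finset.card_powersetCard, Finset.card_univ, show Fintype.card GolayPt = 24 from by decide]
  decide

theorem card_E8 : E8.card = 48 := by
  unfold E8
  rw [card_clsE (by norm_num) _ _ (fun p _ s hs => Finset.mem_powerset.mp hs) 2 (fun p hp => by
    rw [Finset.card_powerset, (Finset.mem_powersetCard.mp hp).2]; rfl),
    Finset.card_powersetCard, Finset.card_univ, show Fintype.card GolayPt = 24 from by decide]
  decide

/-! ### Odd vectors of norm 64 -/

/-- The pattern with `5` at `i`, `-3` on `T` and `1` elsewhere (for `i ∉ T`). -/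
def p53 (T : Finset GolayPt) (i : GolayPt) : GolayPt → ℤ := fun j => pt1 (-3) T j + pat 4 {i} j

theorem p53_apply (T : Finset GolayPt) (i j : GolayPt) :
    p53 T i j = (if j ∈ T then -3 else 1) + (if j ∈ ({i} : Finset GolayPt) then 4 else 0) := rfl

theorem p53_mod (T : Finset GolayPt) (i j : GolayPt) : p53 T i j % 4 = 1 := by
  rw [p53_apply]
  split_ifs <;> decide

theorem p53_at {T : Finset GolayPt} {i : GolayPt} (hi : i ∉ T) : p53 T i i = 5 := by
  rw [p53_apply, if_neg hi, if_pos (Finset.mem_singleton_self i)]; rfl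

theorem p53_ne {T : Finset GolayPt} {i j : GolayPt} (hj : j ≠ i) :
    p53 T i j = if j ∈ T then -3 else 1 := by
  have hjs : j ∉ ({i} : Finset GolayPt) := by rw [Finset.mem_singleton]; exact hj
  rw [p53_apply, if_neg hjs, add_zero]

theorem p53_inj {T T' : Finset GolayPt} {i i' : GolayPt} (hi : i ∉ T) (hi' : i' ∉ T')
    (h : p53 T i = p53 T' i') : T = T' ∧ i = i' := by
  have hii : i = i' := by
    by_contra hne
    have h1 := congrFun h i
    rw [p53_at hi, p53_ne hne] at h1
    split_ifs at h1 <;> omega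
  subst hii
  refine ⟨?_, rfl⟩
  ext j
  by_cases hj : j = i
  · rw [hj]; exact ⟨fun h' => absurd h' hi, fun h' => absurd h' hi'⟩
  · have h1 := congrFun h j
    rw [p53_ne hj, p53_ne hj] at h1
    constructor
    · intro hT
      by_contra hT'
      rw [if_pos hT, if_neg hT'] at h1
      omega
    · intro hT'
      by_contra hT
      rw [if_neg hT, if_pos hT'] at h1
      omega

theorem sum_p53 (T : Finset GolayPt) (i : GolayPt) : ∑ j, p53 T i j = 24 + T.card * (-4) + 4 := by
  show ∑ j, (pt1 (-3) T j + pat 4 {i} j) = _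
  rw [Finset.sum_add_distrib, sum_pt1, sum_pat, Finset.card_singleton]
  push_cast
  ring

theorem sqNorm_p53 {T : Finset GolayPt} {i : GolayPt} (hi : i ∉ T) :
    sqNorm (p53 T i) = 24 + T.card * 8 + 24 := by
  have hpt : ∀ j, p53 T i j ^ 2 = pt1 (-3) T j ^ 2 + (if j ∈ ({i} : Finset GolayPt) then 24 else 0) := by
    intro j
    rw [p53_apply]
    unfold pt1
    by_cases hj : j = i
    · rw [hj, if_neg hi, if_pos (Finset.mem_singleton_self i)]; norm_num
    · have hjs : j ∉ ({i} : Finset GolayPt) := by rw [Finset.mem_singleton]; exact hj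
      rw [if_neg hjs, if_neg hjs]; ring
  have h1 := sqNorm_pt1 (-3) T
  unfold sqNorm at h1 ⊢
  rw [Finset.sum_congr rfl (fun j _ => hpt j), Finset.sum_add_distrib, h1, sum_ite_mem_const,
    Finset.card_singleton]
  push_cast
  ring

theorem pat64 {a : GolayPt → ℤ} (h1 : ∀ j, a j % 4 = 1) (hn : sqNorm a = 64) :
    (∃ T : Finset GolayPt, T.card = 5 ∧ a = pt1 (-3) T) ∨
      (∃ T : Finset GolayPt, T.card = 2 ∧ ∃ i, i ∉ T ∧ a = p53 T i) := by
  have hs : ∑ j, (a j ^ 2 - 1) = 40 := by rw [sum_sq_sub_one, hn]; norm_num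
  have hnn : ∀ j, 0 ≤ a j ^ 2 - 1 := by
    intro j
    rcases sq_cases_one (h1 j) with h | h | h | h
    · rw [h]; norm_num
    · rw [h]; norm_num
    · rw [h]; norm_num
    · omega
  have hle : ∀ j, a j ^ 2 - 1 ≤ 40 := by
    intro j
    rw [← hs]
    exact Finset.single_le_sum (f := fun i => a i ^ 2 - 1) (fun i _ => hnn i) (Finset.mem_univ j)
  have hv : ∀ j, a j = 1 ∨ a j = -3 ∨ a j = 5 := by
    intro j
    have := hle j
    rcases sq_cases_one (h1 j) with h | h | h | h
    · exact Or.inl h
    · exact Or.inr (Or.inl h)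
    · exact Or.inr (Or.inr h)
    · omega
  by_cases hbig : ∃ j0, a j0 = 5
  · obtain ⟨j0, hj0⟩ := hbig
    right
    have hg : ∑ j, (a j ^ 2 - 1 - (if j ∈ ({j0} : Finset GolayPt) then 24 else 0)) = 16 := by
      rw [Finset.sum_sub_distrib, hs, sum_ite_mem_const, Finset.card_singleton]
      norm_num
    have hg0 : ∀ j, a j ^ 2 - 1 - (if j ∈ ({j0} : Finset GolayPt) then 24 else 0) = 0 ∨
        a j ^ 2 - 1 - (if j ∈ ({j0} : Finset GolayPt) then 24 else 0) = 8 ∨
        a j ^ 2 - 1 - (if j ∈ ({j0} : Finset GolayPt) then 24 else 0) = 24 := by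
      intro j
      by_cases hj : j = j0
      · rw [if_pos (Finset.mem_singleton.mpr hj), hj, hj0]; norm_num
      · rw [if_neg (by rw [Finset.mem_singleton]; exact hj)]
        rcases hv j with h | h | h <;> rw [h] <;> norm_num
    have hnn' : ∀ j, 0 ≤ a j ^ 2 - 1 - (if j ∈ ({j0} : Finset GolayPt) then 24 else 0) := by
      intro j; rcases hg0 j with h | h | h <;> omega
    have hle' : ∀ j, a j ^ 2 - 1 - (if j ∈ ({j0} : Finset GolayPt) then 24 else 0) ≤ 16 := by
      intro j
      rw [← hg]
      exact Finset.single_le_sum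
        (f := fun i => a i ^ 2 - 1 - (if i ∈ ({j0} : Finset GolayPt) then 24 else 0))
        (fun i _ => hnn' i) (Finset.mem_univ j)
    have hl := level_sum _ 8 (fun j => by
      have := hle' j
      rcases hg0 j with h | h | h
      · exact Or.inl h
      · exact Or.inr h
      · omega)
    rw [hg] at hl
    refine ⟨Finset.univ.filter
      (fun j => a j ^ 2 - 1 - (if j ∈ ({j0} : Finset GolayPt) then 24 else 0) ≠ 0),
      by omega, j0, ?_, ?_⟩
    · rw [Finset.mem_filter]
      rw [if_pos (Finset.mem_singleton_self j0), hj0]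
      norm_num
    · funext j
      by_cases hj : j = j0
      · rw [p53_apply, hj, if_pos (Finset.mem_singleton_self j0), hj0]
        rw [if_neg (by
          rw [Finset.mem_filter, if_pos (Finset.mem_singleton_self j0), hj0]; norm_num)]
        rfl
      · rw [p53_ne hj]
        have hjs : j ∉ ({j0} : Finset GolayPt) := by rw [Finset.mem_singleton]; exact hj
        have hl' := hle' j
        rw [if_neg hjs] at hl'
        rcases hv j with h | h | h
        · rw [if_neg (by rw [Finset.mem_filter, if_neg hjs, h]; norm_num), h]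
        · rw [if_pos (by rw [Finset.mem_filter, if_neg hjs, h]; norm_num), h]
        · rw [h] at hl'; norm_num at hl'
  · push Not at hbig
    left
    have h0 : ∀ j, a j ^ 2 - 1 = 0 ∨ a j ^ 2 - 1 = 8 := by
      intro j
      rcases hv j with h | h | h
      · left; rw [h]; norm_num
      · right; rw [h]; norm_num
      · exact absurd h (hbig j)
    have hl := level_sum _ 8 h0
    rw [hs] at hl
    refine ⟨Finset.univ.filter (fun j => a j ^ 2 - 1 ≠ 0), by omega, ?_⟩
    funext j
    unfold pt1
    rcases hv j with h | h | h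
    · rw [if_neg (by simp [h]), h]
    · rw [if_pos (by simp [h]), h]
    · exact absurd h (hbig j)

/-- Shape `(±5)(±3)^2(±1)^21`. -/
noncomputable def O53 : Finset (GolayPt → ℤ) :=
  cls codeFinset (fun _ => (Finset.powersetCard 2 Finset.univ).sigma (fun T => Tᶜ))
    (fun c q => tw c (p53 q.1 q.2))

set_option linter.constructorNameAsVariable false in
theorem mem_O53 (x : GolayPt → ℤ) : x ∈ O53 ↔ ∃ c ∈ GC, ∃ T : Finset GolayPt, T.card = 2 ∧
    ∃ i, i ∉ T ∧ x = tw c (p53 T i) := by
  unfold O53
  rw [mem_cls]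
  constructor
  · rintro ⟨c, hc, ⟨T, i⟩, hq, hx⟩
    rw [Finset.mem_sigma, Finset.mem_powersetCard, Finset.mem_compl] at hq
    exact ⟨c, (mem_codeFinset c).mp hc, T, hq.1.2, i, hq.2, hx⟩
  · rintro ⟨c, hc, T, hT, i, hi, hx⟩
    refine ⟨c, (mem_codeFinset c).mpr hc, ⟨T, i⟩, ?_, hx⟩
    rw [Finset.mem_sigma, Finset.mem_powersetCard, Finset.mem_compl]
    exact ⟨⟨Finset.subset_univ _, hT⟩, hi⟩

set_option linter.constructorNameAsVariable false in
theorem card_O53 : O53.card = 24870912 := by
  unfold O53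
  rw [card_cls _ _ _ _ 6072, card_codeFinset]
  · intro c _
    rw [Finset.card_sigma, Finset.sum_const_nat (m := 22) (fun T hT => by
      rw [Finset.card_compl, (Finset.mem_powersetCard.mp hT).2,
        show Fintype.card GolayPt = 24 from by decide]),
      Finset.card_powersetCard, Finset.card_univ, show Fintype.card GolayPt = 24 from by decide]
    decide
  · rintro c hc ⟨T, i⟩ hq c' hc' ⟨T', i'⟩ hq' h
    rw [Finset.mem_sigma, Finset.mem_powersetCard, Finset.mem_compl] at hq hq'
    have hcc : c = c' := by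
      rw [← resSet_tw (p53_mod T i) c]
      have h' : tw c (p53 T i) = tw c' (p53 T' i') := h
      rw [h', resSet_tw (p53_mod T' i') c']
    subst hcc
    have h2 : p53 T i = p53 T' i' := by
      have h' : tw c (p53 T i) = tw c (p53 T' i') := h
      rw [← tw_tw c (p53 T i), h', tw_tw]
    obtain ⟨rfl, rfl⟩ := p53_inj hq.2 hq'.2 h2
    exact ⟨rfl, rfl⟩

theorem odd64 {x : GolayPt → ℤ} (hx : x ∈ leechLattice) (hn : sqNorm x = 64)
    (hodd : ∀ i, x i % 2 = 1) : x ∈ clsO (-3) 5 ∨ x ∈ O53 := by
  rw [mem_clsO, mem_O53]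
  obtain ⟨c, hc, a, h1, h2, hxa⟩ := odd_of_mem 64 hx hn hodd
  rcases pat64 h1 h2 with ⟨T, hT, haT⟩ | ⟨T, hT, i, hi, haT⟩
  · exact Or.inl ⟨c, hc, T, hT, by rw [hxa, haT]⟩
  · exact Or.inr ⟨c, hc, T, hT, i, hi, by rw [hxa, haT]⟩

theorem O53_props {x : GolayPt → ℤ} (hx : x ∈ O53) :
    x ∈ leechLattice ∧ sqNorm x = 64 ∧ (∀ i, x i % 2 = 1) ∧ ∃ i, x i = 5 ∨ x i = -5 := by
  rw [mem_O53] at hx
  obtain ⟨c, hc, T, hT, i, hi, hxe⟩ := hx
  rw [hxe]
  refine ⟨mem_of_odd hc (p53_mod T i) (by rw [sum_p53, hT]; decide), ?_, ?_, i, ?_⟩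
  · rw [sqNorm_tw, sqNorm_p53 hi, hT]; norm_num
  · intro j
    unfold tw
    have := p53_mod T i j
    split_ifs <;> omega
  · unfold tw
    rw [p53_at hi]
    split_ifs <;> simp

end Cfsg.Agent.Lib.helper28.LC
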