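import Cfsg.Agent.Lib.helper28.LeechCnt8

set_option autoImplicit false

namespace Cfsg.Agent.Lib.helper28.LC

open Cfsg
open Cfsg.Agent.Lib.helper28
open Cfsg.Agent.Lib.helper27

/-! Lattice vectors of norm 64: classification and count. -/

theorem resSet_tw_pat_zero {v : ℤ} (hv : v % 4 = 0) (p s : Finset GolayPt) :
    resSet (tw s (pat v p)) 2 = ∅ := by
  ext j
  rw [mem_resSet]
  simp only [Finset.notMem_empty, iff_false]
  by_cases hj : j ∈ p
  · rcases tw_pat_mem v s hj with h | h <;> rw [h] <;> omega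
  · rw [tw_pat_not_mem v s hj]
    decide

theorem resSet_of_odd {x : GolayPt → ℤ} (h : ∀ i, x i % 2 = 1) : resSet x 2 = ∅ := by
  ext j
  rw [mem_resSet]
  have := h j
  simp only [Finset.notMem_empty, iff_false]
  omega

theorem subset_compl_of_inter {o T : Finset GolayPt} (hz : (o ∩ T).card = 0) : T ⊆ oᶜ := by
  intro j hj
  rw [Finset.mem_compl]
  intro hjo
  have : j ∈ o ∩ T := Finset.mem_inter.mpr ⟨hjo, hj⟩
  rw [Finset.card_eq_zero.mp hz] at this
  exact Finset.notMem_empty j this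

theorem inter_of_subset_compl {o T : Finset GolayPt} (h : T ⊆ oᶜ) : (o ∩ T).card = 0 := by
  rw [Finset.card_eq_zero]
  ext j
  simp only [Finset.mem_inter, Finset.notMem_empty, iff_false, not_and]
  intro hjo hjT
  exact Finset.mem_compl.mp (h hjT) hjo

theorem even64 {x : GolayPt → ℤ} (hx : x ∈ leechLattice) (hn : sqNorm x = 64)
    (h1 : ∀ i, x i % 2 = 0) : x ∈ H16 ∨ x ∈ E4b ∨ x ∈ E6 ∨ x ∈ E7 ∨ x ∈ E44 ∨ x ∈ E8 := by
  unfold H16 E4b E6 E7 E44 E8
  rw [mem_clsP, mem_clsP, mem_clsP, mem_clsP, mem_clsE, mem_clsE]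
  obtain ⟨h2, h3⟩ := even_data hx h1
  by_cases hbig : ∃ j0, 64 ≤ x j0 ^ 2
  · obtain ⟨j0, hj0⟩ := hbig
    have hs : ∑ j, x j ^ 2 = 64 := hn
    obtain ⟨he, hrest⟩ := pigeon_big (fun j => x j ^ 2) 64 (fun j => sq_nonneg (x j)) hs j0 hj0
    have h8 : x j0 = 8 ∨ x j0 = -8 := by
      have : (x j0 - 8) * (x j0 + 8) = 0 := by linear_combination he
      rcases mul_eq_zero.mp this with h | h
      · left; omega
      · right; omega
    have h0 : ∀ j, j ≠ j0 → x j = 0 := fun j hj => by
      have : x j ^ 2 = 0 := hrest j hj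
      exact pow_eq_zero_iff (by norm_num) |>.mp this
    right; right; right; right; right
    refine ⟨{j0}, Finset.mem_powersetCard.mpr ⟨Finset.subset_univ _, Finset.card_singleton j0⟩, ?_⟩
    rcases h8 with h | h
    · refine ⟨∅, Finset.mem_powerset.mpr (Finset.empty_subset _), ?_⟩
      funext j
      unfold tw pat
      by_cases hj : j = j0
      · rw [if_neg (Finset.notMem_empty j), if_pos (Finset.mem_singleton.mpr hj), hj, h]
      · have hjs : j ∉ ({j0} : Finset GolayPt) := by rw [Finset.mem_singleton]; exact hj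
        rw [if_neg (Finset.notMem_empty j), if_neg hjs, h0 j hj]
    · refine ⟨{j0}, Finset.mem_powerset.mpr (Finset.Subset.refl _), ?_⟩
      funext j
      unfold tw pat
      by_cases hj : j = j0
      · have hjs : j ∈ ({j0} : Finset GolayPt) := Finset.mem_singleton.mpr hj
        rw [if_pos hjs, if_pos hjs, hj, h]
      · have hjs : j ∉ ({j0} : Finset GolayPt) := by rw [Finset.mem_singleton]; exact hj
        rw [if_neg hjs, if_neg hjs, h0 j hj]
  · push Not at hbig
    obtain ⟨T, u, hu, hxe⟩ := even_pp h1 hbig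
    have hnn := sqNorm_pp (resSet x 2) T
    rw [← sqNorm_tw u, ← hxe, hn] at hnn
    have hsum := sum_tw_pp (resSet x 2) T u
    rw [← hxe, h2] at hsum
    have hiT : ((resSet x 2) ∩ T).card ≤ T.card := Finset.card_le_card Finset.inter_subset_right
    have hio : ((resSet x 2) ∩ T).card ≤ (resSet x 2).card :=
      Finset.card_le_card Finset.inter_subset_left
    rcases card_of_mem_supports h3 with hc | hc | hc | hc | hc
    · right; right; right; right; left
      have hT4 : T.card = 4 := by omega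
      have ho0 : resSet x 2 = ∅ := Finset.card_eq_zero.mp hc
      rw [ho0, pp_empty] at hxe
      rw [ho0, Finset.empty_union] at hu
      exact ⟨T, Finset.mem_powersetCard.mpr ⟨Finset.subset_univ _, hT4⟩, u,
        Finset.mem_powerset.mpr hu, hxe⟩
    · by_cases hz : ((resSet x 2) ∩ T).card = 0
      · right; right; right; left
        exact ⟨resSet x 2, (mem_octadFinset _).mpr ⟨h3, hc⟩, T,
          Finset.mem_powersetCard.mpr ⟨subset_compl_of_inter hz, by omega⟩, u, hu, by omega, hxe⟩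
      · right; right; left
        have hTo : T ⊆ resSet x 2 := by
          have : resSet x 2 ∩ T = T :=
            Finset.eq_of_subset_of_card_le Finset.inter_subset_right (by omega)
          rw [← this]; exact Finset.inter_subset_left
        exact ⟨resSet x 2, (mem_octadFinset _).mpr ⟨h3, hc⟩, T,
          Finset.mem_powersetCard.mpr ⟨hTo, by omega⟩, u, hu, by omega, hxe⟩
    · right; left
      have hz : ((resSet x 2) ∩ T).card = 0 := by omega
      exact ⟨resSet x 2, (mem_dodecadFinset _).mpr ⟨h3, hc⟩, T,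
        Finset.mem_powersetCard.mpr ⟨subset_compl_of_inter hz, by omega⟩, u, hu, by omega, hxe⟩
    · left
      have hT0 : T = ∅ := Finset.card_eq_zero.mp (by omega)
      exact ⟨resSet x 2, (mem_hex16 _).mpr ⟨h3, hc⟩, T, Finset.mem_singleton.mpr hT0, u, hu,
        by omega, hxe⟩
    · omega

/-! ### Signatures -/

open Classical in
/-- A signature separating the classes of vectors of norm 64. -/
noncomputable def sig (x : GolayPt → ℤ) : ℤ × ℕ × ℕ :=
  (x none % 2, (resSet x 2).card, if ∃ i, 5 ≤ |x i| then 1 else 0)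

theorem sig_small {x : GolayPt → ℤ} {p : ℤ} {r : ℕ} (hp : x none % 2 = p)
    (hr : (resSet x 2).card = r) (h : ∀ i, |x i| < 5) : sig x = (p, r, 0) := by
  unfold sig
  rw [hp, hr, if_neg (by push Not; exact h)]

theorem sig_big {x : GolayPt → ℤ} {p : ℤ} {r : ℕ} (hp : x none % 2 = p)
    (hr : (resSet x 2).card = r) (h : ∃ i, 5 ≤ |x i|) : sig x = (p, r, 1) := by
  unfold sig
  rw [hp, hr, if_pos h]

theorem pp_lt_five {o T : Finset GolayPt} (h : (o ∩ T).card = 0) (j : GolayPt) :
    pp o T j < 5 := by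
  rw [pp_apply]
  by_cases h1 : j ∈ o <;> by_cases h2 : j ∈ T
  · exfalso
    have : j ∈ o ∩ T := Finset.mem_inter.mpr ⟨h1, h2⟩
    rw [Finset.card_eq_zero.mp h] at this
    exact Finset.notMem_empty j this
  all_goals simp [h1, h2]

set_option linter.constructorNameAsVariable false in
theorem H16_props {x : GolayPt → ℤ} (hx : x ∈ H16) :
    x ∈ leechLattice ∧ sqNorm x = 64 ∧ sig x = (0, 16, 0) := by
  obtain ⟨o, ho, T, hT, h1, h2, h3, h4, h5⟩ :=
    clsP_props (fun o ho => ((mem_hex16 o).mp ho).1) hx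
  have hc : o.card = 16 := ((mem_hex16 o).mp ho).2
  have hT0 : T = ∅ := Finset.mem_singleton.mp hT
  have hTc : T.card = 0 := by rw [hT0]; rfl
  have hi : (o ∩ T).card = 0 := by rw [hT0]; simp
  refine ⟨h1, by rw [h2, hc, hTc, hi]; norm_num, sig_small (h3 none) (by rw [h4]; exact hc)
    (fun i => by rw [h5 i]; exact pp_lt_five hi i)⟩

set_option linter.constructorNameAsVariable false in
theorem E4b_props {x : GolayPt → ℤ} (hx : x ∈ E4b) :
    x ∈ leechLattice ∧ sqNorm x = 64 ∧ sig x = (0, 12, 0) := by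
  obtain ⟨o, ho, T, hT, h1, h2, h3, h4, h5⟩ :=
    clsP_props (fun o ho => ((mem_dodecadFinset o).mp ho).1) hx
  have hc : o.card = 12 := ((mem_dodecadFinset o).mp ho).2
  rw [Finset.mem_powersetCard] at hT
  have hi : (o ∩ T).card = 0 := inter_of_subset_compl hT.1
  refine ⟨h1, by rw [h2, hc, hT.2, hi]; norm_num, sig_small (h3 none) (by rw [h4]; exact hc)
    (fun i => by rw [h5 i]; exact pp_lt_five hi i)⟩

set_option linter.constructorNameAsVariable false in
theorem E6_props {x : GolayPt → ℤ} (hx : x ∈ E6) :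
    x ∈ leechLattice ∧ sqNorm x = 64 ∧ sig x = (0, 8, 1) := by
  obtain ⟨o, ho, T, hT, h1, h2, h3, h4, h5⟩ :=
    clsP_props (fun o ho => ((mem_octadFinset o).mp ho).1) hx
  have hc : o.card = 8 := ((mem_octadFinset o).mp ho).2
  rw [Finset.mem_powersetCard] at hT
  have hi : o ∩ T = T := Finset.inter_eq_right.mpr hT.1
  obtain ⟨i, hiT⟩ := Finset.card_pos.mp (by rw [hT.2]; norm_num : 0 < T.card)
  refine ⟨h1, by rw [h2, hc, hi, hT.2]; norm_num, sig_big (h3 none) (by rw [h4]; exact hc)
    ⟨i, ?_⟩⟩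
  rw [h5 i, pp_apply, if_pos (hT.1 hiT), if_pos hiT]
  norm_num

set_option linter.constructorNameAsVariable false in
theorem E7_props {x : GolayPt → ℤ} (hx : x ∈ E7) :
    x ∈ leechLattice ∧ sqNorm x = 64 ∧ sig x = (0, 8, 0) := by
  obtain ⟨o, ho, T, hT, h1, h2, h3, h4, h5⟩ :=
    clsP_props (fun o ho => ((mem_octadFinset o).mp ho).1) hx
  have hc : o.card = 8 := ((mem_octadFinset o).mp ho).2
  rw [Finset.mem_powersetCard] at hT
  have hi : (o ∩ T).card = 0 := inter_of_subset_compl hT.1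
  refine ⟨h1, by rw [h2, hc, hT.2, hi]; norm_num, sig_small (h3 none) (by rw [h4]; exact hc)
    (fun i => by rw [h5 i]; exact pp_lt_five hi i)⟩

theorem pat_nonneg {v : ℤ} (hv : 0 ≤ v) (p : Finset GolayPt) (j : GolayPt) : 0 ≤ pat v p j := by
  unfold pat
  split_ifs
  · exact hv
  · exact le_refl 0

theorem pat_le {v : ℤ} (hv : 0 ≤ v) (p : Finset GolayPt) (j : GolayPt) : pat v p j ≤ v := by
  unfold pat
  split_ifs
  · exact le_refl v
  · exact hv

theorem E44_props {x : GolayPt → ℤ} (hx : x ∈ E44) :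
    x ∈ leechLattice ∧ sqNorm x = 64 ∧ sig x = (0, 0, 0) := by
  unfold E44 at hx
  rw [mem_clsE] at hx
  obtain ⟨p, hp, s, hs, hxe⟩ := hx
  rw [Finset.mem_powersetCard] at hp
  rw [Finset.mem_powerset] at hs
  rw [hxe]
  have hev := tw_pat_even (v := 4) (by decide) p s
  refine ⟨mem_leech_of_even hev ?_ ?_, ?_, sig_small (hev none) (by rw [resSet_tw_pat4]; rfl) ?_⟩
  · rw [sum_tw_pat 4 p s hs, hp.2]
    have := Finset.card_le_card hs
    omega
  · rw [resSet_tw_pat4]; exact empty_mem_supports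
  · rw [sqNorm_tw_pat, hp.2]; norm_num
  · intro i
    rw [abs_tw (pat_nonneg (by norm_num) p) s i]
    have := pat_le (v := 4) (by norm_num) p i
    omega

theorem E8_props {x : GolayPt → ℤ} (hx : x ∈ E8) :
    x ∈ leechLattice ∧ sqNorm x = 64 ∧ sig x = (0, 0, 1) := by
  unfold E8 at hx
  rw [mem_clsE] at hx
  obtain ⟨p, hp, s, hs, hxe⟩ := hx
  rw [Finset.mem_powersetCard] at hp
  rw [Finset.mem_powerset] at hs
  rw [hxe]
  have hev := tw_pat_even (v := 8) (by decide) p s
  obtain ⟨i, hip⟩ := Finset.card_pos.mp (by rw [hp.2]; norm_num : 0 < p.card)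
  refine ⟨mem_leech_of_even hev ?_ ?_, ?_, sig_big (hev none)
    (by rw [resSet_tw_pat_zero (by decide)]; rfl) ⟨i, ?_⟩⟩
  · rw [sum_tw_pat 8 p s hs, hp.2]
    have := Finset.card_le_card hs
    omega
  · rw [resSet_tw_pat_zero (by decide)]; exact empty_mem_supports
  · rw [sqNorm_tw_pat, hp.2]; norm_num
  · rw [abs_tw (pat_nonneg (by norm_num) p) s i]
    unfold pat
    rw [if_pos hip]
    norm_num

theorem O5x_props {x : GolayPt → ℤ} (hx : x ∈ clsO (-3) 5) :
    x ∈ leechLattice ∧ sqNorm x = 64 ∧ sig x = (1, 0, 0) := by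
  obtain ⟨h1, h2, h3, -⟩ := clsO_props (v := -3) (r := 5) (by decide) (by decide) hx
  have hodd : ∀ i, x i % 2 = 1 := by
    intro i
    rcases h3 i with h | h | h | h <;> rw [h] <;> decide
  refine ⟨h1, by rw [h2]; norm_num, sig_small (hodd none) (by rw [resSet_of_odd hodd]; rfl) ?_⟩
  intro i
  rcases h3 i with h | h | h | h <;> rw [h] <;> decide

theorem O53_props' {x : GolayPt → ℤ} (hx : x ∈ O53) :
    x ∈ leechLattice ∧ sqNorm x = 64 ∧ sig x = (1, 0, 1) := by
  obtain ⟨h1, h2, h3, i, hi⟩ := O53_props hx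
  refine ⟨h1, h2, sig_big (h3 none) (by rw [resSet_of_odd h3]; rfl) ⟨i, ?_⟩⟩
  rcases hi with h | h <;> rw [h] <;> decide

/-- The eight classes of vectors of norm 64. -/
noncomputable def C64 : Fin 8 → Finset (GolayPt → ℤ) :=
  ![clsO (-3) 5, O53, H16, E4b, E6, E7, E44, E8]

/-- Their signatures. -/
def s64 : Fin 8 → ℤ × ℕ × ℕ :=
  ![(1, 0, 0), (1, 0, 1), (0, 16, 0), (0, 12, 0), (0, 8, 1), (0, 8, 0), (0, 0, 0), (0, 0, 1)]

theorem C64_props (k : Fin 8) {x : GolayPt → ℤ} (hx : x ∈ C64 k) :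
    x ∈ leechLattice ∧ sqNorm x = 64 ∧ sig x = s64 k := by
  fin_cases k
  · exact O5x_props hx
  · exact O53_props' hx
  · exact H16_props hx
  · exact E4b_props hx
  · exact E6_props hx
  · exact E7_props hx
  · exact E44_props hx
  · exact E8_props hx

theorem class64 {x : GolayPt → ℤ} (hx : x ∈ leechLattice) (hn : sqNorm x = 64) :
    ∃ k, x ∈ C64 k := by
  rcases parity_cases hx with h | h
  · rcases even64 hx hn h with h' | h' | h' | h' | h' | h'
    · exact ⟨2, h'⟩
    · exact ⟨3, h'⟩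
    · exact ⟨4, h'⟩
    · exact ⟨5, h'⟩
    · exact ⟨6, h'⟩
    · exact ⟨7, h'⟩
  · rcases odd64 hx hn h with h' | h'
    · exact ⟨0, h'⟩
    · exact ⟨1, h'⟩

/-- The vectors of norm 64, as a finset. -/
noncomputable def S64 : Finset (GolayPt → ℤ) := by
  classical exact Finset.univ.biUnion C64

theorem mem_S64 (x : GolayPt → ℤ) : x ∈ S64 ↔ x ∈ leechLattice ∧ sqNorm x = 64 := by
  classical
  unfold S64
  rw [Finset.mem_biUnion]
  constructor
  · rintro ⟨k, -, hk⟩
    exact ⟨(C64_props k hk).1, (C64_props k hk).2.1⟩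
  · rintro ⟨hx, hn⟩
    obtain ⟨k, hk⟩ := class64 hx hn
    exact ⟨k, Finset.mem_univ _, hk⟩

theorem s64_injective : Function.Injective s64 := by decide

theorem C64_disjoint : (↑(Finset.univ : Finset (Fin 8)) : Set (Fin 8)).PairwiseDisjoint C64 := by
  classical
  intro k _ l _ hkl
  rw [Function.onFun, Finset.disjoint_left]
  intro x hk hl
  have h1 := (C64_props k hk).2.2
  have h2 := (C64_props l hl).2.2
  rw [h1] at h2
  exact hkl (s64_injective h2)

/-- The sizes of the eight classes. -/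
def n64 : Fin 8 → ℕ :=
  ![174096384, 24870912, 24870912, 126615552, 777216, 46632960, 170016, 48]

theorem card_O5x : (clsO (-3) 5).card = 174096384 := by
  have hch : Nat.choose 24 5 = 42504 := by
    rw [Nat.choose_eq_descFactorial_div_factorial]
    decide
  rw [card_clsO (-3) (by decide) (by decide), hch]

theorem card_C64 (k : Fin 8) : (C64 k).card = n64 k := by
  fin_cases k
  · exact card_O5x
  · exact card_O53
  · exact card_H16
  · exact card_E4b
  · exact card_E6
  · exact card_E7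
  · exact card_E44
  · exact card_E8

theorem sum_n64 : ∑ k, n64 k = 398034000 := by decide

theorem card_S64 : S64.card = 398034000 := by
  classical
  unfold S64
  rw [Finset.card_biUnion C64_disjoint, Finset.sum_congr rfl (fun k _ => card_C64 k), sum_n64]

/-- S0396. -/
theorem count64 : {x : GolayPt → ℤ | x ∈ leechLattice ∧ sqNorm x = 64}.ncard = 398034000 := by
  have hset : {x : GolayPt → ℤ | x ∈ leechLattice ∧ sqNorm x = 64} = ↑S64 := by
    ext x
    rw [Finset.mem_coe, mem_S64]
    rfl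
  rw [hset, Set.ncard_coe_finset, card_S64]

end Cfsg.Agent.Lib.helper28.LC
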