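import Cfsg.Agent.Lib.helper28.LeechSimpleMcL

set_option autoImplicit false

namespace Cfsg.Agent.Lib.helper28.XI

open Cfsg
open Cfsg.Agent.Lib.helper28
open Cfsg.Agent.Lib.helper27
open Cfsg.Agent.Lib.helper28.LC
open Cfsg.Agent.Lib.helper28.SC
open scoped Pointwise

/-! The minimal vectors having inner product `-8` with `x0 = (4, 4, 0, ..., 0)`: shapes. -/

theorem tw_pat_val (s o : Finset GolayPt) (hso : s ⊆ o) (j : GolayPt) :
    tw s (pat 2 o) j = if j ∈ s then -2 else if j ∈ o then 2 else 0 := by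
  unfold tw pat
  by_cases hjs : j ∈ s
  · rw [if_pos hjs, if_pos hjs, if_pos (hso hjs)]
  · rw [if_neg hjs, if_neg hjs]

/-- The shapes of the minimal vectors `z` with `x0 · z = -8`, with the value of `t0 · z`. -/
theorem C_cases {z : GolayPt → ℤ} (hz : z ∈ leechLattice) (hn : sqNorm z = 32)
    (hx : dotInt x0 z = -8) :
    (∃ o ∈ octads, none ∈ o ∧ pt 0 ∉ o ∧ ∃ s, s ⊆ o ∧ none ∈ s ∧ s.card % 2 = 0 ∧
        dotInt t0 z = 8 - 4 * (s.card : ℤ) ∧ z = tw s (pat 2 o)) ∨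
    (∃ o ∈ octads, none ∉ o ∧ pt 0 ∈ o ∧ ∃ s, s ⊆ o ∧ pt 0 ∈ s ∧ s.card % 2 = 0 ∧
        dotInt t0 z = 16 - 4 * (s.card : ℤ) ∧ z = tw s (pat 2 o)) ∨
    (∃ c ∈ GC, none ∉ c ∧ pt 0 ∉ c ∧ dotInt t0 z = 8 - 2 * (c.card : ℤ) ∧
        z = tw c (pt1 (-3) {none})) ∨
    (∃ c ∈ GC, none ∉ c ∧ pt 0 ∉ c ∧ dotInt t0 z = 24 - 2 * (c.card : ℤ) ∧
        z = tw c (pt1 (-3) {pt 0})) ∨
    (∃ c ∈ GC, none ∈ c ∧ pt 0 ∈ c ∧ ∃ k, k ≠ none ∧ k ≠ pt 0 ∧
        dotInt t0 z = 16 - 2 * (c.card : ℤ) + 8 * ((c ∩ {k}).card : ℤ) ∧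
        z = tw c (pt1 (-3) {k})) := by
  rw [dot_x0] at hx
  rcases parity_cases hz with hev | hodd
  · rcases even32 hz hn hev with h | h
    · unfold E1 at h
      rw [mem_clsE] at h
      obtain ⟨o, ho, s, hs, rfl⟩ := h
      rw [mem_octadFinset] at ho
      rw [mem_par] at hs
      obtain ⟨hso, hpar⟩ := hs
      have hsum := sum_tw_pat 2 o s hso
      rw [ho.2] at hsum
      have hv := tw_pat_val s o hso
      rw [hv none, hv (pt 0)] at hx
      by_cases hns : none ∈ s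
      · rw [if_pos hns] at hx
        by_cases h0s : pt 0 ∈ s
        · rw [if_pos h0s] at hx
          omega
        · rw [if_neg h0s] at hx
          by_cases h0o : pt 0 ∈ o
          · rw [if_pos h0o] at hx
            omega
          · left
            refine ⟨o, ho, hso hns, h0o, s, hso, hns, hpar, ?_, rfl⟩
            rw [dot_t0, hsum, hv none, if_pos hns]
            push_cast
            ring
      · rw [if_neg hns] at hx
        by_cases h0s : pt 0 ∈ s
        · rw [if_pos h0s] at hx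
          by_cases hno : none ∈ o
          · rw [if_pos hno] at hx
            omega
          · right; left
            refine ⟨o, ho, hno, hso h0s, s, hso, h0s, hpar, ?_, rfl⟩
            rw [dot_t0, hsum, hv none, if_neg hns, if_neg hno]
            push_cast
            ring
        · rw [if_neg h0s] at hx
          exfalso
          split_ifs at hx <;> omega
    · exfalso
      unfold E0 at h
      rw [mem_clsE] at h
      obtain ⟨p, hp, s, hs, rfl⟩ := h
      have hv : ∀ j, tw s (pat 4 p) j = 4 ∨ tw s (pat 4 p) j = -4 ∨ tw s (pat 4 p) j = 0 := by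
        intro j
        unfold tw pat
        split_ifs <;> simp
      rcases hv none with h1 | h1 | h1 <;> rcases hv (pt 0) with h2 | h2 | h2 <;>
        rw [h1, h2] at hx <;> omega
  · obtain ⟨c, hc, k, rfl⟩ := odd32_struct hz hn hodd
    have hsum := sum_tw_pt1 c k
    have he : dotInt t0 (tw c (pt1 (-3) {k})) = 20 - 2 * (c.card : ℤ) +
        8 * ((c ∩ {k}).card : ℤ) + 4 * tw c (pt1 (-3) {k}) none := by
      rw [dot_t0, hsum]
    rw [tw_pt1_apply] at he
    rw [tw_pt1_apply, tw_pt1_apply] at hx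
    have hne : (none : GolayPt) ≠ pt 0 := by decide
    by_cases hnc : none ∈ c
    · rw [if_pos hnc] at hx he
      by_cases h0c : pt 0 ∈ c
      · rw [if_pos h0c] at hx
        by_cases hnk : none = k
        · rw [if_pos hnk] at hx
          exfalso
          split_ifs at hx <;> omega
        · rw [if_neg hnk] at hx he
          by_cases h0k : pt 0 = k
          · rw [if_pos h0k] at hx
            omega
          · right; right; right; right
            refine ⟨c, hc, hnc, h0c, k, fun e => hnk e.symm, fun e => h0k e.symm, ?_, rfl⟩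
            rw [he]
            ring
      · rw [if_neg h0c] at hx
        exfalso
        split_ifs at hx <;> omega
    · rw [if_neg hnc] at hx he
      by_cases h0c : pt 0 ∈ c
      · rw [if_pos h0c] at hx
        exfalso
        split_ifs at hx <;> omega
      · rw [if_neg h0c] at hx
        by_cases hnk : none = k
        · subst hnk
          right; right; left
          refine ⟨c, hc, hnc, h0c, ?_, rfl⟩
          rw [he, if_pos rfl, Finset.inter_singleton_of_notMem hnc, Finset.card_empty]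
          push_cast
          ring
        · rw [if_neg hnk] at hx he
          by_cases h0k : pt 0 = k
          · subst h0k
            right; right; right; left
            refine ⟨c, hc, hnc, h0c, ?_, rfl⟩
            rw [he, Finset.inter_singleton_of_notMem h0c, Finset.card_empty]
            push_cast
            ring
          · rw [if_neg h0k] at hx
            omega

/-- The general vector of odd shape. -/
def vT (c : Finset GolayPt) (k : GolayPt) : GolayPt → ℤ := tw c (pt1 (-3) {k})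

theorem card_two_with {s o : Finset GolayPt} {p : GolayPt} (hso : s ⊆ o) (hp : p ∈ s)
    (h2 : s.card = 2) : ∃ b ∈ o, b ≠ p ∧ s = {p, b} := by
  obtain ⟨x, y, hxy, rfl⟩ := Finset.card_eq_two.mp h2
  rw [Finset.mem_insert, Finset.mem_singleton] at hp
  rcases hp with rfl | rfl
  · exact ⟨y, hso (by simp), fun e => hxy e.symm, rfl⟩
  · exact ⟨x, hso (by simp), hxy, Finset.pair_comm x p⟩

theorem card_four_with {s o : Finset GolayPt} {p : GolayPt} (hso : s ⊆ o) (hp : p ∈ s)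
    (h4 : s.card = 4) : ∃ a b c, a ∈ o ∧ b ∈ o ∧ c ∈ o ∧ a ≠ b ∧ a ≠ c ∧ b ≠ c ∧ a ≠ p ∧ b ≠ p ∧
      c ≠ p ∧ s = {p, a, b, c} := by
  have h3 : (s.erase p).card = 3 := by rw [Finset.card_erase_of_mem hp, h4]
  obtain ⟨a, b, c, hab, hac, hbc, he⟩ := Finset.card_eq_three.mp h3
  have ha : a ∈ s.erase p := by rw [he]; simp
  have hb : b ∈ s.erase p := by rw [he]; simp
  have hc : c ∈ s.erase p := by rw [he]; simp
  rw [Finset.mem_erase] at ha hb hc
  refine ⟨a, b, c, hso ha.2, hso hb.2, hso hc.2, hab, hac, hbc, ha.1, hb.1, hc.1, ?_⟩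
  rw [← he, Finset.insert_erase hp]

theorem card_six_with {s o : Finset GolayPt} {p : GolayPt} (ho : o.card = 8) (hso : s ⊆ o)
    (hp : p ∈ s) (h6 : s.card = 6) :
    ∃ a b, a ∈ o ∧ b ∈ o ∧ a ≠ b ∧ a ≠ p ∧ b ≠ p ∧ s = o \ {a, b} := by
  have h2 : (o \ s).card = 2 := by rw [Finset.card_sdiff_of_subset hso, ho, h6]
  obtain ⟨a, b, hab, hos⟩ := Finset.card_eq_two.mp h2
  have ha : a ∈ o \ s := by rw [hos]; simp
  have hb : b ∈ o \ s := by rw [hos]; simp
  rw [Finset.mem_sdiff] at ha hb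
  refine ⟨a, b, ha.1, hb.1, hab, fun h => ha.2 (h ▸ hp), fun h => hb.2 (h ▸ hp), ?_⟩
  rw [← hos, Finset.sdiff_sdiff_eq_self hso]

theorem compl16 {c : Finset GolayPt} (hc : c ∈ GC) (h16 : c.card = 16) : cᶜ ∈ octads := by
  refine ⟨compl_mem_supports hc, ?_⟩
  rw [Finset.card_compl, h16]
  decide

theorem compl12 {c : Finset GolayPt} (hc : c ∈ GC) (h12 : c.card = 12) : cᶜ ∈ dodecads :=
  compl_mem_dodecads ⟨hc, h12⟩

/-- Shapes for inner product `-16` with the reference vector. -/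
theorem C_cases_m16 {z : GolayPt → ℤ} (hz : z ∈ leechLattice) (hn : sqNorm z = 32)
    (hx : dotInt x0 z = -8) (he : dotInt t0 z = -16) :
    (∃ o ∈ octads, none ∈ o ∧ pt 0 ∉ o ∧ ∃ a b, a ∈ o ∧ b ∈ o ∧ a ≠ b ∧ a ≠ none ∧ b ≠ none ∧
        z = vBq o {a, b}) ∨
    (∃ o ∈ octads, none ∉ o ∧ pt 0 ∈ o ∧ z = vC o) ∨
    (∃ d ∈ dodecads, none ∉ d ∧ pt 0 ∉ d ∧ z = vE d) ∨
    (∃ o ∈ octads, none ∉ o ∧ pt 0 ∉ o ∧ ∃ k ∈ o, z = vD o k) := by
  rcases C_cases hz hn hx with ⟨o, ho, hno, h0, s, hso, hns, -, h, rfl⟩ |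
    ⟨o, ho, hno, h0, s, hso, h0s, -, h, rfl⟩ | ⟨c, hc, hnc, h0c, h, rfl⟩ |
    ⟨c, hc, hnc, h0c, h, rfl⟩ | ⟨c, hc, hnc, h0c, k, hk, hk0, h, rfl⟩
  · rw [he] at h
    have h6 : s.card = 6 := by omega
    obtain ⟨a, b, ha, hb, hab, han, hbn, rfl⟩ := card_six_with ho.2 hso hns h6
    exact Or.inl ⟨o, ho, hno, h0, a, b, ha, hb, hab, han, hbn, rfl⟩
  · rw [he] at h
    have h8 : s.card = 8 := by omega
    have hso' : s = o := Finset.eq_of_subset_of_card_le hso (by rw [ho.2, h8])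
    subst hso'
    exact Or.inr (Or.inl ⟨s, ho, hno, h0, rfl⟩)
  · rw [he] at h
    have h12 : c.card = 12 := by omega
    exact Or.inr (Or.inr (Or.inl ⟨c, ⟨hc, h12⟩, hnc, h0c, rfl⟩))
  · exfalso
    rw [he] at h
    have h20 : c.card = 20 := by omega
    rcases card_of_mem_supports hc with h' | h' | h' | h' | h' <;> omega
  · rw [he] at h
    by_cases hkc : k ∈ c
    · exfalso
      rw [Finset.inter_singleton_of_mem hkc, Finset.card_singleton] at h
      have h20 : c.card = 20 := by omega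
      rcases card_of_mem_supports hc with h' | h' | h' | h' | h' <;> omega
    · rw [Finset.inter_singleton_of_notMem hkc, Finset.card_empty] at h
      have h16 : c.card = 16 := by omega
      refine Or.inr (Or.inr (Or.inr ⟨cᶜ, compl16 hc h16, ?_, ?_, k, ?_, ?_⟩))
      · rw [Finset.mem_compl, not_not]
        exact hnc
      · rw [Finset.mem_compl, not_not]
        exact h0c
      · rw [Finset.mem_compl]
        exact hkc
      · unfold vD
        rw [compl_compl]

/-- Shapes for inner product `-8` with the reference vector. -/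
theorem C_cases_m8 {z : GolayPt → ℤ} (hz : z ∈ leechLattice) (hn : sqNorm z = 32)
    (hx : dotInt x0 z = -8) (he : dotInt t0 z = -8) :
    (∃ o ∈ octads, none ∈ o ∧ pt 0 ∉ o ∧ ∃ a b c, a ∈ o ∧ b ∈ o ∧ c ∈ o ∧ a ≠ b ∧ a ≠ c ∧ b ≠ c ∧
        a ≠ none ∧ b ≠ none ∧ c ≠ none ∧ z = tw {none, a, b, c} (pat 2 o)) ∨
    (∃ o ∈ octads, none ∉ o ∧ pt 0 ∈ o ∧ ∃ a b, a ∈ o ∧ b ∈ o ∧ a ≠ b ∧ a ≠ pt 0 ∧ b ≠ pt 0 ∧
        z = vBq o {a, b}) ∨
    (∃ o ∈ octads, none ∉ o ∧ pt 0 ∉ o ∧ z = vE o) ∨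
    (∃ o ∈ octads, none ∈ o ∧ pt 0 ∈ o ∧ z = vD o (pt 0)) ∨
    (∃ o ∈ octads, none ∉ o ∧ pt 0 ∉ o ∧ ∃ k, k ∉ o ∧ k ≠ none ∧ k ≠ pt 0 ∧ z = vD o k) ∨
    (∃ d ∈ dodecads, none ∉ d ∧ pt 0 ∉ d ∧ ∃ k ∈ d, z = vT dᶜ k) := by
  rcases C_cases hz hn hx with ⟨o, ho, hno, h0, s, hso, hns, -, h, rfl⟩ |
    ⟨o, ho, hno, h0, s, hso, h0s, -, h, rfl⟩ | ⟨c, hc, hnc, h0c, h, rfl⟩ |
    ⟨c, hc, hnc, h0c, h, rfl⟩ | ⟨c, hc, hnc, h0c, k, hk, hk0, h, rfl⟩
  · rw [he] at h
    have h4 : s.card = 4 := by omega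
    obtain ⟨a, b, c, ha, hb, hc, hab, hac, hbc, han, hbn, hcn, rfl⟩ := card_four_with hso hns h4
    exact Or.inl ⟨o, ho, hno, h0, a, b, c, ha, hb, hc, hab, hac, hbc, han, hbn, hcn, rfl⟩
  · rw [he] at h
    have h6 : s.card = 6 := by omega
    obtain ⟨a, b, ha, hb, hab, han, hbn, rfl⟩ := card_six_with ho.2 hso h0s h6
    exact Or.inr (Or.inl ⟨o, ho, hno, h0, a, b, ha, hb, hab, han, hbn, rfl⟩)
  · rw [he] at h
    have h8 : c.card = 8 := by omega
    exact Or.inr (Or.inr (Or.inl ⟨c, ⟨hc, h8⟩, hnc, h0c, rfl⟩))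
  · rw [he] at h
    have h16 : c.card = 16 := by omega
    refine Or.inr (Or.inr (Or.inr (Or.inl ⟨cᶜ, compl16 hc h16, ?_, ?_, ?_⟩)))
    · rw [Finset.mem_compl]
      exact hnc
    · rw [Finset.mem_compl]
      exact h0c
    · unfold vD
      rw [compl_compl]
  · rw [he] at h
    by_cases hkc : k ∈ c
    · rw [Finset.inter_singleton_of_mem hkc, Finset.card_singleton] at h
      have h16 : c.card = 16 := by omega
      refine Or.inr (Or.inr (Or.inr (Or.inr (Or.inl ⟨cᶜ, compl16 hc h16, ?_, ?_, k, ?_, hk, hk0,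
        ?_⟩))))
      · rw [Finset.mem_compl, not_not]
        exact hnc
      · rw [Finset.mem_compl, not_not]
        exact h0c
      · rw [Finset.mem_compl, not_not]
        exact hkc
      · unfold vD
        rw [compl_compl]
    · rw [Finset.inter_singleton_of_notMem hkc, Finset.card_empty] at h
      have h12 : c.card = 12 := by omega
      refine Or.inr (Or.inr (Or.inr (Or.inr (Or.inr ⟨cᶜ, compl12 hc h12, ?_, ?_, k, ?_, ?_⟩))))
      · rw [Finset.mem_compl, not_not]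
        exact hnc
      · rw [Finset.mem_compl, not_not]
        exact h0c
      · rw [Finset.mem_compl]
        exact hkc
      · unfold vT
        rw [compl_compl]

/-- Shapes for inner product `0` with the reference vector. -/
theorem C_cases_0 {z : GolayPt → ℤ} (hz : z ∈ leechLattice) (hn : sqNorm z = 32)
    (hx : dotInt x0 z = -8) (he : dotInt t0 z = 0) :
    (∃ o ∈ octads, none ∈ o ∧ pt 0 ∉ o ∧ ∃ b ∈ o, b ≠ none ∧ z = tw {none, b} (pat 2 o)) ∨
    (∃ o ∈ octads, none ∉ o ∧ pt 0 ∈ o ∧ ∃ a b c, a ∈ o ∧ b ∈ o ∧ c ∈ o ∧ a ≠ b ∧ a ≠ c ∧ b ≠ c ∧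
        a ≠ pt 0 ∧ b ≠ pt 0 ∧ c ≠ pt 0 ∧ z = tw {pt 0, a, b, c} (pat 2 o)) ∨
    (∃ d ∈ dodecads, none ∉ d ∧ pt 0 ∉ d ∧ z = vT d (pt 0)) ∨
    (∃ o ∈ octads, none ∈ o ∧ pt 0 ∈ o ∧ ∃ k, k ∉ o ∧ z = vT o k) ∨
    (∃ d ∈ dodecads, none ∉ d ∧ pt 0 ∉ d ∧ ∃ k, k ∉ d ∧ k ≠ none ∧ k ≠ pt 0 ∧ z = vT dᶜ k) := by
  rcases C_cases hz hn hx with ⟨o, ho, hno, h0, s, hso, hns, -, h, rfl⟩ |
    ⟨o, ho, hno, h0, s, hso, h0s, -, h, rfl⟩ | ⟨c, hc, hnc, h0c, h, rfl⟩ |
    ⟨c, hc, hnc, h0c, h, rfl⟩ | ⟨c, hc, hnc, h0c, k, hk, hk0, h, rfl⟩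
  · rw [he] at h
    have h2 : s.card = 2 := by omega
    obtain ⟨b, hb, hbn, rfl⟩ := card_two_with hso hns h2
    exact Or.inl ⟨o, ho, hno, h0, b, hb, hbn, rfl⟩
  · rw [he] at h
    have h4 : s.card = 4 := by omega
    obtain ⟨a, b, c, ha, hb, hc, hab, hac, hbc, han, hbn, hcn, rfl⟩ := card_four_with hso h0s h4
    exact Or.inr (Or.inl ⟨o, ho, hno, h0, a, b, c, ha, hb, hc, hab, hac, hbc, han, hbn, hcn, rfl⟩)
  · exfalso
    rw [he] at h
    have h4 : c.card = 4 := by omega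
    rcases card_of_mem_supports hc with h' | h' | h' | h' | h' <;> omega
  · rw [he] at h
    have h12 : c.card = 12 := by omega
    exact Or.inr (Or.inr (Or.inl ⟨c, ⟨hc, h12⟩, hnc, h0c, rfl⟩))
  · rw [he] at h
    by_cases hkc : k ∈ c
    · rw [Finset.inter_singleton_of_mem hkc, Finset.card_singleton] at h
      have h12 : c.card = 12 := by omega
      refine Or.inr (Or.inr (Or.inr (Or.inr ⟨cᶜ, compl12 hc h12, ?_, ?_, k, ?_, hk, hk0, ?_⟩)))
      · rw [Finset.mem_compl, not_not]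
        exact hnc
      · rw [Finset.mem_compl, not_not]
        exact h0c
      · rw [Finset.mem_compl, not_not]
        exact hkc
      · rw [compl_compl]
        rfl
    · rw [Finset.inter_singleton_of_notMem hkc, Finset.card_empty] at h
      have h8 : c.card = 8 := by omega
      exact Or.inr (Or.inr (Or.inr (Or.inl ⟨c, ⟨hc, h8⟩, hnc, h0c, k, hkc, rfl⟩)))

theorem card24 {c : Finset GolayPt} (h : c.card = 24) (j : GolayPt) : j ∈ c := by
  have : c = Finset.univ := by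
    rw [← Finset.card_eq_iff_eq_univ, h]
    decide
  rw [this]
  exact Finset.mem_univ j

/-- The possible inner products with the reference vector of norm 48. -/
theorem C_vals {z : GolayPt → ℤ} (hz : z ∈ leechLattice) (hn : sqNorm z = 32)
    (hx : dotInt x0 z = -8) :
    dotInt t0 z = 24 ∨ dotInt t0 z = 8 ∨ dotInt t0 z = 0 ∨ dotInt t0 z = -8 ∨
      dotInt t0 z = -16 ∨ dotInt t0 z = -24 := by
  rcases C_cases hz hn hx with ⟨o, ho, hno, h0, s, hso, hns, hp, h, rfl⟩ |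
    ⟨o, ho, hno, h0, s, hso, h0s, hp, h, rfl⟩ | ⟨c, hc, hnc, h0c, h, rfl⟩ |
    ⟨c, hc, hnc, h0c, h, rfl⟩ | ⟨c, hc, hnc, h0c, k, hk, hk0, h, rfl⟩
  · have hle : s.card ≤ 8 := ho.2 ▸ Finset.card_le_card hso
    have hpos : 0 < s.card := Finset.card_pos.mpr ⟨none, hns⟩
    omega
  · have hle : s.card ≤ 8 := ho.2 ▸ Finset.card_le_card hso
    have hpos : 0 < s.card := Finset.card_pos.mpr ⟨pt 0, h0s⟩
    omega
  · have h24 : c.card ≠ 24 := fun e => hnc (card24 e none)
    rcases card_of_mem_supports hc with h' | h' | h' | h' | h' <;> omega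
  · have h24 : c.card ≠ 24 := fun e => hnc (card24 e none)
    rcases card_of_mem_supports hc with h' | h' | h' | h' | h' <;> omega
  · have hpos : 0 < c.card := Finset.card_pos.mpr ⟨none, hnc⟩
    by_cases hkc : k ∈ c
    · rw [Finset.inter_singleton_of_mem hkc, Finset.card_singleton] at h
      rcases card_of_mem_supports hc with h' | h' | h' | h' | h' <;> omega
    · rw [Finset.inter_singleton_of_notMem hkc, Finset.card_empty] at h
      have h24 : c.card ≠ 24 := fun e => hkc (card24 e k)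
      rcases card_of_mem_supports hc with h' | h' | h' | h' | h' <;> omega

/-- The only vector with inner product `24`. -/
theorem C_cases_24 {z : GolayPt → ℤ} (hz : z ∈ leechLattice) (hn : sqNorm z = 32)
    (hx : dotInt x0 z = -8) (he : dotInt t0 z = 24) : z = vT ∅ (pt 0) := by
  rcases C_cases hz hn hx with ⟨o, ho, hno, h0, s, hso, hns, hp, h, rfl⟩ |
    ⟨o, ho, hno, h0, s, hso, h0s, hp, h, rfl⟩ | ⟨c, hc, hnc, h0c, h, rfl⟩ |
    ⟨c, hc, hnc, h0c, h, rfl⟩ | ⟨c, hc, hnc, h0c, k, hk, hk0, h, rfl⟩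
  · omega
  · omega
  · omega
  · have h0' : c.card = 0 := by omega
    rw [Finset.card_eq_zero] at h0'
    rw [h0']
    rfl
  · exfalso
    have hpos : 0 < c.card := Finset.card_pos.mpr ⟨none, hnc⟩
    have hle : (c ∩ {k}).card ≤ 1 :=
      (Finset.card_le_card Finset.inter_subset_right).trans (by rw [Finset.card_singleton])
    omega

end Cfsg.Agent.Lib.helper28.XI
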