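import Cfsg.Agent.Lib.helper28.LeechCo2A

set_option autoImplicit false

namespace Cfsg.Agent.Lib.helper28.XI

open Cfsg
open Cfsg.Agent.Lib.helper28
open Cfsg.Agent.Lib.helper27
open Cfsg.Agent.Lib.helper28.LC
open Cfsg.Agent.Lib.helper28.SC
open scoped Pointwise

/-! Families of the minimal vectors with inner product `-8` with `x0`, under the stabiliser of
`t0` and `x0`. -/

theorem rel22 {w w' : GolayPt → ℤ} (hw : w ∈ leechLattice)
    {σ : Equiv.Perm GolayPt} (hσ : σ ∈ M24) (hn : σ none = none) (h0 : σ (pt 0) = pt 0)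
    (e : (fun i => w (σ i)) = w') : RelL [X0] w w' := by
  have h := relL_perm (L := [X0]) hw hσ hn (fun b hb => inv22_X0 b hb σ hn h0)
  rw [e] at h
  exact h

theorem relPat {o o' s s' : Finset GolayPt} {σ : Equiv.Perm GolayPt} (hσ : σ ∈ M24)
    (hn : σ none = none) (h0 : σ (pt 0) = pt 0) (hσo : σ • o' = o) (hσs : σ • s' = s)
    (hLm : tw s (pat 2 o) ∈ leechLattice) : RelL [X0] (tw s (pat 2 o)) (tw s' (pat 2 o')) := by
  apply rel22 hLm hσ hn h0
  have e0 := tw_pat_smul σ s' o' 2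
  rw [hσo, hσs] at e0
  exact e0

theorem relPt1 {c c' : Finset GolayPt} {k k' : GolayPt} {σ : Equiv.Perm GolayPt} (hσ : σ ∈ M24)
    (hn : σ none = none) (h0 : σ (pt 0) = pt 0) (hσc : σ • c' = c) (hσk : σ k' = k)
    (hLm : tw c (pt1 (-3) {k}) ∈ leechLattice) :
    RelL [X0] (tw c (pt1 (-3) {k})) (tw c' (pt1 (-3) {k'})) := by
  apply rel22 hLm hσ hn h0
  have e0 := tw_pt1_smul σ c' {k'} (-3)
  rw [hσc, Finset.smul_finset_singleton, Equiv.Perm.smul_def, hσk] at e0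
  exact e0

theorem sigmaN {o o' : Finset GolayPt} (ho : o ∈ octads) (ho' : o' ∈ octads)
    (hno : none ∈ o) (h0 : pt 0 ∉ o) (hno' : none ∈ o') (h0' : pt 0 ∉ o')
    (l l' : List GolayPt) (hl : (none :: l).Nodup) (hl' : (none :: l').Nodup)
    (hlen : l'.length = l.length) (h4 : l.length ≤ 4) (hlo : ∀ x ∈ l, x ∈ o)
    (hlo' : ∀ x ∈ l', x ∈ o') :
    ∃ σ ∈ M24, σ none = none ∧ σ (pt 0) = pt 0 ∧ σ • o' = o ∧ l'.map σ = l := by
  obtain ⟨σ, hσ, hmap, hσo, hσ0⟩ := exists_M24_octad_lists_out ho ho' (none :: l) (none :: l')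
    hl hl' (by rw [List.length_cons, List.length_cons, hlen])
    (by rw [List.length_cons]; omega) (by
      intro x hx
      rw [List.mem_cons] at hx
      rcases hx with rfl | hx
      · exact hno
      · exact hlo x hx) (by
      intro x hx
      rw [List.mem_cons] at hx
      rcases hx with rfl | hx
      · exact hno'
      · exact hlo' x hx) h0 h0'
  rw [List.map_cons, List.cons.injEq] at hmap
  exact ⟨σ, hσ, hmap.1, hσ0, hσo, hmap.2⟩

theorem sigma0 {o o' : Finset GolayPt} (ho : o ∈ octads) (ho' : o' ∈ octads)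
    (hno : none ∉ o) (h0 : pt 0 ∈ o) (hno' : none ∉ o') (h0' : pt 0 ∈ o')
    (l l' : List GolayPt) (hl : (pt 0 :: l).Nodup) (hl' : (pt 0 :: l').Nodup)
    (hlen : l'.length = l.length) (h4 : l.length ≤ 4) (hlo : ∀ x ∈ l, x ∈ o)
    (hlo' : ∀ x ∈ l', x ∈ o') :
    ∃ σ ∈ M24, σ none = none ∧ σ (pt 0) = pt 0 ∧ σ • o' = o ∧ l'.map σ = l := by
  obtain ⟨σ, hσ, hmap, hσo, hσn⟩ := exists_M24_octad_lists_out ho ho' (pt 0 :: l) (pt 0 :: l')
    hl hl' (by rw [List.length_cons, List.length_cons, hlen])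
    (by rw [List.length_cons]; omega) (by
      intro x hx
      rw [List.mem_cons] at hx
      rcases hx with rfl | hx
      · exact h0
      · exact hlo x hx) (by
      intro x hx
      rw [List.mem_cons] at hx
      rcases hx with rfl | hx
      · exact h0'
      · exact hlo' x hx) hno hno'
  rw [List.map_cons, List.cons.injEq] at hmap
  exact ⟨σ, hσ, hσn, hmap.1, hσo, hmap.2⟩

/-! ### Even families -/

theorem famBn {o o' : Finset GolayPt} (ho : o ∈ octads) (ho' : o' ∈ octads) (hno : none ∈ o)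
    (h0 : pt 0 ∉ o) (hno' : none ∈ o') (h0' : pt 0 ∉ o') {a b a' b' : GolayPt} (ha : a ∈ o)
    (hb : b ∈ o) (hab : a ≠ b) (han : a ≠ none) (hbn : b ≠ none) (ha' : a' ∈ o') (hb' : b' ∈ o')
    (hab' : a' ≠ b') (han' : a' ≠ none) (hbn' : b' ≠ none)
    (hLm : vBq o {a, b} ∈ leechLattice) : RelL [X0] (vBq o {a, b}) (vBq o' {a', b'}) := by
  obtain ⟨σ, hσ, hσn, hσ0, hσo, hmap⟩ := sigmaN ho ho' hno h0 hno' h0' [a, b] [a', b']
    (by simp [han.symm, hbn.symm, hab]) (by simp [han'.symm, hbn'.symm, hab']) rfl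
    (by norm_num) (by
      intro x hx
      simp only [List.mem_cons, List.not_mem_nil, or_false] at hx
      rcases hx with rfl | rfl <;> assumption) (by
      intro x hx
      simp only [List.mem_cons, List.not_mem_nil, or_false] at hx
      rcases hx with rfl | rfl <;> assumption)
  simp only [List.map_cons, List.map_nil, List.cons.injEq, and_true] at hmap
  obtain ⟨hσa, hσb⟩ := hmap
  exact relPat hσ hσn hσ0 hσo (by
    rw [Finset.smul_finset_sdiff, hσo, Finset.smul_finset_insert, Finset.smul_finset_singleton,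
      Equiv.Perm.smul_def, Equiv.Perm.smul_def, hσa, hσb]) hLm

theorem famA4 {o o' : Finset GolayPt} (ho : o ∈ octads) (ho' : o' ∈ octads) (hno : none ∈ o)
    (h0 : pt 0 ∉ o) (hno' : none ∈ o') (h0' : pt 0 ∉ o') {a b c a' b' c' : GolayPt} (ha : a ∈ o)
    (hb : b ∈ o) (hc : c ∈ o) (hab : a ≠ b) (hac : a ≠ c) (hbc : b ≠ c) (han : a ≠ none)
    (hbn : b ≠ none) (hcn : c ≠ none) (ha' : a' ∈ o') (hb' : b' ∈ o') (hc' : c' ∈ o')
    (hab' : a' ≠ b') (hac' : a' ≠ c') (hbc' : b' ≠ c') (han' : a' ≠ none) (hbn' : b' ≠ none)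
    (hcn' : c' ≠ none) (hLm : tw {none, a, b, c} (pat 2 o) ∈ leechLattice) :
    RelL [X0] (tw {none, a, b, c} (pat 2 o)) (tw {none, a', b', c'} (pat 2 o')) := by
  obtain ⟨σ, hσ, hσn, hσ0, hσo, hmap⟩ := sigmaN ho ho' hno h0 hno' h0' [a, b, c] [a', b', c']
    (by simp [han.symm, hbn.symm, hcn.symm, hab, hac, hbc])
    (by simp [han'.symm, hbn'.symm, hcn'.symm, hab', hac', hbc']) rfl
    (by norm_num) (by
      intro x hx
      simp only [List.mem_cons, List.not_mem_nil, or_false] at hx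
      rcases hx with rfl | rfl | rfl <;> assumption) (by
      intro x hx
      simp only [List.mem_cons, List.not_mem_nil, or_false] at hx
      rcases hx with rfl | rfl | rfl <;> assumption)
  simp only [List.map_cons, List.map_nil, List.cons.injEq, and_true] at hmap
  obtain ⟨hσa, hσb, hσc⟩ := hmap
  exact relPat hσ hσn hσ0 hσo (by
    rw [Finset.smul_finset_insert, Finset.smul_finset_insert, Finset.smul_finset_insert,
      Finset.smul_finset_singleton]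
    simp only [Equiv.Perm.smul_def]
    rw [hσn, hσa, hσb, hσc]) hLm

theorem famG2 {o o' : Finset GolayPt} (ho : o ∈ octads) (ho' : o' ∈ octads) (hno : none ∈ o)
    (h0 : pt 0 ∉ o) (hno' : none ∈ o') (h0' : pt 0 ∉ o') {b b' : GolayPt}
    (hb : b ∈ o) (hbn : b ≠ none) (hb' : b' ∈ o') (hbn' : b' ≠ none)
    (hLm : tw {none, b} (pat 2 o) ∈ leechLattice) :
    RelL [X0] (tw {none, b} (pat 2 o)) (tw {none, b'} (pat 2 o')) := by
  obtain ⟨σ, hσ, hσn, hσ0, hσo, hmap⟩ := sigmaN ho ho' hno h0 hno' h0' [b] [b']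
    (by simp [hbn.symm]) (by simp [hbn'.symm]) rfl
    (by norm_num) (by
      intro x hx
      simp only [List.mem_cons, List.not_mem_nil, or_false] at hx
      rcases hx with rfl
      assumption) (by
      intro x hx
      simp only [List.mem_cons, List.not_mem_nil, or_false] at hx
      rcases hx with rfl
      assumption)
  simp only [List.map_cons, List.map_nil, List.cons.injEq, and_true] at hmap
  exact relPat hσ hσn hσ0 hσo (by
    rw [Finset.smul_finset_insert, Finset.smul_finset_singleton]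
    simp only [Equiv.Perm.smul_def]
    rw [hσn, hmap]) hLm

theorem famC0 {o o' : Finset GolayPt} (ho : o ∈ octads) (ho' : o' ∈ octads)
    (hno : none ∉ o) (h0 : pt 0 ∈ o) (hno' : none ∉ o') (h0' : pt 0 ∈ o')
    (hLm : vC o ∈ leechLattice) : RelL [X0] (vC o) (vC o') := by
  obtain ⟨σ, hσ, hσn, hσ0, hσo⟩ := exists_fix_N0 ho ho' hno h0 hno' h0'
  exact relPat hσ hσn hσ0 hσo hσo hLm

theorem famB0 {o o' : Finset GolayPt} (ho : o ∈ octads) (ho' : o' ∈ octads) (hno : none ∉ o)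
    (h0 : pt 0 ∈ o) (hno' : none ∉ o') (h0' : pt 0 ∈ o') {a b a' b' : GolayPt} (ha : a ∈ o)
    (hb : b ∈ o) (hab : a ≠ b) (han : a ≠ pt 0) (hbn : b ≠ pt 0) (ha' : a' ∈ o') (hb' : b' ∈ o')
    (hab' : a' ≠ b') (han' : a' ≠ pt 0) (hbn' : b' ≠ pt 0)
    (hLm : vBq o {a, b} ∈ leechLattice) : RelL [X0] (vBq o {a, b}) (vBq o' {a', b'}) := by
  obtain ⟨σ, hσ, hσn, hσ0, hσo, hmap⟩ := sigma0 ho ho' hno h0 hno' h0' [a, b] [a', b']
    (by simp [han.symm, hbn.symm, hab]) (by simp [han'.symm, hbn'.symm, hab']) rfl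
    (by norm_num) (by
      intro x hx
      simp only [List.mem_cons, List.not_mem_nil, or_false] at hx
      rcases hx with rfl | rfl <;> assumption) (by
      intro x hx
      simp only [List.mem_cons, List.not_mem_nil, or_false] at hx
      rcases hx with rfl | rfl <;> assumption)
  simp only [List.map_cons, List.map_nil, List.cons.injEq, and_true] at hmap
  obtain ⟨hσa, hσb⟩ := hmap
  exact relPat hσ hσn hσ0 hσo (by
    rw [Finset.smul_finset_sdiff, hσo, Finset.smul_finset_insert, Finset.smul_finset_singleton,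
      Equiv.Perm.smul_def, Equiv.Perm.smul_def, hσa, hσb]) hLm

theorem famH4 {o o' : Finset GolayPt} (ho : o ∈ octads) (ho' : o' ∈ octads) (hno : none ∉ o)
    (h0 : pt 0 ∈ o) (hno' : none ∉ o') (h0' : pt 0 ∈ o') {a b c a' b' c' : GolayPt} (ha : a ∈ o)
    (hb : b ∈ o) (hc : c ∈ o) (hab : a ≠ b) (hac : a ≠ c) (hbc : b ≠ c) (han : a ≠ pt 0)
    (hbn : b ≠ pt 0) (hcn : c ≠ pt 0) (ha' : a' ∈ o') (hb' : b' ∈ o') (hc' : c' ∈ o')
    (hab' : a' ≠ b') (hac' : a' ≠ c') (hbc' : b' ≠ c') (han' : a' ≠ pt 0) (hbn' : b' ≠ pt 0)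
    (hcn' : c' ≠ pt 0) (hLm : tw {pt 0, a, b, c} (pat 2 o) ∈ leechLattice) :
    RelL [X0] (tw {pt 0, a, b, c} (pat 2 o)) (tw {pt 0, a', b', c'} (pat 2 o')) := by
  obtain ⟨σ, hσ, hσn, hσ0, hσo, hmap⟩ := sigma0 ho ho' hno h0 hno' h0' [a, b, c] [a', b', c']
    (by simp [han.symm, hbn.symm, hcn.symm, hab, hac, hbc])
    (by simp [han'.symm, hbn'.symm, hcn'.symm, hab', hac', hbc']) rfl
    (by norm_num) (by
      intro x hx
      simp only [List.mem_cons, List.not_mem_nil, or_false] at hx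
      rcases hx with rfl | rfl | rfl <;> assumption) (by
      intro x hx
      simp only [List.mem_cons, List.not_mem_nil, or_false] at hx
      rcases hx with rfl | rfl | rfl <;> assumption)
  simp only [List.map_cons, List.map_nil, List.cons.injEq, and_true] at hmap
  obtain ⟨hσa, hσb, hσc⟩ := hmap
  exact relPat hσ hσn hσ0 hσo (by
    rw [Finset.smul_finset_insert, Finset.smul_finset_insert, Finset.smul_finset_insert,
      Finset.smul_finset_singleton]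
    simp only [Equiv.Perm.smul_def]
    rw [hσ0, hσa, hσb, hσc]) hLm

/-! ### Odd families -/

theorem famEn2 {d : Finset GolayPt} (hd : d ∈ dodecads) (hnd : none ∉ d) (h0 : pt 0 ∉ d)
    (hLm : vE d ∈ leechLattice) : RelL [X0] (vE d) (vE (setOf 57274)) := by
  obtain ⟨σ, hσ, hσn, hσ0, hσo⟩ := m22_fam (by decide) rootEn_cw m22_orbit_e616 hd.1 hd.2
    ((inter_single_zero d none).mpr hnd) ((inter_single_zero d (pt 0)).mpr h0)
  exact relPt1 hσ hσn hσ0 hσo hσn hLm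

theorem famEc {o : Finset GolayPt} (ho : o ∈ octads) (hno : none ∉ o) (h0 : pt 0 ∉ o)
    (hLm : vE o ∈ leechLattice) : RelL [X0] (vE o) (vE (setOf 10558)) := by
  obtain ⟨σ, hσ, hσn, hσ0, hσo⟩ := m22_fam (by decide) rootC_cw m22_orbit_c330 ho.1 ho.2
    ((inter_single_zero o none).mpr hno) ((inter_single_zero o (pt 0)).mpr h0)
  exact relPt1 hσ hσn hσ0 hσo hσn hLm

theorem famTi {d : Finset GolayPt} (hd : d ∈ dodecads) (hnd : none ∉ d) (h0 : pt 0 ∉ d)
    (hLm : vT d (pt 0) ∈ leechLattice) : RelL [X0] (vT d (pt 0)) (vT (setOf 57274) (pt 0)) := by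
  obtain ⟨σ, hσ, hσn, hσ0, hσo⟩ := m22_fam (by decide) rootEn_cw m22_orbit_e616 hd.1 hd.2
    ((inter_single_zero d none).mpr hnd) ((inter_single_zero d (pt 0)).mpr h0)
  exact relPt1 hσ hσn hσ0 hσo hσ0 hLm

theorem famD00 {o o' : Finset GolayPt} (ho : o ∈ octads) (ho' : o' ∈ octads) (hno : none ∈ o)
    (h0 : pt 0 ∈ o) (hno' : none ∈ o') (h0' : pt 0 ∈ o') (hLm : vD o (pt 0) ∈ leechLattice) :
    RelL [X0] (vD o (pt 0)) (vD o' (pt 0)) := by
  obtain ⟨σ, hσ, hmap, hσo⟩ := exists_M24_octad_lists ho ho' [none, pt 0] [none, pt 0]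
    (by decide) (by decide) rfl (by norm_num) (by
      intro x hx
      simp only [List.mem_cons, List.not_mem_nil, or_false] at hx
      rcases hx with rfl | rfl <;> assumption) (by
      intro x hx
      simp only [List.mem_cons, List.not_mem_nil, or_false] at hx
      rcases hx with rfl | rfl <;> assumption)
  simp only [List.map_cons, List.map_nil, List.cons.injEq, and_true] at hmap
  obtain ⟨hσn, hσ0⟩ := hmap
  exact relPt1 hσ hσn hσ0 (by rw [smul_compl_finset, hσo]) hσ0 hLm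

theorem famTk {o o' : Finset GolayPt} (ho : o ∈ octads) (ho' : o' ∈ octads) (hno : none ∈ o)
    (h0 : pt 0 ∈ o) (hno' : none ∈ o') (h0' : pt 0 ∈ o') {k k' : GolayPt} (hk : k ∉ o)
    (hk' : k' ∉ o') (hLm : vT o k ∈ leechLattice) : RelL [X0] (vT o k) (vT o' k') := by
  obtain ⟨σ, hσ, hmap, hσo, hσk⟩ := exists_M24_octad_lists_out ho ho' [none, pt 0] [none, pt 0]
    (by decide) (by decide) rfl (by norm_num) (by
      intro x hx
      simp only [List.mem_cons, List.not_mem_nil, or_false] at hx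
      rcases hx with rfl | rfl <;> assumption) (by
      intro x hx
      simp only [List.mem_cons, List.not_mem_nil, or_false] at hx
      rcases hx with rfl | rfl <;> assumption) hk hk'
  simp only [List.map_cons, List.map_nil, List.cons.injEq, and_true] at hmap
  obtain ⟨hσn, hσ0⟩ := hmap
  exact relPt1 hσ hσn hσ0 hσo hσk hLm

theorem lev_fin {root b E : ℕ} {U : List (List ℕ)} (hb : b < 24)
    (hlev : levOK [8388608, 1, root] b E U = true) {σ : Equiv.Perm GolayPt} (hσ : σ ∈ M24)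
    (hσn : σ none = none) (hσ0 : σ (pt 0) = pt 0) {k : GolayPt} (hk1 : σ⁻¹ k ∈ setOf E) :
    ∃ τ ∈ M24, τ none = none ∧ τ (pt 0) = pt 0 ∧ τ • setOf root = σ • setOf root ∧
      τ (pt b) = k := by
  obtain ⟨l, -, g, hg, -, hgk⟩ := levOK_sound hb hlev _ hk1
  have hg' : g ∈ stabM [2 ^ 23, 2 ^ 0, root] := hg
  rw [mem_stabM_cons_pt (by norm_num), mem_stabM_cons_pt (by norm_num), mem_stabM] at hg'
  obtain ⟨⟨⟨hgM, hgo⟩, hg0⟩, hgn⟩ := hg'
  have hgo' : g • setOf root = setOf root := hgo root (by simp)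
  refine ⟨σ * g, M24.mul_mem hσ hgM, ?_, ?_, ?_, ?_⟩
  · show σ (g none) = none
    have : g none = none := hgn
    rw [this, hσn]
  · show σ (g (pt 0)) = pt 0
    rw [hg0, hσ0]
  · rw [mul_smul, hgo']
  · show σ (g (pt b)) = k
    rw [hgk]
    exact Equiv.apply_symm_apply σ k

theorem famDn2 {o : Finset GolayPt} (ho : o ∈ octads) (hno : none ∉ o) (h0 : pt 0 ∉ o)
    {k : GolayPt} (hk : k ∈ o) (hLm : vD o k ∈ leechLattice) :
    RelL [X0] (vD o k) (vD (setOf 10558) (pt 1)) := by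
  obtain ⟨σ, hσ, hσn, hσ0, hσo⟩ := m22_fam (by decide) rootC_cw m22_orbit_c330 ho.1 ho.2
    ((inter_single_zero o none).mpr hno) ((inter_single_zero o (pt 0)).mpr h0)
  have hk1 : σ⁻¹ k ∈ setOf 10558 := by
    rw [← hσo, mem_smul_iff] at hk
    exact hk
  obtain ⟨τ, hτ, hτn, hτ0, hτo, hτk⟩ := lev_fin (by norm_num) levDn_ok hσ hσn hσ0 hk1
  rw [hσo] at hτo
  exact relPt1 hτ hτn hτ0 (by rw [smul_compl_finset, hτo]) hτk hLm

def lev12 : List (List ℕ) :=
  [[0, 1, 2, 3, 4, 5, 6, 7, 8, 9, 10, 11, 12, 13, 14, 15, 16, 17, 18, 19, 20, 21, 22, 23],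
   [0, 3, 16, 7, 12, 9, 13, 14, 11, 4, 15, 8, 5, 2, 1, 10, 6, 18, 22, 19, 17, 21, 20, 23],
   [0, 4, 17, 11, 5, 8, 18, 7, 15, 12, 9, 10, 3, 22, 14, 1, 21, 13, 16, 2, 6, 20, 19, 23],
   [0, 5, 21, 9, 4, 1, 18, 15, 8, 3, 10, 14, 12, 17, 11, 7, 19, 13, 6, 16, 20, 2, 22, 23],
   [0, 7, 16, 12, 5, 4, 20, 15, 1, 10, 14, 9, 3, 13, 11, 8, 6, 21, 18, 22, 2, 19, 17, 23],
   [0, 8, 19, 14, 5, 1, 16, 4, 7, 11, 10, 12, 3, 2, 9, 15, 13, 22, 17, 6, 21, 18, 20, 23],
   [0, 9, 21, 4, 12, 3, 22, 10, 11, 7, 15, 1, 5, 18, 8, 14, 19, 2, 13, 6, 17, 16, 20, 23],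
   [0, 10, 13, 8, 11, 3, 2, 12, 14, 4, 7, 15, 5, 16, 1, 9, 20, 6, 22, 21, 19, 17, 18, 23],
   [0, 11, 6, 15, 3, 14, 22, 12, 9, 5, 4, 7, 8, 18, 1, 10, 17, 16, 20, 13, 2, 19, 21, 23],
   [0, 12, 2, 1, 3, 11, 13, 10, 14, 5, 7, 15, 4, 20, 8, 9, 16, 18, 19, 21, 22, 17, 6, 23],
   [0, 14, 21, 7, 3, 9, 2, 11, 10, 5, 8, 4, 1, 16, 15, 12, 19, 17, 18, 22, 6, 20, 13, 23],
   [0, 15, 6, 3, 8, 5, 21, 4, 1, 10, 12, 14, 11, 22, 9, 7, 17, 19, 16, 20, 18, 13, 2, 23]]

def lev10 : List (List ℕ) :=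
  [[0, 1, 2, 3, 4, 5, 6, 7, 8, 9, 10, 11, 12, 13, 14, 15, 16, 17, 18, 19, 20, 21, 22, 23],
   [0, 15, 6, 3, 8, 5, 21, 4, 1, 10, 12, 14, 11, 22, 9, 7, 17, 19, 16, 20, 18, 13, 2, 23],
   [0, 10, 13, 8, 11, 3, 2, 12, 14, 4, 7, 15, 5, 16, 1, 9, 20, 6, 22, 21, 19, 17, 18, 23],
   [0, 7, 16, 12, 5, 4, 20, 15, 1, 10, 14, 9, 3, 13, 11, 8, 6, 21, 18, 22, 2, 19, 17, 23],
   [0, 4, 17, 11, 5, 8, 18, 7, 15, 12, 9, 10, 3, 22, 14, 1, 21, 13, 16, 2, 6, 20, 19, 23],
   [0, 11, 18, 5, 3, 14, 20, 10, 12, 4, 15, 8, 1, 17, 7, 9, 6, 19, 2, 16, 22, 13, 21, 23],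
   [0, 10, 19, 5, 3, 12, 17, 14, 9, 15, 8, 7, 4, 18, 1, 11, 22, 16, 13, 20, 21, 6, 2, 23],
   [0, 12, 20, 5, 3, 11, 19, 9, 10, 7, 1, 4, 8, 16, 15, 14, 2, 17, 22, 18, 13, 21, 6, 23],
   [0, 9, 21, 4, 12, 3, 22, 10, 11, 7, 15, 1, 5, 18, 8, 14, 19, 2, 13, 6, 17, 16, 20, 23],
   [0, 12, 22, 1, 14, 3, 6, 11, 9, 8, 4, 7, 5, 17, 15, 10, 18, 21, 2, 13, 20, 19, 16, 23]]

def lev14 : List (List ℕ) :=
  [[0, 1, 2, 3, 4, 5, 6, 7, 8, 9, 10, 11, 12, 13, 14, 15, 16, 17, 18, 19, 20, 21, 22, 23],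
   [0, 3, 8, 13, 5, 1, 7, 17, 2, 20, 15, 4, 21, 11, 6, 14, 22, 10, 9, 12, 18, 19, 16, 23],
   [0, 11, 8, 13, 2, 4, 9, 6, 5, 19, 21, 3, 16, 1, 14, 10, 12, 17, 22, 7, 15, 20, 18, 23],
   [0, 5, 1, 4, 3, 8, 10, 16, 11, 20, 6, 13, 21, 2, 15, 22, 14, 7, 9, 12, 18, 19, 17, 23],
   [0, 8, 5, 1, 13, 4, 12, 14, 11, 9, 18, 3, 16, 2, 7, 17, 19, 15, 22, 6, 10, 21, 20, 23],
   [0, 3, 13, 1, 11, 8, 14, 16, 5, 9, 17, 4, 12, 2, 6, 22, 7, 10, 18, 19, 20, 21, 15, 23],
   [0, 1, 3, 5, 13, 2, 15, 22, 4, 18, 7, 11, 19, 8, 14, 16, 6, 17, 20, 21, 9, 12, 10, 23],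
   [0, 11, 4, 8, 2, 13, 16, 7, 3, 9, 22, 1, 19, 5, 14, 15, 6, 17, 20, 12, 18, 21, 10, 23],
   [0, 13, 2, 11, 1, 3, 17, 10, 8, 18, 14, 5, 19, 4, 7, 6, 16, 15, 20, 21, 9, 12, 22, 23],
   [0, 8, 13, 1, 4, 3, 18, 21, 2, 16, 12, 5, 19, 11, 10, 9, 17, 6, 20, 7, 15, 22, 14, 23],
   [0, 8, 3, 13, 4, 1, 19, 7, 5, 18, 20, 11, 16, 2, 10, 15, 21, 6, 22, 17, 14, 12, 9, 23],
   [0, 2, 3, 5, 11, 1, 20, 12, 8, 22, 19, 4, 21, 13, 17, 18, 7, 14, 9, 6, 10, 16, 15, 23],
   [0, 2, 1, 3, 11, 5, 21, 6, 4, 20, 9, 13, 22, 8, 17, 10, 12, 14, 16, 7, 15, 19, 18, 23],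
   [0, 4, 5, 2, 8, 11, 22, 17, 13, 20, 16, 3, 12, 1, 6, 14, 7, 10, 18, 21, 9, 19, 15, 23]]

theorem lev14_ok : levOK [8388608, 1, 10558] 6 8378048 lev14 = true := by decide +kernel
theorem lev12_ok : levOK [8388608, 1, 57274] 1 57274 lev12 = true := by decide +kernel
theorem lev10_ok : levOK [8388608, 1, 57274] 2 8331332 lev10 = true := by decide +kernel

theorem lev14_E : ∀ p : GolayPt, p ∈ setOf 8378048 ↔ p ∉ setOf 10558 ∧ p ≠ none ∧ p ≠ pt 0 := by
  simp only [mem_setOf]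
  decide +kernel

theorem lev10_E : ∀ p : GolayPt, p ∈ setOf 8331332 ↔ p ∉ setOf 57274 ∧ p ≠ none ∧ p ≠ pt 0 := by
  simp only [mem_setOf]
  decide +kernel

theorem famDe {o : Finset GolayPt} (ho : o ∈ octads) (hno : none ∉ o) (h0 : pt 0 ∉ o)
    {k : GolayPt} (hk : k ∉ o) (hkn : k ≠ none) (hk0 : k ≠ pt 0) (hLm : vD o k ∈ leechLattice) :
    RelL [X0] (vD o k) (vD (setOf 10558) (pt 6)) := by
  obtain ⟨σ, hσ, hσn, hσ0, hσo⟩ := m22_fam (by decide) rootC_cw m22_orbit_c330 ho.1 ho.2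
    ((inter_single_zero o none).mpr hno) ((inter_single_zero o (pt 0)).mpr h0)
  have hk1 : σ⁻¹ k ∈ setOf 8378048 := by
    rw [lev14_E]
    refine ⟨?_, ?_, ?_⟩
    · rw [← hσo, mem_smul_iff] at hk
      exact hk
    · rw [Ne, Equiv.Perm.inv_eq_iff_eq, hσn]
      exact hkn
    · rw [Ne, Equiv.Perm.inv_eq_iff_eq, hσ0]
      exact hk0
  obtain ⟨τ, hτ, hτn, hτ0, hτo, hτk⟩ := lev_fin (by norm_num) lev14_ok hσ hσn hσ0 hk1
  rw [hσo] at hτo
  exact relPt1 hτ hτn hτ0 (by rw [smul_compl_finset, hτo]) hτk hLm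

theorem famTf {d : Finset GolayPt} (hd : d ∈ dodecads) (hnd : none ∉ d) (h0 : pt 0 ∉ d)
    {k : GolayPt} (hk : k ∈ d) (hLm : vT dᶜ k ∈ leechLattice) :
    RelL [X0] (vT dᶜ k) (vT (setOf 57274)ᶜ (pt 1)) := by
  obtain ⟨σ, hσ, hσn, hσ0, hσo⟩ := m22_fam (by decide) rootEn_cw m22_orbit_e616 hd.1 hd.2
    ((inter_single_zero d none).mpr hnd) ((inter_single_zero d (pt 0)).mpr h0)
  have hk1 : σ⁻¹ k ∈ setOf 57274 := by
    rw [← hσo, mem_smul_iff] at hk
    exact hk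
  obtain ⟨τ, hτ, hτn, hτ0, hτo, hτk⟩ := lev_fin (by norm_num) lev12_ok hσ hσn hσ0 hk1
  rw [hσo] at hτo
  exact relPt1 hτ hτn hτ0 (by rw [smul_compl_finset, hτo]) hτk hLm

theorem famTj {d : Finset GolayPt} (hd : d ∈ dodecads) (hnd : none ∉ d) (h0 : pt 0 ∉ d)
    {k : GolayPt} (hk : k ∉ d) (hkn : k ≠ none) (hk0 : k ≠ pt 0)
    (hLm : vT dᶜ k ∈ leechLattice) : RelL [X0] (vT dᶜ k) (vT (setOf 57274)ᶜ (pt 2)) := by
  obtain ⟨σ, hσ, hσn, hσ0, hσo⟩ := m22_fam (by decide) rootEn_cw m22_orbit_e616 hd.1 hd.2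
    ((inter_single_zero d none).mpr hnd) ((inter_single_zero d (pt 0)).mpr h0)
  have hk1 : σ⁻¹ k ∈ setOf 8331332 := by
    rw [lev10_E]
    refine ⟨?_, ?_, ?_⟩
    · rw [← hσo, mem_smul_iff] at hk
      exact hk
    · rw [Ne, Equiv.Perm.inv_eq_iff_eq, hσn]
      exact hkn
    · rw [Ne, Equiv.Perm.inv_eq_iff_eq, hσ0]
      exact hk0
  obtain ⟨τ, hτ, hτn, hτ0, hτo, hτk⟩ := lev_fin (by norm_num) lev10_ok hσ hσn hσ0 hk1
  rw [hσo] at hτo
  exact relPt1 hτ hτn hτ0 (by rw [smul_compl_finset, hτo]) hτk hLm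

/-! ### Fusion -/

theorem pat2_mem {o s : Finset GolayPt} (ho : o ∈ octads) (hs : s ⊆ o) (hp : s.card % 2 = 0) :
    tw s (pat 2 o) ∈ leechLattice := by
  have hE : tw s (pat 2 o) ∈ E1 := by
    unfold E1
    rw [mem_clsE]
    exact ⟨o, (mem_octadFinset _).mpr ho, s, mem_par.mpr ⟨hs, hp⟩, rfl⟩
  exact (E1_props hE).1

theorem vT_mem {c : Finset GolayPt} (hc : c ∈ GC) (k : GolayPt) : vT c k ∈ leechLattice :=
  tw_pt1_mem hc k

theorem vD_mem {o : Finset GolayPt} (ho : o ∈ octads) (k : GolayPt) : vD o k ∈ leechLattice :=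
  tw_pt1_mem (compl_mem_supports ho.1) k

theorem oct1 : setOf 2130606 ∈ octads := setOf_mem_octads (by decide +kernel)
theorem oct2 : setOf 190626 ∈ octads := setOf_mem_octads (by decide +kernel)
theorem oct3 : setOf 8733800 ∈ octads := setOf_mem_octads (by decide +kernel)
theorem oct4 : setOf 5652556 ∈ octads := setOf_mem_octads (by decide +kernel)
theorem oct5 : setOf 10666625 ∈ octads := setOf_mem_octads (by decide +kernel)
theorem oct6 : setOf 8431757 ∈ octads := setOf_mem_octads (by decide +kernel)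
theorem oct7 : setOf 459847 ∈ octads := setOf_mem_octads (by decide +kernel)

theorem dod1 : setOf 5548270 ∈ dodecads := by
  rw [mem_dodecads_iff, maskS_setOf (by decide)]
  exact ⟨by decide +kernel, by decide +kernel⟩

theorem dod2 : setOf 1174204 ∈ dodecads := by
  rw [mem_dodecads_iff, maskS_setOf (by decide)]
  exact ⟨by decide +kernel, by decide +kernel⟩

theorem mixC1 : mixFun sgQ ∅ (vBq oD {pt 1, pt 3}) = vD (setOf 2130606) (pt 5) := by
  funext k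
  revert k
  decide +kernel

theorem mixC2 : mixFun sgQ ∅ (vC (setOf o0)) = vD (setOf 190626) (pt 1) := by
  funext k
  revert k
  decide +kernel

theorem mixC3 : mixFun sgQ ∅ (vBq (setOf 8733800) {pt 6, pt 10}) = vE (setOf 57274) := by
  funext k
  revert k
  decide +kernel

theorem mixC4 : mixFun sgQ ∅ (tw {none, pt 1, pt 3, pt 5} (pat 2 oD)) = vE (setOf 2130606) := by
  funext k
  revert k
  decide +kernel

theorem mixC5 : mixFun sgQ ∅ (vBq (setOf o0) {pt 1, pt 2}) = vD (setOf 190626) (pt 2) := by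
  funext k
  revert k
  decide +kernel

theorem mixC6 : mixFun sgQ ∅ (vD oQ (pt 0)) = vD (setOf 5652556) (pt 5) := by
  funext k
  revert k
  decide +kernel

theorem mixC8 : mixFun sgQ ∅ (vD (setOf 10558) (pt 6)) = vT (setOf 5548270)ᶜ (pt 7) := by
  funext k
  revert k
  decide +kernel

theorem mixC9 : mixFun sgQ ∅ (tw {none, pt 1, pt 7, pt 12} (pat 2 oD)) =
    vT (setOf 5548270)ᶜ (pt 2) := by
  funext k
  revert k
  decide +kernel

theorem mixC10 : mixFun sgQ ∅ (tw {none, pt 1} (pat 2 oD)) = vT (setOf 10666625) (pt 2) := by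
  funext k
  revert k
  decide +kernel

theorem mixC11 : mixFun sgQ ∅ (tw {pt 0, pt 1, pt 2, pt 3} (pat 2 (setOf o0))) =
    vT (setOf 8431757) (pt 1) := by
  funext k
  revert k
  decide +kernel

theorem mixC12 : mixFun sgQ ∅ (vT (setOf 57274) (pt 0)) = vT (setOf 1174204)ᶜ (pt 17) := by
  funext k
  revert k
  decide +kernel

theorem mixC13 : mixFun sgQ ∅ (tw {pt 0, pt 2, pt 16, pt 18} (pat 2 (setOf 459847))) =
    vT (setOf 57274) (pt 0) := by
  funext k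
  revert k
  decide +kernel

theorem fuC {u v : GolayPt → ℤ} (hu : u ∈ leechLattice) (e : mixFun sgQ ∅ u = v) :
    RelL [X0] u v := by
  have h := relQ hu
  rw [e] at h
  exact h

theorem oD_pts3 : pt 5 ∈ oD ∧ pt 12 ∈ oD := by
  unfold oD
  simp only [mem_setOf]
  decide

theorem oQ_pt1 : pt 1 ∉ oQ := by
  unfold oQ
  simp only [mem_setOf]
  decide

theorem o0_pts3 : pt 2 ∈ setOf o0 ∧ pt 3 ∈ setOf o0 := by
  simp only [mem_setOf]
  decide

theorem oct1_pts : none ∉ setOf 2130606 ∧ pt 0 ∉ setOf 2130606 ∧ pt 5 ∈ setOf 2130606 := by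
  simp only [mem_setOf]
  decide

theorem oct2_pts : none ∉ setOf 190626 ∧ pt 0 ∉ setOf 190626 ∧ pt 1 ∈ setOf 190626 ∧
    pt 2 ∉ setOf 190626 := by
  simp only [mem_setOf]
  decide

theorem oct3_pts : none ∈ setOf 8733800 ∧ pt 0 ∉ setOf 8733800 ∧ pt 6 ∈ setOf 8733800 ∧
    pt 10 ∈ setOf 8733800 := by
  simp only [mem_setOf]
  decide

theorem oct4_pts : none ∉ setOf 5652556 ∧ pt 0 ∉ setOf 5652556 ∧ pt 5 ∉ setOf 5652556 := by
  simp only [mem_setOf]
  decide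

theorem oct5_pts : none ∈ setOf 10666625 ∧ pt 0 ∈ setOf 10666625 ∧ pt 2 ∉ setOf 10666625 := by
  simp only [mem_setOf]
  decide

theorem oct6_pts : none ∈ setOf 8431757 ∧ pt 0 ∈ setOf 8431757 ∧ pt 1 ∉ setOf 8431757 := by
  simp only [mem_setOf]
  decide

theorem oct7_pts : none ∉ setOf 459847 ∧ pt 0 ∈ setOf 459847 ∧ pt 2 ∈ setOf 459847 ∧
    pt 16 ∈ setOf 459847 ∧ pt 18 ∈ setOf 459847 := by
  simp only [mem_setOf]
  decide

theorem dod1_pts : none ∉ setOf 5548270 ∧ pt 0 ∉ setOf 5548270 ∧ pt 7 ∈ setOf 5548270 ∧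
    pt 2 ∈ setOf 5548270 := by
  simp only [mem_setOf]
  decide

theorem dod2_pts : none ∉ setOf 1174204 ∧ pt 0 ∉ setOf 1174204 ∧ pt 17 ∉ setOf 1174204 := by
  simp only [mem_setOf]
  decide

theorem rootC_pt6 : pt 6 ∉ setOf 10558 := by
  simp only [mem_setOf]
  decide

theorem rootEn_pts : none ∉ setOf 57274 ∧ pt 0 ∉ setOf 57274 ∧ pt 1 ∈ setOf 57274 ∧
    pt 2 ∉ setOf 57274 := by
  simp only [mem_setOf]
  decide

/-- Representatives of the three large classes. -/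
def rt16 : GolayPt → ℤ := vD (setOf 10558) (pt 1)
def rt8 : GolayPt → ℤ := vT (setOf 57274)ᶜ (pt 1)
def rt0 : GolayPt → ℤ := vT oQ (pt 1)

/-! #### Inner product `-16` -/

theorem chBn {o : Finset GolayPt} (ho : o ∈ octads) (hno : none ∈ o) (h0 : pt 0 ∉ o)
    {a b : GolayPt} (ha : a ∈ o) (hb : b ∈ o) (hab : a ≠ b) (han : a ≠ none) (hbn : b ≠ none)
    (hLm : vBq o {a, b} ∈ leechLattice) : RelL [X0] (vBq o {a, b}) rt16 := by
  have h1 := famBn ho oD_mem hno h0 oD_pts.1 oD_pts.2 ha hb hab han hbn oD_pts2.1 oD_pts2.2.1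
    (by decide) (by decide) (by decide) hLm
  have h2 := fuC (relL_right h1) mixC1
  exact relL_trans h1 (relL_trans h2
    (famDn2 oct1 oct1_pts.1 oct1_pts.2.1 oct1_pts.2.2 (relL_right h2)))

theorem relC16 {z : GolayPt → ℤ} (hz : z ∈ leechLattice) (hn : sqNorm z = 32)
    (hx : dotInt x0 z = -8) (he : dotInt t0 z = -16) : RelL [X0] z rt16 := by
  rcases C_cases_m16 hz hn hx he with ⟨o, ho, hno, h0, a, b, ha, hb, hab, han, hbn, rfl⟩ |
    ⟨o, ho, hno, h0, rfl⟩ | ⟨d, hd, hnd, h0, rfl⟩ | ⟨o, ho, hno, h0, k, hk, rfl⟩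
  · exact chBn ho hno h0 ha hb hab han hbn hz
  · have h1 := famC0 ho setOf_o0_mem_octads hno h0 o0_pts.1 o0_pts.2 hz
    have h2 := fuC (relL_right h1) mixC2
    exact relL_trans h1 (relL_trans h2
      (famDn2 oct2 oct2_pts.1 oct2_pts.2.1 oct2_pts.2.2.1 (relL_right h2)))
  · have h1 := famEn2 hd hnd h0 hz
    have hm : vBq (setOf 8733800) {pt 6, pt 10} ∈ leechLattice :=
      pat2_mem oct3 Finset.sdiff_subset (by decide +kernel)
    have h2 := fuC hm mixC3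
    exact relL_trans h1 (relL_trans (relL_symm h2)
      (chBn oct3 oct3_pts.1 oct3_pts.2.1 oct3_pts.2.2.1 oct3_pts.2.2.2 (by decide) (by decide)
        (by decide) hm))
  · exact famDn2 ho hno h0 hk hz

/-! #### Inner product `-8` -/

theorem chF {d : Finset GolayPt} (hd : d ∈ dodecads) (hnd : none ∉ d) (h0 : pt 0 ∉ d)
    {k : GolayPt} (hk : k ∈ d) (hLm : vT dᶜ k ∈ leechLattice) : RelL [X0] (vT dᶜ k) rt8 :=
  famTf hd hnd h0 hk hLm

theorem chE {o : Finset GolayPt} (ho : o ∈ octads) (hno : none ∉ o) (h0 : pt 0 ∉ o)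
    {k : GolayPt} (hk : k ∉ o) (hkn : k ≠ none) (hk0 : k ≠ pt 0) (hLm : vD o k ∈ leechLattice) :
    RelL [X0] (vD o k) rt8 := by
  have h1 := famDe ho hno h0 hk hkn hk0 hLm
  have h2 := fuC (relL_right h1) mixC8
  exact relL_trans h1 (relL_trans h2
    (chF dod1 dod1_pts.1 dod1_pts.2.1 dod1_pts.2.2.1 (relL_right h2)))

theorem chA {o : Finset GolayPt} (ho : o ∈ octads) (hno : none ∈ o) (h0 : pt 0 ∉ o)
    {a b c : GolayPt} (ha : a ∈ o) (hb : b ∈ o) (hc : c ∈ o) (hab : a ≠ b) (hac : a ≠ c)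
    (hbc : b ≠ c) (han : a ≠ none) (hbn : b ≠ none) (hcn : c ≠ none)
    (hLm : tw {none, a, b, c} (pat 2 o) ∈ leechLattice) :
    RelL [X0] (tw {none, a, b, c} (pat 2 o)) rt8 := by
  have h1 := famA4 ho oD_mem hno h0 oD_pts.1 oD_pts.2 ha hb hc hab hac hbc han hbn hcn
    oD_pts2.1 oD_pts2.2.2.2 oD_pts3.2 (by decide) (by decide) (by decide) (by decide) (by decide)
    (by decide) hLm
  have h2 := fuC (relL_right h1) mixC9
  exact relL_trans h1 (relL_trans h2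
    (chF dod1 dod1_pts.1 dod1_pts.2.1 dod1_pts.2.2.2 (relL_right h2)))

theorem relC8 {z : GolayPt → ℤ} (hz : z ∈ leechLattice) (hn : sqNorm z = 32)
    (hx : dotInt x0 z = -8) (he : dotInt t0 z = -8) : RelL [X0] z rt8 := by
  rcases C_cases_m8 hz hn hx he with
    ⟨o, ho, hno, h0, a, b, c, ha, hb, hc, hab, hac, hbc, han, hbn, hcn, rfl⟩ |
    ⟨o, ho, hno, h0, a, b, ha, hb, hab, han, hbn, rfl⟩ | ⟨o, ho, hno, h0, rfl⟩ |
    ⟨o, ho, hno, h0, rfl⟩ | ⟨o, ho, hno, h0, k, hk, hkn, hk0, rfl⟩ |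
    ⟨d, hd, hnd, h0, k, hk, rfl⟩
  · exact chA ho hno h0 ha hb hc hab hac hbc han hbn hcn hz
  · have h1 := famB0 ho setOf_o0_mem_octads hno h0 o0_pts.1 o0_pts.2 ha hb hab han hbn
      o0_pt1 o0_pts3.1 (by decide) (by decide) (by decide) hz
    have h2 := fuC (relL_right h1) mixC5
    exact relL_trans h1 (relL_trans h2
      (chE oct2 oct2_pts.1 oct2_pts.2.1 oct2_pts.2.2.2 (by decide) (by decide) (relL_right h2)))
  · have h1 := famEc ho hno h0 hz
    have hm : tw {none, pt 1, pt 3, pt 5} (pat 2 oD) ∈ leechLattice :=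
      pat2_mem oD_mem (by decide +kernel) (by decide +kernel)
    have h2 := fuC hm mixC4
    have h3 := famEc oct1 oct1_pts.1 oct1_pts.2.1 (relL_right h2)
    exact relL_trans h1 (relL_trans (relL_symm h3) (relL_trans (relL_symm h2)
      (chA oD_mem oD_pts.1 oD_pts.2 oD_pts2.1 oD_pts2.2.1 oD_pts3.1 (by decide) (by decide)
        (by decide) (by decide) (by decide) (by decide) hm)))
  · have h1 := famD00 ho oQ_mem hno h0 oQ_pts.1 oQ_pts.2.1 hz
    have h2 := fuC (relL_right h1) mixC6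
    exact relL_trans h1 (relL_trans h2
      (chE oct4 oct4_pts.1 oct4_pts.2.1 oct4_pts.2.2 (by decide) (by decide) (relL_right h2)))
  · exact chE ho hno h0 hk hkn hk0 hz
  · exact chF hd hnd h0 hk hz

/-! #### Inner product `0` -/

theorem chK {o : Finset GolayPt} (ho : o ∈ octads) (hno : none ∈ o) (h0 : pt 0 ∈ o)
    {k : GolayPt} (hk : k ∉ o) (hLm : vT o k ∈ leechLattice) : RelL [X0] (vT o k) rt0 :=
  famTk ho oQ_mem hno h0 oQ_pts.1 oQ_pts.2.1 hk oQ_pt1 hLm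

theorem chH {o : Finset GolayPt} (ho : o ∈ octads) (hno : none ∉ o) (h0 : pt 0 ∈ o)
    {a b c : GolayPt} (ha : a ∈ o) (hb : b ∈ o) (hc : c ∈ o) (hab : a ≠ b) (hac : a ≠ c)
    (hbc : b ≠ c) (han : a ≠ pt 0) (hbn : b ≠ pt 0) (hcn : c ≠ pt 0)
    (hLm : tw {pt 0, a, b, c} (pat 2 o) ∈ leechLattice) :
    RelL [X0] (tw {pt 0, a, b, c} (pat 2 o)) rt0 := by
  have h1 := famH4 ho setOf_o0_mem_octads hno h0 o0_pts.1 o0_pts.2 ha hb hc hab hac hbc han hbn
    hcn o0_pt1 o0_pts3.1 o0_pts3.2 (by decide) (by decide) (by decide) (by decide) (by decide)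
    (by decide) hLm
  have h2 := fuC (relL_right h1) mixC11
  exact relL_trans h1 (relL_trans h2
    (chK oct6 oct6_pts.1 oct6_pts.2.1 oct6_pts.2.2 (relL_right h2)))

theorem chI {d : Finset GolayPt} (hd : d ∈ dodecads) (hnd : none ∉ d) (h0 : pt 0 ∉ d)
    (hLm : vT d (pt 0) ∈ leechLattice) : RelL [X0] (vT d (pt 0)) rt0 := by
  have h1 := famTi hd hnd h0 hLm
  have hm : tw {pt 0, pt 2, pt 16, pt 18} (pat 2 (setOf 459847)) ∈ leechLattice :=
    pat2_mem oct7 (by decide +kernel) (by decide +kernel)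
  have h2 := fuC hm mixC13
  exact relL_trans h1 (relL_trans (relL_symm h2)
    (chH oct7 oct7_pts.1 oct7_pts.2.1 oct7_pts.2.2.1 oct7_pts.2.2.2.1 oct7_pts.2.2.2.2
      (by decide) (by decide) (by decide) (by decide) (by decide) (by decide) hm))

theorem relC0 {z : GolayPt → ℤ} (hz : z ∈ leechLattice) (hn : sqNorm z = 32)
    (hx : dotInt x0 z = -8) (he : dotInt t0 z = 0) : RelL [X0] z rt0 := by
  rcases C_cases_0 hz hn hx he with ⟨o, ho, hno, h0, b, hb, hbn, rfl⟩ |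
    ⟨o, ho, hno, h0, a, b, c, ha, hb, hc, hab, hac, hbc, han, hbn, hcn, rfl⟩ |
    ⟨d, hd, hnd, h0, rfl⟩ | ⟨o, ho, hno, h0, k, hk, rfl⟩ |
    ⟨d, hd, hnd, h0, k, hk, hkn, hk0, rfl⟩
  · have h1 := famG2 ho oD_mem hno h0 oD_pts.1 oD_pts.2 hb hbn oD_pts2.1 (by decide) hz
    have h2 := fuC (relL_right h1) mixC10
    exact relL_trans h1 (relL_trans h2
      (chK oct5 oct5_pts.1 oct5_pts.2.1 oct5_pts.2.2 (relL_right h2)))
  · exact chH ho hno h0 ha hb hc hab hac hbc han hbn hcn hz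
  · exact chI hd hnd h0 hz
  · exact chK ho hno h0 hk hz
  · have h1 := famTj hd hnd h0 hk hkn hk0 hz
    have hm : vT (setOf 57274) (pt 0) ∈ leechLattice := vT_mem rootEn_mem.1 (pt 0)
    have h2 := fuC hm mixC12
    have h3 := famTj dod2 dod2_pts.1 dod2_pts.2.1 dod2_pts.2.2 (by decide) (by decide)
      (relL_right h2)
    exact relL_trans h1 (relL_trans (relL_symm h3) (relL_trans (relL_symm h2)
      (chI rootEn_mem rootEn_pts.1 rootEn_pts.2.1 hm)))

/-! #### The two classes known from the McLaughlin configurations -/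

theorem relL_shift {L : List ↥leechLattice} {y y' : GolayPt → ℤ} (b : ↥leechLattice)
    (hb : ∀ g : ↥Co0, g • T0 = T0 → (∀ c ∈ L, g • c = c) → g • b = b)
    (h : RelL L y y') : RelL L (y + (b : GolayPt → ℤ)) (y' + (b : GolayPt → ℤ)) := by
  obtain ⟨hy, hy', g, hg0, hgL, hg⟩ := h
  refine ⟨leechLattice.add_mem hy b.2, leechLattice.add_mem hy' b.2, g, hg0, hgL, ?_⟩
  have e := co0_add g ⟨y, hy⟩ b
  rw [hg, hb g hg0 hgL] at e
  exact e

theorem dot_x0_t0 : dotInt x0 t0 = 24 := by decide +kernel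

theorem relCm24 {z z' : GolayPt → ℤ} (hz : z ∈ leechLattice) (hn : sqNorm z = 32)
    (hx : dotInt x0 z = -8) (he : dotInt t0 z = -24) (hz' : z' ∈ leechLattice)
    (hn' : sqNorm z' = 32) (hx' : dotInt x0 z' = -8) (he' : dotInt t0 z' = -24) :
    RelL [X0] z z' := by
  have key : ∀ w : GolayPt → ℤ, w ∈ leechLattice → sqNorm w = 32 → dotInt x0 w = -8 →
      dotInt t0 w = -24 → RelL [X0] (w + t0) (pat 2 oI) := by
    intro w hw hwn hwx hwe
    apply rel_McL (leechLattice.add_mem hw t0_mem)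
    · rw [sqNorm_add, hwn, sqNorm_t0, dot_comm, hwe]
      norm_num
    · rw [dot_add_right, hwe, dot_self, sqNorm_t0]
      norm_num
    · rw [dot_add_right, hwx, dot_x0_t0]
      norm_num
  have h := relL_trans (key z hz hn hx he) (relL_symm (key z' hz' hn' hx' he'))
  have h2 := relL_shift (-T0) (fun g hg _ => by rw [smul_neg', hg]) h
  have e1 : z + t0 + ((-T0 : ↥leechLattice) : GolayPt → ℤ) = z := add_neg_cancel_right z t0
  have e2 : z' + t0 + ((-T0 : ↥leechLattice) : GolayPt → ℤ) = z' := add_neg_cancel_right z' t0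
  rw [e1, e2] at h2
  exact h2

theorem w0_props : sqNorm (x0 - t0) = 32 ∧ dotInt t0 (x0 - t0) = -24 ∧
    dotInt x0 (x0 - t0) = 8 := by decide +kernel

theorem relC8p {z z' : GolayPt → ℤ} (hz : z ∈ leechLattice) (hn : sqNorm z = 32)
    (hx : dotInt x0 z = -8) (he : dotInt t0 z = 8) (hz' : z' ∈ leechLattice)
    (hn' : sqNorm z' = 32) (hx' : dotInt x0 z' = -8) (he' : dotInt t0 z' = 8) :
    RelL [X0] z z' := by
  have key : ∀ w : GolayPt → ℤ, w ∈ leechLattice → sqNorm w = 32 → dotInt x0 w = -8 →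
      dotInt t0 w = 8 → RelL [X0] (w + (x0 - t0)) r1 := by
    intro w hw hwn hwx hwe
    apply relQ_main
    rw [mem_YQ]
    refine ⟨leechLattice.add_mem hw (leechLattice.sub_mem x0_props.1 t0_mem), ?_, ?_, ?_⟩
    · rw [sqNorm_add, hwn, w0_props.1, dot_sub_right, dot_comm w x0, dot_comm w t0, hwx, hwe]
      norm_num
    · rw [dot_add_right, hwe, w0_props.2.1]
      norm_num
    · rw [dot_add_right, hwx, w0_props.2.2]
      norm_num
  have h := relL_trans (key z hz hn hx he) (relL_symm (key z' hz' hn' hx' he'))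
  have h2 := relL_shift (T0 - X0) (fun g hg hL => by
    rw [co0_sub, hg, hL X0 (List.mem_singleton_self _)]) h
  have e1 : z + (x0 - t0) + ((T0 - X0 : ↥leechLattice) : GolayPt → ℤ) = z := by
    show z + (x0 - t0) + (t0 - x0) = z
    abel
  have e2 : z' + (x0 - t0) + ((T0 - X0 : ↥leechLattice) : GolayPt → ℤ) = z' := by
    show z' + (x0 - t0) + (t0 - x0) = z'
    abel
  rw [e1, e2] at h2
  exact h2

/-- The stabiliser of the reference pair is transitive on the vectors of each class. -/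
theorem relC_fam {z z' : GolayPt → ℤ} (hz : z ∈ leechLattice) (hn : sqNorm z = 32)
    (hx : dotInt x0 z = -8) (hz' : z' ∈ leechLattice) (hn' : sqNorm z' = 32)
    (hx' : dotInt x0 z' = -8) (he : dotInt t0 z = dotInt t0 z') (hne : dotInt t0 z ≠ 24) :
    RelL [X0] z z' := by
  rcases C_vals hz hn hx with h | h | h | h | h | h
  · exact absurd h hne
  · exact relC8p hz hn hx h hz' hn' hx' (he.symm.trans h)
  · exact relL_trans (relC0 hz hn hx h) (relL_symm (relC0 hz' hn' hx' (he.symm.trans h)))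
  · exact relL_trans (relC8 hz hn hx h) (relL_symm (relC8 hz' hn' hx' (he.symm.trans h)))
  · exact relL_trans (relC16 hz hn hx h) (relL_symm (relC16 hz' hn' hx' (he.symm.trans h)))
  · exact relCm24 hz hn hx h hz' hn' hx' (he.symm.trans h)

end Cfsg.Agent.Lib.helper28.XI
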