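import Cfsg.Agent.Lib.helper28.LeechCo2B

set_option autoImplicit false

namespace Cfsg.Agent.Lib.helper28.XI

open Cfsg
open Cfsg.Agent.Lib.helper28
open Cfsg.Agent.Lib.helper27
open Cfsg.Agent.Lib.helper28.LC
open Cfsg.Agent.Lib.helper28.SC
open scoped Pointwise

/-! The sizes of the classes of the minimal vectors with inner product `-8` with `x0`. -/

/-- The minimal vectors with inner product `-8` with `x0`. -/
noncomputable def XC : Finset (GolayPt → ℤ) := S32.filter (fun w => dotInt x0 w = -8)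

theorem mem_XC (z : GolayPt → ℤ) :
    z ∈ XC ↔ z ∈ leechLattice ∧ sqNorm z = 32 ∧ dotInt x0 z = -8 := by
  unfold XC
  rw [Finset.mem_filter, mem_S32, and_assoc]

theorem XC_mem_lattice : ∀ y ∈ XC, y ∈ leechLattice := fun y hy => ((mem_XC y).mp hy).1

theorem card_XC : XC.card = 47104 := by
  have h := n8 ((mem_S32 x0).mpr ⟨x0_props.1, x0_props.2.1⟩)
  unfold Nk at h
  unfold XC
  exact h

/-- The classes by the inner product with `t0`. -/
noncomputable def WC (e : ℤ) : Finset (GolayPt → ℤ) := XC.filter (fun z => dotInt t0 z = e)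

theorem mem_WC (e : ℤ) (z : GolayPt → ℤ) : z ∈ WC e ↔ z ∈ XC ∧ dotInt t0 z = e := by
  unfold WC
  rw [Finset.mem_filter]

theorem XC_map : (XC : Set (GolayPt → ℤ)).MapsTo (fun z => dotInt t0 z)
    (({24, 8, 0, -8, -16, -24} : Finset ℤ) : Set ℤ) := by
  intro z hz
  rw [Finset.mem_coe] at hz ⊢
  rw [mem_XC] at hz
  show dotInt t0 z ∈ ({24, 8, 0, -8, -16, -24} : Finset ℤ)
  rcases C_vals hz.1 hz.2.1 hz.2.2 with h | h | h | h | h | h <;> rw [h] <;> decide

theorem card_six (s : Finset (GolayPt → ℤ))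
    (hmap : (s : Set (GolayPt → ℤ)).MapsTo (fun z => dotInt t0 z)
      (({24, 8, 0, -8, -16, -24} : Finset ℤ) : Set ℤ)) :
    s.card = (s.filter (fun z => dotInt t0 z = 24)).card +
      ((s.filter (fun z => dotInt t0 z = 8)).card + ((s.filter (fun z => dotInt t0 z = 0)).card +
      ((s.filter (fun z => dotInt t0 z = -8)).card +
      ((s.filter (fun z => dotInt t0 z = -16)).card +
        (s.filter (fun z => dotInt t0 z = -24)).card)))) := by
  rw [Finset.card_eq_sum_card_fiberwise hmap, Finset.sum_insert (by decide),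
    Finset.sum_insert (by decide), Finset.sum_insert (by decide), Finset.sum_insert (by decide),
    Finset.sum_insert (by decide), Finset.sum_singleton]

/-! ### The small classes -/

theorem c0_props : vT ∅ (pt 0) ∈ leechLattice ∧ sqNorm (vT ∅ (pt 0)) = 32 ∧
    dotInt x0 (vT ∅ (pt 0)) = -8 ∧ dotInt t0 (vT ∅ (pt 0)) = 24 :=
  ⟨tw_pt1_mem empty_mem_supports (pt 0), tw_pt1_norm _ _, by decide +kernel, by decide +kernel⟩

theorem WC24 : WC 24 = {vT ∅ (pt 0)} := by
  ext z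
  rw [mem_WC, mem_XC, Finset.mem_singleton]
  constructor
  · rintro ⟨⟨h1, h2, h3⟩, h4⟩
    exact C_cases_24 h1 h2 h3 h4
  · rintro rfl
    exact ⟨⟨c0_props.1, c0_props.2.1, c0_props.2.2.1⟩, c0_props.2.2.2⟩

theorem card_WCm24 : (WC (-24)).card = 275 := by
  rw [← card_XM]
  apply Finset.card_bij (fun z _ => z + t0)
  · intro z hz
    rw [mem_WC, mem_XC] at hz
    obtain ⟨⟨h1, h2, h3⟩, h4⟩ := hz
    rw [mem_XM]
    refine ⟨leechLattice.add_mem h1 t0_mem, ?_, ?_, ?_⟩
    · rw [sqNorm_add, h2, sqNorm_t0, dot_comm, h4]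
      norm_num
    · rw [dot_add_right, h4, dot_self, sqNorm_t0]
      norm_num
    · rw [dot_add_right, h3, dot_x0_t0]
      norm_num
  · intro a _ b _ h
    exact add_right_cancel h
  · intro y hy
    rw [mem_XM] at hy
    obtain ⟨h1, h2, h3, h4⟩ := hy
    refine ⟨y - t0, ?_, sub_add_cancel y t0⟩
    rw [mem_WC, mem_XC]
    refine ⟨⟨leechLattice.sub_mem h1 t0_mem, ?_, ?_⟩, ?_⟩
    · rw [sqNorm_sub', h2, sqNorm_t0, dot_comm, h3]
      norm_num
    · rw [dot_sub_right, h4, dot_x0_t0]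
      norm_num
    · rw [dot_sub_right, h3, dot_self, sqNorm_t0]
      norm_num

theorem card_WC8 : (WC 8).card = 2025 := by
  rw [← card_YQ]
  apply Finset.card_bij (fun z _ => z + (x0 - t0))
  · intro z hz
    rw [mem_WC, mem_XC] at hz
    obtain ⟨⟨h1, h2, h3⟩, h4⟩ := hz
    rw [mem_YQ]
    refine ⟨leechLattice.add_mem h1 (leechLattice.sub_mem x0_props.1 t0_mem), ?_, ?_, ?_⟩
    · rw [sqNorm_add, h2, w0_props.1, dot_sub_right, dot_comm z x0, dot_comm z t0, h3, h4]
      norm_num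
    · rw [dot_add_right, h4, w0_props.2.1]
      norm_num
    · rw [dot_add_right, h3, w0_props.2.2]
      norm_num
  · intro a _ b _ h
    exact add_right_cancel h
  · intro y hy
    rw [mem_YQ] at hy
    obtain ⟨h1, h2, h3, h4⟩ := hy
    refine ⟨y - (x0 - t0), ?_, sub_add_cancel y (x0 - t0)⟩
    rw [mem_WC, mem_XC]
    refine ⟨⟨leechLattice.sub_mem h1 (leechLattice.sub_mem x0_props.1 t0_mem), ?_, ?_⟩, ?_⟩
    · rw [sqNorm_sub', h2, w0_props.1, dot_sub_right, dot_comm y x0, dot_comm y t0, h4, h3]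
      norm_num
    · rw [dot_sub_right, h4, w0_props.2.2]
      norm_num
    · rw [dot_sub_right, h3, w0_props.2.1]
      norm_num

/-! ### Inner product `-16` -/

theorem x0_via_r1 (y : GolayPt → ℤ) : dotInt x0 y = dotInt r1 y + 8 * y none := by
  rw [dot_x0, dot_r1]
  ring

theorem WCm16_eq : WC (-16) = XF.filter (fun y => dotInt x0 y = -8) := by
  ext y
  rw [mem_WC, mem_XC, Finset.mem_filter, mem_XF]
  tauto

theorem W16_vals : ∀ x ∈ XF.filter (fun y => dotInt x0 y = -8),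
    x none = -4 ∨ x none = -2 ∨ x none = 0 ∨ x none = -1 ∨ x none = -3 := by
  intro x hx
  rw [Finset.mem_filter] at hx
  rcases XF_combos hx.1 with h | h | h | h | h | h | h | h | h | h | h | h <;> omega

theorem W16_fib (c d : ℤ) (hcd : d + 8 * c = -8) (F : Finset (GolayPt → ℤ))
    (hF : ∀ y, y ∈ F ↔ y ∈ XF ∧ y none = c ∧ dotInt r1 y = d) :
    (XF.filter (fun y => dotInt x0 y = -8)).filter (fun y => y none = c) = F := by
  ext y
  rw [Finset.mem_filter, Finset.mem_filter, hF, x0_via_r1]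
  constructor
  · rintro ⟨⟨h1, h2⟩, h3⟩
    exact ⟨h1, h3, by rw [h3] at h2; omega⟩
  · rintro ⟨h1, h2, h3⟩
    exact ⟨⟨h1, by rw [h2, h3]; omega⟩, h2⟩

theorem W16_fib_empty :
    (XF.filter (fun y => dotInt x0 y = -8)).filter (fun y => y none = -4) = ∅ := by
  rw [Finset.filter_eq_empty_iff]
  intro y hy hv
  rw [Finset.mem_filter, x0_via_r1] at hy
  rcases XF_combos hy.1 with h | h | h | h | h | h | h | h | h | h | h | h <;> omega

theorem card_WCm16 : (WC (-16)).card = 7128 := by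
  rw [WCm16_eq, card_fib5 _ W16_vals, W16_fib_empty, W16_fib (-2) 8 (by norm_num) FBn FBn_iff,
    W16_fib 0 (-8) (by norm_num) FC0 FC0_iff, W16_fib (-1) 0 (by norm_num) FDn FDn_iff,
    W16_fib (-3) 16 (by norm_num) FEn FEn_iff, card_FBn, card_FC0, card_FDn, card_FEn,
    Finset.card_empty]

/-! ### Inner product `0` -/

theorem vT_inj {c c' : Finset GolayPt} {k k' : GolayPt} (h : vT c k = vT c' k') :
    c = c' ∧ k = k' := by
  have h' : tw c (pt1 (-3) {k}) = tw c' (pt1 (-3) {k'}) := h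
  have hcc : c = c' := by
    rw [← resSet_tw (pt1_mod (v := -3) (by decide) {k}) c, h',
      resSet_tw (pt1_mod (v := -3) (by decide) {k'}) c']
  subst hcc
  refine ⟨rfl, ?_⟩
  have h2 : pt1 (-3) {k} = pt1 (-3) {k'} := by
    rw [← tw_tw c (pt1 (-3) {k}), h', tw_tw]
  exact pt1_inj h2

noncomputable def FG : Finset (GolayPt → ℤ) :=
  cls octI1 (fun o => o.erase none) (fun o b => tw {none, b} (pat 2 o))

noncomputable def FH : Finset (GolayPt → ℤ) :=
  cls octN0 (fun o => Finset.powersetCard 3 (o.erase (pt 0)))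
    (fun o q => tw (insert (pt 0) q) (pat 2 o))

noncomputable def FI : Finset (GolayPt → ℤ) := dodNN.image (fun d => vT d (pt 0))

noncomputable def FK : Finset (GolayPt → ℤ) := cls octI0 (fun o => oᶜ) (fun o k => vT o k)

noncomputable def FJ : Finset (GolayPt → ℤ) :=
  cls dodNN (fun d => (dᶜ.erase none).erase (pt 0)) (fun d k => vT dᶜ k)

theorem pair_sub {o : Finset GolayPt} {b : GolayPt} (hno : none ∈ o) (hb : b ∈ o.erase none) :
    ({none, b} : Finset GolayPt) ⊆ o := by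
  intro j hj
  rw [Finset.mem_insert, Finset.mem_singleton] at hj
  rcases hj with rfl | rfl
  · exact hno
  · exact Finset.mem_of_mem_erase hb

theorem card_FG : FG.card = 1232 := by
  have hinj : ∀ o ∈ octI1, ∀ b ∈ o.erase none, ∀ o' ∈ octI1, ∀ b' ∈ o'.erase none,
      tw {none, b} (pat 2 o) = tw {none, b'} (pat 2 o') → o = o' ∧ b = b' := by
    intro o ho b hb o' ho' b' hb' h
    rw [mem_octI1] at ho ho'
    obtain ⟨h1, h2⟩ := tw_pat_inj (v := 2) (by norm_num) (pair_sub ho.2.1 hb)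
      (pair_sub ho'.2.1 hb') h
    refine ⟨h1, ?_⟩
    have hm : b ∈ ({none, b'} : Finset GolayPt) := by
      rw [← h2]
      simp
    rw [Finset.mem_insert, Finset.mem_singleton] at hm
    rcases hm with hm | hm
    · exact absurd hm (Finset.mem_erase.mp hb).1
    · exact hm
  have hK : ∀ o ∈ octI1, (o.erase none).card = 7 := by
    intro o ho
    rw [mem_octI1] at ho
    rw [Finset.card_erase_of_mem ho.2.1, ho.1.2]
  unfold FG
  rw [card_cls _ _ _ hinj 7 hK, card_octI1]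

theorem ins_sub {o q : Finset GolayPt} (h0 : pt 0 ∈ o) (hq : q ⊆ o.erase (pt 0)) :
    insert (pt 0) q ⊆ o := by
  intro j hj
  rw [Finset.mem_insert] at hj
  rcases hj with rfl | hj
  · exact h0
  · exact Finset.mem_of_mem_erase (hq hj)

theorem card_FH : FH.card = 6160 := by
  have hinj : ∀ o ∈ octN0, ∀ q ∈ Finset.powersetCard 3 (o.erase (pt 0)), ∀ o' ∈ octN0,
      ∀ q' ∈ Finset.powersetCard 3 (o'.erase (pt 0)),
      tw (insert (pt 0) q) (pat 2 o) = tw (insert (pt 0) q') (pat 2 o') → o = o' ∧ q = q' := by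
    intro o ho q hq o' ho' q' hq' h
    rw [mem_octN0] at ho ho'
    rw [Finset.mem_powersetCard] at hq hq'
    obtain ⟨h1, h2⟩ := tw_pat_inj (v := 2) (by norm_num) (ins_sub ho.2.2 hq.1)
      (ins_sub ho'.2.2 hq'.1) h
    refine ⟨h1, ?_⟩
    have hn : pt 0 ∉ q := fun hj => (Finset.mem_erase.mp (hq.1 hj)).1 rfl
    have hn' : pt 0 ∉ q' := fun hj => (Finset.mem_erase.mp (hq'.1 hj)).1 rfl
    rw [← Finset.erase_insert hn, h2, Finset.erase_insert hn']
  have hK : ∀ o ∈ octN0, (Finset.powersetCard 3 (o.erase (pt 0))).card = 35 := by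
    intro o ho
    rw [mem_octN0] at ho
    rw [Finset.card_powersetCard, Finset.card_erase_of_mem ho.2.2, ho.1.2]
    rfl
  unfold FH
  rw [card_cls _ _ _ hinj 35 hK, card_octN0]

theorem card_FI : FI.card = 616 := by
  unfold FI
  rw [Finset.card_image_of_injOn, card_dodNN]
  intro d _ d' _ h
  exact (vT_inj h).1

theorem card_FK : FK.card = 1232 := by
  have hinj : ∀ o ∈ octI0, ∀ k ∈ oᶜ, ∀ o' ∈ octI0, ∀ k' ∈ o'ᶜ,
      vT o k = vT o' k' → o = o' ∧ k = k' := fun o _ k _ o' _ k' _ h => vT_inj h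
  have hK : ∀ o ∈ octI0, (oᶜ).card = 16 := by
    intro o ho
    rw [mem_octI0] at ho
    rw [Finset.card_compl, ho.1.2]
    decide
  unfold FK
  rw [card_cls _ _ _ hinj 16 hK, card_octI0]

theorem card_FJ : FJ.card = 6160 := by
  have hinj : ∀ d ∈ dodNN, ∀ k ∈ (dᶜ.erase none).erase (pt 0), ∀ d' ∈ dodNN,
      ∀ k' ∈ (d'ᶜ.erase none).erase (pt 0), vT dᶜ k = vT d'ᶜ k' → d = d' ∧ k = k' := by
    intro d _ k _ d' _ k' _ h
    obtain ⟨h1, h2⟩ := vT_inj h
    exact ⟨compl_injective h1, h2⟩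
  have hK : ∀ d ∈ dodNN, ((dᶜ.erase none).erase (pt 0)).card = 10 := by
    intro d hd
    rw [mem_dodNN] at hd
    have hn : none ∈ dᶜ := Finset.mem_compl.mpr hd.2.1
    have h0 : pt 0 ∈ dᶜ.erase none :=
      Finset.mem_erase.mpr ⟨by decide, Finset.mem_compl.mpr hd.2.2⟩
    rw [Finset.card_erase_of_mem h0, Finset.card_erase_of_mem hn, Finset.card_compl, hd.1.2]
    decide
  unfold FJ
  rw [card_cls _ _ _ hinj 10 hK, card_dodNN]

/-! Properties of the five families. -/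

theorem FG_props {z : GolayPt → ℤ} (hz : z ∈ FG) : z ∈ WC 0 ∧ z none = -2 := by
  unfold FG at hz
  rw [mem_cls] at hz
  obtain ⟨o, ho, b, hb, rfl⟩ := hz
  rw [mem_octI1] at ho
  have hs := pair_sub ho.2.1 hb
  have hbn : none ≠ b := fun e => (Finset.mem_erase.mp hb).1 e.symm
  have hc : ({none, b} : Finset GolayPt).card = 2 := Finset.card_pair hbn
  have hE : tw {none, b} (pat 2 o) ∈ E1 := by
    unfold E1
    rw [mem_clsE]
    exact ⟨o, (mem_octadFinset _).mpr ho.1, {none, b}, mem_par.mpr ⟨hs, by rw [hc]⟩, rfl⟩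
  have hv := tw_pat_val {none, b} o hs
  have h1 : tw {none, b} (pat 2 o) none = -2 := by
    rw [hv, if_pos (by simp)]
  have h2 : tw {none, b} (pat 2 o) (pt 0) = 0 := by
    rw [hv, if_neg (fun h => ho.2.2 (hs h)), if_neg ho.2.2]
  refine ⟨?_, h1⟩
  rw [mem_WC, mem_XC]
  refine ⟨⟨(E1_props hE).1, (E1_props hE).2.1, ?_⟩, ?_⟩
  · rw [dot_x0, h1, h2]
    norm_num
  · rw [dot_t0, h1, sum_tw_pat 2 _ _ hs, ho.1.2, hc]
    norm_num

theorem FH_props {z : GolayPt → ℤ} (hz : z ∈ FH) : z ∈ WC 0 ∧ z none = 0 := by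
  unfold FH at hz
  rw [mem_cls] at hz
  obtain ⟨o, ho, q, hq, rfl⟩ := hz
  rw [mem_octN0] at ho
  rw [Finset.mem_powersetCard] at hq
  have hs := ins_sub ho.2.2 hq.1
  have hn : pt 0 ∉ q := fun hj => (Finset.mem_erase.mp (hq.1 hj)).1 rfl
  have hc : (insert (pt 0) q).card = 4 := by rw [Finset.card_insert_of_notMem hn, hq.2]
  have hE : tw (insert (pt 0) q) (pat 2 o) ∈ E1 := by
    unfold E1
    rw [mem_clsE]
    exact ⟨o, (mem_octadFinset _).mpr ho.1, insert (pt 0) q, mem_par.mpr ⟨hs, by rw [hc]⟩, rfl⟩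
  have hv := tw_pat_val (insert (pt 0) q) o hs
  have h1 : tw (insert (pt 0) q) (pat 2 o) none = 0 := by
    rw [hv, if_neg (fun h => ho.2.1 (hs h)), if_neg ho.2.1]
  have h2 : tw (insert (pt 0) q) (pat 2 o) (pt 0) = -2 := by
    rw [hv, if_pos (Finset.mem_insert_self _ _)]
  refine ⟨?_, h1⟩
  rw [mem_WC, mem_XC]
  refine ⟨⟨(E1_props hE).1, (E1_props hE).2.1, ?_⟩, ?_⟩
  · rw [dot_x0, h1, h2]
    norm_num
  · rw [dot_t0, h1, sum_tw_pat 2 _ _ hs, ho.1.2, hc]
    norm_num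

theorem FI_props {z : GolayPt → ℤ} (hz : z ∈ FI) : z ∈ WC 0 ∧ z none = 1 := by
  unfold FI at hz
  rw [Finset.mem_image] at hz
  obtain ⟨d, hd, rfl⟩ := hz
  rw [mem_dodNN] at hd
  have h1 : vT d (pt 0) none = 1 := by
    unfold vT
    rw [tw_pt1_apply, if_neg hd.2.1, if_neg (by decide)]
    norm_num
  have h2 : vT d (pt 0) (pt 0) = -3 := by
    unfold vT
    rw [tw_pt1_apply, if_neg hd.2.2, if_pos rfl]
    norm_num
  refine ⟨?_, h1⟩
  rw [mem_WC, mem_XC]
  refine ⟨⟨tw_pt1_mem hd.1.1 (pt 0), tw_pt1_norm _ _, ?_⟩, ?_⟩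
  · rw [dot_x0, h1, h2]
    norm_num
  · rw [dot_t0, h1]
    unfold vT
    rw [sum_tw_pt1, hd.1.2, Finset.inter_singleton_of_notMem hd.2.2, Finset.card_empty]
    norm_num

theorem FK_props {z : GolayPt → ℤ} (hz : z ∈ FK) :
    z ∈ WC 0 ∧ z none = -1 ∧ ∃ o ∈ octads, ∃ k, z = vT o k := by
  unfold FK at hz
  rw [mem_cls] at hz
  obtain ⟨o, ho, k, hk, rfl⟩ := hz
  rw [mem_octI0] at ho
  rw [Finset.mem_compl] at hk
  have h1 : vT o k none = -1 := by
    unfold vT
    rw [tw_pt1_apply, if_pos ho.2.1, if_neg (fun e : none = k => hk (e ▸ ho.2.1))]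
    norm_num
  have h2 : vT o k (pt 0) = -1 := by
    unfold vT
    rw [tw_pt1_apply, if_pos ho.2.2, if_neg (fun e : pt 0 = k => hk (e ▸ ho.2.2))]
    norm_num
  refine ⟨?_, h1, o, ho.1, k, rfl⟩
  rw [mem_WC, mem_XC]
  refine ⟨⟨tw_pt1_mem ho.1.1 k, tw_pt1_norm _ _, ?_⟩, ?_⟩
  · rw [dot_x0, h1, h2]
    norm_num
  · rw [dot_t0, h1]
    unfold vT
    rw [sum_tw_pt1, ho.1.2, Finset.inter_singleton_of_notMem hk, Finset.card_empty]
    norm_num

theorem FJ_props {z : GolayPt → ℤ} (hz : z ∈ FJ) :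
    z ∈ WC 0 ∧ z none = -1 ∧ ∃ d ∈ dodecads, ∃ k, z = vT dᶜ k := by
  unfold FJ at hz
  rw [mem_cls] at hz
  obtain ⟨d, hd, k, hk, rfl⟩ := hz
  rw [mem_dodNN] at hd
  rw [Finset.mem_erase, Finset.mem_erase] at hk
  obtain ⟨hk0, hkn, hkd⟩ := hk
  have hn : none ∈ dᶜ := Finset.mem_compl.mpr hd.2.1
  have h0 : pt 0 ∈ dᶜ := Finset.mem_compl.mpr hd.2.2
  have h1 : vT dᶜ k none = -1 := by
    unfold vT
    rw [tw_pt1_apply, if_pos hn, if_neg (fun e : none = k => hkn e.symm)]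
    norm_num
  have h2 : vT dᶜ k (pt 0) = -1 := by
    unfold vT
    rw [tw_pt1_apply, if_pos h0, if_neg (fun e : pt 0 = k => hk0 e.symm)]
    norm_num
  have hcc : (dᶜ).card = 12 := by
    rw [Finset.card_compl, hd.1.2]
    decide
  refine ⟨?_, h1, d, hd.1, k, rfl⟩
  rw [mem_WC, mem_XC]
  refine ⟨⟨tw_pt1_mem (compl_mem_supports hd.1.1) k, tw_pt1_norm _ _, ?_⟩, ?_⟩
  · rw [dot_x0, h1, h2]
    norm_num
  · rw [dot_t0, h1]
    unfold vT
    rw [sum_tw_pt1, hcc, Finset.inter_singleton_of_mem hkd, Finset.card_singleton]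
    norm_num

theorem WC0_eq : WC 0 = FG ∪ FH ∪ FI ∪ FK ∪ FJ := by
  ext z
  simp only [Finset.mem_union]
  constructor
  · intro hz
    rw [mem_WC, mem_XC] at hz
    obtain ⟨⟨h1, h2, h3⟩, h4⟩ := hz
    rcases C_cases_0 h1 h2 h3 h4 with ⟨o, ho, hno, h0, b, hb, hbn, rfl⟩ |
      ⟨o, ho, hno, h0, a, b, c, ha, hb, hc, hab, hac, hbc, han, hbn, hcn, rfl⟩ |
      ⟨d, hd, hnd, h0, rfl⟩ | ⟨o, ho, hno, h0, k, hk, rfl⟩ |
      ⟨d, hd, hnd, h0, k, hk, hkn, hk0, rfl⟩
    · left; left; left; left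
      unfold FG
      rw [mem_cls]
      exact ⟨o, (mem_octI1 o).mpr ⟨ho, hno, h0⟩, b, Finset.mem_erase.mpr ⟨hbn, hb⟩, rfl⟩
    · left; left; left; right
      unfold FH
      rw [mem_cls]
      refine ⟨o, (mem_octN0 o).mpr ⟨ho, hno, h0⟩, {a, b, c}, Finset.mem_powersetCard.mpr ⟨?_,
        Finset.card_eq_three.mpr ⟨a, b, c, hab, hac, hbc, rfl⟩⟩, rfl⟩
      intro j hj
      rw [Finset.mem_insert, Finset.mem_insert, Finset.mem_singleton] at hj
      rcases hj with rfl | rfl | rfl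
      · exact Finset.mem_erase.mpr ⟨han, ha⟩
      · exact Finset.mem_erase.mpr ⟨hbn, hb⟩
      · exact Finset.mem_erase.mpr ⟨hcn, hc⟩
    · left; left; right
      unfold FI
      rw [Finset.mem_image]
      exact ⟨d, (mem_dodNN d).mpr ⟨hd, hnd, h0⟩, rfl⟩
    · left; right
      unfold FK
      rw [mem_cls]
      exact ⟨o, (mem_octI0 o).mpr ⟨ho, hno, h0⟩, k, Finset.mem_compl.mpr hk, rfl⟩
    · right
      unfold FJ
      rw [mem_cls]
      exact ⟨d, (mem_dodNN d).mpr ⟨hd, hnd, h0⟩, k, Finset.mem_erase.mpr ⟨hk0,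
        Finset.mem_erase.mpr ⟨hkn, Finset.mem_compl.mpr hk⟩⟩, rfl⟩
  · rintro ((((h | h) | h) | h) | h)
    · exact (FG_props h).1
    · exact (FH_props h).1
    · exact (FI_props h).1
    · exact (FK_props h).1
    · exact (FJ_props h).1

theorem disj_of_none {A B : Finset (GolayPt → ℤ)} (a b : ℤ) (hab : a ≠ b)
    (hA : ∀ z ∈ A, z none = a) (hB : ∀ z ∈ B, z none = b) : Disjoint A B := by
  rw [Finset.disjoint_left]
  intro z hz hz'
  exact hab ((hA z hz).symm.trans (hB z hz'))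

theorem disj_KJ : Disjoint FK FJ := by
  rw [Finset.disjoint_left]
  intro z hz hz'
  obtain ⟨-, -, o, ho, k, rfl⟩ := FK_props hz
  obtain ⟨-, -, d, hd, k', h⟩ := FJ_props hz'
  have e := (vT_inj h).1
  have h8 := ho.2
  rw [e, Finset.card_compl, hd.2] at h8
  revert h8
  decide

theorem card_WC0 : (WC 0).card = 15400 := by
  have d1 : Disjoint FG FH :=
    disj_of_none (-2) 0 (by norm_num) (fun z hz => (FG_props hz).2) (fun z hz => (FH_props hz).2)
  have d2 : Disjoint (FG ∪ FH) FI := by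
    rw [Finset.disjoint_union_left]
    exact ⟨disj_of_none (-2) 1 (by norm_num) (fun z hz => (FG_props hz).2)
        (fun z hz => (FI_props hz).2),
      disj_of_none 0 1 (by norm_num) (fun z hz => (FH_props hz).2)
        (fun z hz => (FI_props hz).2)⟩
  have d3 : Disjoint (FG ∪ FH ∪ FI) FK := by
    rw [Finset.disjoint_union_left, Finset.disjoint_union_left]
    exact ⟨⟨disj_of_none (-2) (-1) (by norm_num) (fun z hz => (FG_props hz).2)
        (fun z hz => (FK_props hz).2.1),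
      disj_of_none 0 (-1) (by norm_num) (fun z hz => (FH_props hz).2)
        (fun z hz => (FK_props hz).2.1)⟩,
      disj_of_none 1 (-1) (by norm_num) (fun z hz => (FI_props hz).2)
        (fun z hz => (FK_props hz).2.1)⟩
  have d4 : Disjoint (FG ∪ FH ∪ FI ∪ FK) FJ := by
    rw [Finset.disjoint_union_left, Finset.disjoint_union_left, Finset.disjoint_union_left]
    exact ⟨⟨⟨disj_of_none (-2) (-1) (by norm_num) (fun z hz => (FG_props hz).2)
        (fun z hz => (FJ_props hz).2.1),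
      disj_of_none 0 (-1) (by norm_num) (fun z hz => (FH_props hz).2)
        (fun z hz => (FJ_props hz).2.1)⟩,
      disj_of_none 1 (-1) (by norm_num) (fun z hz => (FI_props hz).2)
        (fun z hz => (FJ_props hz).2.1)⟩, disj_KJ⟩
  rw [WC0_eq, Finset.card_union_of_disjoint d4, Finset.card_union_of_disjoint d3,
    Finset.card_union_of_disjoint d2, Finset.card_union_of_disjoint d1, card_FG, card_FH,
    card_FI, card_FK, card_FJ]

theorem card_WCm8 : (WC (-8)).card = 22275 := by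
  have h := card_six XC XC_map
  have e1 : (XC.filter (fun z => dotInt t0 z = 24)).card = 1 := by
    have h24 := WC24
    unfold WC at h24
    rw [h24, Finset.card_singleton]
  have e2 : (XC.filter (fun z => dotInt t0 z = 8)).card = 2025 := card_WC8
  have e3 : (XC.filter (fun z => dotInt t0 z = 0)).card = 15400 := card_WC0
  have e5 : (XC.filter (fun z => dotInt t0 z = -16)).card = 7128 := card_WCm16
  have e6 : (XC.filter (fun z => dotInt t0 z = -24)).card = 275 := card_WCm24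
  rw [card_XC, e1, e2, e3, e5, e6] at h
  show (XC.filter (fun z => dotInt t0 z = -8)).card = 22275
  generalize (XC.filter (fun z => dotInt t0 z = -8)).card = n at h ⊢
  omega

end Cfsg.Agent.Lib.helper28.XI
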