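import Cfsg.Agent.Lib.helper27.Co0Basic
import Cfsg.Agent.Lib.helper27.LeechIndex
import Cfsg.Agent.Lib.helper28.LeechCnt1
import Cfsg.Agent.Lib.helper28.GolayOrder
import Cfsg.Prelude.Def_SporadicCombinatorics

set_option autoImplicit false

namespace Cfsg.Agent.Lib.helper28.SC

open Cfsg
open Cfsg.Agent.Lib.helper28
open Cfsg.Agent.Lib.helper27
open scoped Pointwise

/-- An automorphism of the lattice preserving the standard cross. -/
def PresCross (g : ↥Co0) : Prop :=
  ∀ v : ↥leechLattice, (v : GolayPt → ℤ) ∈ stdCross →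
    ((g • v : ↥leechLattice) : GolayPt → ℤ) ∈ stdCross

theorem bVec_coe (i : GolayPt) : ((bVec i : ↥leechLattice) : GolayPt → ℤ) = Pi.single i 8 := by
  funext k
  rw [Pi.single_apply]
  rfl

theorem bVec_mem_stdCross (i : GolayPt) : ((bVec i : ↥leechLattice) : GolayPt → ℤ) ∈ stdCross :=
  ⟨i, 8, Or.inl rfl, bVec_coe i⟩

theorem smul_add' (g : ↥Co0) (v w : ↥leechLattice) : g • (v + w) = g • v + g • w := g.2.1 v w

theorem smul_eq_toAddHom (g : ↥Co0) (v : ↥leechLattice) : g • v = toAddHom g.1 g.2 v := rfl

theorem smul_neg' (g : ↥Co0) (v : ↥leechLattice) : g • (-v) = -(g • v) := by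
  rw [smul_eq_toAddHom, smul_eq_toAddHom, map_neg]

/-- Expansion of the image of a vector in terms of the images of the `8 e_i`. -/
theorem eight_mul_smul (g : ↥Co0) (v : ↥leechLattice) (k : GolayPt) :
    8 * ((g • v : ↥leechLattice) : GolayPt → ℤ) k =
      ∑ i, (v : GolayPt → ℤ) i * ((g • bVec i : ↥leechLattice) : GolayPt → ℤ) k := by
  have h := congrArg (toAddHom g.1 g.2) (eight_smul_eq v)
  rw [map_zsmul, map_sum] at h
  have h2 := congrArg (evalHom k) h
  rw [map_zsmul, map_sum] at h2
  simp only [map_zsmul, evalHom_apply, smul_eq_mul] at h2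
  exact h2

/-- The data attached to an automorphism preserving the standard cross. -/
theorem cross_data (g : ↥Co0) (hg : PresCross g) :
    ∃ (σ : Equiv.Perm GolayPt) (s : GolayPt → ℤ), (∀ i, s i = 8 ∨ s i = -8) ∧
      ∀ i, ((g • bVec i : ↥leechLattice) : GolayPt → ℤ) = Pi.single (σ i) (s i) := by
  have h1 : ∀ i, ∃ (j : GolayPt) (s : ℤ), (s = 8 ∨ s = -8) ∧
      ((g • bVec i : ↥leechLattice) : GolayPt → ℤ) = Pi.single j s := fun i =>
    hg (bVec i) (bVec_mem_stdCross i)
  choose τ s hs hτ using h1
  have hinj : Function.Injective τ := by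
    intro i i' hii
    have e1 := hτ i
    have e2 := hτ i'
    rw [hii] at e1
    have hcase : s i = s i' ∨ s i = -s i' := by
      rcases hs i with h | h <;> rcases hs i' with h' | h' <;> rw [h, h'] <;> norm_num
    by_contra hne
    rcases hcase with h | h
    · have : g • bVec i = g • bVec i' := by
        apply Subtype.ext
        rw [e1, e2, h]
      have hb := MulAction.injective g this
      have := congrFun (congrArg Subtype.val hb) i
      rw [bVec_apply, bVec_apply, if_pos rfl, if_neg hne] at this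
      norm_num at this
    · have : g • bVec i = g • (-bVec i') := by
        rw [smul_neg']
        apply Subtype.ext
        show ((g • bVec i : ↥leechLattice) : GolayPt → ℤ) =
          -((g • bVec i' : ↥leechLattice) : GolayPt → ℤ)
        rw [e1, e2, h, Pi.single_neg]
      have hb := MulAction.injective g this
      have := congrFun (congrArg Subtype.val hb) i
      have h3 : ((-bVec i' : ↥leechLattice) : GolayPt → ℤ) i = -((bVec i').1 i) := rfl
      rw [h3, bVec_apply, bVec_apply, if_pos rfl, if_neg hne] at this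
      norm_num at this
  exact ⟨Equiv.ofBijective τ (Finite.injective_iff_bijective.mp hinj), s, hs, hτ⟩

theorem signedPerm_apply (σ : Equiv.Perm GolayPt) (c : Finset GolayPt) (x : GolayPt → ℤ)
    (k : GolayPt) : signedPerm σ c x k = if k ∈ c then -x (σ.symm k) else x (σ.symm k) := rfl

/-- The action of an automorphism preserving the standard cross is a signed permutation. -/
theorem cross_formula (g : ↥Co0) (hg : PresCross g) :
    ∃ (σ : Equiv.Perm GolayPt) (c : Finset GolayPt), ∀ v : ↥leechLattice,
      ((g • v : ↥leechLattice) : GolayPt → ℤ) = signedPerm σ c (v : GolayPt → ℤ) := by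
  classical
  obtain ⟨σ, s, hs, hσ⟩ := cross_data g hg
  refine ⟨σ, Finset.univ.filter (fun k => s (σ.symm k) = -8), fun v => ?_⟩
  funext k
  have h := eight_mul_smul g v k
  have h2 : ∀ i, (v : GolayPt → ℤ) i * ((g • bVec i : ↥leechLattice) : GolayPt → ℤ) k =
      if i = σ.symm k then (v : GolayPt → ℤ) i * s i else 0 := by
    intro i
    rw [hσ i, Pi.single_apply]
    by_cases hk : k = σ i
    · rw [if_pos hk, if_pos (by rw [hk, Equiv.symm_apply_apply])]
    · rw [if_neg hk, if_neg (fun h => hk (by rw [h, Equiv.apply_symm_apply])), mul_zero]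
  rw [Finset.sum_congr rfl (fun i _ => h2 i), Finset.sum_ite_eq' Finset.univ (σ.symm k),
    if_pos (Finset.mem_univ _)] at h
  have hmem : k ∈ Finset.univ.filter (fun k => s (σ.symm k) = -8) ↔ s (σ.symm k) = -8 := by
    rw [Finset.mem_filter]
    exact ⟨fun hh => hh.2, fun hh => ⟨Finset.mem_univ _, hh⟩⟩
  rw [signedPerm_apply]
  rcases hs (σ.symm k) with h8 | h8
  · rw [if_neg (fun hh => by have := hmem.mp hh; rw [h8] at this; norm_num at this)]
    rw [h8] at h
    linarith
  · rw [if_pos (hmem.mpr h8)]
    rw [h8] at h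
    linarith

theorem two_ind_mem {c : Finset GolayPt} (hc : c ∈ GC) :
    (fun i => if i ∈ c then (2 : ℤ) else 0) ∈ leechLattice :=
  (mem_leechLattice_iff _).mpr (two_indicator_mem_leechSet hc)

/-- The permutation part preserves the code and the sign part is a code word. -/
theorem cross_monomial (g : ↥Co0) (σ : Equiv.Perm GolayPt) (c : Finset GolayPt)
    (h : ∀ v : ↥leechLattice,
      ((g • v : ↥leechLattice) : GolayPt → ℤ) = signedPerm σ c (v : GolayPt → ℤ)) :
    σ ∈ M24 ∧ c ∈ GC := by
  constructor
  · apply mem_M24_of_forall_smul_mem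
    intro C hC
    have hv := h ⟨_, two_ind_mem hC⟩
    have hm : signedPerm σ c (fun i => if i ∈ C then (2 : ℤ) else 0) ∈ leechLattice := by
      rw [← hv]
      exact (g • (⟨_, two_ind_mem hC⟩ : ↥leechLattice)).2
    rw [mem_leechLattice_iff, mem_leechSet_iff] at hm
    obtain ⟨m, -, -, hk⟩ := hm
    have h2 := hk 2
    have he : resSet (signedPerm σ c (fun i => if i ∈ C then (2 : ℤ) else 0)) 2 = σ • C := by
      ext k
      rw [mem_resSet, mem_smul_iff, signedPerm_apply]
      have hs : σ.symm k = σ⁻¹ k := rfl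
      rw [hs]
      by_cases hkC : σ⁻¹ k ∈ C
      · simp only [if_pos hkC]
        constructor
        · intro _; exact hkC
        · intro _; split_ifs <;> decide
      · simp only [if_neg hkC]
        constructor
        · intro hh; exfalso; split_ifs at hh <;> norm_num at hh
        · intro hh; exact absurd hh hkC
    rw [he] at h2
    exact h2
  · have hv := h ⟨Spor.vecV, (mem_leechLattice_iff _).mpr Spor.vecV_mem_leechSet⟩
    have hm : signedPerm σ c Spor.vecV ∈ leechLattice := by
      rw [← hv]
      exact (g • (⟨Spor.vecV, (mem_leechLattice_iff _).mpr Spor.vecV_mem_leechSet⟩ :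
        ↥leechLattice)).2
    rw [mem_leechLattice_iff, mem_leechSet_iff] at hm
    obtain ⟨m, -, -, hk⟩ := hm
    have h1 := hk 1
    have he : resSet (signedPerm σ c Spor.vecV) 1 = c := by
      ext k
      rw [mem_resSet, signedPerm_apply]
      have hv3 : ∀ j, Spor.vecV j = -5 ∨ Spor.vecV j = -1 := by
        intro j
        unfold Spor.vecV
        split_ifs
        · exact Or.inl rfl
        · exact Or.inr rfl
      by_cases hkc : k ∈ c
      · simp only [if_pos hkc]
        constructor
        · intro _; exact hkc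
        · intro _
          rcases hv3 (σ.symm k) with h5 | h5 <;> rw [h5] <;> decide
      · simp only [if_neg hkc]
        constructor
        · intro hh
          exfalso
          rcases hv3 (σ.symm k) with h5 | h5 <;> rw [h5] at hh <;> norm_num at hh
        · intro hh; exact absurd hh hkc
    rw [he] at h1
    exact h1

/-- First half of the statement. -/
theorem cross_stab_monomial (g : ↥Co0) (hg : PresCross g) :
    ∃ f ∈ golayMonomialMaps, ∀ v : ↥leechLattice,
      ((g • v : ↥leechLattice) : GolayPt → ℤ) = f (v : GolayPt → ℤ) := by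
  obtain ⟨σ, c, h⟩ := cross_formula g hg
  obtain ⟨h1, h2⟩ := cross_monomial g σ c h
  exact ⟨signedPerm σ c, ⟨σ, h1, c, h2, rfl⟩, h⟩

/-- The monomial automorphism attached to a permutation of the code's group and a code word. -/
def mono (σ : ↥M24) (c : ↥LC.codeFinset) : ↥Co0 :=
  ⟨signPerm c.1 ((LC.mem_codeFinset _).mp c.2) * coordPerm (σ.1)⁻¹ (inv_mem σ.2),
    mul_mem (signPerm_mem _ _) (coordPerm_mem _ _)⟩

theorem mono_apply (σ : ↥M24) (c : ↥LC.codeFinset) (v : ↥leechLattice) :
    ((mono σ c • v : ↥leechLattice) : GolayPt → ℤ) = signedPerm σ.1 c.1 (v : GolayPt → ℤ) := rfl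

theorem signedPerm_single (σ : Equiv.Perm GolayPt) (c : Finset GolayPt) (i : GolayPt) (s : ℤ) :
    signedPerm σ c (Pi.single i s) = Pi.single (σ i) (if σ i ∈ c then -s else s) := by
  funext k
  rw [signedPerm_apply]
  by_cases hk : k = σ i
  · rw [hk, Equiv.symm_apply_apply, Pi.single_eq_same, Pi.single_eq_same]
  · have h1 : σ.symm k ≠ i := fun h => hk (by rw [← h, Equiv.apply_symm_apply])
    rw [Pi.single_eq_of_ne h1, Pi.single_eq_of_ne hk, neg_zero, ite_self]

theorem mono_presCross (σ : ↥M24) (c : ↥LC.codeFinset) : PresCross (mono σ c) := by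
  intro v hv
  obtain ⟨i, s, hs, hvs⟩ := hv
  rw [mono_apply, hvs, signedPerm_single]
  refine ⟨σ.1 i, _, ?_, rfl⟩
  split_ifs
  · rcases hs with h | h <;> rw [h] <;> norm_num
  · exact hs

theorem mono_injective : Function.Injective (fun p : ↥M24 × ↥LC.codeFinset => mono p.1 p.2) := by
  rintro ⟨σ, c⟩ ⟨σ', c'⟩ h
  have key : ∀ i, σ.1 i = σ'.1 i ∧ (σ.1 i ∈ c.1 ↔ σ.1 i ∈ c'.1) := by
    intro i
    have h1 : ((mono σ c • bVec i : ↥leechLattice) : GolayPt → ℤ) =
        ((mono σ' c' • bVec i : ↥leechLattice) : GolayPt → ℤ) := by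
      have h' : mono σ c = mono σ' c' := h
      rw [h']
    rw [mono_apply, mono_apply, bVec_coe, signedPerm_single, signedPerm_single] at h1
    have h2 := congrFun h1 (σ.1 i)
    rw [Pi.single_apply, Pi.single_apply, if_pos rfl] at h2
    have hi : σ.1 i = σ'.1 i := by
      by_contra hne
      rw [if_neg hne] at h2
      split_ifs at h2 <;> norm_num at h2
    refine ⟨hi, ?_⟩
    rw [if_pos hi, ← hi] at h2
    by_cases h3 : σ.1 i ∈ c.1
    all_goals by_cases h4 : σ.1 i ∈ c'.1
    · exact ⟨fun _ => h4, fun _ => h3⟩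
    · rw [if_pos h3, if_neg h4] at h2; norm_num at h2
    · rw [if_neg h3, if_pos h4] at h2; norm_num at h2
    · exact ⟨fun hh => absurd hh h3, fun hh => absurd hh h4⟩
  have hσ : σ = σ' := by
    apply Subtype.ext
    apply Equiv.ext
    intro i
    exact (key i).1
  have hc : c = c' := by
    apply Subtype.ext
    ext k
    have := (key (σ.1.symm k)).2
    rw [Equiv.apply_symm_apply] at this
    exact this
  rw [hσ, hc]

theorem mono_surjective (g : ↥Co0) (hg : PresCross g) :
    ∃ p : ↥M24 × ↥LC.codeFinset, mono p.1 p.2 = g := by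
  obtain ⟨σ, c, h⟩ := cross_formula g hg
  obtain ⟨h1, h2⟩ := cross_monomial g σ c h
  refine ⟨(⟨σ, h1⟩, ⟨c, (LC.mem_codeFinset c).mpr h2⟩), ?_⟩
  apply Subtype.ext
  apply Equiv.ext
  intro v
  apply Subtype.ext
  have := mono_apply ⟨σ, h1⟩ ⟨c, (LC.mem_codeFinset c).mpr h2⟩ v
  exact this.trans (h v).symm

/-- Second half of the statement. -/
theorem card_cross_stab : Nat.card {g : ↥Co0 // PresCross g} = 4096 * 244823040 := by
  have hbij : Function.Bijective (fun p : ↥M24 × ↥LC.codeFinset =>
      (⟨mono p.1 p.2, mono_presCross p.1 p.2⟩ : {g : ↥Co0 // PresCross g})) := by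
    constructor
    · intro p q hpq
      exact mono_injective (congrArg Subtype.val hpq)
    · rintro ⟨g, hg⟩
      obtain ⟨p, hp⟩ := mono_surjective g hg
      exact ⟨p, Subtype.ext hp⟩
  rw [← Nat.card_congr (Equiv.ofBijective _ hbij), Nat.card_prod, card_M24,
    Nat.card_eq_fintype_card, Fintype.card_coe, LC.card_codeFinset]

end Cfsg.Agent.Lib.helper28.SC
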