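import Cfsg.Agent.Lib.helper28.LeechDot8
import Cfsg.Agent.Lib.helper28.GolayM12
import Cfsg.Agent.Lib.helper28.GolayM11Two
import Cfsg.Agent.Lib.helper28.GolayMax4
import Cfsg.Agent.Lib.helper28.GolayOrder
import Cfsg.Agent.Lib.helper28.StdCross

set_option autoImplicit false

namespace Cfsg.Agent.Lib.helper28.XI

open Cfsg
open Cfsg.Agent.Lib.helper28
open Cfsg.Agent.Lib.helper27
open Cfsg.Agent.Lib.helper28.LC
open scoped Pointwise

/-! The stabiliser of a vector of norm 48 acting on the minimal vectors with inner product `-16`. -/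

/-- The reference vector of norm 48 as a lattice element. -/
def T0 : ↥leechLattice := ⟨t0, t0_mem⟩

/-- Related by an automorphism fixing the reference vector of norm 48. -/
def RelT (w w' : GolayPt → ℤ) : Prop :=
  ∃ (hw : w ∈ leechLattice) (hw' : w' ∈ leechLattice) (g : ↥Co0),
    g • T0 = T0 ∧ g • (⟨w, hw⟩ : ↥leechLattice) = ⟨w', hw'⟩

theorem relT_trans {x y z : GolayPt → ℤ} (h1 : RelT x y) (h2 : RelT y z) : RelT x z := by
  obtain ⟨hx, hy, g, hge, hg⟩ := h1
  obtain ⟨hy', hz, g', hge', hg'⟩ := h2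
  exact ⟨hx, hz, g' * g, by rw [mul_smul, hge, hge'], by rw [mul_smul, hg, hg']⟩

theorem relT_symm {x y : GolayPt → ℤ} (h : RelT x y) : RelT y x := by
  obtain ⟨hx, hy, g, hge, hg⟩ := h
  refine ⟨hy, hx, g⁻¹, ?_, ?_⟩
  · conv_lhs => rw [← hge]
    rw [inv_smul_smul]
  · rw [← hg, inv_smul_smul]

theorem relT_right {x y : GolayPt → ℤ} (h : RelT x y) : y ∈ leechLattice := by
  obtain ⟨-, hy, -, -⟩ := h
  exact hy

theorem relT_norm {x y : GolayPt → ℤ} (h : RelT x y) : sqNorm y = sqNorm x := by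
  obtain ⟨hx, hy, g, -, hg⟩ := h
  have := co0_norm g ⟨x, hx⟩
  rw [hg] at this
  exact this

theorem relT_dot {x y : GolayPt → ℤ} (h : RelT x y) : dotInt t0 y = dotInt t0 x := by
  obtain ⟨hx, hy, g, hge, hg⟩ := h
  have := co0_dot g T0 ⟨x, hx⟩
  rw [hge, hg] at this
  exact this

theorem perm_t0 {σ : Equiv.Perm GolayPt} (h : σ none = none) : (fun i => t0 (σ i)) = t0 := by
  funext j
  show t0 (σ j) = t0 j
  unfold t0 pt1
  have e : σ j = none ↔ j = none :=
    ⟨fun hj => σ.injective (hj.trans h.symm), fun hj => by rw [hj, h]⟩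
  simp only [Finset.mem_singleton, e]

theorem relT_perm {w : GolayPt → ℤ} (hw : w ∈ leechLattice) {σ : Equiv.Perm GolayPt}
    (hσ : σ ∈ M24) (h : σ none = none) : RelT w (fun i => w (σ i)) :=
  ⟨hw, Cfsg.Agent.S0432.result σ hσ w hw, ⟨coordPerm σ hσ, coordPerm_mem σ hσ⟩,
    Subtype.ext (perm_t0 h), Subtype.ext rfl⟩

/-- The action of a product `ξ · (sign change) · (permutation) · ξ`. -/
def mixFun (σ : Equiv.Perm GolayPt) (c : Finset GolayPt) (w : GolayPt → ℤ) : GolayPt → ℤ :=
  xiFun (tw c (fun i => xiFun w (σ i)))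

theorem relT_mix {w : GolayPt → ℤ} (hw : w ∈ leechLattice) {c : Finset GolayPt} (hc : c ∈ GC)
    {σ : Equiv.Perm GolayPt} (hσ : σ ∈ M24) (h0 : mixFun σ c t0 = t0) :
    RelT w (mixFun σ c w) := by
  refine ⟨hw, xiFun_mem (signChange_mem_leechLattice
      (Cfsg.Agent.S0432.result σ hσ _ (xiFun_mem hw)) hc),
    (⟨xi, xi_mem⟩ : ↥Co0) * ⟨signPerm c hc, signPerm_mem c hc⟩ *
      ⟨coordPerm σ hσ, coordPerm_mem σ hσ⟩ * ⟨xi, xi_mem⟩, ?_, ?_⟩
  · rw [mul_smul, mul_smul, mul_smul]
    exact Subtype.ext h0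
  · rw [mul_smul, mul_smul, mul_smul]
    exact Subtype.ext rfl

theorem tw_pat_smul (σ : Equiv.Perm GolayPt) (s p : Finset GolayPt) (v : ℤ) :
    (fun i => tw (σ • s) (pat v (σ • p)) (σ i)) = tw s (pat v p) := by
  funext i
  have e1 : σ i ∈ σ • s ↔ i ∈ s := by
    rw [← Equiv.Perm.smul_def, Finset.smul_mem_smul_finset_iff]
  have e2 : σ i ∈ σ • p ↔ i ∈ p := by
    rw [← Equiv.Perm.smul_def, Finset.smul_mem_smul_finset_iff]
  unfold tw pat
  simp only [e1, e2]

theorem tw_pt1_smul (σ : Equiv.Perm GolayPt) (c T : Finset GolayPt) (v : ℤ) :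
    (fun i => tw (σ • c) (pt1 v (σ • T)) (σ i)) = tw c (pt1 v T) := by
  funext i
  have e1 : σ i ∈ σ • c ↔ i ∈ c := by
    rw [← Equiv.Perm.smul_def, Finset.smul_mem_smul_finset_iff]
  have e2 : σ i ∈ σ • T ↔ i ∈ T := by
    rw [← Equiv.Perm.smul_def, Finset.smul_mem_smul_finset_iff]
  unfold tw pt1
  simp only [e1, e2]

/-- The shapes of the minimal vectors having inner product `-16` with `(5, 1, ..., 1)`. -/
theorem X_cases {x : GolayPt → ℤ} (hx : x ∈ leechLattice) (hn : sqNorm x = 32)
    (hd : dotInt t0 x = -16) :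
    (x none = -4 ∧ ∃ a, a ≠ none ∧ x = tw {none} (pat 4 {none, a})) ∨
    (x none = -2 ∧ ∃ o ∈ octads, none ∈ o ∧ ∃ a b, a ∈ o ∧ b ∈ o ∧ a ≠ b ∧ a ≠ none ∧ b ≠ none ∧
        x = tw (o \ {a, b}) (pat 2 o)) ∨
    (x none = 0 ∧ ∃ o ∈ octads, none ∉ o ∧ x = tw o (pat 2 o)) ∨
    (x none = -1 ∧ ∃ o ∈ octads, none ∉ o ∧ ∃ k ∈ o, x = tw oᶜ (pt1 (-3) {k})) ∨
    (x none = -3 ∧ ∃ d ∈ dodecads, none ∉ d ∧ x = tw d (pt1 (-3) {none})) := by
  rw [dot_t0] at hd
  rcases parity_cases hx with hev | hodd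
  · rcases even32 hx hn hev with h | h
    · unfold E1 at h
      rw [mem_clsE] at h
      obtain ⟨o, ho, s, hs, rfl⟩ := h
      rw [mem_octadFinset] at ho
      rw [mem_par] at hs
      obtain ⟨hso, hpar⟩ := hs
      have hsum := sum_tw_pat 2 o s hso
      rw [ho.2] at hsum
      have hsc : s.card ≤ 8 := ho.2 ▸ Finset.card_le_card hso
      by_cases hno : none ∈ o
      · by_cases hns : none ∈ s
        · have hv : tw s (pat 2 o) none = -2 := by
            unfold tw pat
            rw [if_pos hns, if_pos hno]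
          rw [hsum, hv] at hd
          have hs6 : s.card = 6 := by omega
          right; left
          refine ⟨hv, o, ho, hno, ?_⟩
          have h2 : (o \ s).card = 2 := by rw [Finset.card_sdiff_of_subset hso, ho.2, hs6]
          obtain ⟨a, b, hab, hos⟩ := Finset.card_eq_two.mp h2
          have ha : a ∈ o \ s := by rw [hos]; simp
          have hb : b ∈ o \ s := by rw [hos]; simp
          rw [Finset.mem_sdiff] at ha hb
          refine ⟨a, b, ha.1, hb.1, hab, fun h => ha.2 (h ▸ hns), fun h => hb.2 (h ▸ hns), ?_⟩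
          rw [← hos, Finset.sdiff_sdiff_eq_self hso]
        · have hv : tw s (pat 2 o) none = 2 := by
            unfold tw pat
            rw [if_neg hns, if_pos hno]
          rw [hsum, hv] at hd
          omega
      · have hv : tw s (pat 2 o) none = 0 := tw_pat_not_mem 2 s hno
        rw [hsum, hv] at hd
        have hs8 : s.card = 8 := by omega
        have hso' : s = o := Finset.eq_of_subset_of_card_le hso (by rw [ho.2, hs8])
        right; right; left
        rw [hso'] at hv ⊢
        exact ⟨hv, o, ho, hno, rfl⟩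
    · unfold E0 at h
      rw [mem_clsE] at h
      obtain ⟨p, hp, s, hs, rfl⟩ := h
      rw [Finset.mem_powersetCard] at hp
      rw [Finset.mem_powerset] at hs
      have hsum := sum_tw_pat 4 p s hs
      rw [hp.2] at hsum
      have hsc : s.card ≤ 2 := hp.2 ▸ Finset.card_le_card hs
      by_cases hnp : none ∈ p
      · by_cases hns : none ∈ s
        · have hv : tw s (pat 4 p) none = -4 := by
            unfold tw pat
            rw [if_pos hns, if_pos hnp]
          rw [hsum, hv] at hd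
          have hs1 : s.card = 1 := by omega
          left
          obtain ⟨e, rfl⟩ := Finset.card_eq_one.mp hs1
          have he : none = e := Finset.mem_singleton.mp hns
          subst he
          obtain ⟨a, b, hab, rfl⟩ := Finset.card_eq_two.mp hp.2
          rw [Finset.mem_insert, Finset.mem_singleton] at hnp
          rcases hnp with h | h
          · subst h
            exact ⟨hv, b, hab.symm, rfl⟩
          · subst h
            refine ⟨hv, a, hab, ?_⟩
            rw [Finset.pair_comm]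
        · have hv : tw s (pat 4 p) none = 4 := by
            unfold tw pat
            rw [if_neg hns, if_pos hnp]
          rw [hsum, hv] at hd
          omega
      · have hv : tw s (pat 4 p) none = 0 := tw_pat_not_mem 4 s hnp
        rw [hsum, hv] at hd
        omega
  · obtain ⟨c, hc, k, rfl⟩ := odd32_struct hx hn hodd
    have hsum : ∑ j, tw c (pt1 (-3) {k}) j = 20 - 2 * c.card + 8 * (c ∩ {k}).card := by
      rw [sum_tw, sum_pt1, sum_pt1_on, Finset.card_singleton]
      push_cast
      ring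
    have hval := tw_pt1_apply c k none
    rw [hsum] at hd
    have hcard := card_of_mem_supports hc
    by_cases hkc : k ∈ c
    · exfalso
      have hi : (c ∩ {k}).card = 1 := by
        rw [Finset.inter_singleton_of_mem hkc, Finset.card_singleton]
      rw [hi] at hd
      by_cases hnc : none ∈ c
      · rw [if_pos hnc] at hval
        by_cases hk : none = k
        · rw [if_pos hk] at hval
          omega
        · rw [if_neg hk] at hval
          omega
      · rw [if_neg hnc] at hval
        by_cases hk : none = k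
        · exact hnc (hk ▸ hkc)
        · rw [if_neg hk] at hval
          have h24 : c.card = 24 := by omega
          have : c = Finset.univ := by
            rw [← Finset.card_eq_iff_eq_univ, h24]
            decide
          exact hnc (this ▸ Finset.mem_univ _)
    · have hi : (c ∩ {k}).card = 0 := by
        rw [Finset.inter_singleton_of_notMem hkc, Finset.card_empty]
      rw [hi] at hd
      by_cases hnc : none ∈ c
      · rw [if_pos hnc] at hval
        by_cases hk : none = k
        · exact absurd (hk ▸ hnc) hkc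
        · rw [if_neg hk] at hval
          have h16 : c.card = 16 := by omega
          right; right; right; left
          refine ⟨by rw [hval]; norm_num, cᶜ, ⟨compl_mem_supports hc, ?_⟩, ?_, k, ?_, ?_⟩
          · rw [Finset.card_compl, h16]
            decide
          · rw [Finset.mem_compl, not_not]
            exact hnc
          · rw [Finset.mem_compl]
            exact hkc
          · rw [compl_compl]
      · rw [if_neg hnc] at hval
        by_cases hk : none = k
        · rw [if_pos hk] at hval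
          have h12 : c.card = 12 := by omega
          right; right; right; right
          subst hk
          exact ⟨by rw [hval]; norm_num, c, ⟨hc, h12⟩, hnc, rfl⟩
        · rw [if_neg hk] at hval
          omega

/-! ### Representatives of the five shapes -/

def r1 : GolayPt → ℤ := tw {none} (pat 4 {none, pt 0})

/-- The octad formed by two tetrads of the standard sextet, through the point `none`. -/
def oI : Finset GolayPt := setOf 8536111

theorem oI_mem : oI ∈ octads := setOf_mem_octads (by decide +kernel)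

theorem oI_pts : none ∈ oI ∧ pt 0 ∈ oI ∧ pt 1 ∈ oI ∧ pt 2 ∈ oI ∧ pt 3 ∈ oI := by
  unfold oI
  simp only [mem_setOf]
  decide

def r2 : GolayPt → ℤ := tw (oI \ {pt 0, pt 1}) (pat 2 oI)

def r3 : GolayPt → ℤ := tw (setOf o0) (pat 2 (setOf o0))

def r4 : GolayPt → ℤ := tw (setOf o0)ᶜ (pt1 (-3) {pt 0})

def r5 : GolayPt → ℤ := tw (setOf d0) (pt1 (-3) {none})

theorem o0_pts : none ∉ setOf o0 ∧ pt 0 ∈ setOf o0 := by
  simp only [mem_setOf]
  decide

theorem fam1_rel {a : GolayPt} (ha : a ≠ none)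
    (hL : tw {none} (pat 4 {none, a}) ∈ leechLattice) :
    RelT (tw {none} (pat 4 {none, a})) r1 := by
  obtain ⟨σ, hσ, h1, h2⟩ := exists_mem_M24_apply₂ (a := none) (b := pt 0) (c := none) (d := a)
    (by decide) ha.symm
  have h := relT_perm hL hσ h1
  have e : (fun i => tw {none} (pat 4 {none, a}) (σ i)) = r1 := by
    have e0 := tw_pat_smul σ {none} {none, pt 0} 4
    rw [Finset.smul_finset_insert, Finset.smul_finset_singleton, Finset.smul_finset_singleton,
      Equiv.Perm.smul_def, Equiv.Perm.smul_def, h1, h2] at e0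
    exact e0
  rw [e] at h
  exact h

theorem fam2_rel {o : Finset GolayPt} (ho : o ∈ octads) (hno : none ∈ o) {a b : GolayPt}
    (ha : a ∈ o) (hb : b ∈ o) (hab : a ≠ b) (han : a ≠ none) (hbn : b ≠ none)
    (hL : tw (o \ {a, b}) (pat 2 o) ∈ leechLattice) :
    RelT (tw (o \ {a, b}) (pat 2 o)) r2 := by
  have hc : (((o.erase none).erase a).erase b).card = 5 := by
    rw [Finset.card_erase_of_mem (Finset.mem_erase.mpr ⟨hab.symm, Finset.mem_erase.mpr ⟨hbn, hb⟩⟩),
      Finset.card_erase_of_mem (Finset.mem_erase.mpr ⟨han, ha⟩), Finset.card_erase_of_mem hno,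
      ho.2]
  obtain ⟨t, ht, ht2⟩ := Finset.exists_subset_card_eq (s := ((o.erase none).erase a).erase b)
    (n := 2) (by rw [hc]; norm_num)
  obtain ⟨c1, c2, hc12, rfl⟩ := Finset.card_eq_two.mp ht2
  have h1 := ht (Finset.mem_insert_self c1 _)
  have h2 := ht (Finset.mem_insert_of_mem (Finset.mem_singleton_self c2))
  simp only [Finset.mem_erase] at h1 h2
  obtain ⟨h1b, h1a, h1n, h1o⟩ := h1
  obtain ⟨h2b, h2a, h2n, h2o⟩ := h2
  obtain ⟨σ, hσ, hmap⟩ := exists_mem_M24_map_list [none, pt 0, pt 1, pt 2, pt 3]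
    [none, a, b, c1, c2] (by decide)
    (by simp [han.symm, hbn.symm, h1n.symm, h2n.symm, hab, h1a.symm, h2a.symm, h1b.symm,
      h2b.symm, hc12]) rfl (by norm_num)
  simp only [List.map_cons, List.map_nil, List.cons.injEq, and_true] at hmap
  obtain ⟨hσn, hσ0, hσ1, hσ2, hσ3⟩ := hmap
  have hF : ({none, a, b, c1, c2} : Finset GolayPt).card = 5 := by
    rw [Finset.card_insert_of_notMem, Finset.card_insert_of_notMem,
      Finset.card_insert_of_notMem, Finset.card_pair hc12]
    · simp [h1b.symm, h2b.symm]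
    · simp [hab, h1a.symm, h2a.symm]
    · simp [han.symm, hbn.symm, h1n.symm, h2n.symm]
  have hσo : σ • oI = o := by
    apply (octads_isSteinerSystem.2 _ hF).unique ⟨smul_mem_octads hσ oI_mem, ?_⟩ ⟨ho, ?_⟩
    · intro x hx
      simp only [Finset.mem_insert, Finset.mem_singleton] at hx
      rcases hx with rfl | rfl | rfl | rfl | rfl
      · have := Finset.smul_mem_smul_finset (a := σ) oI_pts.1
        rw [Equiv.Perm.smul_def, hσn] at this
        exact this
      · have := Finset.smul_mem_smul_finset (a := σ) oI_pts.2.1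
        rw [Equiv.Perm.smul_def, hσ0] at this
        exact this
      · have := Finset.smul_mem_smul_finset (a := σ) oI_pts.2.2.1
        rw [Equiv.Perm.smul_def, hσ1] at this
        exact this
      · have := Finset.smul_mem_smul_finset (a := σ) oI_pts.2.2.2.1
        rw [Equiv.Perm.smul_def, hσ2] at this
        exact this
      · have := Finset.smul_mem_smul_finset (a := σ) oI_pts.2.2.2.2
        rw [Equiv.Perm.smul_def, hσ3] at this
        exact this
    · intro x hx
      simp only [Finset.mem_insert, Finset.mem_singleton] at hx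
      rcases hx with rfl | rfl | rfl | rfl | rfl
      · exact hno
      · exact ha
      · exact hb
      · exact h1o
      · exact h2o
  have hσs : σ • (oI \ {pt 0, pt 1}) = o \ {a, b} := by
    rw [Finset.smul_finset_sdiff, hσo, Finset.smul_finset_insert, Finset.smul_finset_singleton,
      Equiv.Perm.smul_def, Equiv.Perm.smul_def, hσ0, hσ1]
  have h := relT_perm hL hσ hσn
  have e : (fun i => tw (o \ {a, b}) (pat 2 o) (σ i)) = r2 := by
    rw [← hσs, ← hσo]
    exact tw_pat_smul σ _ _ 2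
  rw [e] at h
  exact h

/-- An octad avoiding the point `none`, with a point on it, is the image of the standard octad
under an element of the group of the code fixing `none`. -/
theorem exists_fix_none {o : Finset GolayPt} (ho : o ∈ octads) (hno : none ∉ o) {k : GolayPt}
    (hk : k ∈ o) : ∃ ρ ∈ M24, ρ none = none ∧ ρ (pt 0) = k ∧ ρ • setOf o0 = o := by
  have hkn : k ≠ none := fun h => hno (h ▸ hk)
  obtain ⟨τ, hτ, hτn, hτ0⟩ := exists_mem_M24_apply₂ (a := none) (b := pt 0) (c := none) (d := k)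
    (by decide) hkn.symm
  have ho'' : τ • setOf o0 ∈ octads := smul_mem_octads hτ setOf_o0_mem_octads
  have hk'' : k ∈ τ • setOf o0 := by
    have := Finset.smul_mem_smul_finset (a := τ) o0_pts.2
    rw [Equiv.Perm.smul_def, hτ0] at this
    exact this
  have hn'' : none ∉ τ • setOf o0 := by
    rw [mem_smul_iff]
    have : τ⁻¹ none = none := by rw [Equiv.Perm.inv_eq_iff_eq, hτn]
    rw [this]
    exact o0_pts.1
  obtain ⟨σ, hσ, hσk, hσn, hσo⟩ := exists_fix_octad ho ho'' (p := k) (q := none) hkn hk hk''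
    ⟨fun h => absurd h hno, fun h => absurd h hn''⟩
  refine ⟨σ * τ, M24.mul_mem hσ hτ, ?_, ?_, ?_⟩
  · show σ (τ none) = none
    rw [hτn, hσn]
  · show σ (τ (pt 0)) = k
    rw [hτ0, hσk]
  · rw [mul_smul, hσo]

theorem fam3_rel {o : Finset GolayPt} (ho : o ∈ octads) (hno : none ∉ o)
    (hL : tw o (pat 2 o) ∈ leechLattice) : RelT (tw o (pat 2 o)) r3 := by
  obtain ⟨k, hk⟩ : ∃ k, k ∈ o := Finset.card_pos.mp (by rw [ho.2]; norm_num)
  obtain ⟨ρ, hρ, hρn, -, hρo⟩ := exists_fix_none ho hno hk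
  have h := relT_perm hL hρ hρn
  have e : (fun i => tw o (pat 2 o) (ρ i)) = r3 := by
    rw [← hρo]
    exact tw_pat_smul ρ _ _ 2
  rw [e] at h
  exact h

theorem fam4_rel {o : Finset GolayPt} (ho : o ∈ octads) (hno : none ∉ o) {k : GolayPt}
    (hk : k ∈ o) (hL : tw oᶜ (pt1 (-3) {k}) ∈ leechLattice) :
    RelT (tw oᶜ (pt1 (-3) {k})) r4 := by
  obtain ⟨ρ, hρ, hρn, hρ0, hρo⟩ := exists_fix_none ho hno hk
  have h := relT_perm hL hρ hρn
  have e : (fun i => tw oᶜ (pt1 (-3) {k}) (ρ i)) = r4 := by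
    have e0 := tw_pt1_smul ρ (setOf o0)ᶜ {pt 0} (-3)
    rw [smul_compl_finset, hρo, Finset.smul_finset_singleton, Equiv.Perm.smul_def, hρ0] at e0
    exact e0
  rw [e] at h
  exact h

theorem fam5_rel {d : Finset GolayPt} (hd : d ∈ dodecads) (hnd : none ∉ d)
    (hL : tw d (pt1 (-3) {none}) ∈ leechLattice) : RelT (tw d (pt1 (-3) {none})) r5 := by
  obtain ⟨a, ha, had, ha0⟩ := exists_M24_flag (compl_mem_dodecads hd) (p := none)
    (Finset.mem_compl.mpr hnd)
  obtain ⟨a', ha', had', ha0'⟩ := exists_M24_flag (compl_mem_dodecads setOf_d0_mem_dodecads)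
    (p := none) (Finset.mem_compl.mpr none_not_mem_d0)
  have hσn : (a * a'⁻¹) none = none := by
    show a (a'⁻¹ none) = none
    have : a'⁻¹ none = pt 0 := by rw [Equiv.Perm.inv_eq_iff_eq, ha0']
    rw [this, ha0]
  have hσd : (a * a'⁻¹) • setOf d0 = d := by
    have h1 : (a * a'⁻¹) • (setOf d0)ᶜ = dᶜ := by
      rw [mul_smul, ← had', inv_smul_smul, had]
    rw [smul_compl_finset] at h1
    exact compl_injective h1
  have h := relT_perm hL (M24.mul_mem ha (M24.inv_mem ha')) hσn
  have e : (fun i => tw d (pt1 (-3) {none}) ((a * a'⁻¹) i)) = r5 := by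
    have e0 := tw_pt1_smul (a * a'⁻¹) (setOf d0) {none} (-3)
    rw [hσd, Finset.smul_finset_singleton, Equiv.Perm.smul_def, hσn] at e0
    exact e0
  rw [e] at h
  exact h

/-! ### Fusion of the five shapes -/

def tblA : List ℕ :=
  [4, 13, 16, 22, 11, 14, 2, 12, 7, 1, 18, 0, 8, 9, 17, 19, 6, 5, 20, 21, 10, 15, 23, 3]

def tblB : List ℕ :=
  [4, 18, 6, 0, 9, 5, 1, 3, 16, 7, 20, 11, 10, 12, 14, 8, 19, 17, 21, 23, 22, 2, 13, 15]

def tblC : List ℕ :=
  [22, 3, 16, 13, 19, 14, 10, 2, 21, 7, 11, 23, 20, 0, 5, 1, 9, 17, 18, 8, 15, 6, 12, 4]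

theorem tblA_good : tabGood tblA = true := by decide +kernel
theorem tblB_good : tabGood tblB = true := by decide +kernel
theorem tblC_good : tabGood tblC = true := by decide +kernel
theorem tblA_ok : tabOK tblA = true := by decide +kernel
theorem tblB_ok : tabOK tblB = true := by decide +kernel
theorem tblC_ok : tabOK tblC = true := by decide +kernel

def sgA : Equiv.Perm GolayPt := tabPerm tblA tblA_good
def sgB : Equiv.Perm GolayPt := tabPerm tblB tblB_good
def sgC : Equiv.Perm GolayPt := tabPerm tblC tblC_good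

theorem sgA_mem : sgA ∈ M24 := tabPerm_mem_M24 _ _ tblA_ok
theorem sgB_mem : sgB ∈ M24 := tabPerm_mem_M24 _ _ tblB_ok
theorem sgC_mem : sgC ∈ M24 := tabPerm_mem_M24 _ _ tblC_ok

def ccA : Finset GolayPt := setOf 4196943
def ccB : Finset GolayPt := setOf 11010247
def ccC : Finset GolayPt := setOf 8431757

theorem ccA_mem : ccA ∈ GC := (setOf_mem_octads (by decide +kernel)).1
theorem ccB_mem : ccB ∈ GC := (setOf_mem_octads (by decide +kernel)).1
theorem ccC_mem : ccC ∈ GC := (setOf_mem_octads (by decide +kernel)).1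

theorem mixA_t0 : mixFun sgA ccA t0 = t0 := by
  funext k
  revert k
  decide +kernel

theorem mixB_t0 : mixFun sgB ccB t0 = t0 := by
  funext k
  revert k
  decide +kernel

theorem mixC_t0 : mixFun sgC ccC t0 = t0 := by
  funext k
  revert k
  decide +kernel

theorem mixA_r1 : mixFun sgA ccA r1 none = -2 := by decide +kernel

theorem mixB_r5 : mixFun sgB ccB r5 none = -2 := by decide +kernel

theorem mixB_r4 : mixFun sgB ccB r4 none = -2 := by decide +kernel

theorem mixC_r3 : mixFun sgC ccC r3 none = -1 := by decide +kernel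

theorem r1_mem : r1 ∈ leechLattice ∧ sqNorm r1 = 32 := by
  have hE : r1 ∈ E0 := by
    unfold E0
    rw [mem_clsE]
    exact ⟨{none, pt 0}, Finset.mem_powersetCard.mpr ⟨Finset.subset_univ _, by decide⟩, {none},
      Finset.mem_powerset.mpr (by decide), rfl⟩
  exact ⟨(E0_props hE).1, (E0_props hE).2.1⟩

theorem r3_mem : r3 ∈ leechLattice ∧ sqNorm r3 = 32 := by
  have hE : r3 ∈ E1 := by
    unfold E1
    rw [mem_clsE]
    exact ⟨setOf o0, (mem_octadFinset _).mpr setOf_o0_mem_octads, setOf o0,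
      mem_par.mpr ⟨Finset.Subset.refl _, by rw [setOf_o0_mem_octads.2]⟩, rfl⟩
  exact ⟨(E1_props hE).1, (E1_props hE).2.1⟩

theorem r4_mem : r4 ∈ leechLattice ∧ sqNorm r4 = 32 :=
  ⟨tw_pt1_mem (compl_mem_supports setOf_o0_mem_octads.1) _, tw_pt1_norm _ _⟩

theorem r5_mem : r5 ∈ leechLattice ∧ sqNorm r5 = 32 :=
  ⟨tw_pt1_mem setOf_d0_mem_dodecads.1 _, tw_pt1_norm _ _⟩

theorem r1_dot : dotInt t0 r1 = -16 := by decide +kernel
theorem r3_dot : dotInt t0 r3 = -16 := by decide +kernel
theorem r4_dot : dotInt t0 r4 = -16 := by decide +kernel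
theorem r5_dot : dotInt t0 r5 = -16 := by decide +kernel

theorem main2 {x : GolayPt → ℤ} (hx : x ∈ leechLattice) (hn : sqNorm x = 32)
    (hd : dotInt t0 x = -16) (hv : x none = -2) : RelT x r2 := by
  rcases X_cases hx hn hd with ⟨h, -⟩ | ⟨-, o, ho, hno, a, b, ha, hb, hab, han, hbn, rfl⟩ |
    ⟨h, -⟩ | ⟨h, -⟩ | ⟨h, -⟩
  · omega
  · exact fam2_rel ho hno ha hb hab han hbn hx
  · omega
  · omega
  · omega

theorem fuse1 : RelT r1 r2 := by
  have h1 := relT_mix r1_mem.1 ccA_mem sgA_mem mixA_t0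
  exact relT_trans h1 (main2 (relT_right h1) ((relT_norm h1).trans r1_mem.2)
    ((relT_dot h1).trans r1_dot) mixA_r1)

theorem fuse5 : RelT r5 r2 := by
  have h1 := relT_mix r5_mem.1 ccB_mem sgB_mem mixB_t0
  exact relT_trans h1 (main2 (relT_right h1) ((relT_norm h1).trans r5_mem.2)
    ((relT_dot h1).trans r5_dot) mixB_r5)

theorem fuse4 : RelT r4 r2 := by
  have h1 := relT_mix r4_mem.1 ccB_mem sgB_mem mixB_t0
  exact relT_trans h1 (main2 (relT_right h1) ((relT_norm h1).trans r4_mem.2)
    ((relT_dot h1).trans r4_dot) mixB_r4)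

theorem main4 {x : GolayPt → ℤ} (hx : x ∈ leechLattice) (hn : sqNorm x = 32)
    (hd : dotInt t0 x = -16) (hv : x none = -1) : RelT x r2 := by
  rcases X_cases hx hn hd with ⟨h, -⟩ | ⟨h, -⟩ | ⟨h, -⟩ | ⟨-, o, ho, hno, k, hk, rfl⟩ | ⟨h, -⟩
  · omega
  · omega
  · omega
  · exact relT_trans (fam4_rel ho hno hk hx) fuse4
  · omega

theorem fuse3 : RelT r3 r2 := by
  have h1 := relT_mix r3_mem.1 ccC_mem sgC_mem mixC_t0
  exact relT_trans h1 (main4 (relT_right h1) ((relT_norm h1).trans r3_mem.2)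
    ((relT_dot h1).trans r3_dot) mixC_r3)

/-- Every minimal vector with inner product `-16` with the reference vector is related to one
fixed such vector. -/
theorem rel_r2 {x : GolayPt → ℤ} (hx : x ∈ leechLattice) (hn : sqNorm x = 32)
    (hd : dotInt t0 x = -16) : RelT x r2 := by
  rcases X_cases hx hn hd with ⟨-, a, ha, rfl⟩ | ⟨h, -⟩ | ⟨-, o, ho, hno, rfl⟩ | ⟨h, -⟩ |
    ⟨-, d, hdd, hnd, rfl⟩
  · exact relT_trans (fam1_rel ha hx) fuse1
  · exact main2 hx hn hd h
  · exact relT_trans (fam3_rel ho hno hx) fuse3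
  · exact main4 hx hn hd h
  · exact relT_trans (fam5_rel hdd hnd hx) fuse5

/-- Transitivity half of statement S1640. -/
theorem co3_dot16_trans (u x x' : ↥leechLattice) (hu : sqNorm (u : GolayPt → ℤ) = 48)
    (hx : sqNorm (x : GolayPt → ℤ) = 32) (hx' : sqNorm (x' : GolayPt → ℤ) = 32)
    (hd : dotInt (u : GolayPt → ℤ) (x : GolayPt → ℤ) = -16)
    (hd' : dotInt (u : GolayPt → ℤ) (x' : GolayPt → ℤ) = -16) :
    ∃ g : ↥Co0, g • u = u ∧ g • x = x' := by
  obtain ⟨h, hh⟩ := transitive48 u T0 hu sqNorm_t0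
  have q1 : RelT ((h • x : ↥leechLattice) : GolayPt → ℤ) r2 := by
    apply rel_r2 (h • x).2 (by rw [co0_norm]; exact hx)
    have e := co0_dot h u x
    rw [hh] at e
    exact e.trans hd
  have q2 : RelT ((h • x' : ↥leechLattice) : GolayPt → ℤ) r2 := by
    apply rel_r2 (h • x').2 (by rw [co0_norm]; exact hx')
    have e := co0_dot h u x'
    rw [hh] at e
    exact e.trans hd'
  obtain ⟨_, _, m, hm1, hm⟩ := relT_trans q1 (relT_symm q2)
  have hm' : m • (h • x) = h • x' := hm
  refine ⟨h⁻¹ * m * h, ?_, ?_⟩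
  · rw [mul_smul, mul_smul, hh, hm1, ← hh, inv_smul_smul]
  · rw [mul_smul, mul_smul, hm', inv_smul_smul]

/-- Statement S1585. -/
theorem swap48 (v w : ↥leechLattice) (hv : sqNorm (v : GolayPt → ℤ) = 48)
    (hw : sqNorm (w : GolayPt → ℤ) = 48)
    (hvw : dotInt (v : GolayPt → ℤ) (w : GolayPt → ℤ) = -32) :
    ∃ g : ↥Co0, g • v = w ∧ g • w = v := by
  obtain ⟨h, hh⟩ := transitive48 v w hv hw
  have hn : ∀ a b : ↥leechLattice, sqNorm (a : GolayPt → ℤ) = 48 →
      sqNorm (b : GolayPt → ℤ) = 48 → dotInt (a : GolayPt → ℤ) (b : GolayPt → ℤ) = -32 →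
      sqNorm ((-(a + b) : ↥leechLattice) : GolayPt → ℤ) = 32 ∧
        dotInt (b : GolayPt → ℤ) ((-(a + b) : ↥leechLattice) : GolayPt → ℤ) = -16 := by
    intro a b ha hb hab
    constructor
    · show sqNorm (-((a : GolayPt → ℤ) + (b : GolayPt → ℤ))) = 32
      rw [sqNorm_neg, sqNorm_add, ha, hb, hab]
      norm_num
    · show dotInt (b : GolayPt → ℤ) (-((a : GolayPt → ℤ) + (b : GolayPt → ℤ))) = -16
      rw [dotInt_neg_right, dot_add_right, dot_self, hb, dot_comm, hab]
      norm_num
  have hw2 : sqNorm ((h • w : ↥leechLattice) : GolayPt → ℤ) = 48 := by rw [co0_norm]; exact hw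
  have hd2 : dotInt (w : GolayPt → ℤ) ((h • w : ↥leechLattice) : GolayPt → ℤ) = -32 := by
    have e := co0_dot h v w
    rw [hh] at e
    exact e.trans hvw
  obtain ⟨n1, d1⟩ := hn v w hv hw hvw
  obtain ⟨n2, d2⟩ := hn (h • w) w hw2 hw (by rw [dot_comm]; exact hd2)
  obtain ⟨g, hg1, hg2⟩ := co3_dot16_trans w (-(h • w + w)) (-(v + w)) hw n2 n1 d2 d1
  refine ⟨g * h, ?_, ?_⟩
  · rw [mul_smul, hh, hg1]
  · rw [mul_smul]
    have e : h • w = -(-(h • w + w)) - w := by abel
    rw [e, co0_sub, SC.smul_neg', hg2, hg1]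
    abel

end Cfsg.Agent.Lib.helper28.XI
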