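import Cfsg.Agent.Lib.helper28.LeechCo3

set_option autoImplicit false

namespace Cfsg.Agent.Lib.helper28.XI

open Cfsg
open Cfsg.Agent.Lib.helper28
open Cfsg.Agent.Lib.helper27
open Cfsg.Agent.Lib.helper28.LC
open scoped Pointwise

/-! The number of minimal vectors having inner product `-16` with a vector of norm 48. -/

theorem card_split (s : Finset (Finset GolayPt)) :
    (s.filter (fun d => none ∈ d)).card + (s.filter (fun d => none ∉ d)).card = s.card :=
  Finset.card_filter_add_card_filter_not _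

theorem card_compl_filter (s : Finset (Finset GolayPt)) (hs : ∀ d ∈ s, dᶜ ∈ s) :
    (s.filter (fun d => none ∈ d)).card = (s.filter (fun d => none ∉ d)).card := by
  apply Finset.card_bij (fun d _ => dᶜ)
  · intro d hd
    rw [Finset.mem_filter] at hd ⊢
    exact ⟨hs d hd.1, by rw [Finset.mem_compl, not_not]; exact hd.2⟩
  · intro d _ d' _ h
    exact compl_injective h
  · intro d hd
    rw [Finset.mem_filter] at hd
    refine ⟨dᶜ, ?_, compl_compl d⟩
    rw [Finset.mem_filter]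
    exact ⟨hs d hd.1, Finset.mem_compl.mpr hd.2⟩

theorem half_of_split {a b n : ℕ} (h1 : a + b = n) (h2 : a = b) (m : ℕ) (hn : n = 2 * m) :
    b = m := by omega

theorem sub_of_split {a b n : ℕ} (h1 : a + b = n) (m k : ℕ) (ha : a = k) (hn : n = k + m) :
    b = m := by omega

/-- Octads avoiding `none`. -/
def octN : Finset (Finset GolayPt) := octadFinset.filter (fun o => none ∉ o)

theorem mem_octN (o : Finset GolayPt) : o ∈ octN ↔ o ∈ octads ∧ none ∉ o := by
  unfold octN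
  rw [Finset.mem_filter, mem_octadFinset]

theorem card_octN : octN.card = 506 :=
  sub_of_split (card_split octadFinset) 506 253 card_octI card_octadFinset

/-- Dodecads avoiding `none`. -/
def dodN : Finset (Finset GolayPt) := dodecadFinset.filter (fun d => none ∉ d)

theorem mem_dodN (d : Finset GolayPt) : d ∈ dodN ↔ d ∈ dodecads ∧ none ∉ d := by
  unfold dodN
  rw [Finset.mem_filter, mem_dodecadFinset]

theorem card_dodN : dodN.card = 1288 :=
  half_of_split (card_split dodecadFinset) (card_compl_filter dodecadFinset (fun d hd => by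
    rw [mem_dodecadFinset] at hd ⊢
    exact compl_mem_dodecads hd)) 1288 card_dodecadFinset

theorem card_fib5 (s : Finset (GolayPt → ℤ))
    (h : ∀ x ∈ s, x none = -4 ∨ x none = -2 ∨ x none = 0 ∨ x none = -1 ∨ x none = -3) :
    s.card = (s.filter (fun x => x none = -4)).card + ((s.filter (fun x => x none = -2)).card +
      ((s.filter (fun x => x none = 0)).card + ((s.filter (fun x => x none = -1)).card +
        (s.filter (fun x => x none = -3)).card))) := by
  have hmap : (s : Set (GolayPt → ℤ)).MapsTo (fun x => x none)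
      (({-4, -2, 0, -1, -3} : Finset ℤ) : Set ℤ) := by
    intro x hx
    rw [Finset.mem_coe] at hx ⊢
    show x none ∈ ({-4, -2, 0, -1, -3} : Finset ℤ)
    rcases h x hx with h | h | h | h | h <;> rw [h] <;> decide
  rw [Finset.card_eq_sum_card_fiberwise hmap, Finset.sum_insert (by decide),
    Finset.sum_insert (by decide), Finset.sum_insert (by decide), Finset.sum_insert (by decide),
    Finset.sum_singleton]

/-- The defining properties of the vectors counted, with the value at `none`. -/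
def XP (x : GolayPt → ℤ) (v : ℤ) : Prop :=
  x ∈ leechLattice ∧ sqNorm x = 32 ∧ dotInt t0 x = -16 ∧ x none = v

theorem sum_tw_pt1 (c : Finset GolayPt) (k : GolayPt) :
    ∑ j, tw c (pt1 (-3) {k}) j = 20 - 2 * c.card + 8 * (c ∩ {k}).card := by
  rw [sum_tw, sum_pt1, sum_pt1_on, Finset.card_singleton]
  push_cast
  ring

theorem P1 {a : GolayPt} (ha : a ≠ none) : XP (tw {none} (pat 4 {none, a})) (-4) := by
  have hE : tw {none} (pat 4 {none, a}) ∈ E0 := by
    unfold E0
    rw [mem_clsE]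
    exact ⟨{none, a}, Finset.mem_powersetCard.mpr ⟨Finset.subset_univ _,
      Finset.card_pair ha.symm⟩, {none}, Finset.mem_powerset.mpr (by simp), rfl⟩
  have hv : tw {none} (pat 4 {none, a}) none = -4 := by
    unfold tw pat
    rw [if_pos (Finset.mem_singleton_self _), if_pos (Finset.mem_insert_self _ _)]
  refine ⟨(E0_props hE).1, (E0_props hE).2.1, ?_, hv⟩
  rw [dot_t0, hv, sum_tw_pat 4 _ _ (by simp), Finset.card_pair ha.symm, Finset.card_singleton]
  norm_num

theorem P2 {o q : Finset GolayPt} (ho : o ∈ octads) (hno : none ∈ o) (hq : q ⊆ o.erase none)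
    (hq2 : q.card = 2) : XP (tw (o \ q) (pat 2 o)) (-2) := by
  have hqo : q ⊆ o := fun j hj => Finset.mem_of_mem_erase (hq hj)
  have hnq : none ∉ q := fun h => (Finset.mem_erase.mp (hq h)).1 rfl
  have hc : (o \ q).card = 6 := by rw [Finset.card_sdiff_of_subset hqo, ho.2, hq2]
  have hE : tw (o \ q) (pat 2 o) ∈ E1 := by
    unfold E1
    rw [mem_clsE]
    exact ⟨o, (mem_octadFinset _).mpr ho, o \ q,
      mem_par.mpr ⟨Finset.sdiff_subset, by rw [hc]⟩, rfl⟩
  have hv : tw (o \ q) (pat 2 o) none = -2 := by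
    unfold tw pat
    rw [if_pos (Finset.mem_sdiff.mpr ⟨hno, hnq⟩), if_pos hno]
  refine ⟨(E1_props hE).1, (E1_props hE).2.1, ?_, hv⟩
  rw [dot_t0, hv, sum_tw_pat 2 _ _ Finset.sdiff_subset, ho.2, hc]
  norm_num

theorem P3 {o : Finset GolayPt} (ho : o ∈ octads) (hno : none ∉ o) :
    XP (tw o (pat 2 o)) 0 := by
  have hE : tw o (pat 2 o) ∈ E1 := by
    unfold E1
    rw [mem_clsE]
    exact ⟨o, (mem_octadFinset _).mpr ho, o,
      mem_par.mpr ⟨Finset.Subset.refl _, by rw [ho.2]⟩, rfl⟩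
  have hv : tw o (pat 2 o) none = 0 := tw_pat_not_mem 2 o hno
  refine ⟨(E1_props hE).1, (E1_props hE).2.1, ?_, hv⟩
  rw [dot_t0, hv, sum_tw_pat 2 _ _ (Finset.Subset.refl _), ho.2]
  norm_num

theorem P4 {o : Finset GolayPt} (ho : o ∈ octads) (hno : none ∉ o) {k : GolayPt} (hk : k ∈ o) :
    XP (tw oᶜ (pt1 (-3) {k})) (-1) := by
  have hkn : none ≠ k := fun h => hno (h ▸ hk)
  have hv : tw oᶜ (pt1 (-3) {k}) none = -1 := by
    rw [tw_pt1_apply, if_pos (Finset.mem_compl.mpr hno), if_neg hkn]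
    norm_num
  have hcc : (oᶜ).card = 16 := by
    rw [Finset.card_compl, ho.2]
    decide
  refine ⟨tw_pt1_mem (compl_mem_supports ho.1) k, tw_pt1_norm _ _, ?_, hv⟩
  rw [dot_t0, hv, sum_tw_pt1, hcc,
    Finset.inter_singleton_of_notMem (by rw [Finset.mem_compl, not_not]; exact hk),
    Finset.card_empty]
  norm_num

theorem P5 {d : Finset GolayPt} (hd : d ∈ dodecads) (hnd : none ∉ d) :
    XP (tw d (pt1 (-3) {none})) (-3) := by
  have hv : tw d (pt1 (-3) {none}) none = -3 := by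
    rw [tw_pt1_apply, if_neg hnd, if_pos rfl]
    norm_num
  refine ⟨tw_pt1_mem hd.1 none, tw_pt1_norm _ _, ?_, hv⟩
  rw [dot_t0, hv, sum_tw_pt1, hd.2, Finset.inter_singleton_of_notMem hnd, Finset.card_empty]
  norm_num

/-! ### The five classes -/

noncomputable def K1 : Finset (GolayPt → ℤ) :=
  (Finset.univ.erase (none : GolayPt)).image (fun a => tw {none} (pat 4 {none, a}))

noncomputable def K2 : Finset (GolayPt → ℤ) :=
  cls octI (fun o => Finset.powersetCard 2 (o.erase none)) (fun o q => tw (o \ q) (pat 2 o))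

noncomputable def K3 : Finset (GolayPt → ℤ) := octN.image (fun o => tw o (pat 2 o))

noncomputable def K4 : Finset (GolayPt → ℤ) :=
  cls octN (fun o => o) (fun o k => tw oᶜ (pt1 (-3) {k}))

noncomputable def K5 : Finset (GolayPt → ℤ) := dodN.image (fun d => tw d (pt1 (-3) {none}))

theorem card_K1 : K1.card = 23 := by
  unfold K1
  rw [Finset.card_image_of_injOn, Finset.card_erase_of_mem (Finset.mem_univ _), Finset.card_univ]
  · rfl
  · intro a ha a' ha' h
    rw [Finset.mem_coe, Finset.mem_erase] at ha ha'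
    have h2 := (tw_pat_inj (v := 4) (by norm_num) (by simp) (by simp) h).1
    have : a ∈ ({none, a'} : Finset GolayPt) := by
      rw [← h2]
      simp
    rw [Finset.mem_insert, Finset.mem_singleton] at this
    rcases this with h | h
    · exact absurd h ha.1
    · exact h

theorem card_K2 : K2.card = 5313 := by
  have hinj : ∀ o ∈ octI, ∀ q ∈ Finset.powersetCard 2 (o.erase none), ∀ o' ∈ octI,
      ∀ q' ∈ Finset.powersetCard 2 (o'.erase none),
      tw (o \ q) (pat 2 o) = tw (o' \ q') (pat 2 o') → o = o' ∧ q = q' := by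
    intro o ho q hq o' ho' q' hq' h
    rw [Finset.mem_powersetCard] at hq hq'
    have hqo : q ⊆ o := fun j hj => Finset.mem_of_mem_erase (hq.1 hj)
    have hqo' : q' ⊆ o' := fun j hj => Finset.mem_of_mem_erase (hq'.1 hj)
    obtain ⟨h1, h2⟩ := tw_pat_inj (v := 2) (by norm_num) Finset.sdiff_subset Finset.sdiff_subset h
    subst h1
    refine ⟨rfl, ?_⟩
    rw [← Finset.sdiff_sdiff_eq_self hqo, h2, Finset.sdiff_sdiff_eq_self hqo']
  have hK : ∀ o ∈ octI, (Finset.powersetCard 2 (o.erase none)).card = 21 := by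
    intro o ho
    rw [mem_octI] at ho
    rw [Finset.card_powersetCard, Finset.card_erase_of_mem ho.2, ho.1.2]
    rfl
  unfold K2
  rw [card_cls _ _ _ hinj 21 hK, card_octI]

theorem card_K3 : K3.card = 506 := by
  unfold K3
  rw [Finset.card_image_of_injOn, card_octN]
  intro o _ o' _ h
  exact (tw_pat_inj (v := 2) (by norm_num) (Finset.Subset.refl _) (Finset.Subset.refl _) h).1

theorem card_K4 : K4.card = 4048 := by
  have hinj : ∀ o ∈ octN, ∀ k ∈ o, ∀ o' ∈ octN, ∀ k' ∈ o',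
      tw oᶜ (pt1 (-3) {k}) = tw o'ᶜ (pt1 (-3) {k'}) → o = o' ∧ k = k' := by
    intro o _ k _ o' _ k' _ h
    have hcc : oᶜ = o'ᶜ := by
      rw [← resSet_tw (pt1_mod (v := -3) (by decide) {k}) oᶜ, h,
        resSet_tw (pt1_mod (v := -3) (by decide) {k'}) o'ᶜ]
    have hoo : o = o' := compl_injective hcc
    subst hoo
    refine ⟨rfl, ?_⟩
    have h2 : pt1 (-3) {k} = pt1 (-3) {k'} := by
      rw [← tw_tw oᶜ (pt1 (-3) {k}), h, tw_tw]
    have h3 := congrFun h2 k
    unfold pt1 at h3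
    rw [if_pos (Finset.mem_singleton_self k)] at h3
    by_contra hne
    rw [if_neg (by rw [Finset.mem_singleton]; exact hne)] at h3
    norm_num at h3
  have hK : ∀ o ∈ octN, o.card = 8 := by
    intro o ho
    rw [mem_octN] at ho
    exact ho.1.2
  unfold K4
  rw [card_cls _ _ _ hinj 8 hK, card_octN]

theorem card_K5 : K5.card = 1288 := by
  unfold K5
  rw [Finset.card_image_of_injOn, card_dodN]
  intro d _ d' _ h
  have h' : tw d (pt1 (-3) {none}) = tw d' (pt1 (-3) {none}) := h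
  rw [← resSet_tw (pt1_mod (v := -3) (by decide) {none}) d, h',
    resSet_tw (pt1_mod (v := -3) (by decide) {none}) d']

/-- The minimal vectors having inner product `-16` with the reference vector. -/
noncomputable def XF : Finset (GolayPt → ℤ) := S32.filter (fun w => dotInt t0 w = -16)

theorem mem_XF (x : GolayPt → ℤ) :
    x ∈ XF ↔ x ∈ leechLattice ∧ sqNorm x = 32 ∧ dotInt t0 x = -16 := by
  unfold XF
  rw [Finset.mem_filter, mem_S32, and_assoc]

theorem fib1 : XF.filter (fun x => x none = -4) = K1 := by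
  ext x
  unfold K1
  rw [Finset.mem_filter, mem_XF, Finset.mem_image]
  constructor
  · rintro ⟨⟨hx, hn, hd⟩, hv⟩
    rcases X_cases hx hn hd with ⟨-, a, ha, rfl⟩ | ⟨h, -⟩ | ⟨h, -⟩ | ⟨h, -⟩ | ⟨h, -⟩
    · exact ⟨a, Finset.mem_erase.mpr ⟨ha, Finset.mem_univ _⟩, rfl⟩
    all_goals omega
  · rintro ⟨a, ha, rfl⟩
    rw [Finset.mem_erase] at ha
    obtain ⟨h1, h2, h3, h4⟩ := P1 ha.1
    exact ⟨⟨h1, h2, h3⟩, h4⟩

theorem fib2 : XF.filter (fun x => x none = -2) = K2 := by
  ext x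
  unfold K2
  rw [Finset.mem_filter, mem_XF, mem_cls]
  constructor
  · rintro ⟨⟨hx, hn, hd⟩, hv⟩
    rcases X_cases hx hn hd with ⟨h, -⟩ | ⟨-, o, ho, hno, a, b, ha, hb, hab, han, hbn, rfl⟩ |
      ⟨h, -⟩ | ⟨h, -⟩ | ⟨h, -⟩
    · omega
    · refine ⟨o, (mem_octI o).mpr ⟨ho, hno⟩, {a, b}, Finset.mem_powersetCard.mpr ⟨?_,
        Finset.card_pair hab⟩, rfl⟩
      intro j hj
      rw [Finset.mem_insert, Finset.mem_singleton] at hj
      rcases hj with rfl | rfl
      · exact Finset.mem_erase.mpr ⟨han, ha⟩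
      · exact Finset.mem_erase.mpr ⟨hbn, hb⟩
    all_goals omega
  · rintro ⟨o, ho, q, hq, rfl⟩
    rw [mem_octI] at ho
    rw [Finset.mem_powersetCard] at hq
    obtain ⟨h1, h2, h3, h4⟩ := P2 ho.1 ho.2 hq.1 hq.2
    exact ⟨⟨h1, h2, h3⟩, h4⟩

theorem fib3 : XF.filter (fun x => x none = 0) = K3 := by
  ext x
  unfold K3
  rw [Finset.mem_filter, mem_XF, Finset.mem_image]
  constructor
  · rintro ⟨⟨hx, hn, hd⟩, hv⟩
    rcases X_cases hx hn hd with ⟨h, -⟩ | ⟨h, -⟩ | ⟨-, o, ho, hno, rfl⟩ | ⟨h, -⟩ | ⟨h, -⟩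
    · omega
    · omega
    · exact ⟨o, (mem_octN o).mpr ⟨ho, hno⟩, rfl⟩
    all_goals omega
  · rintro ⟨o, ho, rfl⟩
    rw [mem_octN] at ho
    obtain ⟨h1, h2, h3, h4⟩ := P3 ho.1 ho.2
    exact ⟨⟨h1, h2, h3⟩, h4⟩

theorem fib4 : XF.filter (fun x => x none = -1) = K4 := by
  ext x
  unfold K4
  rw [Finset.mem_filter, mem_XF, mem_cls]
  constructor
  · rintro ⟨⟨hx, hn, hd⟩, hv⟩
    rcases X_cases hx hn hd with ⟨h, -⟩ | ⟨h, -⟩ | ⟨h, -⟩ | ⟨-, o, ho, hno, k, hk, rfl⟩ | ⟨h, -⟩
    · omega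
    · omega
    · omega
    · exact ⟨o, (mem_octN o).mpr ⟨ho, hno⟩, k, hk, rfl⟩
    · omega
  · rintro ⟨o, ho, k, hk, rfl⟩
    rw [mem_octN] at ho
    obtain ⟨h1, h2, h3, h4⟩ := P4 ho.1 ho.2 hk
    exact ⟨⟨h1, h2, h3⟩, h4⟩

theorem fib5 : XF.filter (fun x => x none = -3) = K5 := by
  ext x
  unfold K5
  rw [Finset.mem_filter, mem_XF, Finset.mem_image]
  constructor
  · rintro ⟨⟨hx, hn, hd⟩, hv⟩
    rcases X_cases hx hn hd with ⟨h, -⟩ | ⟨h, -⟩ | ⟨h, -⟩ | ⟨h, -⟩ | ⟨-, d, hdd, hnd, rfl⟩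
    · omega
    · omega
    · omega
    · omega
    · exact ⟨d, (mem_dodN d).mpr ⟨hdd, hnd⟩, rfl⟩
  · rintro ⟨d, hd, rfl⟩
    rw [mem_dodN] at hd
    obtain ⟨h1, h2, h3, h4⟩ := P5 hd.1 hd.2
    exact ⟨⟨h1, h2, h3⟩, h4⟩

theorem card_XF : XF.card = 11178 := by
  have hvals : ∀ x ∈ XF, x none = -4 ∨ x none = -2 ∨ x none = 0 ∨ x none = -1 ∨ x none = -3 := by
    intro x hx
    rw [mem_XF] at hx
    rcases X_cases hx.1 hx.2.1 hx.2.2 with ⟨h, -⟩ | ⟨h, -⟩ | ⟨h, -⟩ | ⟨h, -⟩ | ⟨h, -⟩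
    · exact Or.inl h
    · exact Or.inr (Or.inl h)
    · exact Or.inr (Or.inr (Or.inl h))
    · exact Or.inr (Or.inr (Or.inr (Or.inl h)))
    · exact Or.inr (Or.inr (Or.inr (Or.inr h)))
  rw [card_fib5 XF hvals, fib1, fib2, fib3, fib4, fib5, card_K1, card_K2, card_K3, card_K4,
    card_K5]

/-- Counting half of statement S1640. -/
theorem co3_11178 (u : ↥leechLattice) (hu : sqNorm (u : GolayPt → ℤ) = 48) :
    {x : ↥leechLattice | sqNorm (x : GolayPt → ℤ) = 32 ∧
      dotInt (u : GolayPt → ℤ) (x : GolayPt → ℤ) = -16}.ncard = 11178 := by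
  obtain ⟨h, hh⟩ := transitive48 u T0 hu sqNorm_t0
  have e1 := ncard_Bk_smul h u (-16)
  rw [hh, ncard_Bk] at e1
  exact e1.symm.trans card_XF

end Cfsg.Agent.Lib.helper28.XI
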