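import Cfsg.Agent.Lib.helper28.LeechMcL4

set_option autoImplicit false

namespace Cfsg.Agent.Lib.helper28.XI

open Cfsg
open Cfsg.Agent.Lib.helper28
open Cfsg.Agent.Lib.helper27
open Cfsg.Agent.Lib.helper28.LC
open scoped Pointwise

/-! The orbits of the stabiliser of the reference pair `(t0, r1)` on the 11178 minimal vectors `y`
with `t0 · y = -16`: besides `r1` there are four, of sizes 352, 1100, 4125, 5600, distinguished
by the inner product with `r1`. -/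

/-- The shape `(-4, 4)`. -/
def vA (a : GolayPt) : GolayPt → ℤ := tw {none} (pat 4 {none, a})

/-- The shape `(2^2, (-2)^6)` on an octad, with `+2` on `q`. -/
def vBq (o q : Finset GolayPt) : GolayPt → ℤ := tw (o \ q) (pat 2 o)

/-- The shape `(-3, (-1)^12, 1^11)` with `-1` on a dodecad. -/
def vE (d : Finset GolayPt) : GolayPt → ℤ := tw d (pt1 (-3) {none})

theorem mem_XF_of_XP {y : GolayPt → ℤ} {c : ℤ} (h : XP y c) : y ∈ XF :=
  (mem_XF y).mpr ⟨h.1, h.2.1, h.2.2.1⟩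

/-! ### Properties of the eleven families -/

theorem vA_props {a : GolayPt} (ha : a ≠ none) (ha0 : a ≠ pt 0) :
    vA a ∈ XF ∧ vA a none = -4 ∧ dotInt r1 (vA a) = 16 := by
  have h := P1 ha
  refine ⟨mem_XF_of_XP h, h.2.2.2, ?_⟩
  have h0 : tw {none} (pat 4 {none, a}) (pt 0) = 0 := by
    apply tw_pat_not_mem
    rw [Finset.mem_insert, Finset.mem_singleton]
    rintro (e | e)
    · exact absurd e (by decide)
    · exact ha0 e.symm
  show dotInt r1 (tw {none} (pat 4 {none, a})) = 16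
  rw [dot_r1, h.2.2.2, h0]
  norm_num

theorem YQ_props {y : GolayPt → ℤ} (hy : y ∈ YQ) : y ∈ XF ∧ dotInt r1 y = -8 * y none := by
  rw [mem_YQ] at hy
  refine ⟨(mem_XF y).mpr ⟨hy.1, hy.2.1, hy.2.2.1⟩, ?_⟩
  have h := hy.2.2.2
  rw [dot_x0] at h
  rw [dot_r1]
  omega

theorem vBn_props {o q : Finset GolayPt} (ho : o ∈ octads) (hno : none ∈ o) (h0 : pt 0 ∉ o)
    (hq : q ⊆ o.erase none) (hq2 : q.card = 2) :
    vBq o q ∈ XF ∧ vBq o q none = -2 ∧ dotInt r1 (vBq o q) = 8 := by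
  have h := P2 ho hno hq hq2
  refine ⟨mem_XF_of_XP h, h.2.2.2, ?_⟩
  show dotInt r1 (tw (o \ q) (pat 2 o)) = 8
  rw [dot_r1, h.2.2.2, tw_pat_not_mem 2 _ h0]
  norm_num

theorem vBm_props {o q : Finset GolayPt} (ho : o ∈ octads) (hno : none ∈ o) (h0 : pt 0 ∈ o)
    (hq : q ⊆ (o.erase none).erase (pt 0)) (hq2 : q.card = 2) :
    vBq o q ∈ XF ∧ vBq o q none = -2 ∧ dotInt r1 (vBq o q) = 0 := by
  have hq' : q ⊆ o.erase none := fun j hj => Finset.mem_of_mem_erase (hq hj)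
  have h := P2 ho hno hq' hq2
  refine ⟨mem_XF_of_XP h, h.2.2.2, ?_⟩
  have h0q : pt 0 ∉ q := fun hj => (Finset.mem_erase.mp (hq hj)).1 rfl
  have h5 : tw (o \ q) (pat 2 o) (pt 0) = -2 := by
    unfold tw pat
    rw [if_pos (Finset.mem_sdiff.mpr ⟨h0, h0q⟩), if_pos h0]
  show dotInt r1 (tw (o \ q) (pat 2 o)) = 0
  rw [dot_r1, h.2.2.2, h5]
  norm_num

theorem vC0_props {o : Finset GolayPt} (ho : o ∈ octads) (hno : none ∉ o) (h0 : pt 0 ∈ o) :
    vC o ∈ XF ∧ vC o none = 0 ∧ dotInt r1 (vC o) = -8 := by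
  have h := P3 ho hno
  refine ⟨mem_XF_of_XP h, h.2.2.2, ?_⟩
  have h5 : tw o (pat 2 o) (pt 0) = -2 := by
    unfold tw pat
    rw [if_pos h0, if_pos h0]
  show dotInt r1 (tw o (pat 2 o)) = -8
  rw [dot_r1, h.2.2.2, h5]
  norm_num

theorem vDn_props {o : Finset GolayPt} (ho : o ∈ octads) (hno : none ∉ o) (h0 : pt 0 ∉ o)
    {k : GolayPt} (hk : k ∈ o) : vD o k ∈ XF ∧ vD o k none = -1 ∧ dotInt r1 (vD o k) = 0 := by
  have h := P4 ho hno hk
  refine ⟨mem_XF_of_XP h, h.2.2.2, ?_⟩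
  show dotInt r1 (tw oᶜ (pt1 (-3) {k})) = 0
  rw [dot_r1, h.2.2.2, tw_pt1_apply, if_pos (Finset.mem_compl.mpr h0),
    if_neg (fun e : pt 0 = k => h0 (e.symm ▸ hk))]
  norm_num

theorem vD0_props {o : Finset GolayPt} (ho : o ∈ octads) (hno : none ∉ o) (h0 : pt 0 ∈ o) :
    vD o (pt 0) ∈ XF ∧ vD o (pt 0) none = -1 ∧ dotInt r1 (vD o (pt 0)) = -8 := by
  have h := P4 ho hno h0
  refine ⟨mem_XF_of_XP h, h.2.2.2, ?_⟩
  show dotInt r1 (tw oᶜ (pt1 (-3) {pt 0})) = -8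
  rw [dot_r1, h.2.2.2, tw_pt1_apply, if_neg (by rw [Finset.mem_compl]; exact fun e => e h0),
    if_pos rfl]
  norm_num

theorem vE0_props {d : Finset GolayPt} (hd : d ∈ dodecads) (hnd : none ∉ d) (h0 : pt 0 ∈ d) :
    vE d ∈ XF ∧ vE d none = -3 ∧ dotInt r1 (vE d) = 8 := by
  have h := P5 hd hnd
  refine ⟨mem_XF_of_XP h, h.2.2.2, ?_⟩
  show dotInt r1 (tw d (pt1 (-3) {none})) = 8
  rw [dot_r1, h.2.2.2, tw_pt1_apply, if_pos h0, if_neg (by decide : (pt 0 : GolayPt) ≠ none)]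
  norm_num

theorem vEn_props {d : Finset GolayPt} (hd : d ∈ dodecads) (hnd : none ∉ d) (h0 : pt 0 ∉ d) :
    vE d ∈ XF ∧ vE d none = -3 ∧ dotInt r1 (vE d) = 16 := by
  have h := P5 hd hnd
  refine ⟨mem_XF_of_XP h, h.2.2.2, ?_⟩
  show dotInt r1 (tw d (pt1 (-3) {none})) = 16
  rw [dot_r1, h.2.2.2, tw_pt1_apply, if_neg h0, if_neg (by decide : (pt 0 : GolayPt) ≠ none)]
  norm_num

/-! ### Classification -/

theorem XF_cases2 {y : GolayPt → ℤ} (hy : y ∈ XF) :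
    (y none = -4 ∧ dotInt r1 y = 32 ∧ y = r1) ∨
    (y none = -4 ∧ dotInt r1 y = 16 ∧ ∃ a, a ≠ none ∧ a ≠ pt 0 ∧ y = vA a) ∨
    (y none = -2 ∧ dotInt r1 y = 16 ∧ ∃ o ∈ octads, none ∈ o ∧ pt 0 ∈ o ∧
      ∃ b ∈ o, b ≠ none ∧ b ≠ pt 0 ∧ y = vB o b) ∨
    (y none = -2 ∧ dotInt r1 y = 8 ∧ ∃ o ∈ octads, none ∈ o ∧ pt 0 ∉ o ∧
      ∃ a b, a ∈ o ∧ b ∈ o ∧ a ≠ b ∧ a ≠ none ∧ b ≠ none ∧ y = vBq o {a, b}) ∨
    (y none = -2 ∧ dotInt r1 y = 0 ∧ ∃ o ∈ octads, none ∈ o ∧ pt 0 ∈ o ∧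
      ∃ a b, a ∈ o ∧ b ∈ o ∧ a ≠ b ∧ a ≠ none ∧ b ≠ none ∧ a ≠ pt 0 ∧ b ≠ pt 0 ∧
        y = vBq o {a, b}) ∨
    (y none = 0 ∧ dotInt r1 y = -8 ∧ ∃ o ∈ octads, none ∉ o ∧ pt 0 ∈ o ∧ y = vC o) ∨
    (y none = 0 ∧ dotInt r1 y = 0 ∧ ∃ o ∈ octads, none ∉ o ∧ pt 0 ∉ o ∧ y = vC o) ∨
    (y none = -1 ∧ dotInt r1 y = 0 ∧ ∃ o ∈ octads, none ∉ o ∧ pt 0 ∉ o ∧ ∃ k ∈ o, y = vD o k) ∨
    (y none = -1 ∧ dotInt r1 y = -8 ∧ ∃ o ∈ octads, none ∉ o ∧ pt 0 ∈ o ∧ y = vD o (pt 0)) ∨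
    (y none = -1 ∧ dotInt r1 y = 8 ∧ ∃ o ∈ octads, none ∉ o ∧ pt 0 ∈ o ∧
      ∃ k ∈ o, k ≠ pt 0 ∧ y = vD o k) ∨
    (y none = -3 ∧ dotInt r1 y = 8 ∧ ∃ d ∈ dodecads, none ∉ d ∧ pt 0 ∈ d ∧ y = vE d) ∨
    (y none = -3 ∧ dotInt r1 y = 16 ∧ ∃ d ∈ dodecads, none ∉ d ∧ pt 0 ∉ d ∧ y = vE d) := by
  rw [mem_XF] at hy
  obtain ⟨hL, hn, hd⟩ := hy
  rcases X_cases hL hn hd with ⟨hv, a, ha, rfl⟩ |
    ⟨hv, o, ho, hno, a, b, hao, hbo, hab, han, hbn, rfl⟩ |
    ⟨hv, o, ho, hno, rfl⟩ | ⟨hv, o, ho, hno, k, hk, rfl⟩ | ⟨hv, d, hd', hnd, rfl⟩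
  · by_cases ha0 : a = pt 0
    · left
      subst ha0
      exact ⟨hv, by decide +kernel, rfl⟩
    · right; left
      exact ⟨hv, (vA_props ha ha0).2.2, a, ha, ha0, rfl⟩
  · have hq : ({a, b} : Finset GolayPt) ⊆ o.erase none := by
      intro j hj
      rw [Finset.mem_insert, Finset.mem_singleton] at hj
      rcases hj with rfl | rfl
      · exact Finset.mem_erase.mpr ⟨han, hao⟩
      · exact Finset.mem_erase.mpr ⟨hbn, hbo⟩
    by_cases h0 : pt 0 ∈ o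
    · by_cases ha0 : a = pt 0
      · right; right; left
        subst ha0
        have hb0 : b ≠ pt 0 := fun e => hab e.symm
        have hp := vB_props ho hno h0 hbo hbn hb0
        have hd2 : dotInt r1 (vB o b) = 16 := by rw [(YQ_props hp.1).2, hp.2]; norm_num
        exact ⟨hv, hd2, o, ho, hno, h0, b, hbo, hbn, hb0, rfl⟩
      · by_cases hb0 : b = pt 0
        · right; right; left
          subst hb0
          have hp := vB_props ho hno h0 hao han ha0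
          have e : tw (o \ {a, pt 0}) (pat 2 o) = vB o a := by
            rw [Finset.pair_comm]
            rfl
          rw [e]
          have hd2 : dotInt r1 (vB o a) = 16 := by rw [(YQ_props hp.1).2, hp.2]; norm_num
          exact ⟨hp.2, hd2, o, ho, hno, h0, a, hao, han, ha0, rfl⟩
        · right; right; right; right; left
          have hq' : ({a, b} : Finset GolayPt) ⊆ (o.erase none).erase (pt 0) := by
            intro j hj
            rw [Finset.mem_insert, Finset.mem_singleton] at hj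
            rcases hj with rfl | rfl
            · exact Finset.mem_erase.mpr ⟨ha0, Finset.mem_erase.mpr ⟨han, hao⟩⟩
            · exact Finset.mem_erase.mpr ⟨hb0, Finset.mem_erase.mpr ⟨hbn, hbo⟩⟩
          exact ⟨hv, (vBm_props ho hno h0 hq' (Finset.card_pair hab)).2.2, o, ho, hno, h0, a, b,
            hao, hbo, hab, han, hbn, ha0, hb0, rfl⟩
    · right; right; right; left
      exact ⟨hv, (vBn_props ho hno h0 hq (Finset.card_pair hab)).2.2, o, ho, hno, h0, a, b, hao,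
        hbo, hab, han, hbn, rfl⟩
  · by_cases h0 : pt 0 ∈ o
    · right; right; right; right; right; left
      exact ⟨hv, (vC0_props ho hno h0).2.2, o, ho, hno, h0, rfl⟩
    · right; right; right; right; right; right; left
      have hp := vC_props ho hno h0
      have hd2 : dotInt r1 (vC o) = 0 := by rw [(YQ_props hp.1).2, hp.2]; norm_num
      exact ⟨hv, hd2, o, ho, hno, h0, rfl⟩
  · by_cases h0 : pt 0 ∈ o
    · by_cases hk0 : k = pt 0
      · right; right; right; right; right; right; right; right; left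
        subst hk0
        exact ⟨hv, (vD0_props ho hno h0).2.2, o, ho, hno, h0, rfl⟩
      · right; right; right; right; right; right; right; right; right; left
        have hp := vD_props ho hno h0 hk hk0
        have hd2 : dotInt r1 (vD o k) = 8 := by rw [(YQ_props hp.1).2, hp.2]; norm_num
        exact ⟨hv, hd2, o, ho, hno, h0, k, hk, hk0, rfl⟩
    · right; right; right; right; right; right; right; left
      exact ⟨hv, (vDn_props ho hno h0 hk).2.2, o, ho, hno, h0, k, hk, rfl⟩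
  · by_cases h0 : pt 0 ∈ d
    · right; right; right; right; right; right; right; right; right; right; left
      exact ⟨hv, (vE0_props hd' hnd h0).2.2, d, hd', hnd, h0, rfl⟩
    · right; right; right; right; right; right; right; right; right; right; right
      exact ⟨hv, (vEn_props hd' hnd h0).2.2, d, hd', hnd, h0, rfl⟩


/-! ### Families under the stabiliser of `none` and `0` -/

theorem invR {σ : Equiv.Perm GolayPt} (hn : σ none = none) (h0 : σ (pt 0) = pt 0) :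
    ∀ c ∈ [R1], (fun i => (c : GolayPt → ℤ) (σ i)) = c :=
  fun c hc => inv22_R1 c hc σ hn h0

theorem weakR {x y : GolayPt → ℤ} (h : RelL [R1, X0] x y) : RelL [R1] x y :=
  relL_mono h (by
    intro b hb
    rw [List.mem_singleton] at hb
    subst hb
    simp)

theorem famRA {a a' : GolayPt} (ha : a ≠ none) (ha0 : a ≠ pt 0) (ha' : a' ≠ none)
    (ha0' : a' ≠ pt 0) (hLm : vA a ∈ leechLattice) : RelL [R1] (vA a) (vA a') := by
  obtain ⟨σ, hσ, hmap⟩ := exists_mem_M24_map_list [none, pt 0, a'] [none, pt 0, a]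
    (by simp [ha'.symm, ha0'.symm]; decide) (by simp [ha.symm, ha0.symm]; decide) rfl (by norm_num)
  simp only [List.map_cons, List.map_nil, List.cons.injEq, and_true] at hmap
  obtain ⟨hσn, hσ0, hσa⟩ := hmap
  have h := relL_perm (L := [R1]) hLm hσ hσn (invR hσn hσ0)
  have e : (fun i => vA a (σ i)) = vA a' := by
    have e0 := tw_pat_smul σ {none} {none, a'} 4
    rw [Finset.smul_finset_insert, Finset.smul_finset_singleton, Finset.smul_finset_singleton,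
      Equiv.Perm.smul_def, Equiv.Perm.smul_def, hσn, hσa] at e0
    exact e0
  rw [e] at h
  exact h

theorem famRBn {o o' : Finset GolayPt} (ho : o ∈ octads) (ho' : o' ∈ octads) (hno : none ∈ o)
    (h0 : pt 0 ∉ o) (hno' : none ∈ o') (h0' : pt 0 ∉ o') {a b a' b' : GolayPt} (ha : a ∈ o)
    (hb : b ∈ o) (hab : a ≠ b) (han : a ≠ none) (hbn : b ≠ none) (ha' : a' ∈ o') (hb' : b' ∈ o')
    (hab' : a' ≠ b') (han' : a' ≠ none) (hbn' : b' ≠ none)
    (hLm : vBq o {a, b} ∈ leechLattice) : RelL [R1] (vBq o {a, b}) (vBq o' {a', b'}) := by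
  obtain ⟨σ, hσ, hmap, hσo, hσ0⟩ := exists_M24_octad_lists_out ho ho' [none, a, b] [none, a', b']
    (by simp [han.symm, hbn.symm, hab]) (by simp [han'.symm, hbn'.symm, hab']) rfl
    (by norm_num) (by
      intro x hx
      simp only [List.mem_cons, List.not_mem_nil, or_false] at hx
      rcases hx with rfl | rfl | rfl <;> assumption) (by
      intro x hx
      simp only [List.mem_cons, List.not_mem_nil, or_false] at hx
      rcases hx with rfl | rfl | rfl <;> assumption) h0 h0'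
  simp only [List.map_cons, List.map_nil, List.cons.injEq, and_true] at hmap
  obtain ⟨hσn, hσa, hσb⟩ := hmap
  have h := relL_perm (L := [R1]) hLm hσ hσn (invR hσn hσ0)
  have e : (fun i => vBq o {a, b} (σ i)) = vBq o' {a', b'} := by
    have e0 := tw_pat_smul σ (o' \ {a', b'}) o' 2
    rw [Finset.smul_finset_sdiff, hσo, Finset.smul_finset_insert, Finset.smul_finset_singleton,
      Equiv.Perm.smul_def, Equiv.Perm.smul_def, hσa, hσb] at e0
    exact e0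
  rw [e] at h
  exact h

theorem famRBm {o o' : Finset GolayPt} (ho : o ∈ octads) (ho' : o' ∈ octads) (hno : none ∈ o)
    (h0 : pt 0 ∈ o) (hno' : none ∈ o') (h0' : pt 0 ∈ o') {a b a' b' : GolayPt} (ha : a ∈ o)
    (hb : b ∈ o) (hab : a ≠ b) (han : a ≠ none) (hbn : b ≠ none) (ha0 : a ≠ pt 0)
    (hb0 : b ≠ pt 0) (ha' : a' ∈ o') (hb' : b' ∈ o')
    (hab' : a' ≠ b') (han' : a' ≠ none) (hbn' : b' ≠ none) (ha0' : a' ≠ pt 0) (hb0' : b' ≠ pt 0)
    (hLm : vBq o {a, b} ∈ leechLattice) : RelL [R1] (vBq o {a, b}) (vBq o' {a', b'}) := by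
  obtain ⟨σ, hσ, hmap, hσo⟩ := exists_M24_octad_lists ho ho' [none, pt 0, a, b]
    [none, pt 0, a', b']
    (by simp [han.symm, hbn.symm, ha0.symm, hb0.symm, hab]; decide)
    (by simp [han'.symm, hbn'.symm, ha0'.symm, hb0'.symm, hab']; decide) rfl
    (by norm_num) (by
      intro x hx
      simp only [List.mem_cons, List.not_mem_nil, or_false] at hx
      rcases hx with rfl | rfl | rfl | rfl <;> assumption) (by
      intro x hx
      simp only [List.mem_cons, List.not_mem_nil, or_false] at hx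
      rcases hx with rfl | rfl | rfl | rfl <;> assumption)
  simp only [List.map_cons, List.map_nil, List.cons.injEq, and_true] at hmap
  obtain ⟨hσn, hσ0, hσa, hσb⟩ := hmap
  have h := relL_perm (L := [R1]) hLm hσ hσn (invR hσn hσ0)
  have e : (fun i => vBq o {a, b} (σ i)) = vBq o' {a', b'} := by
    have e0 := tw_pat_smul σ (o' \ {a', b'}) o' 2
    rw [Finset.smul_finset_sdiff, hσo, Finset.smul_finset_insert, Finset.smul_finset_singleton,
      Equiv.Perm.smul_def, Equiv.Perm.smul_def, hσa, hσb] at e0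
    exact e0
  rw [e] at h
  exact h

theorem exists_fix_N0 {o o' : Finset GolayPt} (ho : o ∈ octads) (ho' : o' ∈ octads)
    (hno : none ∉ o) (h0 : pt 0 ∈ o) (hno' : none ∉ o') (h0' : pt 0 ∈ o') :
    ∃ σ ∈ M24, σ none = none ∧ σ (pt 0) = pt 0 ∧ σ • o' = o := by
  obtain ⟨σ, hσ, hmap, hσo, hσn⟩ := exists_M24_octad_lists_out ho ho' [pt 0] [pt 0]
    (by simp) (by simp) rfl (by norm_num) (by
      intro x hx
      rw [List.mem_singleton] at hx
      rw [hx]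
      exact h0) (by
      intro x hx
      rw [List.mem_singleton] at hx
      rw [hx]
      exact h0') hno hno'
  simp only [List.map_cons, List.map_nil, List.cons.injEq, and_true] at hmap
  exact ⟨σ, hσ, hσn, hmap, hσo⟩

theorem famRC0 {o o' : Finset GolayPt} (ho : o ∈ octads) (ho' : o' ∈ octads)
    (hno : none ∉ o) (h0 : pt 0 ∈ o) (hno' : none ∉ o') (h0' : pt 0 ∈ o')
    (hLm : vC o ∈ leechLattice) : RelL [R1] (vC o) (vC o') := by
  obtain ⟨σ, hσ, hσn, hσ0, hσo⟩ := exists_fix_N0 ho ho' hno h0 hno' h0'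
  have h := relL_perm (L := [R1]) hLm hσ hσn (invR hσn hσ0)
  have e : (fun i => vC o (σ i)) = vC o' := by
    have e0 := tw_pat_smul σ o' o' 2
    rw [hσo] at e0
    exact e0
  rw [e] at h
  exact h

theorem famRD0 {o o' : Finset GolayPt} (ho : o ∈ octads) (ho' : o' ∈ octads)
    (hno : none ∉ o) (h0 : pt 0 ∈ o) (hno' : none ∉ o') (h0' : pt 0 ∈ o')
    (hLm : vD o (pt 0) ∈ leechLattice) : RelL [R1] (vD o (pt 0)) (vD o' (pt 0)) := by
  obtain ⟨σ, hσ, hσn, hσ0, hσo⟩ := exists_fix_N0 ho ho' hno h0 hno' h0'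
  have h := relL_perm (L := [R1]) hLm hσ hσn (invR hσn hσ0)
  have e : (fun i => vD o (pt 0) (σ i)) = vD o' (pt 0) := by
    have e0 := tw_pt1_smul σ o'ᶜ {pt 0} (-3)
    rw [smul_compl_finset, hσo, Finset.smul_finset_singleton, Equiv.Perm.smul_def, hσ0] at e0
    exact e0
  rw [e] at h
  exact h

def levDn : List (List ℕ) :=
  [[0, 1, 2, 3, 4, 5, 6, 7, 8, 9, 10, 11, 12, 13, 14, 15, 16, 17, 18, 19, 20, 21, 22, 23],
   [0, 2, 1, 3, 8, 5, 7, 19, 13, 10, 15, 4, 16, 11, 17, 20, 18, 14, 22, 21, 9, 6, 12, 23],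
   [0, 3, 8, 13, 5, 1, 7, 17, 2, 20, 15, 4, 21, 11, 6, 14, 22, 10, 9, 12, 18, 19, 16, 23],
   [0, 4, 11, 8, 3, 13, 7, 12, 5, 22, 15, 2, 6, 1, 17, 18, 20, 14, 10, 21, 9, 16, 19, 23],
   [0, 5, 4, 2, 13, 11, 17, 21, 1, 16, 14, 8, 7, 3, 10, 9, 18, 6, 15, 19, 20, 22, 12, 23],
   [0, 8, 3, 13, 2, 1, 17, 12, 11, 15, 14, 5, 22, 4, 10, 18, 9, 6, 16, 19, 20, 7, 21, 23],
   [0, 11, 13, 4, 3, 8, 6, 22, 5, 18, 10, 1, 21, 2, 14, 16, 15, 17, 9, 19, 20, 12, 7, 23],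
   [0, 13, 3, 11, 1, 2, 14, 16, 4, 20, 17, 5, 12, 8, 15, 22, 10, 7, 18, 21, 9, 19, 6, 23]]

theorem levDn_ok : levOK [8388608, 1, 10558] 1 10558 levDn = true := by decide +kernel

theorem pt1_mem_rootC : pt 1 ∈ setOf 10558 := by
  rw [mem_setOf]
  decide

theorem famRDn {o : Finset GolayPt} (ho : o ∈ octads) (hno : none ∉ o) (h0 : pt 0 ∉ o)
    {k : GolayPt} (hk : k ∈ o) (hLm : vD o k ∈ leechLattice) :
    RelL [R1] (vD o k) (vD (setOf 10558) (pt 1)) := by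
  obtain ⟨σ, hσ, hσn, hσ0, hσo⟩ := m22_fam (by decide) rootC_cw m22_orbit_c330 ho.1 ho.2
    ((inter_single_zero o none).mpr hno) ((inter_single_zero o (pt 0)).mpr h0)
  have hk1 : σ⁻¹ k ∈ setOf 10558 := by
    rw [← hσo, mem_smul_iff] at hk
    exact hk
  obtain ⟨l, -, g, hg, -, hgk⟩ := levOK_sound (by norm_num) levDn_ok _ hk1
  have hg' : g ∈ stabM [2 ^ 23, 2 ^ 0, 10558] := hg
  rw [mem_stabM_cons_pt (by norm_num), mem_stabM_cons_pt (by norm_num), mem_stabM] at hg'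
  obtain ⟨⟨⟨hgM, hgo⟩, hg0⟩, hgn⟩ := hg'
  have hgo' : g • setOf 10558 = setOf 10558 := hgo 10558 (by simp)
  have hτn : (σ * g) none = none := by
    show σ (g none) = none
    have : g none = none := hgn
    rw [this, hσn]
  have hτ0 : (σ * g) (pt 0) = pt 0 := by
    show σ (g (pt 0)) = pt 0
    rw [hg0, hσ0]
  have hτk : (σ * g) (pt 1) = k := by
    show σ (g (pt 1)) = k
    rw [hgk]
    exact Equiv.apply_symm_apply σ k
  have hτo : (σ * g) • setOf 10558 = o := by rw [mul_smul, hgo', hσo]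
  have h := relL_perm (L := [R1]) hLm (M24.mul_mem hσ hgM) hτn (invR hτn hτ0)
  have e : (fun i => vD o k ((σ * g) i)) = vD (setOf 10558) (pt 1) := by
    have e0 := tw_pt1_smul (σ * g) (setOf 10558)ᶜ {pt 1} (-3)
    rw [smul_compl_finset, hτo, Finset.smul_finset_singleton, Equiv.Perm.smul_def, hτk] at e0
    exact e0
  rw [e] at h
  exact h

theorem rootE0_cw : isCW 28637 = true := by decide +kernel
theorem rootEn_cw : isCW 57274 = true := by decide +kernel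

theorem famRE0 {d : Finset GolayPt} (hd : d ∈ dodecads) (hnd : none ∉ d) (h0 : pt 0 ∈ d)
    (hLm : vE d ∈ leechLattice) : RelL [R1] (vE d) (vE (setOf 28637)) := by
  obtain ⟨σ, hσ, hσn, hσ0, hσo⟩ := m22_fam (by decide) rootE0_cw m22_orbit_e672 hd.1 hd.2
    ((inter_single_zero d none).mpr hnd) ((inter_single_one d (pt 0)).mpr h0)
  have h := relL_perm (L := [R1]) hLm hσ hσn (invR hσn hσ0)
  have e : (fun i => vE d (σ i)) = vE (setOf 28637) := by
    have e0 := tw_pt1_smul σ (setOf 28637) {none} (-3)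
    rw [hσo, Finset.smul_finset_singleton, Equiv.Perm.smul_def, hσn] at e0
    exact e0
  rw [e] at h
  exact h

theorem famREn {d : Finset GolayPt} (hd : d ∈ dodecads) (hnd : none ∉ d) (h0 : pt 0 ∉ d)
    (hLm : vE d ∈ leechLattice) : RelL [R1] (vE d) (vE (setOf 57274)) := by
  obtain ⟨σ, hσ, hσn, hσ0, hσo⟩ := m22_fam (by decide) rootEn_cw m22_orbit_e616 hd.1 hd.2
    ((inter_single_zero d none).mpr hnd) ((inter_single_zero d (pt 0)).mpr h0)
  have h := relL_perm (L := [R1]) hLm hσ hσn (invR hσn hσ0)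
  have e : (fun i => vE d (σ i)) = vE (setOf 57274) := by
    have e0 := tw_pt1_smul σ (setOf 57274) {none} (-3)
    rw [hσo, Finset.smul_finset_singleton, Equiv.Perm.smul_def, hσn] at e0
    exact e0
  rw [e] at h
  exact h


/-! ### The fusing element -/

def tblR : List ℕ :=
  [23, 1, 2, 3, 4, 5, 10, 15, 8, 21, 6, 11, 18, 13, 17, 7, 22, 14, 12, 20, 19, 9, 16, 0]

theorem tblR_good : tabGood tblR = true := by decide +kernel
theorem tblR_ok : tabOK tblR = true := by decide +kernel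

def sgR : Equiv.Perm GolayPt := tabPerm tblR tblR_good

theorem sgR_mem : sgR ∈ M24 := tabPerm_mem_M24 _ _ tblR_ok

theorem mixR_t0 : mixFun sgR ∅ t0 = t0 := by
  funext k
  revert k
  decide +kernel

theorem mixR_r1 : mixFun sgR ∅ r1 = r1 := by
  funext k
  revert k
  decide +kernel

theorem mixR_1 : mixFun sgR ∅ (vA (pt 1)) none = -2 := by decide +kernel
theorem mixR_2 : mixFun sgR ∅ (vA (pt 4)) none = -3 := by decide +kernel
theorem mixR_3 : mixFun sgR ∅ (vBq oQ {pt 2, pt 5}) none = 0 := by decide +kernel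
theorem mixR_4 : mixFun sgR ∅ (vBq oQ {pt 2, pt 4}) none = -1 := by decide +kernel
theorem mixR_5 : mixFun sgR ∅ (vBq oD {pt 1, pt 3}) none = -1 := by decide +kernel
theorem mixR_6 : mixFun sgR ∅ (vBq oD {pt 6, pt 7}) none = -3 := by decide +kernel
theorem mixR_7 : mixFun sgR ∅ (vC (setOf o0)) none = -1 := by decide +kernel

theorem relR {w : GolayPt → ℤ} (hw : w ∈ leechLattice) : RelL [R1] w (mixFun sgR ∅ w) := by
  apply relL_mix hw empty_mem_supports sgR_mem mixR_t0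
  intro b hb
  rw [List.mem_singleton] at hb
  subst hb
  exact mixR_r1

theorem rel_XF {y z : GolayPt → ℤ} (hy : y ∈ XF) (h : RelL [R1] y z) :
    z ∈ XF ∧ dotInt r1 z = dotInt r1 y := by
  rw [mem_XF] at hy ⊢
  exact ⟨⟨relL_right h, (relL_norm h).trans hy.2.1, (relL_dot0 h).trans hy.2.2⟩,
    relL_dotB h (b := R1) (by simp)⟩

theorem XF_mem_lattice {y : GolayPt → ℤ} (hy : y ∈ XF) : y ∈ leechLattice := ((mem_XF y).mp hy).1

theorem oQ_pts2 : pt 2 ∈ oQ ∧ pt 4 ∈ oQ ∧ pt 5 ∈ oQ := by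
  unfold oQ
  simp only [mem_setOf]
  decide

theorem oD_pts2 : pt 1 ∈ oD ∧ pt 3 ∈ oD ∧ pt 6 ∈ oD ∧ pt 7 ∈ oD := by
  unfold oD
  simp only [mem_setOf]
  decide

theorem rootE0_mem : setOf 28637 ∈ dodecads := by
  rw [mem_dodecads_iff, maskS_setOf (by decide)]
  exact ⟨rootE0_cw, by decide +kernel⟩

theorem rootEn_mem : setOf 57274 ∈ dodecads := by
  rw [mem_dodecads_iff, maskS_setOf (by decide)]
  exact ⟨rootEn_cw, by decide +kernel⟩

/-- Every vector is related to the representative of its family. -/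
theorem relR_root {y : GolayPt → ℤ} (hy : y ∈ XF) :
    (dotInt r1 y = 32 ∧ y = r1) ∨
    (y none = -4 ∧ dotInt r1 y = 16 ∧ RelL [R1] y (vA (pt 1))) ∨
    (y none = -2 ∧ dotInt r1 y = 16 ∧ RelL [R1] y (vB oQ (pt 5))) ∨
    (y none = -2 ∧ dotInt r1 y = 8 ∧ RelL [R1] y (vBq oD {pt 1, pt 3})) ∨
    (y none = -2 ∧ dotInt r1 y = 0 ∧ RelL [R1] y (vBq oQ {pt 2, pt 5})) ∨
    (y none = 0 ∧ dotInt r1 y = -8 ∧ RelL [R1] y (vC (setOf o0))) ∨
    (y none = 0 ∧ dotInt r1 y = 0 ∧ RelL [R1] y (vC (setOf 10558))) ∨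
    (y none = -1 ∧ dotInt r1 y = 0 ∧ RelL [R1] y (vD (setOf 10558) (pt 1))) ∨
    (y none = -1 ∧ dotInt r1 y = -8 ∧ RelL [R1] y (vD (setOf o0) (pt 0))) ∨
    (y none = -1 ∧ dotInt r1 y = 8 ∧ RelL [R1] y (vD (setOf o0) (pt 1))) ∨
    (y none = -3 ∧ dotInt r1 y = 8 ∧ RelL [R1] y (vE (setOf 28637))) ∨
    (y none = -3 ∧ dotInt r1 y = 16 ∧ RelL [R1] y (vE (setOf 57274))) := by
  have hL := XF_mem_lattice hy
  rcases XF_cases2 hy with ⟨-, hd, h⟩ | ⟨hv, hd, a, ha, ha0, rfl⟩ |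
    ⟨hv, hd, o, ho, hno, h0, b, hb, hbn, hb0, rfl⟩ |
    ⟨hv, hd, o, ho, hno, h0, a, b, ha, hb, hab, han, hbn, rfl⟩ |
    ⟨hv, hd, o, ho, hno, h0, a, b, ha, hb, hab, han, hbn, ha0, hb0, rfl⟩ |
    ⟨hv, hd, o, ho, hno, h0, rfl⟩ | ⟨hv, hd, o, ho, hno, h0, rfl⟩ |
    ⟨hv, hd, o, ho, hno, h0, k, hk, rfl⟩ | ⟨hv, hd, o, ho, hno, h0, rfl⟩ |
    ⟨hv, hd, o, ho, hno, h0, k, hk, hk0, rfl⟩ | ⟨hv, hd, d, hdd, hnd, h0, rfl⟩ |
    ⟨hv, hd, d, hdd, hnd, h0, rfl⟩
  · exact Or.inl ⟨hd, h⟩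
  · right; left
    exact ⟨hv, hd, famRA ha ha0 (by decide) (by decide) hL⟩
  · right; right; left
    exact ⟨hv, hd, weakR (famQB ho oQ_mem hno h0 oQ_pts.1 oQ_pts.2.1 hb hbn hb0 oQ_pts.2.2.2
      (by decide) (by decide) hL)⟩
  · right; right; right; left
    exact ⟨hv, hd, famRBn ho oD_mem hno h0 oD_pts.1 oD_pts.2 ha hb hab han hbn oD_pts2.1
      oD_pts2.2.1 (by decide) (by decide) (by decide) hL⟩
  · right; right; right; right; left
    exact ⟨hv, hd, famRBm ho oQ_mem hno h0 oQ_pts.1 oQ_pts.2.1 ha hb hab han hbn ha0 hb0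
      oQ_pts2.1 oQ_pts2.2.2 (by decide) (by decide) (by decide) (by decide) (by decide) hL⟩
  · right; right; right; right; right; left
    exact ⟨hv, hd, famRC0 ho setOf_o0_mem_octads hno h0 o0_pts.1 o0_pts.2 hL⟩
  · right; right; right; right; right; right; left
    exact ⟨hv, hd, weakR (famQC ho hno h0 hL)⟩
  · right; right; right; right; right; right; right; left
    exact ⟨hv, hd, famRDn ho hno h0 hk hL⟩
  · right; right; right; right; right; right; right; right; left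
    exact ⟨hv, hd, famRD0 ho setOf_o0_mem_octads hno h0 o0_pts.1 o0_pts.2 hL⟩
  · right; right; right; right; right; right; right; right; right; left
    exact ⟨hv, hd, weakR (famQD ho setOf_o0_mem_octads hno h0 o0_pts.1 o0_pts.2 hk hk0 o0_pt1
      (by decide) hL)⟩
  · right; right; right; right; right; right; right; right; right; right; left
    exact ⟨hv, hd, famRE0 hdd hnd h0 hL⟩
  · right; right; right; right; right; right; right; right; right; right; right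
    exact ⟨hv, hd, famREn hdd hnd h0 hL⟩

/-- Fusion: a source vector with known inner product whose image has a known value at `none`
is related to the representative of the family of the image. -/
theorem fuseR {s : GolayPt → ℤ} (hs : s ∈ XF) :
    RelL [R1] s (mixFun sgR ∅ s) ∧ mixFun sgR ∅ s ∈ XF ∧
      dotInt r1 (mixFun sgR ∅ s) = dotInt r1 s := by
  have h := relR (XF_mem_lattice hs)
  exact ⟨h, rel_XF hs h⟩

theorem sA_props (a : GolayPt) (ha : a ≠ none) (ha0 : a ≠ pt 0) :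
    vA a ∈ XF ∧ dotInt r1 (vA a) = 16 := ⟨(vA_props ha ha0).1, (vA_props ha ha0).2.2⟩

theorem sBm_props {a b : GolayPt} (ha : a ∈ oQ) (hb : b ∈ oQ) (hab : a ≠ b) (han : a ≠ none)
    (hbn : b ≠ none) (ha0 : a ≠ pt 0) (hb0 : b ≠ pt 0) :
    vBq oQ {a, b} ∈ XF ∧ dotInt r1 (vBq oQ {a, b}) = 0 := by
  have hq : ({a, b} : Finset GolayPt) ⊆ (oQ.erase none).erase (pt 0) := by
    intro j hj
    rw [Finset.mem_insert, Finset.mem_singleton] at hj
    rcases hj with rfl | rfl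
    · exact Finset.mem_erase.mpr ⟨ha0, Finset.mem_erase.mpr ⟨han, ha⟩⟩
    · exact Finset.mem_erase.mpr ⟨hb0, Finset.mem_erase.mpr ⟨hbn, hb⟩⟩
  have h := vBm_props oQ_mem oQ_pts.1 oQ_pts.2.1 hq (Finset.card_pair hab)
  exact ⟨h.1, h.2.2⟩

theorem sBn_props {a b : GolayPt} (ha : a ∈ oD) (hb : b ∈ oD) (hab : a ≠ b) (han : a ≠ none)
    (hbn : b ≠ none) : vBq oD {a, b} ∈ XF ∧ dotInt r1 (vBq oD {a, b}) = 8 := by
  have hq : ({a, b} : Finset GolayPt) ⊆ oD.erase none := by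
    intro j hj
    rw [Finset.mem_insert, Finset.mem_singleton] at hj
    rcases hj with rfl | rfl
    · exact Finset.mem_erase.mpr ⟨han, ha⟩
    · exact Finset.mem_erase.mpr ⟨hbn, hb⟩
  have h := vBn_props oD_mem oD_pts.1 oD_pts.2 hq (Finset.card_pair hab)
  exact ⟨h.1, h.2.2⟩

theorem fuseR_1 : RelL [R1] (vA (pt 1)) (vB oQ (pt 5)) := by
  obtain ⟨hs, hd⟩ := sA_props (pt 1) (by decide) (by decide)
  obtain ⟨h, hz, hzd⟩ := fuseR hs
  have hzv := mixR_1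
  rcases relR_root hz with ⟨hd', -⟩ | ⟨hv', hd', r⟩ | ⟨hv', hd', r⟩ | ⟨hv', hd', r⟩ |
    ⟨hv', hd', r⟩ | ⟨hv', hd', r⟩ | ⟨hv', hd', r⟩ | ⟨hv', hd', r⟩ | ⟨hv', hd', r⟩ |
    ⟨hv', hd', r⟩ | ⟨hv', hd', r⟩ | ⟨hv', hd', r⟩
  all_goals first | exact relL_trans h r | omega

theorem fuseR_2 : RelL [R1] (vA (pt 4)) (vE (setOf 57274)) := by
  obtain ⟨hs, hd⟩ := sA_props (pt 4) (by decide) (by decide)
  obtain ⟨h, hz, hzd⟩ := fuseR hs
  have hzv := mixR_2
  rcases relR_root hz with ⟨hd', -⟩ | ⟨hv', hd', r⟩ | ⟨hv', hd', r⟩ | ⟨hv', hd', r⟩ |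
    ⟨hv', hd', r⟩ | ⟨hv', hd', r⟩ | ⟨hv', hd', r⟩ | ⟨hv', hd', r⟩ | ⟨hv', hd', r⟩ |
    ⟨hv', hd', r⟩ | ⟨hv', hd', r⟩ | ⟨hv', hd', r⟩
  all_goals first | exact relL_trans h r | omega

theorem fuseR_3 : RelL [R1] (vBq oQ {pt 2, pt 5}) (vC (setOf 10558)) := by
  obtain ⟨hs, hd⟩ := sBm_props oQ_pts2.1 oQ_pts2.2.2 (by decide) (by decide) (by decide)
    (by decide) (by decide)
  obtain ⟨h, hz, hzd⟩ := fuseR hs
  have hzv := mixR_3
  rcases relR_root hz with ⟨hd', -⟩ | ⟨hv', hd', r⟩ | ⟨hv', hd', r⟩ | ⟨hv', hd', r⟩ |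
    ⟨hv', hd', r⟩ | ⟨hv', hd', r⟩ | ⟨hv', hd', r⟩ | ⟨hv', hd', r⟩ | ⟨hv', hd', r⟩ |
    ⟨hv', hd', r⟩ | ⟨hv', hd', r⟩ | ⟨hv', hd', r⟩
  all_goals first | exact relL_trans h r | omega

theorem fuseR_4 : RelL [R1] (vBq oQ {pt 2, pt 4}) (vD (setOf 10558) (pt 1)) := by
  obtain ⟨hs, hd⟩ := sBm_props oQ_pts2.1 oQ_pts2.2.1 (by decide) (by decide) (by decide)
    (by decide) (by decide)
  obtain ⟨h, hz, hzd⟩ := fuseR hs
  have hzv := mixR_4
  rcases relR_root hz with ⟨hd', -⟩ | ⟨hv', hd', r⟩ | ⟨hv', hd', r⟩ | ⟨hv', hd', r⟩ |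
    ⟨hv', hd', r⟩ | ⟨hv', hd', r⟩ | ⟨hv', hd', r⟩ | ⟨hv', hd', r⟩ | ⟨hv', hd', r⟩ |
    ⟨hv', hd', r⟩ | ⟨hv', hd', r⟩ | ⟨hv', hd', r⟩
  all_goals first | exact relL_trans h r | omega

theorem fuseR_5 : RelL [R1] (vBq oD {pt 1, pt 3}) (vD (setOf o0) (pt 1)) := by
  obtain ⟨hs, hd⟩ := sBn_props oD_pts2.1 oD_pts2.2.1 (by decide) (by decide) (by decide)
  obtain ⟨h, hz, hzd⟩ := fuseR hs
  have hzv := mixR_5
  rcases relR_root hz with ⟨hd', -⟩ | ⟨hv', hd', r⟩ | ⟨hv', hd', r⟩ | ⟨hv', hd', r⟩ |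
    ⟨hv', hd', r⟩ | ⟨hv', hd', r⟩ | ⟨hv', hd', r⟩ | ⟨hv', hd', r⟩ | ⟨hv', hd', r⟩ |
    ⟨hv', hd', r⟩ | ⟨hv', hd', r⟩ | ⟨hv', hd', r⟩
  all_goals first | exact relL_trans h r | omega

theorem fuseR_6 : RelL [R1] (vBq oD {pt 6, pt 7}) (vE (setOf 28637)) := by
  obtain ⟨hs, hd⟩ := sBn_props oD_pts2.2.2.1 oD_pts2.2.2.2 (by decide) (by decide) (by decide)
  obtain ⟨h, hz, hzd⟩ := fuseR hs
  have hzv := mixR_6
  rcases relR_root hz with ⟨hd', -⟩ | ⟨hv', hd', r⟩ | ⟨hv', hd', r⟩ | ⟨hv', hd', r⟩ |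
    ⟨hv', hd', r⟩ | ⟨hv', hd', r⟩ | ⟨hv', hd', r⟩ | ⟨hv', hd', r⟩ | ⟨hv', hd', r⟩ |
    ⟨hv', hd', r⟩ | ⟨hv', hd', r⟩ | ⟨hv', hd', r⟩
  all_goals first | exact relL_trans h r | omega

theorem fuseR_7 : RelL [R1] (vC (setOf o0)) (vD (setOf o0) (pt 0)) := by
  have hp := vC0_props setOf_o0_mem_octads o0_pts.1 o0_pts.2
  obtain ⟨h, hz, hzd⟩ := fuseR hp.1
  have hd := hp.2.2
  have hzv := mixR_7
  rcases relR_root hz with ⟨hd', -⟩ | ⟨hv', hd', r⟩ | ⟨hv', hd', r⟩ | ⟨hv', hd', r⟩ |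
    ⟨hv', hd', r⟩ | ⟨hv', hd', r⟩ | ⟨hv', hd', r⟩ | ⟨hv', hd', r⟩ | ⟨hv', hd', r⟩ |
    ⟨hv', hd', r⟩ | ⟨hv', hd', r⟩ | ⟨hv', hd', r⟩
  all_goals first | exact relL_trans h r | omega

/-- Every vector other than `r1` is related to the representative of its class. -/
theorem relR_main {y : GolayPt → ℤ} (hy : y ∈ XF) :
    (dotInt r1 y = 32 ∧ y = r1) ∨
    (dotInt r1 y = 16 ∧ RelL [R1] y (vA (pt 1))) ∨
    (dotInt r1 y = 8 ∧ RelL [R1] y (vBq oD {pt 1, pt 3})) ∨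
    (dotInt r1 y = 0 ∧ RelL [R1] y (vBq oQ {pt 2, pt 5})) ∨
    (dotInt r1 y = -8 ∧ RelL [R1] y (vC (setOf o0))) := by
  have hL := XF_mem_lattice hy
  rcases relR_root hy with ⟨hd', h⟩ | ⟨hv', hd', r⟩ | ⟨hv', hd', r⟩ | ⟨hv', hd', r⟩ |
    ⟨hv', hd', r⟩ | ⟨hv', hd', r⟩ | ⟨hv', hd', r⟩ | ⟨hv', hd', r⟩ | ⟨hv', hd', r⟩ |
    ⟨hv', hd', r⟩ | ⟨hv', hd', r⟩ | ⟨hv', hd', r⟩
  · exact Or.inl ⟨hd', h⟩
  · exact Or.inr (Or.inl ⟨hd', r⟩)
  · exact Or.inr (Or.inl ⟨hd', relL_trans r (relL_symm fuseR_1)⟩)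
  · exact Or.inr (Or.inr (Or.inl ⟨hd', r⟩))
  · exact Or.inr (Or.inr (Or.inr (Or.inl ⟨hd', r⟩)))
  · exact Or.inr (Or.inr (Or.inr (Or.inr ⟨hd', r⟩)))
  · exact Or.inr (Or.inr (Or.inr (Or.inl ⟨hd', relL_trans r (relL_symm fuseR_3)⟩)))
  · have h24 : RelL [R1] (vBq oQ {pt 2, pt 4}) (vBq oQ {pt 2, pt 5}) :=
      famRBm oQ_mem oQ_mem oQ_pts.1 oQ_pts.2.1 oQ_pts.1 oQ_pts.2.1 oQ_pts2.1 oQ_pts2.2.1
        (by decide) (by decide) (by decide) (by decide) (by decide) oQ_pts2.1 oQ_pts2.2.2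
        (by decide) (by decide) (by decide) (by decide) (by decide)
        (XF_mem_lattice (sBm_props oQ_pts2.1 oQ_pts2.2.1 (by decide) (by decide) (by decide)
          (by decide) (by decide)).1)
    exact Or.inr (Or.inr (Or.inr (Or.inl ⟨hd', relL_trans r
      (relL_trans (relL_symm fuseR_4) h24)⟩)))
  · exact Or.inr (Or.inr (Or.inr (Or.inr ⟨hd', relL_trans r (relL_symm fuseR_7)⟩)))
  · exact Or.inr (Or.inr (Or.inl ⟨hd', relL_trans r (relL_symm fuseR_5)⟩))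
  · have h67 : RelL [R1] (vBq oD {pt 6, pt 7}) (vBq oD {pt 1, pt 3}) :=
      famRBn oD_mem oD_mem oD_pts.1 oD_pts.2 oD_pts.1 oD_pts.2 oD_pts2.2.2.1 oD_pts2.2.2.2
        (by decide) (by decide) (by decide) oD_pts2.1 oD_pts2.2.1 (by decide) (by decide)
        (by decide)
        (XF_mem_lattice (sBn_props oD_pts2.2.2.1 oD_pts2.2.2.2 (by decide) (by decide)
          (by decide)).1)
    exact Or.inr (Or.inr (Or.inl ⟨hd', relL_trans r (relL_trans (relL_symm fuseR_6) h67)⟩))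
  · have h41 : RelL [R1] (vA (pt 4)) (vA (pt 1)) :=
      famRA (by decide) (by decide) (by decide) (by decide)
        (XF_mem_lattice (sA_props (pt 4) (by decide) (by decide)).1)
    exact Or.inr (Or.inl ⟨hd', relL_trans r (relL_trans (relL_symm fuseR_2) h41)⟩)

theorem relR_fam {y z : GolayPt → ℤ} (hy : y ∈ XF) (hz : z ∈ XF) (hne : dotInt r1 y ≠ 32)
    (h : dotInt r1 y = dotInt r1 z) : RelL [R1] y z := by
  rcases relR_main hy with ⟨hd, -⟩ | ⟨hd, r⟩ | ⟨hd, r⟩ | ⟨hd, r⟩ | ⟨hd, r⟩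
  · exact absurd hd hne
  all_goals
    rcases relR_main hz with ⟨hd', -⟩ | ⟨hd', r'⟩ | ⟨hd', r'⟩ | ⟨hd', r'⟩ | ⟨hd', r'⟩
    all_goals first | exact relL_trans r (relL_symm r') | omega


/-! ### The eleven families as finite sets -/

theorem XF_combos {y : GolayPt → ℤ} (hy : y ∈ XF) :
    (y none = -4 ∧ dotInt r1 y = 32) ∨ (y none = -4 ∧ dotInt r1 y = 16) ∨
    (y none = -2 ∧ dotInt r1 y = 16) ∨ (y none = -2 ∧ dotInt r1 y = 8) ∨
    (y none = -2 ∧ dotInt r1 y = 0) ∨ (y none = 0 ∧ dotInt r1 y = -8) ∨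
    (y none = 0 ∧ dotInt r1 y = 0) ∨ (y none = -1 ∧ dotInt r1 y = 0) ∨
    (y none = -1 ∧ dotInt r1 y = -8) ∨ (y none = -1 ∧ dotInt r1 y = 8) ∨
    (y none = -3 ∧ dotInt r1 y = 8) ∨ (y none = -3 ∧ dotInt r1 y = 16) := by
  rcases XF_cases2 hy with ⟨h1, h2, -⟩ | ⟨h1, h2, -⟩ | ⟨h1, h2, -⟩ | ⟨h1, h2, -⟩ | ⟨h1, h2, -⟩ |
    ⟨h1, h2, -⟩ | ⟨h1, h2, -⟩ | ⟨h1, h2, -⟩ | ⟨h1, h2, -⟩ | ⟨h1, h2, -⟩ | ⟨h1, h2, -⟩ |
    ⟨h1, h2, -⟩
  · exact Or.inl ⟨h1, h2⟩
  · exact Or.inr (Or.inl ⟨h1, h2⟩)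
  · exact Or.inr (Or.inr (Or.inl ⟨h1, h2⟩))
  · exact Or.inr (Or.inr (Or.inr (Or.inl ⟨h1, h2⟩)))
  · exact Or.inr (Or.inr (Or.inr (Or.inr (Or.inl ⟨h1, h2⟩))))
  · exact Or.inr (Or.inr (Or.inr (Or.inr (Or.inr (Or.inl ⟨h1, h2⟩)))))
  · exact Or.inr (Or.inr (Or.inr (Or.inr (Or.inr (Or.inr (Or.inl ⟨h1, h2⟩))))))
  · exact Or.inr (Or.inr (Or.inr (Or.inr (Or.inr (Or.inr (Or.inr (Or.inl ⟨h1, h2⟩)))))))
  · exact Or.inr (Or.inr (Or.inr (Or.inr (Or.inr (Or.inr (Or.inr (Or.inr (Or.inl ⟨h1, h2⟩))))))))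
  · exact Or.inr (Or.inr (Or.inr (Or.inr (Or.inr (Or.inr (Or.inr (Or.inr (Or.inr
      (Or.inl ⟨h1, h2⟩)))))))))
  · exact Or.inr (Or.inr (Or.inr (Or.inr (Or.inr (Or.inr (Or.inr (Or.inr (Or.inr
      (Or.inr (Or.inl ⟨h1, h2⟩))))))))))
  · exact Or.inr (Or.inr (Or.inr (Or.inr (Or.inr (Or.inr (Or.inr (Or.inr (Or.inr
      (Or.inr (Or.inr ⟨h1, h2⟩))))))))))

/-- Dodecads avoiding `none` and `0`. -/
def dodNN : Finset (Finset GolayPt) := dodN.filter (fun d => pt 0 ∉ d)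

/-- Dodecads through `0` avoiding `none`. -/
def dodN0 : Finset (Finset GolayPt) := dodN.filter (fun d => pt 0 ∈ d)

theorem mem_dodNN (d : Finset GolayPt) : d ∈ dodNN ↔ d ∈ dodecads ∧ none ∉ d ∧ pt 0 ∉ d := by
  unfold dodNN
  rw [Finset.mem_filter, mem_dodN, and_assoc]

theorem mem_dodN0 (d : Finset GolayPt) : d ∈ dodN0 ↔ d ∈ dodecads ∧ none ∉ d ∧ pt 0 ∈ d := by
  unfold dodN0
  rw [Finset.mem_filter, mem_dodN, and_assoc]

theorem ncard_dod_e616 :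
    {d : Finset GolayPt | d ∈ dodecads ∧ none ∉ d ∧ pt 0 ∉ d}.ncard = 616 := by
  have key : ∀ o : Finset GolayPt, (o ∈ dodecads ∧ none ∉ o ∧ pt 0 ∉ o) ↔
      (o ∈ supports (golayCode : Set (GolayPt → ZMod 2)) ∧
        HasProf (profSets 1 [(16777215, 12), (8388608, 0), (1, 0)]) o) := by
    intro o
    rw [profSets_cons, profSets_cons, profSets_cons, profSets_nil, hasProf_cons,
      hasProf_cons, hasProf_cons, card_inter_full, one_smul, one_smul,
      setOf_top, setOf_one, inter_single_zero, inter_single_zero]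
    exact ⟨fun ⟨⟨h1, h2⟩, h3, h4⟩ => ⟨h1, h2, h3, h4, hasProf_nil _⟩,
      fun ⟨h1, h2, h3, h4, _⟩ => ⟨⟨h1, h2⟩, h3, h4⟩⟩
  have hlt : ∀ c ∈ [(16777215, 12), (8388608, 0), (1, 0)], c.1 < 2 ^ 24 := by
    intro c hc
    simp only [List.mem_cons, List.not_mem_nil, or_false] at hc
    rcases hc with rfl | rfl | rfl <;> decide
  rw [Set.ext key]
  exact (ncard_prof M24.one_mem _ hlt).trans m22_count_e616

theorem card_dodNN : dodNN.card = 616 := by
  rw [← ncard_dod_e616, ← Set.ncard_coe_finset]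
  congr 1
  ext o
  rw [Finset.mem_coe, mem_dodNN, Set.mem_ofPred_eq]

theorem card_dodN0 : dodN0.card = 672 :=
  sub_of_split' (card_split0 dodN) 672 616 card_dodNN card_dodN

noncomputable def FA : Finset (GolayPt → ℤ) := pts22.image vA

noncomputable def FBn : Finset (GolayPt → ℤ) :=
  cls octI1 (fun o => Finset.powersetCard 2 (o.erase none)) (fun o q => vBq o q)

noncomputable def FBm : Finset (GolayPt → ℤ) :=
  cls octI0 (fun o => Finset.powersetCard 2 ((o.erase none).erase (pt 0))) (fun o q => vBq o q)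

noncomputable def FC0 : Finset (GolayPt → ℤ) := octN0.image vC

noncomputable def FDn : Finset (GolayPt → ℤ) := cls octNN (fun o => o) (fun o k => vD o k)

noncomputable def FD0 : Finset (GolayPt → ℤ) := octN0.image (fun o => vD o (pt 0))

noncomputable def FE0 : Finset (GolayPt → ℤ) := dodN0.image vE

noncomputable def FEn : Finset (GolayPt → ℤ) := dodNN.image vE

theorem card_FA : FA.card = 22 := by
  unfold FA
  rw [Finset.card_image_of_injOn, card_pts22]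
  intro a ha a' ha' h
  rw [Finset.mem_coe, mem_pts22] at ha ha'
  have h2 := (tw_pat_inj (v := 4) (by norm_num) (by simp) (by simp) h).1
  have : a ∈ ({none, a'} : Finset GolayPt) := by
    rw [← h2]
    simp
  rw [Finset.mem_insert, Finset.mem_singleton] at this
  rcases this with h | h
  · exact absurd h ha.1
  · exact h

theorem vBq_inj {o o' q q' : Finset GolayPt} (hq : q ⊆ o) (hq' : q' ⊆ o')
    (h : vBq o q = vBq o' q') : o = o' ∧ q = q' := by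
  obtain ⟨h1, h2⟩ := tw_pat_inj (v := 2) (by norm_num) Finset.sdiff_subset Finset.sdiff_subset h
  subst h1
  refine ⟨rfl, ?_⟩
  rw [← Finset.sdiff_sdiff_eq_self hq, h2, Finset.sdiff_sdiff_eq_self hq']

theorem card_FBn : FBn.card = 3696 := by
  have hinj : ∀ o ∈ octI1, ∀ q ∈ Finset.powersetCard 2 (o.erase none), ∀ o' ∈ octI1,
      ∀ q' ∈ Finset.powersetCard 2 (o'.erase none), vBq o q = vBq o' q' → o = o' ∧ q = q' := by
    intro o _ q hq o' _ q' hq' h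
    rw [Finset.mem_powersetCard] at hq hq'
    exact vBq_inj (fun j hj => Finset.mem_of_mem_erase (hq.1 hj))
      (fun j hj => Finset.mem_of_mem_erase (hq'.1 hj)) h
  have hK : ∀ o ∈ octI1, (Finset.powersetCard 2 (o.erase none)).card = 21 := by
    intro o ho
    rw [mem_octI1] at ho
    rw [Finset.card_powersetCard, Finset.card_erase_of_mem ho.2.1, ho.1.2]
    rfl
  unfold FBn
  rw [card_cls _ _ _ hinj 21 hK, card_octI1]

theorem card_FBm : FBm.card = 1155 := by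
  have hinj : ∀ o ∈ octI0, ∀ q ∈ Finset.powersetCard 2 ((o.erase none).erase (pt 0)),
      ∀ o' ∈ octI0, ∀ q' ∈ Finset.powersetCard 2 ((o'.erase none).erase (pt 0)),
      vBq o q = vBq o' q' → o = o' ∧ q = q' := by
    intro o _ q hq o' _ q' hq' h
    rw [Finset.mem_powersetCard] at hq hq'
    exact vBq_inj (fun j hj => Finset.mem_of_mem_erase (Finset.mem_of_mem_erase (hq.1 hj)))
      (fun j hj => Finset.mem_of_mem_erase (Finset.mem_of_mem_erase (hq'.1 hj))) h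
  have hK : ∀ o ∈ octI0, (Finset.powersetCard 2 ((o.erase none).erase (pt 0))).card = 15 := by
    intro o ho
    rw [mem_octI0] at ho
    rw [Finset.card_powersetCard,
      Finset.card_erase_of_mem (Finset.mem_erase.mpr ⟨by decide, ho.2.2⟩),
      Finset.card_erase_of_mem ho.2.1, ho.1.2]
    rfl
  unfold FBm
  rw [card_cls _ _ _ hinj 15 hK, card_octI0]

theorem card_FC0 : FC0.card = 176 := by
  unfold FC0
  rw [Finset.card_image_of_injOn, card_octN0]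
  intro o _ o' _ h
  exact (tw_pat_inj (v := 2) (by norm_num) (Finset.Subset.refl _) (Finset.Subset.refl _) h).1

theorem vD_inj {o o' : Finset GolayPt} {k k' : GolayPt} (h : vD o k = vD o' k') :
    o = o' ∧ k = k' := by
  have h' : tw oᶜ (pt1 (-3) {k}) = tw o'ᶜ (pt1 (-3) {k'}) := h
  have hcc : oᶜ = o'ᶜ := by
    rw [← resSet_tw (pt1_mod (v := -3) (by decide) {k}) oᶜ, h',
      resSet_tw (pt1_mod (v := -3) (by decide) {k'}) o'ᶜ]
  have hoo : o = o' := compl_injective hcc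
  subst hoo
  refine ⟨rfl, ?_⟩
  have h2 : pt1 (-3) {k} = pt1 (-3) {k'} := by
    rw [← tw_tw oᶜ (pt1 (-3) {k}), h', tw_tw]
  exact pt1_inj h2

theorem card_FDn : FDn.card = 2640 := by
  have hinj : ∀ o ∈ octNN, ∀ k ∈ o, ∀ o' ∈ octNN, ∀ k' ∈ o',
      vD o k = vD o' k' → o = o' ∧ k = k' := fun o _ k _ o' _ k' _ h => vD_inj h
  have hK : ∀ o ∈ octNN, o.card = 8 := by
    intro o ho
    rw [mem_octNN] at ho
    exact ho.1.2
  unfold FDn
  rw [card_cls _ _ _ hinj 8 hK, card_octNN]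

theorem card_FD0 : FD0.card = 176 := by
  unfold FD0
  rw [Finset.card_image_of_injOn, card_octN0]
  intro o _ o' _ h
  exact (vD_inj h).1

theorem vE_inj {d d' : Finset GolayPt} (h : vE d = vE d') : d = d' := by
  have h' : tw d (pt1 (-3) {none}) = tw d' (pt1 (-3) {none}) := h
  rw [← resSet_tw (pt1_mod (v := -3) (by decide) {none}) d, h',
    resSet_tw (pt1_mod (v := -3) (by decide) {none}) d']

theorem card_FE0 : FE0.card = 672 := by
  unfold FE0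
  rw [Finset.card_image_of_injOn, card_dodN0]
  intro d _ d' _ h
  exact vE_inj h

theorem card_FEn : FEn.card = 616 := by
  unfold FEn
  rw [Finset.card_image_of_injOn, card_dodNN]
  intro d _ d' _ h
  exact vE_inj h

/-! Membership in the families by the value at `none` and the inner product with `r1`. -/

theorem FA_iff (y : GolayPt → ℤ) : y ∈ FA ↔ y ∈ XF ∧ y none = -4 ∧ dotInt r1 y = 16 := by
  unfold FA
  rw [Finset.mem_image]
  constructor
  · rintro ⟨a, ha, rfl⟩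
    rw [mem_pts22] at ha
    exact vA_props ha.1 ha.2
  · rintro ⟨hy, hv, hd⟩
    rcases XF_cases2 hy with h | h | h | h | h | h | h | h | h | h | h | h
    all_goals first | (obtain ⟨hv', hd', -⟩ := h; omega) | skip
    obtain ⟨-, -, a, ha, ha0, rfl⟩ := h
    exact ⟨a, (mem_pts22 a).mpr ⟨ha, ha0⟩, rfl⟩

theorem QB_iff (y : GolayPt → ℤ) : y ∈ QB ↔ y ∈ XF ∧ y none = -2 ∧ dotInt r1 y = 16 := by
  constructor
  · intro h
    rw [← qfib2, Finset.mem_filter] at h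
    obtain ⟨h1, h2⟩ := YQ_props h.1
    exact ⟨h1, h.2, by rw [h2, h.2]; norm_num⟩
  · rintro ⟨hy, hv, hd⟩
    unfold QB
    rw [mem_cls]
    rcases XF_cases2 hy with h | h | h | h | h | h | h | h | h | h | h | h
    all_goals first | (obtain ⟨hv', hd', -⟩ := h; omega) | skip
    obtain ⟨-, -, o, ho, hno, h0, b, hb, hbn, hb0, rfl⟩ := h
    exact ⟨o, (mem_octI0 o).mpr ⟨ho, hno, h0⟩, b,
      Finset.mem_erase.mpr ⟨hb0, Finset.mem_erase.mpr ⟨hbn, hb⟩⟩, rfl⟩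

theorem FBn_iff (y : GolayPt → ℤ) : y ∈ FBn ↔ y ∈ XF ∧ y none = -2 ∧ dotInt r1 y = 8 := by
  unfold FBn
  rw [mem_cls]
  constructor
  · rintro ⟨o, ho, q, hq, rfl⟩
    rw [mem_octI1] at ho
    rw [Finset.mem_powersetCard] at hq
    exact vBn_props ho.1 ho.2.1 ho.2.2 hq.1 hq.2
  · rintro ⟨hy, hv, hd⟩
    rcases XF_cases2 hy with h | h | h | h | h | h | h | h | h | h | h | h
    all_goals first | (obtain ⟨hv', hd', -⟩ := h; omega) | skip
    obtain ⟨-, -, o, ho, hno, h0, a, b, ha, hb, hab, han, hbn, rfl⟩ := h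
    refine ⟨o, (mem_octI1 o).mpr ⟨ho, hno, h0⟩, {a, b}, Finset.mem_powersetCard.mpr ⟨?_,
      Finset.card_pair hab⟩, rfl⟩
    intro j hj
    rw [Finset.mem_insert, Finset.mem_singleton] at hj
    rcases hj with rfl | rfl
    · exact Finset.mem_erase.mpr ⟨han, ha⟩
    · exact Finset.mem_erase.mpr ⟨hbn, hb⟩

theorem FBm_iff (y : GolayPt → ℤ) : y ∈ FBm ↔ y ∈ XF ∧ y none = -2 ∧ dotInt r1 y = 0 := by
  unfold FBm
  rw [mem_cls]
  constructor
  · rintro ⟨o, ho, q, hq, rfl⟩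
    rw [mem_octI0] at ho
    rw [Finset.mem_powersetCard] at hq
    exact vBm_props ho.1 ho.2.1 ho.2.2 hq.1 hq.2
  · rintro ⟨hy, hv, hd⟩
    rcases XF_cases2 hy with h | h | h | h | h | h | h | h | h | h | h | h
    all_goals first | (obtain ⟨hv', hd', -⟩ := h; omega) | skip
    obtain ⟨-, -, o, ho, hno, h0, a, b, ha, hb, hab, han, hbn, ha0, hb0, rfl⟩ := h
    refine ⟨o, (mem_octI0 o).mpr ⟨ho, hno, h0⟩, {a, b}, Finset.mem_powersetCard.mpr ⟨?_,
      Finset.card_pair hab⟩, rfl⟩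
    intro j hj
    rw [Finset.mem_insert, Finset.mem_singleton] at hj
    rcases hj with rfl | rfl
    · exact Finset.mem_erase.mpr ⟨ha0, Finset.mem_erase.mpr ⟨han, ha⟩⟩
    · exact Finset.mem_erase.mpr ⟨hb0, Finset.mem_erase.mpr ⟨hbn, hb⟩⟩

theorem FC0_iff (y : GolayPt → ℤ) : y ∈ FC0 ↔ y ∈ XF ∧ y none = 0 ∧ dotInt r1 y = -8 := by
  unfold FC0
  rw [Finset.mem_image]
  constructor
  · rintro ⟨o, ho, rfl⟩
    rw [mem_octN0] at ho
    exact vC0_props ho.1 ho.2.1 ho.2.2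
  · rintro ⟨hy, hv, hd⟩
    rcases XF_cases2 hy with h | h | h | h | h | h | h | h | h | h | h | h
    all_goals first | (obtain ⟨hv', hd', -⟩ := h; omega) | skip
    obtain ⟨-, -, o, ho, hno, h0, rfl⟩ := h
    exact ⟨o, (mem_octN0 o).mpr ⟨ho, hno, h0⟩, rfl⟩

theorem QC_iff (y : GolayPt → ℤ) : y ∈ QC ↔ y ∈ XF ∧ y none = 0 ∧ dotInt r1 y = 0 := by
  constructor
  · intro h
    rw [← qfib3, Finset.mem_filter] at h
    obtain ⟨h1, h2⟩ := YQ_props h.1
    exact ⟨h1, h.2, by rw [h2, h.2]; norm_num⟩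
  · rintro ⟨hy, hv, hd⟩
    unfold QC
    rw [Finset.mem_image]
    rcases XF_cases2 hy with h | h | h | h | h | h | h | h | h | h | h | h
    all_goals first | (obtain ⟨hv', hd', -⟩ := h; omega) | skip
    obtain ⟨-, -, o, ho, hno, h0, rfl⟩ := h
    exact ⟨o, (mem_octNN o).mpr ⟨ho, hno, h0⟩, rfl⟩

theorem FDn_iff (y : GolayPt → ℤ) : y ∈ FDn ↔ y ∈ XF ∧ y none = -1 ∧ dotInt r1 y = 0 := by
  unfold FDn
  rw [mem_cls]
  constructor
  · rintro ⟨o, ho, k, hk, rfl⟩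
    rw [mem_octNN] at ho
    exact vDn_props ho.1 ho.2.1 ho.2.2 hk
  · rintro ⟨hy, hv, hd⟩
    rcases XF_cases2 hy with h | h | h | h | h | h | h | h | h | h | h | h
    all_goals first | (obtain ⟨hv', hd', -⟩ := h; omega) | skip
    obtain ⟨-, -, o, ho, hno, h0, k, hk, rfl⟩ := h
    exact ⟨o, (mem_octNN o).mpr ⟨ho, hno, h0⟩, k, hk, rfl⟩

theorem FD0_iff (y : GolayPt → ℤ) : y ∈ FD0 ↔ y ∈ XF ∧ y none = -1 ∧ dotInt r1 y = -8 := by
  unfold FD0
  rw [Finset.mem_image]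
  constructor
  · rintro ⟨o, ho, rfl⟩
    rw [mem_octN0] at ho
    exact vD0_props ho.1 ho.2.1 ho.2.2
  · rintro ⟨hy, hv, hd⟩
    rcases XF_cases2 hy with h | h | h | h | h | h | h | h | h | h | h | h
    all_goals first | (obtain ⟨hv', hd', -⟩ := h; omega) | skip
    obtain ⟨-, -, o, ho, hno, h0, rfl⟩ := h
    exact ⟨o, (mem_octN0 o).mpr ⟨ho, hno, h0⟩, rfl⟩

theorem QD_iff (y : GolayPt → ℤ) : y ∈ QD ↔ y ∈ XF ∧ y none = -1 ∧ dotInt r1 y = 8 := by
  constructor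
  · intro h
    rw [← qfib4, Finset.mem_filter] at h
    obtain ⟨h1, h2⟩ := YQ_props h.1
    exact ⟨h1, h.2, by rw [h2, h.2]; norm_num⟩
  · rintro ⟨hy, hv, hd⟩
    unfold QD
    rw [mem_cls]
    rcases XF_cases2 hy with h | h | h | h | h | h | h | h | h | h | h | h
    all_goals first | (obtain ⟨hv', hd', -⟩ := h; omega) | skip
    obtain ⟨-, -, o, ho, hno, h0, k, hk, hk0, rfl⟩ := h
    exact ⟨o, (mem_octN0 o).mpr ⟨ho, hno, h0⟩, k, Finset.mem_erase.mpr ⟨hk0, hk⟩, rfl⟩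

theorem FE0_iff (y : GolayPt → ℤ) : y ∈ FE0 ↔ y ∈ XF ∧ y none = -3 ∧ dotInt r1 y = 8 := by
  unfold FE0
  rw [Finset.mem_image]
  constructor
  · rintro ⟨d, hd, rfl⟩
    rw [mem_dodN0] at hd
    exact vE0_props hd.1 hd.2.1 hd.2.2
  · rintro ⟨hy, hv, hd⟩
    rcases XF_cases2 hy with h | h | h | h | h | h | h | h | h | h | h | h
    all_goals first | (obtain ⟨hv', hd', -⟩ := h; omega) | skip
    obtain ⟨-, -, d, hdd, hnd, h0, rfl⟩ := h
    exact ⟨d, (mem_dodN0 d).mpr ⟨hdd, hnd, h0⟩, rfl⟩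

theorem FEn_iff (y : GolayPt → ℤ) : y ∈ FEn ↔ y ∈ XF ∧ y none = -3 ∧ dotInt r1 y = 16 := by
  unfold FEn
  rw [Finset.mem_image]
  constructor
  · rintro ⟨d, hd, rfl⟩
    rw [mem_dodNN] at hd
    exact vEn_props hd.1 hd.2.1 hd.2.2
  · rintro ⟨hy, hv, hd⟩
    rcases XF_cases2 hy with h | h | h | h | h | h | h | h | h | h | h | h
    all_goals first | (obtain ⟨hv', hd', -⟩ := h; omega) | skip
    obtain ⟨-, -, d, hdd, hnd, h0, rfl⟩ := h
    exact ⟨d, (mem_dodNN d).mpr ⟨hdd, hnd, h0⟩, rfl⟩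

/-! ### The four classes -/

/-- The vectors with a given inner product with `r1`. -/
noncomputable def ZR (d : ℤ) : Finset (GolayPt → ℤ) := XF.filter (fun y => dotInt r1 y = d)

theorem mem_ZR (d : ℤ) (y : GolayPt → ℤ) : y ∈ ZR d ↔ y ∈ XF ∧ dotInt r1 y = d := by
  unfold ZR
  rw [Finset.mem_filter]

theorem ZR_vals (d : ℤ) : ∀ x ∈ ZR d,
    x none = -4 ∨ x none = -2 ∨ x none = 0 ∨ x none = -1 ∨ x none = -3 := by
  intro x hx
  rw [mem_ZR] at hx
  rcases XF_combos hx.1 with h | h | h | h | h | h | h | h | h | h | h | h <;> omega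

theorem ZR_fib (d c : ℤ) (F : Finset (GolayPt → ℤ))
    (hF : ∀ y, y ∈ F ↔ y ∈ XF ∧ y none = c ∧ dotInt r1 y = d) :
    (ZR d).filter (fun y => y none = c) = F := by
  ext y
  rw [Finset.mem_filter, mem_ZR, hF]
  tauto

theorem ZR_fib_empty (d c : ℤ)
    (h : ∀ y ∈ XF, ¬ (y none = c ∧ dotInt r1 y = d)) :
    (ZR d).filter (fun y => y none = c) = ∅ := by
  rw [Finset.filter_eq_empty_iff]
  intro y hy hv
  rw [mem_ZR] at hy
  exact h y hy.1 ⟨hv, hy.2⟩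

theorem card_ZR16 : (ZR 16).card = 1100 := by
  rw [card_fib5 (ZR 16) (ZR_vals 16), ZR_fib 16 (-4) FA FA_iff, ZR_fib 16 (-2) QB QB_iff,
    ZR_fib_empty 16 0 (fun y hy => by
      rcases XF_combos hy with h | h | h | h | h | h | h | h | h | h | h | h <;> omega),
    ZR_fib_empty 16 (-1) (fun y hy => by
      rcases XF_combos hy with h | h | h | h | h | h | h | h | h | h | h | h <;> omega),
    ZR_fib 16 (-3) FEn FEn_iff, card_FA, card_QB, card_FEn, Finset.card_empty]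

theorem card_ZR8 : (ZR 8).card = 5600 := by
  rw [card_fib5 (ZR 8) (ZR_vals 8),
    ZR_fib_empty 8 (-4) (fun y hy => by
      rcases XF_combos hy with h | h | h | h | h | h | h | h | h | h | h | h <;> omega),
    ZR_fib 8 (-2) FBn FBn_iff,
    ZR_fib_empty 8 0 (fun y hy => by
      rcases XF_combos hy with h | h | h | h | h | h | h | h | h | h | h | h <;> omega),
    ZR_fib 8 (-1) QD QD_iff, ZR_fib 8 (-3) FE0 FE0_iff, card_FBn, card_QD, card_FE0,
    Finset.card_empty]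

theorem card_ZR0 : (ZR 0).card = 4125 := by
  rw [card_fib5 (ZR 0) (ZR_vals 0),
    ZR_fib_empty 0 (-4) (fun y hy => by
      rcases XF_combos hy with h | h | h | h | h | h | h | h | h | h | h | h <;> omega),
    ZR_fib 0 (-2) FBm FBm_iff, ZR_fib 0 0 QC QC_iff, ZR_fib 0 (-1) FDn FDn_iff,
    ZR_fib_empty 0 (-3) (fun y hy => by
      rcases XF_combos hy with h | h | h | h | h | h | h | h | h | h | h | h <;> omega),
    card_FBm, card_QC, card_FDn, Finset.card_empty]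

theorem card_ZRm8 : (ZR (-8)).card = 352 := by
  rw [card_fib5 (ZR (-8)) (ZR_vals (-8)),
    ZR_fib_empty (-8) (-4) (fun y hy => by
      rcases XF_combos hy with h | h | h | h | h | h | h | h | h | h | h | h <;> omega),
    ZR_fib_empty (-8) (-2) (fun y hy => by
      rcases XF_combos hy with h | h | h | h | h | h | h | h | h | h | h | h <;> omega),
    ZR_fib (-8) 0 FC0 FC0_iff, ZR_fib (-8) (-1) FD0 FD0_iff,
    ZR_fib_empty (-8) (-3) (fun y hy => by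
      rcases XF_combos hy with h | h | h | h | h | h | h | h | h | h | h | h <;> omega),
    card_FC0, card_FD0, Finset.card_empty]

end Cfsg.Agent.Lib.helper28.XI
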