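import Cfsg.Agent.Lib.helper28.LeechCo3R

set_option autoImplicit false

namespace Cfsg.Agent.Lib.helper28.XI

open Cfsg
open Cfsg.Agent.Lib.helper28
open Cfsg.Agent.Lib.helper27
open Cfsg.Agent.Lib.helper28.LC
open scoped Pointwise

/-! The rank-5 action of the third Conway group on 11178 points, in general position. -/

theorem r_key (u : ↥leechLattice) (k : ↥Co0) (hk1 : k • u = T0) (z : ↥leechLattice) :
    (sqNorm (z : GolayPt → ℤ) = 32 ∧ dotInt (u : GolayPt → ℤ) (z : GolayPt → ℤ) = -16) ↔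
      ((k • z : ↥leechLattice) : GolayPt → ℤ) ∈ XF := by
  rw [mem_XF]
  have e1 := co0_dot k u z
  rw [hk1] at e1
  have e1' : dotInt t0 ((k • z : ↥leechLattice) : GolayPt → ℤ) =
      dotInt (u : GolayPt → ℤ) (z : GolayPt → ℤ) := e1
  have e3 := co0_norm k z
  rw [e1', e3]
  constructor
  · rintro ⟨h1, h2⟩
    exact ⟨(k • z).2, h1, h2⟩
  · rintro ⟨-, h1, h2⟩
    exact ⟨h1, h2⟩

theorem r_dot (x : ↥leechLattice) (k : ↥Co0) (hk3 : k • x = R1) (z : ↥leechLattice) :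
    dotInt r1 ((k • z : ↥leechLattice) : GolayPt → ℤ) =
      dotInt (x : GolayPt → ℤ) (z : GolayPt → ℤ) := by
  have e3 := co0_dot k x z
  rw [hk3] at e3
  exact e3

theorem r_orbit (u x : ↥leechLattice) (k : ↥Co0) (hk1 : k • u = T0) (hk3 : k • x = R1)
    (y : ↥leechLattice) (hy : ((k • y : ↥leechLattice) : GolayPt → ℤ) ∈ XF) (d : ℤ)
    (hd : dotInt r1 ((k • y : ↥leechLattice) : GolayPt → ℤ) = d) (hd32 : d ≠ 32) :
    MulAction.orbit ↥(MulAction.stabilizer ↥Co0 u ⊓ MulAction.stabilizer ↥Co0 x) y =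
      {z : ↥leechLattice | ((k • z : ↥leechLattice) : GolayPt → ℤ) ∈ ZR d} := by
  ext z
  rw [MulAction.mem_orbit_iff, Set.mem_ofPred_eq, mem_ZR]
  constructor
  · rintro ⟨⟨g, hg⟩, rfl⟩
    rw [Subgroup.mem_inf, MulAction.mem_stabilizer_iff, MulAction.mem_stabilizer_iff] at hg
    obtain ⟨hgu, hgx⟩ := hg
    show ((k • (g • y) : ↥leechLattice) : GolayPt → ℤ) ∈ XF ∧
      dotInt r1 ((k • (g • y) : ↥leechLattice) : GolayPt → ℤ) = d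
    have d1 := co0_dot g u y
    rw [hgu] at d1
    have d3 := co0_dot g x y
    rw [hgx] at d3
    have d4 := co0_norm g y
    obtain ⟨p1, p2⟩ := (r_key u k hk1 y).mpr hy
    refine ⟨(r_key u k hk1 (g • y)).mp ⟨d4.trans p1, d1.trans p2⟩, ?_⟩
    rw [r_dot x k hk3, d3, ← r_dot x k hk3, hd]
  · rintro ⟨hz, hzd⟩
    obtain ⟨_, _, n, hn1, hn2, hn3⟩ := relR_fam hy hz (by rw [hd]; exact hd32) (by rw [hd, hzd])
    have hn3' : n • (k • y) = k • z := hn3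
    have g1 : (k⁻¹ * n * k) • u = u := by
      rw [mul_smul, mul_smul, hk1, hn1, ← hk1, inv_smul_smul]
    have g3 : (k⁻¹ * n * k) • x = x := by
      rw [mul_smul, mul_smul, hk3, hn2 R1 (by simp), ← hk3, inv_smul_smul]
    refine ⟨⟨k⁻¹ * n * k, ?_⟩, ?_⟩
    · rw [Subgroup.mem_inf, MulAction.mem_stabilizer_iff, MulAction.mem_stabilizer_iff]
      exact ⟨g1, g3⟩
    · show (k⁻¹ * n * k) • y = z
      rw [mul_smul, mul_smul, hn3', inv_smul_smul]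

theorem r_ncard (k : ↥Co0) (d : ℤ) :
    {z : ↥leechLattice | ((k • z : ↥leechLattice) : GolayPt → ℤ) ∈ ZR d}.ncard = (ZR d).card :=
  ncard_smul_val k _ (ZR d) (fun z hz => XF_mem_lattice ((mem_ZR d z).mp hz).1)
    (fun x => by rw [Set.mem_ofPred_eq])

theorem r_rep (u : ↥leechLattice) (k : ↥Co0) (hk1 : k • u = T0) {s : GolayPt → ℤ} (hs : s ∈ XF) :
    ∃ y : ↥leechLattice, (sqNorm (y : GolayPt → ℤ) = 32 ∧
      dotInt (u : GolayPt → ℤ) (y : GolayPt → ℤ) = -16) ∧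
      ((k • y : ↥leechLattice) : GolayPt → ℤ) = s := by
  refine ⟨k⁻¹ • ⟨s, XF_mem_lattice hs⟩, ?_, ?_⟩
  · rw [r_key u k hk1, smul_inv_smul]
    exact hs
  · rw [smul_inv_smul]

/-- Statement S1641. -/
theorem co3_rank5 (u x : ↥Cfsg.leechLattice) (hu : Cfsg.sqNorm (u : Cfsg.GolayPt → ℤ) = 48) (hx : x ∈ {x : ↥Cfsg.leechLattice | Cfsg.sqNorm (x : Cfsg.GolayPt → ℤ) = 32 ∧ Cfsg.dotInt (u : Cfsg.GolayPt → ℤ) (x : Cfsg.GolayPt → ℤ) = -16}) : ∃ y₁ ∈ {x : ↥Cfsg.leechLattice | Cfsg.sqNorm (x : Cfsg.GolayPt → ℤ) = 32 ∧ Cfsg.dotInt (u : Cfsg.GolayPt → ℤ) (x : Cfsg.GolayPt → ℤ) = -16}, ∃ y₂ ∈ {x : ↥Cfsg.leechLattice | Cfsg.sqNorm (x : Cfsg.GolayPt → ℤ) = 32 ∧ Cfsg.dotInt (u : Cfsg.GolayPt → ℤ) (x : Cfsg.GolayPt → ℤ) = -16}, ∃ y₃ ∈ {x : ↥Cfsg.leechLattice | Cfsg.sqNorm (x : Cfsg.GolayPt → ℤ) = 32 ∧ Cfsg.dotInt (u : Cfsg.GolayPt → ℤ) (x : Cfsg.GolayPt → ℤ)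 = -16}, ∃ y₄ ∈ {x : ↥Cfsg.leechLattice | Cfsg.sqNorm (x : Cfsg.GolayPt → ℤ) = 32 ∧ Cfsg.dotInt (u : Cfsg.GolayPt → ℤ) (x : Cfsg.GolayPt → ℤ) = -16}, (MulAction.orbit ↥(MulAction.stabilizer ↥Cfsg.Co0 u ⊓ MulAction.stabilizer ↥Cfsg.Co0 x) y₁).ncard = 352 ∧ (MulAction.orbit ↥(MulAction.stabilizer ↥Cfsg.Co0 u ⊓ MulAction.stabilizer ↥Cfsg.Co0 x) y₂).ncard = 1100 ∧ (MulAction.orbit ↥(MulAction.stabilizer ↥Cfsg.Co0 u ⊓ MulAction.stabilizer ↥Cfsg.Co0 x) y₃).ncard = 4125 ∧ (MulAction.orbit ↥(MulAction.stabilizer ↥Cfsg.Co0 u ⊓ MulAction.stabilizer ↥Cfsg.Co0 x) y₄).ncard = 5600 ∧ {x : ↥Cfsg.leechLattice | Cfsg.sqNorm (x : Cfsg.GolayPt → ℤ) = 32 ∧ Cfsg.dotInt (u : Cfsg.GolayPt → ℤ) (x : Cfsg.GolayPt → ℤ) = -16} = {x} ∪ MulAction.orbit ↥(MulAction.stabilizer ↥Cfsg.Co0 u ⊓ MulAction.stabilizer ↥Cfsg.Co0 x) y₁ ∪ MulAction.orbit ↥(MulAction.stabilizer ↥Cfsg.Co0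 u ⊓ MulAction.stabilizer ↥Cfsg.Co0 x) y₂ ∪ MulAction.orbit ↥(MulAction.stabilizer ↥Cfsg.Co0 u ⊓ MulAction.stabilizer ↥Cfsg.Co0 x) y₃ ∪ MulAction.orbit ↥(MulAction.stabilizer ↥Cfsg.Co0 u ⊓ MulAction.stabilizer ↥Cfsg.Co0 x) y₄ := by
  obtain ⟨k, hk1, hk3⟩ := hs_frame u x hu hx.1 hx.2
  have q₁ := vC0_props setOf_o0_mem_octads o0_pts.1 o0_pts.2
  have q₂ := sA_props (pt 1) (by decide) (by decide)
  have q₃ := sBm_props oQ_pts2.1 oQ_pts2.2.2 (by decide) (by decide) (by decide) (by decide)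
    (by decide)
  have q₄ := sBn_props oD_pts2.1 oD_pts2.2.1 (by decide) (by decide) (by decide)
  obtain ⟨y₁, hy₁, e₁⟩ := r_rep u k hk1 q₁.1
  obtain ⟨y₂, hy₂, e₂⟩ := r_rep u k hk1 q₂.1
  obtain ⟨y₃, hy₃, e₃⟩ := r_rep u k hk1 q₃.1
  obtain ⟨y₄, hy₄, e₄⟩ := r_rep u k hk1 q₄.1
  have o₁ := r_orbit u x k hk1 hk3 y₁ (by rw [e₁]; exact q₁.1) (-8) (by rw [e₁]; exact q₁.2.2)
    (by norm_num)
  have o₂ := r_orbit u x k hk1 hk3 y₂ (by rw [e₂]; exact q₂.1) 16 (by rw [e₂]; exact q₂.2)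
    (by norm_num)
  have o₃ := r_orbit u x k hk1 hk3 y₃ (by rw [e₃]; exact q₃.1) 0 (by rw [e₃]; exact q₃.2)
    (by norm_num)
  have o₄ := r_orbit u x k hk1 hk3 y₄ (by rw [e₄]; exact q₄.1) 8 (by rw [e₄]; exact q₄.2)
    (by norm_num)
  refine ⟨y₁, hy₁, y₂, hy₂, y₃, hy₃, y₄, hy₄, ?_, ?_, ?_, ?_, ?_⟩
  · rw [o₁, r_ncard, card_ZRm8]
  · rw [o₂, r_ncard, card_ZR16]
  · rw [o₃, r_ncard, card_ZR0]
  · rw [o₄, r_ncard, card_ZR8]
  · rw [o₁, o₂, o₃, o₄]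
    ext z
    simp only [Set.mem_union, Set.mem_singleton_iff]
    rw [Set.mem_ofPred_eq, Set.mem_ofPred_eq, Set.mem_ofPred_eq, Set.mem_ofPred_eq,
      Set.mem_ofPred_eq, mem_ZR, mem_ZR, mem_ZR, mem_ZR, r_key u k hk1 z]
    constructor
    · intro hz
      rcases relR_main hz with ⟨hd, h⟩ | ⟨hd, -⟩ | ⟨hd, -⟩ | ⟨hd, -⟩ | ⟨hd, -⟩
      · left; left; left; left
        apply MulAction.injective k
        show k • z = k • x
        rw [hk3]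
        exact Subtype.ext h
      · left; left; right
        exact ⟨hz, hd⟩
      · right
        exact ⟨hz, hd⟩
      · left; right
        exact ⟨hz, hd⟩
      · left; left; left; right
        exact ⟨hz, hd⟩
    · rintro ((((h | h) | h) | h) | h)
      · rw [h, hk3]
        exact (mem_XF r1).mpr ⟨r1_mem.1, r1_mem.2, r1_dot⟩
      · exact h.1
      · exact h.1
      · exact h.1
      · exact h.1

end Cfsg.Agent.Lib.helper28.XI
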