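import Cfsg.Agent.Lib.helper28.LeechStab

set_option autoImplicit false

namespace Cfsg.Agent.Lib.helper28.XI

open Cfsg
open Cfsg.Agent.Lib.helper28
open Cfsg.Agent.Lib.helper27
open Cfsg.Agent.Lib.helper28.LC
open scoped Pointwise

/-! Minimal vectors with inner product `-16` with a fixed minimal vector. -/

/-- A code word avoiding both base points and meeting the tetrads evenly. -/
def cD : Finset GolayPt := setOf 104010

theorem cD_mem : cD ∈ GC := (setOf_mem_octads (by decide +kernel)).1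

theorem cD_4 : pt 4 ∉ cD := by
  unfold cD
  rw [mem_setOf]
  decide

theorem cD_7 : pt 7 ∉ cD := by
  unfold cD
  rw [mem_setOf]
  decide

theorem o0_4 : pt 4 ∈ setOf o0 := by
  rw [mem_setOf]
  decide

theorem o0_7 : pt 7 ∈ setOf o0 := by
  rw [mem_setOf]
  decide

/-- An octad through both base points meeting every tetrad oddly. -/
def OstarAB : Finset GolayPt := setOf 42232

theorem OstarAB_mem : OstarAB ∈ octads := setOf_mem_octads (by decide +kernel)

theorem OstarAB_odd : ∀ j : Fin 6, (tetS j ∩ OstarAB).card % 2 = 1 := by decide +kernel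

theorem OstarAB_4 : pt 4 ∈ OstarAB := by
  unfold OstarAB
  rw [mem_setOf]
  decide

theorem OstarAB_7 : pt 7 ∈ OstarAB := by
  unfold OstarAB
  rw [mem_setOf]
  decide

/-- Reference vectors. -/
def rD1 : GolayPt → ℤ := tw cD (pt1 (-3) {pt 4})

def rD2 : GolayPt → ℤ := tw (setOf o0) (pt1 (-3) {pt 7})

theorem xi_rD1 : xiFun rD1 (pt 4) = -1 ∧ xiFun rD1 (pt 7) = 3 ∧ ∀ k, xiFun rD1 k % 2 = 1 := by
  decide +kernel

theorem oddD1 {w : GolayPt → ℤ} (hw : w ∈ leechLattice) (hn : sqNorm w = 32)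
    (hodd : ∀ i, w i % 2 = 1) (ha : w (pt 4) = -3) (hb : w (pt 7) = 1) : RelV w rD1 := by
  obtain ⟨c, hc, k, rfl⟩ := odd32_struct hw hn hodd
  rw [tw_pt1_apply] at ha hb
  have hk : pt 4 = k := by
    by_contra hne
    rw [if_neg hne] at ha
    split_ifs at ha <;> omega
  subst hk
  have h4 : pt 4 ∉ c := by
    intro h4
    rw [if_pos h4, if_pos rfl] at ha
    omega
  have h7 : pt 7 ∉ c := by
    intro h7
    rw [if_pos h7] at hb
    split_ifs at hb <;> omega
  exact relV_resign hc cD_mem ⟨fun h => absurd h h4, fun h => absurd h cD_4⟩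
    ⟨fun h => absurd h h7, fun h => absurd h cD_7⟩ hw

theorem oddD2 {w : GolayPt → ℤ} (hw : w ∈ leechLattice) (hn : sqNorm w = 32)
    (hodd : ∀ i, w i % 2 = 1) (ha : w (pt 4) = -1) (hb : w (pt 7) = 3) : RelV w rD2 := by
  obtain ⟨c, hc, k, rfl⟩ := odd32_struct hw hn hodd
  rw [tw_pt1_apply] at ha hb
  have hk : pt 7 = k := by
    by_contra hne
    rw [if_neg hne] at hb
    split_ifs at hb <;> omega
  subst hk
  have h7 : pt 7 ∈ c := by
    by_contra h7
    rw [if_neg h7, if_pos rfl] at hb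
    omega
  have h4 : pt 4 ∈ c := by
    by_contra h4
    rw [if_neg h4] at ha
    split_ifs at ha <;> omega
  exact relV_resign hc setOf_o0_mem_octads.1 ⟨fun _ => o0_4, fun _ => h4⟩
    ⟨fun _ => o0_7, fun _ => h7⟩ hw

theorem rD1_rD2 : RelV rD1 rD2 := by
  have hL : rD1 ∈ leechLattice := tw_pt1_mem cD_mem _
  have h1 := relV_xi hL
  exact relV_trans h1 (oddD2 (relV_right h1) ((relV_norm h1).trans (tw_pt1_norm _ _))
    xi_rD1.2.2 xi_rD1.1 xi_rD1.2.1)

theorem dot16_odd {w : GolayPt → ℤ} (hw : w ∈ leechLattice) (hn : sqNorm w = 32)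
    (hodd : ∀ i, w i % 2 = 1) (hd : dotInt v1 w = -16) : RelV w rD2 := by
  rw [dot_v1] at hd
  have hvals : ∀ i, w i = 1 ∨ w i = -1 ∨ w i = 3 ∨ w i = -3 := by
    obtain ⟨c, hc, k, rfl⟩ := odd32_struct hw hn hodd
    intro i
    rw [tw_pt1_apply]
    split_ifs <;> simp
  have h4 := hvals (pt 4)
  have h7 := hvals (pt 7)
  have hcases : (w (pt 4) = -3 ∧ w (pt 7) = 1) ∨ (w (pt 4) = -1 ∧ w (pt 7) = 3) := by omega
  rcases hcases with ⟨ha, hb⟩ | ⟨ha, hb⟩
  · exact relV_trans (oddD1 hw hn hodd ha hb) rD1_rD2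
  · exact oddD2 hw hn hodd ha hb

theorem dot16_E1 {w : GolayPt → ℤ} (hw : w ∈ leechLattice) (hev : ∀ i, w i % 2 = 0)
    (hd : dotInt v1 w = -16) (h : w ∈ E1) : ∃ y, RelV w y ∧ ∀ i, y i % 2 = 1 := by
  rw [dot_v1] at hd
  unfold E1 at h
  rw [mem_clsE] at h
  obtain ⟨o, ho, s, hs, hwe⟩ := h
  rw [mem_octadFinset] at ho
  have hres : resSet w 2 = o := by rw [hwe, resSet_tw_pat2]
  have e : ∀ i, (i ∈ o → w i = 2 ∨ w i = -2) ∧ (i ∉ o → w i = 0) := by
    intro i
    rw [hwe]
    exact ⟨fun hi => tw_pat_mem 2 s hi, fun hi => tw_pat_not_mem 2 s hi⟩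
  have h4 : pt 4 ∈ o := by
    by_contra h4
    have e4 := (e (pt 4)).2 h4
    by_cases h7 : pt 7 ∈ o
    · have e7 := (e (pt 7)).1 h7
      omega
    · have e7 := (e (pt 7)).2 h7
      omega
  have h7 : pt 7 ∈ o := by
    by_contra h7
    have e7 := (e (pt 7)).2 h7
    have e4 := (e (pt 4)).1 h4
    omega
  obtain ⟨σ, hσ, hσ4, hσ7, hσo⟩ := exists_fix_octad ho OstarAB_mem (p := pt 4) (q := pt 7)
    (by decide) h4 OstarAB_4 ⟨fun _ => OstarAB_7, fun _ => h7⟩
  exact relV_to_odd hw hev OstarAB OstarAB_odd ⟨σ, hσ, hσ4, hσ7, by rw [hres]; exact hσo⟩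

theorem tetS_one : tetS 1 = {pt 4, pt 7, pt 10, pt 12} := by decide +kernel

theorem tsum_one (x : GolayPt → ℤ) : tsum x 1 = x (pt 4) + x (pt 7) + x (pt 10) + x (pt 12) := by
  unfold tsum
  rw [tetS_one, Finset.sum_insert (by decide), Finset.sum_insert (by decide),
    Finset.sum_insert (by decide), Finset.sum_singleton]
  ring

theorem pair_of_mem {p : Finset GolayPt} (hp : p.card = 2) {e : GolayPt} (he : e ∈ p) :
    ∃ c', c' ≠ e ∧ p = {e, c'} := by
  obtain ⟨x, y, hxy, rfl⟩ := Finset.card_eq_two.mp hp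
  rw [Finset.mem_insert, Finset.mem_singleton] at he
  rcases he with rfl | rfl
  · exact ⟨y, hxy.symm, rfl⟩
  · exact ⟨x, hxy, Finset.pair_comm _ _⟩

theorem dot16_E0 {w : GolayPt → ℤ} (hw : w ∈ leechLattice) (hn : sqNorm w = 32)
    (hd : dotInt v1 w = -16) (h : w ∈ E0) :
    ∃ y, RelV w y ∧ (∀ i, y i % 2 = 0) ∧ y ∈ E1 := by
  rw [dot_v1] at hd
  unfold E0 at h
  rw [mem_clsE] at h
  obtain ⟨p, hp, s, hs, hwe⟩ := h
  rw [Finset.mem_powersetCard] at hp
  have e : ∀ i, (i ∈ p → w i = 4 ∨ w i = -4) ∧ (i ∉ p → w i = 0) := by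
    intro i
    rw [hwe]
    exact ⟨fun hi => tw_pat_mem 4 s hi, fun hi => tw_pat_not_mem 4 s hi⟩
  have h4mod : ∀ i, w i % 4 = 0 := by
    intro i
    by_cases hi : i ∈ p
    · rcases (e i).1 hi with h | h <;> rw [h] <;> decide
    · rw [(e i).2 hi]; decide
  -- the support consists of one base point and one other point
  have key : ∃ c', c' ≠ pt 4 ∧ c' ≠ pt 7 ∧ ∀ i, i ≠ pt 4 → i ≠ pt 7 → i ≠ c' → w i = 0 := by
    by_cases h4 : pt 4 ∈ p
    · have h7 : pt 7 ∉ p := by
        intro h7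
        have e4 := (e (pt 4)).1 h4
        have e7 := (e (pt 7)).1 h7
        omega
      obtain ⟨c', hc', hpe⟩ := pair_of_mem hp.2 h4
      refine ⟨c', hc', ?_, ?_⟩
      · rintro rfl
        exact h7 (by rw [hpe]; exact Finset.mem_insert_of_mem (Finset.mem_singleton_self _))
      · intro i hi4 _ hic
        apply (e i).2
        rw [hpe, Finset.mem_insert, Finset.mem_singleton]
        rintro (h | h)
        · exact hi4 h
        · exact hic h
    · have h7 : pt 7 ∈ p := by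
        by_contra h7
        have e4 := (e (pt 4)).2 h4
        have e7 := (e (pt 7)).2 h7
        omega
      obtain ⟨c', hc', hpe⟩ := pair_of_mem hp.2 h7
      refine ⟨c', ?_, hc', ?_⟩
      · rintro rfl
        exact h4 (by rw [hpe]; exact Finset.mem_insert_of_mem (Finset.mem_singleton_self _))
      · intro i _ hi7 hic
        apply (e i).2
        rw [hpe, Finset.mem_insert, Finset.mem_singleton]
        rintro (h | h)
        · exact hi7 h
        · exact hic h
  obtain ⟨c', hc4, hc7, hzero⟩ := key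
  have hsum : w (pt 4) + w (pt 7) = 4 ∨ w (pt 4) + w (pt 7) = -4 := by
    by_cases h4 : pt 4 ∈ p <;> by_cases h7 : pt 7 ∈ p
    · have e4 := (e (pt 4)).1 h4
      have e7 := (e (pt 7)).1 h7
      omega
    · have e4 := (e (pt 4)).1 h4
      have e7 := (e (pt 7)).2 h7
      omega
    · have e4 := (e (pt 4)).2 h4
      have e7 := (e (pt 7)).1 h7
      omega
    · have e4 := (e (pt 4)).2 h4
      have e7 := (e (pt 7)).2 h7
      omega
  obtain ⟨σ, hσ, hmap⟩ := exists_mem_M24_map_list [pt 4, pt 7, pt 0] [pt 4, pt 7, c']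
    (by decide) (by simp [hc4.symm, hc7.symm]; decide) rfl (by norm_num)
  simp only [List.map_cons, List.map_nil, List.cons.injEq, and_true] at hmap
  obtain ⟨hσ4, hσ7, hσ0⟩ := hmap
  have h1 := relV_perm hw hσ hσ4 hσ7
  have hx' := relV_right h1
  have h12 := relV_trans h1 (relV_xi hx')
  have hz_even := xi_even_of_four hx' (fun k => h4mod (σ k))
  have hσne : ∀ j, j ≠ pt 4 → j ≠ pt 7 → j ≠ pt 0 → w (σ j) = 0 := by
    intro j h4 h7 h0
    apply hzero
    · intro h
      exact h4 (σ.injective (h.trans hσ4.symm))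
    · intro h
      exact h7 (σ.injective (h.trans hσ7.symm))
    · intro h
      exact h0 (σ.injective (h.trans hσ0.symm))
  have hts : tsum (fun k => w (σ k)) 1 = w (pt 4) + w (pt 7) := by
    rw [tsum_one]
    show w (σ (pt 4)) + w (σ (pt 7)) + w (σ (pt 10)) + w (σ (pt 12)) = _
    rw [hσ4, hσ7, hσne (pt 10) (by decide) (by decide) (by decide),
      hσne (pt 12) (by decide) (by decide) (by decide)]
    ring
  have hz10 : xiFun (fun k => w (σ k)) (pt 10) % 4 = 2 := by
    have h2 := two_hh (te_of_mem hx') 1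
    rw [hts] at h2
    have ht : tet (pt 10) = 1 := by decide
    have hzz : xiFun (fun k => w (σ k)) (pt 10) =
        1 * (w (σ (pt 10)) - hh (fun k => w (σ k)) 1) := by
      unfold xiFun epsJ
      rw [ht, if_neg (by decide)]
    rw [hzz, hσne (pt 10) (by decide) (by decide) (by decide)]
    rcases hsum with h | h <;> omega
  refine ⟨_, h12, hz_even, ?_⟩
  rcases even32 (relV_right h12) ((relV_norm h12).trans hn) hz_even with hE1 | hE0
  · exact hE1
  · exfalso
    have hres := (E0_props hE0).2.2.2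
    have hmem : pt 10 ∈ resSet (xiFun (fun k => w (σ k))) 2 := by
      rw [mem_resSet, hz10]; rfl
    rw [hres] at hmem
    exact absurd hmem (Finset.notMem_empty _)

theorem dot16_rel {w : GolayPt → ℤ} (hw : w ∈ leechLattice) (hn : sqNorm w = 32)
    (hd : dotInt v1 w = -16) : RelV w rD2 := by
  rcases parity_cases hw with hev | hodd
  · have key : ∃ y, RelV w y ∧ ∀ i, y i % 2 = 1 := by
      rcases even32 hw hn hev with h | h
      · exact dot16_E1 hw hev hd h
      · obtain ⟨y, hwy, hyev, hyE1⟩ := dot16_E0 hw hn hd h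
        obtain ⟨z, hyz, hz⟩ := dot16_E1 (relV_right hwy) hyev ((relV_dot hwy).trans hd) hyE1
        exact ⟨z, relV_trans hwy hyz, hz⟩
    obtain ⟨y, hwy, hyodd⟩ := key
    exact relV_trans hwy (dot16_odd (relV_right hwy) ((relV_norm hwy).trans hn) hyodd
      ((relV_dot hwy).trans hd))
  · exact dot16_odd hw hn hodd hd

/-- Statement S1574. -/
theorem dot16_trans (v w w' : ↥leechLattice) (hv : sqNorm (v : GolayPt → ℤ) = 32)
    (hw : sqNorm (w : GolayPt → ℤ) = 32) (hw' : sqNorm (w' : GolayPt → ℤ) = 32)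
    (hd : dotInt (v : GolayPt → ℤ) (w : GolayPt → ℤ) = -16)
    (hd' : dotInt (v : GolayPt → ℤ) (w' : GolayPt → ℤ) = -16) :
    ∃ g : ↥Co0, g • v = v ∧ g • w = w' := by
  obtain ⟨h, hh⟩ := transitive32 v V1 hv sqNorm_v1
  have r1 : RelV ((h • w : ↥leechLattice) : GolayPt → ℤ) rD2 := by
    apply dot16_rel (h • w).2 (by rw [co0_norm]; exact hw)
    have e := co0_dot h v w
    rw [hh] at e
    exact e.trans hd
  have r2 : RelV ((h • w' : ↥leechLattice) : GolayPt → ℤ) rD2 := by
    apply dot16_rel (h • w').2 (by rw [co0_norm]; exact hw')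
    have e := co0_dot h v w'
    rw [hh] at e
    exact e.trans hd'
  obtain ⟨_, _, m, hm1, hm⟩ := relV_trans r1 (relV_symm r2)
  have hm' : m • (h • w) = h • w' := hm
  refine ⟨h⁻¹ * m * h, ?_, ?_⟩
  · rw [mul_smul, mul_smul, hh, hm1, ← hh, inv_smul_smul]
  · rw [mul_smul, mul_smul, hm', inv_smul_smul]

end Cfsg.Agent.Lib.helper28.XI
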