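import Cfsg.Agent.Lib.helper28.LeechStab

set_option autoImplicit false

namespace Cfsg.Agent.Lib.helper28.XI

open Cfsg
open Cfsg.Agent.Lib.helper28
open Cfsg.Agent.Lib.helper27
open Cfsg.Agent.Lib.helper28.LC
open scoped Pointwise

/-! Minimal vectors with inner product `-8` with a fixed minimal vector. -/

/-- A code word containing the second base point but not the first, meeting the tetrads evenly. -/
def cB : Finset GolayPt := setOf 18147

theorem cB_mem : cB ∈ GC := (setOf_mem_octads (by decide +kernel)).1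

theorem cB_4 : pt 4 ∉ cB := by
  unfold cB
  rw [mem_setOf]
  decide

theorem cB_7 : pt 7 ∈ cB := by
  unfold cB
  rw [mem_setOf]
  decide

theorem Ostar_4 : pt 4 ∈ Ostar := by
  unfold Ostar
  rw [mem_setOf]
  decide

theorem Ostar_7 : pt 7 ∉ Ostar := by
  unfold Ostar
  rw [mem_setOf]
  decide

/-- An octad through the second base point, not the first, meeting every tetrad oddly. -/
def OstarB : Finset GolayPt := setOf 15777

theorem OstarB_mem : OstarB ∈ octads := setOf_mem_octads (by decide +kernel)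

theorem OstarB_odd : ∀ j : Fin 6, (tetS j ∩ OstarB).card % 2 = 1 := by decide +kernel

theorem OstarB_4 : pt 4 ∉ OstarB := by
  unfold OstarB
  rw [mem_setOf]
  decide

theorem OstarB_7 : pt 7 ∈ OstarB := by
  unfold OstarB
  rw [mem_setOf]
  decide

/-- Reference vectors. -/
def rB1 : GolayPt → ℤ := tw cB (pt1 (-3) {pt 4})

def rB2 : GolayPt → ℤ := tw cB (pt1 (-3) {pt 7})

def rC (k : GolayPt) : GolayPt → ℤ := tw Ostar (pt1 (-3) {k})

theorem xi_rB1 : xiFun rB1 (pt 4) = -1 ∧ xiFun rB1 (pt 7) = 1 ∧ ∀ k, xiFun rB1 k % 2 = 1 := by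
  decide +kernel

theorem xi_rB2 : xiFun rB2 (pt 4) = -1 ∧ xiFun rB2 (pt 7) = 1 ∧ ∀ k, xiFun rB2 k % 2 = 1 := by
  decide +kernel

theorem oddC_at {w : GolayPt → ℤ} (hw : w ∈ leechLattice) (hn : sqNorm w = 32)
    (hodd : ∀ i, w i % 2 = 1) (ha : w (pt 4) = -1) (hb : w (pt 7) = 1) (j : GolayPt)
    (hj : w j = 3 ∨ w j = -3) : RelV w (rC j) := by
  obtain ⟨c, hc, k, rfl⟩ := odd32_struct hw hn hodd
  rw [tw_pt1_apply] at ha hb hj
  have hjk : j = k := by
    by_contra hne
    rw [if_neg hne] at hj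
    split_ifs at hj <;> omega
  subst hjk
  have h4 : pt 4 ∈ c := by
    by_contra h4
    rw [if_neg h4] at ha
    split_ifs at ha <;> omega
  have h7 : pt 7 ∉ c := by
    intro h7
    rw [if_pos h7] at hb
    split_ifs at hb <;> omega
  exact relV_resign hc Ostar_mem.1 ⟨fun _ => Ostar_4, fun _ => h4⟩
    ⟨fun h => absurd h h7, fun h => absurd h Ostar_7⟩ hw

theorem oddC {w : GolayPt → ℤ} (hw : w ∈ leechLattice) (hn : sqNorm w = 32)
    (hodd : ∀ i, w i % 2 = 1) (ha : w (pt 4) = -1) (hb : w (pt 7) = 1) : RelV w (rC (pt 0)) := by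
  obtain ⟨c, hc, k, hwe⟩ := odd32_struct hw hn hodd
  have hk : w k = 3 ∨ w k = -3 := by
    rw [hwe, tw_pt1_apply, if_pos rfl]
    split_ifs <;> simp
  have h1 := oddC_at hw hn hodd ha hb k hk
  have hk4 : k ≠ pt 4 := by
    rintro rfl
    rw [ha] at hk
    omega
  have hk7 : k ≠ pt 7 := by
    rintro rfl
    rw [hb] at hk
    omega
  obtain ⟨σ, hσ, hmap⟩ := exists_mem_M24_map_list [pt 4, pt 7, pt 0] [pt 4, pt 7, k]
    (by decide) (by simp [hk4.symm, hk7.symm]; decide) rfl (by norm_num)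
  simp only [List.map_cons, List.map_nil, List.cons.injEq, and_true] at hmap
  obtain ⟨hσ4, hσ7, hσ0⟩ := hmap
  have h2 := relV_perm (relV_right h1) hσ hσ4 hσ7
  have h12 := relV_trans h1 h2
  have h3 : RelV (fun i => rC k (σ i)) (rC (pt 0)) := by
    apply oddC_at (relV_right h12) ((relV_norm h12).trans hn) (fun i => tw_pt1_odd _ _ _)
    · show rC k (σ (pt 4)) = -1
      rw [hσ4]
      unfold rC
      rw [tw_pt1_apply, if_pos Ostar_4, if_neg hk4.symm]
      rfl
    · show rC k (σ (pt 7)) = 1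
      rw [hσ7]
      unfold rC
      rw [tw_pt1_apply, if_neg Ostar_7, if_neg hk7.symm]
      rfl
    · show rC k (σ (pt 0)) = 3 ∨ rC k (σ (pt 0)) = -3
      rw [hσ0]
      unfold rC
      rw [tw_pt1_apply, if_pos rfl]
      split_ifs <;> simp
  exact relV_trans h12 h3

theorem oddB1 {w : GolayPt → ℤ} (hw : w ∈ leechLattice) (hn : sqNorm w = 32)
    (hodd : ∀ i, w i % 2 = 1) (ha : w (pt 4) = -3) (hb : w (pt 7) = -1) : RelV w rB1 := by
  obtain ⟨c, hc, k, rfl⟩ := odd32_struct hw hn hodd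
  rw [tw_pt1_apply] at ha hb
  have hk : pt 4 = k := by
    by_contra hne
    rw [if_neg hne] at ha
    split_ifs at ha <;> omega
  subst hk
  have h4 : pt 4 ∉ c := by
    intro h4
    rw [if_pos h4, if_pos rfl] at ha
    omega
  have h7 : pt 7 ∈ c := by
    by_contra h7
    rw [if_neg h7] at hb
    split_ifs at hb <;> omega
  exact relV_resign hc cB_mem ⟨fun h => absurd h h4, fun h => absurd h cB_4⟩
    ⟨fun _ => cB_7, fun _ => h7⟩ hw

theorem oddB2 {w : GolayPt → ℤ} (hw : w ∈ leechLattice) (hn : sqNorm w = 32)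
    (hodd : ∀ i, w i % 2 = 1) (ha : w (pt 4) = 1) (hb : w (pt 7) = 3) : RelV w rB2 := by
  obtain ⟨c, hc, k, rfl⟩ := odd32_struct hw hn hodd
  rw [tw_pt1_apply] at ha hb
  have hk : pt 7 = k := by
    by_contra hne
    rw [if_neg hne] at hb
    split_ifs at hb <;> omega
  subst hk
  have h7 : pt 7 ∈ c := by
    by_contra h7
    rw [if_neg h7, if_pos rfl] at hb
    omega
  have h4 : pt 4 ∉ c := by
    intro h4
    rw [if_pos h4] at ha
    split_ifs at ha <;> omega
  exact relV_resign hc cB_mem ⟨fun h => absurd h h4, fun h => absurd h cB_4⟩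
    ⟨fun _ => cB_7, fun _ => h7⟩ hw

theorem rB1_rC : RelV rB1 (rC (pt 0)) := by
  have hL : rB1 ∈ leechLattice := tw_pt1_mem cB_mem _
  have h1 := relV_xi hL
  exact relV_trans h1 (oddC (relV_right h1) ((relV_norm h1).trans (tw_pt1_norm _ _))
    xi_rB1.2.2 xi_rB1.1 xi_rB1.2.1)

theorem rB2_rC : RelV rB2 (rC (pt 0)) := by
  have hL : rB2 ∈ leechLattice := tw_pt1_mem cB_mem _
  have h1 := relV_xi hL
  exact relV_trans h1 (oddC (relV_right h1) ((relV_norm h1).trans (tw_pt1_norm _ _))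
    xi_rB2.2.2 xi_rB2.1 xi_rB2.2.1)

theorem dot8_odd {w : GolayPt → ℤ} (hw : w ∈ leechLattice) (hn : sqNorm w = 32)
    (hodd : ∀ i, w i % 2 = 1) (hd : dotInt v1 w = -8) : RelV w (rC (pt 0)) := by
  rw [dot_v1] at hd
  have hvals : ∀ i, w i = 1 ∨ w i = -1 ∨ w i = 3 ∨ w i = -3 := by
    obtain ⟨c, hc, k, rfl⟩ := odd32_struct hw hn hodd
    intro i
    rw [tw_pt1_apply]
    split_ifs <;> simp
  have h4 := hvals (pt 4)
  have h7 := hvals (pt 7)
  have hcases : (w (pt 4) = -3 ∧ w (pt 7) = -1) ∨ (w (pt 4) = -1 ∧ w (pt 7) = 1) ∨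
      (w (pt 4) = 1 ∧ w (pt 7) = 3) := by omega
  rcases hcases with ⟨ha, hb⟩ | ⟨ha, hb⟩ | ⟨ha, hb⟩
  · exact relV_trans (oddB1 hw hn hodd ha hb) rB1_rC
  · exact oddC hw hn hodd ha hb
  · exact relV_trans (oddB2 hw hn hodd ha hb) rB2_rC

theorem dot8_rel {w : GolayPt → ℤ} (hw : w ∈ leechLattice) (hn : sqNorm w = 32)
    (hd : dotInt v1 w = -8) : RelV w (rC (pt 0)) := by
  rcases parity_cases hw with hev | hodd
  · have key : ∃ y, RelV w y ∧ ∀ i, y i % 2 = 1 := by
      have hd' := hd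
      rw [dot_v1] at hd'
      rcases even32 hw hn hev with h | h
      · unfold E1 at h
        rw [mem_clsE] at h
        obtain ⟨o, ho, s, hs, hwe⟩ := h
        rw [mem_octadFinset] at ho
        have hres : resSet w 2 = o := by rw [hwe, resSet_tw_pat2]
        by_cases h4 : pt 4 ∈ o
        · have h7 : pt 7 ∉ o := by
            intro h7
            rw [hwe] at hd'
            rcases tw_pat_mem 2 s h4 with e4 | e4 <;> rcases tw_pat_mem 2 s h7 with e7 | e7 <;>
              rw [e4, e7] at hd' <;> omega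
          obtain ⟨σ, hσ, hσ4, hσ7, hσo⟩ := exists_fix_octad ho Ostar_mem (p := pt 4) (q := pt 7)
            (by decide) h4 Ostar_4 ⟨fun h => absurd h h7, fun h => absurd h Ostar_7⟩
          exact relV_to_odd hw hev Ostar Ostar_odd ⟨σ, hσ, hσ4, hσ7, by rw [hres]; exact hσo⟩
        · have h7 : pt 7 ∈ o := by
            by_contra h7
            rw [hwe, tw_pat_not_mem 2 s h4, tw_pat_not_mem 2 s h7] at hd'
            omega
          obtain ⟨σ, hσ, hσ7, hσ4, hσo⟩ := exists_fix_octad ho OstarB_mem (p := pt 7) (q := pt 4)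
            (by decide) h7 OstarB_7 ⟨fun h => absurd h h4, fun h => absurd h OstarB_4⟩
          exact relV_to_odd hw hev OstarB OstarB_odd ⟨σ, hσ, hσ4, hσ7, by rw [hres]; exact hσo⟩
      · exfalso
        unfold E0 at h
        rw [mem_clsE] at h
        obtain ⟨p, hp, s, hs, hwe⟩ := h
        have e : ∀ i, w i = 0 ∨ w i = 4 ∨ w i = -4 := by
          intro i
          rw [hwe]
          by_cases hi : i ∈ p
          · rcases tw_pat_mem 4 s hi with e | e <;> rw [e] <;> simp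
          · rw [tw_pat_not_mem 4 s hi]; simp
        have e4 := e (pt 4)
        have e7 := e (pt 7)
        omega
    obtain ⟨y, hwy, hyodd⟩ := key
    exact relV_trans hwy (dot8_odd (relV_right hwy) ((relV_norm hwy).trans hn) hyodd
      ((relV_dot hwy).trans hd))
  · exact dot8_odd hw hn hodd hd

/-- Statement S1575. -/
theorem dot8_trans (v w w' : ↥leechLattice) (hv : sqNorm (v : GolayPt → ℤ) = 32)
    (hw : sqNorm (w : GolayPt → ℤ) = 32) (hw' : sqNorm (w' : GolayPt → ℤ) = 32)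
    (hd : dotInt (v : GolayPt → ℤ) (w : GolayPt → ℤ) = -8)
    (hd' : dotInt (v : GolayPt → ℤ) (w' : GolayPt → ℤ) = -8) :
    ∃ g : ↥Co0, g • v = v ∧ g • w = w' := by
  obtain ⟨h, hh⟩ := transitive32 v V1 hv sqNorm_v1
  have r1 : RelV ((h • w : ↥leechLattice) : GolayPt → ℤ) (rC (pt 0)) := by
    apply dot8_rel (h • w).2 (by rw [co0_norm]; exact hw)
    have e := co0_dot h v w
    rw [hh] at e
    exact e.trans hd
  have r2 : RelV ((h • w' : ↥leechLattice) : GolayPt → ℤ) (rC (pt 0)) := by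
    apply dot8_rel (h • w').2 (by rw [co0_norm]; exact hw')
    have e := co0_dot h v w'
    rw [hh] at e
    exact e.trans hd'
  obtain ⟨_, _, m, hm1, hm⟩ := relV_trans r1 (relV_symm r2)
  have hm' : m • (h • w) = h • w' := hm
  refine ⟨h⁻¹ * m * h, ?_, ?_⟩
  · rw [mul_smul, mul_smul, hh, hm1, ← hh, inv_smul_smul]
  · rw [mul_smul, mul_smul, hm', inv_smul_smul]

/-- Statement S1579. -/
theorem co3_trans (u v v' : ↥leechLattice) (hu : sqNorm (u : GolayPt → ℤ) = 48)
    (hv : sqNorm (v : GolayPt → ℤ) = 32 ∧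
      sqNorm ((u : GolayPt → ℤ) - (v : GolayPt → ℤ)) = 32)
    (hv' : sqNorm (v' : GolayPt → ℤ) = 32 ∧
      sqNorm ((u : GolayPt → ℤ) - (v' : GolayPt → ℤ)) = 32) :
    ∃ g : ↥Co0, g • u = u ∧ g • v = v' := by
  have key : ∀ x : ↥leechLattice, sqNorm (x : GolayPt → ℤ) = 32 →
      sqNorm ((u : GolayPt → ℤ) - (x : GolayPt → ℤ)) = 32 →
      dotInt (x : GolayPt → ℤ) ((u - x : ↥leechLattice) : GolayPt → ℤ) = -8 := by
    intro x hx hux
    have e : (u : GolayPt → ℤ) = (x : GolayPt → ℤ) + ((u - x : ↥leechLattice) : GolayPt → ℤ) := by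
      show (u : GolayPt → ℤ) = (x : GolayPt → ℤ) + ((u : GolayPt → ℤ) - (x : GolayPt → ℤ))
      rw [add_sub_cancel]
    have h2 := sqNorm_add (x : GolayPt → ℤ) ((u - x : ↥leechLattice) : GolayPt → ℤ)
    rw [← e, hu, hx] at h2
    have h3 : sqNorm ((u - x : ↥leechLattice) : GolayPt → ℤ) = 32 := hux
    rw [h3] at h2
    omega
  obtain ⟨h, hh⟩ := transitive32 v v' hv.1 hv'.1
  have d1 : dotInt (v' : GolayPt → ℤ) ((h • (u - v) : ↥leechLattice) : GolayPt → ℤ) = -8 := by
    have e := co0_dot h v (u - v)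
    rw [hh] at e
    exact e.trans (key v hv.1 hv.2)
  obtain ⟨m, hm1, hm2⟩ := dot8_trans v' (h • (u - v)) (u - v') hv'.1
    (by rw [co0_norm]; exact hv.2) hv'.2 d1 (key v' hv'.1 hv'.2)
  refine ⟨m * h, ?_, by rw [mul_smul, hh, hm1]⟩
  have e1 : u = v + (u - v) := (add_sub_cancel v u).symm
  have e2 : (m * h) • u = (m * h) • v + (m * h) • (u - v) := by
    conv_lhs => rw [e1]
    rw [co0_add]
  rw [e2, mul_smul, mul_smul, hh, hm1, hm2, add_sub_cancel]

end Cfsg.Agent.Lib.helper28.XI
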