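import Cfsg.Agent.Lib.helper28.LeechTwo

set_option autoImplicit false

namespace Cfsg.Agent.Lib.helper28.XI

open Cfsg
open Cfsg.Agent.Lib.helper28
open Cfsg.Agent.Lib.helper27
open Cfsg.Agent.Lib.helper28.LC
open scoped Pointwise

/-! The Higman–Sims configuration: the minimal vectors `x` with `t0 · x = 24` and `r1 · x = 0`. -/

theorem HS_cases {x : GolayPt → ℤ} (hx : x ∈ leechLattice) (hn : sqNorm x = 32)
    (hd : dotInt t0 x = 24) (hr : dotInt r1 x = 0) :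
    (x none = 4 ∧ x = x0) ∨
    (x none = 2 ∧ ∃ o ∈ octads, none ∈ o ∧ pt 0 ∈ o ∧ x = pat 2 o) ∨
    (x none = 1 ∧ ∃ k, k ≠ none ∧ k ≠ pt 0 ∧ x = pt1 (-3) {k}) := by
  rw [dot_t0] at hd
  rw [dot_r1] at hr
  obtain ⟨i, rfl⟩ := Fdec_surj hx hn hd
  have hk := (Fdec_props i).2.2.2
  rcases i with a | o | k | o
  · left
    have hk' : Fdec (Sum.inl a) none = 4 := hk
    refine ⟨hk', ?_⟩
    rw [hk'] at hr
    have h0 : pat 4 {none, a.1} (pt 0) = 4 := by
      have : Fdec (Sum.inl a) (pt 0) = 4 := by omega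
      exact this
    have hm : pt 0 ∈ ({none, a.1} : Finset GolayPt) := by
      by_contra hm
      unfold pat at h0
      rw [if_neg hm] at h0
      norm_num at h0
    rw [Finset.mem_insert, Finset.mem_singleton] at hm
    rcases hm with hm | hm
    · exact absurd hm (by decide)
    · show pat 4 {none, a.1} = x0
      rw [← hm]
      rfl
  · right; left
    have hk' : Fdec (Sum.inr (Sum.inl o)) none = 2 := hk
    have ho := (mem_octI o.1).mp o.2
    refine ⟨hk', o.1, ho.1, ho.2, ?_, rfl⟩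
    rw [hk'] at hr
    have h0 : pat 2 o.1 (pt 0) = 2 := by
      have : Fdec (Sum.inr (Sum.inl o)) (pt 0) = 2 := by omega
      exact this
    by_contra hm
    unfold pat at h0
    rw [if_neg hm] at h0
    norm_num at h0
  · right; right
    have hk' : Fdec (Sum.inr (Sum.inr (Sum.inl k))) none = 1 := hk
    refine ⟨hk', k.1, k.2, ?_, rfl⟩
    rw [hk'] at hr
    have h0 : pt1 (-3) {k.1} (pt 0) = 1 := by
      have : Fdec (Sum.inr (Sum.inr (Sum.inl k))) (pt 0) = 1 := by omega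
      exact this
    intro hk0
    unfold pt1 at h0
    rw [if_pos (by rw [Finset.mem_singleton, hk0])] at h0
    norm_num at h0
  · exfalso
    have hk' : Fdec (Sum.inr (Sum.inr (Sum.inr o))) none = 3 := hk
    rw [hk'] at hr
    have h0 : tw o.1 (pt1 (-3) {none}) (pt 0) = 3 := by
      have : Fdec (Sum.inr (Sum.inr (Sum.inr o))) (pt 0) = 3 := by omega
      exact this
    rw [tw_pt1_apply, if_neg (by decide : (pt 0 : GolayPt) ≠ none)] at h0
    split_ifs at h0 <;> omega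

def tblH : List ℕ :=
  [23, 2, 3, 1, 21, 14, 13, 11, 22, 12, 16, 19, 10, 4, 5, 20, 8, 17, 18, 7, 6, 15, 9, 0]

theorem tblH_good : tabGood tblH = true := by decide +kernel
theorem tblH_ok : tabOK tblH = true := by decide +kernel

def sgH : Equiv.Perm GolayPt := tabPerm tblH tblH_good

theorem sgH_mem : sgH ∈ M24 := tabPerm_mem_M24 _ _ tblH_ok

theorem mixH_t0 : mixFun sgH ∅ t0 = t0 := by
  funext k
  revert k
  decide +kernel

theorem mixH_r1 : mixFun sgH ∅ r1 = r1 := by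
  funext k
  revert k
  decide +kernel

theorem mixH_x0 : mixFun sgH ∅ x0 none = 2 := by decide +kernel

theorem mixH_c : mixFun sgH ∅ (pt1 (-3) {pt 4}) none = 2 := by decide +kernel

theorem x0_dot : dotInt t0 x0 = 24 := by
  rw [dot_t0]
  exact x0_props.2.2.1

theorem x0_r1 : dotInt r1 x0 = 0 := by decide +kernel

theorem pB_props {o : Finset GolayPt} (ho : o ∈ octads) (hno : none ∈ o) :
    pat 2 o ∈ leechLattice ∧ sqNorm (pat 2 o) = 32 ∧ dotInt t0 (pat 2 o) = 24 ∧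
      pat 2 o none = 2 := by
  obtain ⟨h1, h2, h3, h4⟩ := Fdec_props (Sum.inr (Sum.inl ⟨o, (mem_octI o).mpr ⟨ho, hno⟩⟩))
  exact ⟨h1, h2, by rw [dot_t0]; exact h3, h4⟩

theorem pC_props {k : GolayPt} (hk : k ≠ none) :
    pt1 (-3) {k} ∈ leechLattice ∧ sqNorm (pt1 (-3) {k}) = 32 ∧ dotInt t0 (pt1 (-3) {k}) = 24 ∧
      pt1 (-3) {k} none = 1 := by
  obtain ⟨h1, h2, h3, h4⟩ := Fdec_props (Sum.inr (Sum.inr (Sum.inl ⟨k, hk⟩)))
  exact ⟨h1, h2, by rw [dot_t0]; exact h3, h4⟩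

theorem pB_r1 {o : Finset GolayPt} (hno : none ∈ o) (h0 : pt 0 ∈ o) : dotInt r1 (pat 2 o) = 0 := by
  rw [dot_r1]
  unfold pat
  rw [if_pos hno, if_pos h0]
  norm_num

theorem pC_r1 {k : GolayPt} (hk : k ≠ none) (hk0 : k ≠ pt 0) : dotInt r1 (pt1 (-3) {k}) = 0 := by
  rw [dot_r1]
  unfold pt1
  rw [if_neg (by rw [Finset.mem_singleton]; exact hk.symm),
    if_neg (by rw [Finset.mem_singleton]; exact hk0.symm)]
  norm_num

theorem hs_main2 {x : GolayPt → ℤ} (hx : x ∈ leechLattice) (hn : sqNorm x = 32)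
    (hd : dotInt t0 x = 24) (hr : dotInt r1 x = 0) (hv : x none = 2) :
    RelL [R1] x (pat 2 oI) := by
  rcases HS_cases hx hn hd hr with ⟨h, -⟩ | ⟨-, o, ho, hno, h0, rfl⟩ | ⟨h, -⟩
  · omega
  · exact famB_rel inv22_R1 ho hno h0 hx
  · omega

theorem hs_fuseA : RelL [R1] x0 (pat 2 oI) := by
  have h1 := relL_mix (L := [R1]) x0_props.1 empty_mem_supports sgH_mem mixH_t0 (by
    intro b hb
    rw [List.mem_singleton] at hb
    subst hb
    exact mixH_r1)
  exact relL_trans h1 (hs_main2 (relL_right h1) ((relL_norm h1).trans x0_props.2.1)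
    ((relL_dot0 h1).trans x0_dot)
    ((relL_dotB h1 (b := R1) (List.mem_singleton_self _)).trans x0_r1) mixH_x0)

theorem hs_fuseC : RelL [R1] (pt1 (-3) {pt 4}) (pat 2 oI) := by
  have hp := pC_props (k := pt 4) (by decide)
  have h1 := relL_mix (L := [R1]) hp.1 empty_mem_supports sgH_mem mixH_t0 (by
    intro b hb
    rw [List.mem_singleton] at hb
    subst hb
    exact mixH_r1)
  exact relL_trans h1 (hs_main2 (relL_right h1) ((relL_norm h1).trans hp.2.1)
    ((relL_dot0 h1).trans hp.2.2.1)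
    ((relL_dotB h1 (b := R1) (List.mem_singleton_self _)).trans
      (pC_r1 (by decide) (by decide))) mixH_c)

theorem rel_HS {x : GolayPt → ℤ} (hx : x ∈ leechLattice) (hn : sqNorm x = 32)
    (hd : dotInt t0 x = 24) (hr : dotInt r1 x = 0) : RelL [R1] x (pat 2 oI) := by
  rcases HS_cases hx hn hd hr with ⟨-, rfl⟩ | ⟨h, -⟩ | ⟨-, k, hk, hk0, rfl⟩
  · exact hs_fuseA
  · exact hs_main2 hx hn hd hr h
  · exact relL_trans (famC_rel inv22_R1 hk hk0 (by decide) (by decide) hx) hs_fuseC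

theorem r1_dot' : dotInt t0 r1 = -16 := r1_dot

/-- A vector of norm 48 and a minimal vector with inner product `-16` can be moved to the
reference pair. -/
theorem hs_frame (v m : ↥leechLattice) (hv : sqNorm (v : GolayPt → ℤ) = 48)
    (hm : sqNorm (m : GolayPt → ℤ) = 32)
    (hvm : dotInt (v : GolayPt → ℤ) (m : GolayPt → ℤ) = -16) :
    ∃ k : ↥Co0, k • v = T0 ∧ k • m = R1 := by
  obtain ⟨h, hh⟩ := transitive48 v T0 hv sqNorm_t0
  obtain ⟨g, hg1, hg2⟩ := co3_dot16_trans T0 (h • m) R1 sqNorm_t0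
    (by rw [co0_norm]; exact hm) r1_mem.2
    (by have e := co0_dot h v m; rw [hh] at e; exact e.trans hvm) r1_dot
  exact ⟨g * h, by rw [mul_smul, hh, hg1], by rw [mul_smul, hg2]⟩

theorem hs_trans (v m x x' : ↥leechLattice) (hv : sqNorm (v : GolayPt → ℤ) = 48)
    (hm : sqNorm (m : GolayPt → ℤ) = 32)
    (hvm : dotInt (v : GolayPt → ℤ) (m : GolayPt → ℤ) = -16)
    (hx : sqNorm (x : GolayPt → ℤ) = 32 ∧ dotInt (v : GolayPt → ℤ) (x : GolayPt → ℤ) = 24 ∧
      dotInt (m : GolayPt → ℤ) (x : GolayPt → ℤ) = 0)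
    (hx' : sqNorm (x' : GolayPt → ℤ) = 32 ∧ dotInt (v : GolayPt → ℤ) (x' : GolayPt → ℤ) = 24 ∧
      dotInt (m : GolayPt → ℤ) (x' : GolayPt → ℤ) = 0) :
    ∃ g : ↥Co0, g • v = v ∧ g • m = m ∧ g • x = x' := by
  obtain ⟨k, hk1, hk2⟩ := hs_frame v m hv hm hvm
  have q : ∀ y : ↥leechLattice, (sqNorm (y : GolayPt → ℤ) = 32 ∧
      dotInt (v : GolayPt → ℤ) (y : GolayPt → ℤ) = 24 ∧
      dotInt (m : GolayPt → ℤ) (y : GolayPt → ℤ) = 0) →
      RelL [R1] ((k • y : ↥leechLattice) : GolayPt → ℤ) (pat 2 oI) := by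
    intro y hy
    apply rel_HS (k • y).2 (by rw [co0_norm]; exact hy.1)
    · have e := co0_dot k v y
      rw [hk1] at e
      exact e.trans hy.2.1
    · have e := co0_dot k m y
      rw [hk2] at e
      exact e.trans hy.2.2
  obtain ⟨_, _, n, hn1, hn2, hn⟩ := relL_trans (q x hx) (relL_symm (q x' hx'))
  have hn' : n • (k • x) = k • x' := hn
  have hn2' := hn2 R1 (List.mem_singleton_self _)
  refine ⟨k⁻¹ * n * k, ?_, ?_, ?_⟩
  · rw [mul_smul, mul_smul, hk1, hn1, ← hk1, inv_smul_smul]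
  · rw [mul_smul, mul_smul, hk2, hn2', ← hk2, inv_smul_smul]
  · rw [mul_smul, mul_smul, hn', inv_smul_smul]

/-! ### The count -/

/-- The 100 vectors of the configuration for the reference pair. -/
noncomputable def XH : Finset (GolayPt → ℤ) :=
  S32.filter (fun w => dotInt t0 w = 24 ∧ dotInt r1 w = 0)

theorem mem_XH (x : GolayPt → ℤ) :
    x ∈ XH ↔ x ∈ leechLattice ∧ sqNorm x = 32 ∧ dotInt t0 x = 24 ∧ dotInt r1 x = 0 := by
  unfold XH
  rw [Finset.mem_filter, mem_S32, and_assoc]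

noncomputable def KHB : Finset (GolayPt → ℤ) := octI0.image (fun o => pat 2 o)

noncomputable def KHC : Finset (GolayPt → ℤ) := pts22.image (fun k => pt1 (-3) {k})

theorem card_KHB : KHB.card = 77 := by
  unfold KHB
  rw [Finset.card_image_of_injOn, card_octI0]
  intro o _ o' _ h
  exact pat_inj (v := 2) (by norm_num) h

theorem card_KHC : KHC.card = 22 := by
  unfold KHC
  rw [Finset.card_image_of_injOn, card_pts22]
  intro k _ k' _ h
  exact pt1_inj h

theorem x0_mem_XH : x0 ∈ XH :=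
  (mem_XH x0).mpr ⟨x0_props.1, x0_props.2.1, x0_dot, x0_r1⟩

theorem hfibA : XH.filter (fun x => x none = 4) = {x0} := by
  ext x
  rw [Finset.mem_filter, mem_XH, Finset.mem_singleton]
  constructor
  · rintro ⟨⟨hx, hn, hd, hr⟩, hv⟩
    rcases HS_cases hx hn hd hr with ⟨-, h⟩ | ⟨h, -⟩ | ⟨h, -⟩
    · exact h
    · omega
    · omega
  · rintro rfl
    exact ⟨⟨x0_props.1, x0_props.2.1, x0_dot, x0_r1⟩, x0_props.2.2.2⟩

theorem hfibB : XH.filter (fun x => x none = 2) = KHB := by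
  ext x
  unfold KHB
  rw [Finset.mem_filter, mem_XH, Finset.mem_image]
  constructor
  · rintro ⟨⟨hx, hn, hd, hr⟩, hv⟩
    rcases HS_cases hx hn hd hr with ⟨h, -⟩ | ⟨-, o, ho, hno, h0, rfl⟩ | ⟨h, -⟩
    · omega
    · exact ⟨o, (mem_octI0 o).mpr ⟨ho, hno, h0⟩, rfl⟩
    · omega
  · rintro ⟨o, ho, rfl⟩
    rw [mem_octI0] at ho
    obtain ⟨h1, h2, h3, h4⟩ := pB_props ho.1 ho.2.1
    exact ⟨⟨h1, h2, h3, pB_r1 ho.2.1 ho.2.2⟩, h4⟩

theorem hfibC : XH.filter (fun x => x none = 1) = KHC := by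
  ext x
  unfold KHC
  rw [Finset.mem_filter, mem_XH, Finset.mem_image]
  constructor
  · rintro ⟨⟨hx, hn, hd, hr⟩, hv⟩
    rcases HS_cases hx hn hd hr with ⟨h, -⟩ | ⟨h, -⟩ | ⟨-, k, hk, hk0, rfl⟩
    · omega
    · omega
    · exact ⟨k, (mem_pts22 k).mpr ⟨hk, hk0⟩, rfl⟩
  · rintro ⟨k, hk, rfl⟩
    rw [mem_pts22] at hk
    obtain ⟨h1, h2, h3, h4⟩ := pC_props hk.1
    exact ⟨⟨h1, h2, h3, pC_r1 hk.1 hk.2⟩, h4⟩

theorem XH_vals {x : GolayPt → ℤ} (hx : x ∈ XH) : x none = 4 ∨ x none = 2 ∨ x none = 1 := by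
  rw [mem_XH] at hx
  rcases HS_cases hx.1 hx.2.1 hx.2.2.1 hx.2.2.2 with ⟨h, -⟩ | ⟨h, -⟩ | ⟨h, -⟩
  · exact Or.inl h
  · exact Or.inr (Or.inl h)
  · exact Or.inr (Or.inr h)

theorem card_XH : XH.card = 100 := by
  rw [card_fib3 XH 4 2 1 (by decide) (by decide) (by decide) (fun x hx => XH_vals hx), hfibA,
    hfibB, hfibC, Finset.card_singleton, card_KHB, card_KHC]

theorem XH_mem_lattice : ∀ y ∈ XH, y ∈ leechLattice := fun y hy => ((mem_XH y).mp hy).1

/-- For a vector of the configuration, the inner product with `x0` is eight times the value at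
`none`. -/
theorem XH_dot_x0 {x : GolayPt → ℤ} (hx : x ∈ XH) : dotInt x0 x = 8 * x none := by
  rw [mem_XH] at hx
  have hr := hx.2.2.2
  rw [dot_r1] at hr
  rw [dot_x0]
  omega

theorem XH_eq_x0_iff {x : GolayPt → ℤ} (hx : x ∈ XH) : x = x0 ↔ x none = 4 := by
  constructor
  · rintro rfl
    exact x0_props.2.2.2
  · intro hv
    have : x ∈ XH.filter (fun x => x none = 4) := Finset.mem_filter.mpr ⟨hx, hv⟩
    rw [hfibA, Finset.mem_singleton] at this
    exact this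

/-! ### Statements in general position -/

theorem neg_sum_props (a b : ↥leechLattice) (ha : sqNorm (a : GolayPt → ℤ) = 48)
    (hb : sqNorm (b : GolayPt → ℤ) = 48)
    (hab : dotInt (a : GolayPt → ℤ) (b : GolayPt → ℤ) = -32) :
    sqNorm ((-(a + b) : ↥leechLattice) : GolayPt → ℤ) = 32 ∧
      dotInt (a : GolayPt → ℤ) ((-(a + b) : ↥leechLattice) : GolayPt → ℤ) = -16 := by
  constructor
  · show sqNorm (-((a : GolayPt → ℤ) + (b : GolayPt → ℤ))) = 32
    rw [sqNorm_neg, sqNorm_add, ha, hb, hab]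
    norm_num
  · show dotInt (a : GolayPt → ℤ) (-((a : GolayPt → ℤ) + (b : GolayPt → ℤ))) = -16
    rw [dotInt_neg_right, dot_add_right, dot_self, ha, hab]
    norm_num

theorem dot_neg_sum' (v w x : ↥leechLattice) :
    dotInt ((-(v + w) : ↥leechLattice) : GolayPt → ℤ) (x : GolayPt → ℤ) =
      -(dotInt (v : GolayPt → ℤ) (x : GolayPt → ℤ) + dotInt (w : GolayPt → ℤ) (x : GolayPt → ℤ)) :=
  dot_neg_sum _ _ _

/-- An automorphism fixing `v` and `-(v + w)` fixes `w`. -/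
theorem fix_of_fix (g : ↥Co0) (v w : ↥leechLattice) (h1 : g • v = v)
    (h2 : g • (-(v + w)) = -(v + w)) : g • w = w := by
  have e : w = -(-(v + w)) - v := by abel
  rw [e, co0_sub, SC.smul_neg', h2, h1]

theorem hs_key (v w : ↥leechLattice) (k : ↥Co0) (hk1 : k • v = T0)
    (hk2 : k • (-(v + w)) = R1) (x : ↥leechLattice) :
    (sqNorm (x : GolayPt → ℤ) = 32 ∧ dotInt (v : GolayPt → ℤ) (x : GolayPt → ℤ) = 24 ∧
      dotInt (w : GolayPt → ℤ) (x : GolayPt → ℤ) = -24) ↔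
      ((k • x : ↥leechLattice) : GolayPt → ℤ) ∈ XH := by
  rw [mem_XH]
  have e1 := co0_dot k v x
  rw [hk1] at e1
  have e2 := co0_dot k (-(v + w)) x
  rw [hk2, dot_neg_sum'] at e2
  have e3 := co0_norm k x
  have e1' : dotInt t0 ((k • x : ↥leechLattice) : GolayPt → ℤ) =
    dotInt (v : GolayPt → ℤ) (x : GolayPt → ℤ) := e1
  have e2' : dotInt r1 ((k • x : ↥leechLattice) : GolayPt → ℤ) =
    -(dotInt (v : GolayPt → ℤ) (x : GolayPt → ℤ) +
      dotInt (w : GolayPt → ℤ) (x : GolayPt → ℤ)) := e2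
  rw [e1', e2', e3]
  constructor
  · rintro ⟨h1, h2, h3⟩
    exact ⟨(k • x).2, h1, h2, by omega⟩
  · rintro ⟨-, h1, h2, h3⟩
    exact ⟨h1, h2, by omega⟩

/-- Statement S1583. -/
theorem hs_100 (v w : ↥leechLattice) (hv : sqNorm (v : GolayPt → ℤ) = 48)
    (hw : sqNorm (w : GolayPt → ℤ) = 48)
    (hvw : dotInt (v : GolayPt → ℤ) (w : GolayPt → ℤ) = -32) :
    {x : ↥leechLattice | sqNorm (x : GolayPt → ℤ) = 32 ∧
      dotInt (v : GolayPt → ℤ) (x : GolayPt → ℤ) = 24 ∧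
      dotInt (w : GolayPt → ℤ) (x : GolayPt → ℤ) = -24}.ncard = 100 ∧
    ∀ x ∈ {x : ↥leechLattice | sqNorm (x : GolayPt → ℤ) = 32 ∧
      dotInt (v : GolayPt → ℤ) (x : GolayPt → ℤ) = 24 ∧
      dotInt (w : GolayPt → ℤ) (x : GolayPt → ℤ) = -24},
    ∀ x' ∈ {x : ↥leechLattice | sqNorm (x : GolayPt → ℤ) = 32 ∧
      dotInt (v : GolayPt → ℤ) (x : GolayPt → ℤ) = 24 ∧
      dotInt (w : GolayPt → ℤ) (x : GolayPt → ℤ) = -24},
    ∃ g : ↥Co0, g • v = v ∧ g • w = w ∧ g • x = x' := by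
  obtain ⟨hm, hvm⟩ := neg_sum_props v w hv hw hvw
  have conv : ∀ x : ↥leechLattice, (sqNorm (x : GolayPt → ℤ) = 32 ∧
      dotInt (v : GolayPt → ℤ) (x : GolayPt → ℤ) = 24 ∧
      dotInt (w : GolayPt → ℤ) (x : GolayPt → ℤ) = -24) →
      (sqNorm (x : GolayPt → ℤ) = 32 ∧ dotInt (v : GolayPt → ℤ) (x : GolayPt → ℤ) = 24 ∧
      dotInt ((-(v + w) : ↥leechLattice) : GolayPt → ℤ) (x : GolayPt → ℤ) = 0) := by
    rintro x ⟨h1, h2, h3⟩
    refine ⟨h1, h2, ?_⟩
    rw [dot_neg_sum', h2, h3]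
    norm_num
  constructor
  · obtain ⟨k, hk1, hk2⟩ := hs_frame v (-(v + w)) hv hm hvm
    have key : ∀ x : ↥leechLattice, x ∈ {x : ↥leechLattice | sqNorm (x : GolayPt → ℤ) = 32 ∧
        dotInt (v : GolayPt → ℤ) (x : GolayPt → ℤ) = 24 ∧
        dotInt (w : GolayPt → ℤ) (x : GolayPt → ℤ) = -24} ↔
        ((k • x : ↥leechLattice) : GolayPt → ℤ) ∈ XH := by
      intro x
      rw [Set.mem_ofPred_eq]
      exact hs_key v w k hk1 hk2 x
    exact (ncard_smul_val k _ XH XH_mem_lattice key).trans card_XH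
  · intro x hx x' hx'
    obtain ⟨g, hg1, hg2, hg3⟩ := hs_trans v (-(v + w)) x x' hv hm hvm (conv x hx) (conv x' hx')
    exact ⟨g, hg1, fix_of_fix g v w hg1 hg2, hg3⟩

/-! ### Rank 3 -/

theorem KHB_mem_lattice : ∀ y ∈ KHB, y ∈ leechLattice := by
  intro y hy
  rw [← hfibB, Finset.mem_filter] at hy
  exact XH_mem_lattice y hy.1

theorem KHC_mem_lattice : ∀ y ∈ KHC, y ∈ leechLattice := by
  intro y hy
  rw [← hfibC, Finset.mem_filter] at hy
  exact XH_mem_lattice y hy.1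

theorem hs3_rel {z z' : GolayPt → ℤ} (hz : z ∈ XH) (hz' : z' ∈ XH) (hne : z ≠ x0)
    (hne' : z' ≠ x0) (hiff : z none = 1 ↔ z' none = 1) : RelL [R1, X0] z z' := by
  have h4 : z none ≠ 4 := fun h => hne ((XH_eq_x0_iff hz).mpr h)
  have h4' : z' none ≠ 4 := fun h => hne' ((XH_eq_x0_iff hz').mpr h)
  rw [mem_XH] at hz hz'
  rcases HS_cases hz.1 hz.2.1 hz.2.2.1 hz.2.2.2 with ⟨h, -⟩ | ⟨h, o, ho, hno, h0, rfl⟩ |
    ⟨h, k, hk, hk0, rfl⟩
  · exact absurd h h4
  · rcases HS_cases hz'.1 hz'.2.1 hz'.2.2.1 hz'.2.2.2 with ⟨h', -⟩ |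
      ⟨h', o', ho', hno', h0', rfl⟩ | ⟨h', k', hk', hk0', rfl⟩
    · exact absurd h' h4'
    · exact relL_trans (famB_rel inv22_RX ho hno h0 hz.1)
        (relL_symm (famB_rel inv22_RX ho' hno' h0' hz'.1))
    · exfalso
      have := hiff.mpr h'
      omega
  · rcases HS_cases hz'.1 hz'.2.1 hz'.2.2.1 hz'.2.2.2 with ⟨h', -⟩ |
      ⟨h', o', ho', hno', h0', rfl⟩ | ⟨h', k', hk', hk0', rfl⟩
    · exact absurd h' h4'
    · exfalso
      have := hiff.mp h
      omega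
    · exact famC_rel inv22_RX hk hk0 hk' hk0' hz.1

/-- Statement S1584. -/
theorem hs_rank3 (v w x : ↥leechLattice) (hv : sqNorm (v : GolayPt → ℤ) = 48)
    (hw : sqNorm (w : GolayPt → ℤ) = 48)
    (hvw : dotInt (v : GolayPt → ℤ) (w : GolayPt → ℤ) = -32)
    (hx : x ∈ {x : ↥leechLattice | sqNorm (x : GolayPt → ℤ) = 32 ∧
      dotInt (v : GolayPt → ℤ) (x : GolayPt → ℤ) = 24 ∧
      dotInt (w : GolayPt → ℤ) (x : GolayPt → ℤ) = -24}) :
    {y : ↥leechLattice | y ∈ {x : ↥leechLattice | sqNorm (x : GolayPt → ℤ) = 32 ∧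
      dotInt (v : GolayPt → ℤ) (x : GolayPt → ℤ) = 24 ∧
      dotInt (w : GolayPt → ℤ) (x : GolayPt → ℤ) = -24} ∧
      dotInt (x : GolayPt → ℤ) (y : GolayPt → ℤ) = 8}.ncard = 22 ∧
    {y : ↥leechLattice | y ∈ {x : ↥leechLattice | sqNorm (x : GolayPt → ℤ) = 32 ∧
      dotInt (v : GolayPt → ℤ) (x : GolayPt → ℤ) = 24 ∧
      dotInt (w : GolayPt → ℤ) (x : GolayPt → ℤ) = -24} ∧ y ≠ x ∧
      dotInt (x : GolayPt → ℤ) (y : GolayPt → ℤ) ≠ 8}.ncard = 77 ∧
    ∀ y ∈ {x : ↥leechLattice | sqNorm (x : GolayPt → ℤ) = 32 ∧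
      dotInt (v : GolayPt → ℤ) (x : GolayPt → ℤ) = 24 ∧
      dotInt (w : GolayPt → ℤ) (x : GolayPt → ℤ) = -24},
    ∀ y' ∈ {x : ↥leechLattice | sqNorm (x : GolayPt → ℤ) = 32 ∧
      dotInt (v : GolayPt → ℤ) (x : GolayPt → ℤ) = 24 ∧
      dotInt (w : GolayPt → ℤ) (x : GolayPt → ℤ) = -24},
    y ≠ x → y' ≠ x → (dotInt (x : GolayPt → ℤ) (y : GolayPt → ℤ) = 8 ↔
      dotInt (x : GolayPt → ℤ) (y' : GolayPt → ℤ) = 8) →
    ∃ g : ↥Co0, g • v = v ∧ g • w = w ∧ g • x = x ∧ g • y = y' := by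
  obtain ⟨hm, hvm⟩ := neg_sum_props v w hv hw hvw
  obtain ⟨k0, hk01, hk02⟩ := hs_frame v (-(v + w)) hv hm hvm
  have hx0 := (hs_key v w k0 hk01 hk02 x).mp hx
  have hx0' := (mem_XH _).mp hx0
  have r := rel_HS hx0'.1 hx0'.2.1 hx0'.2.2.1 hx0'.2.2.2
  obtain ⟨_, _, n, hn1, hn2, hn⟩ := relL_trans r (relL_symm hs_fuseA)
  have hn' : n • (k0 • x) = X0 := hn
  have hk1 : (n * k0) • v = T0 := by rw [mul_smul, hk01, hn1]
  have hk2 : (n * k0) • (-(v + w)) = R1 := by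
    rw [mul_smul, hk02, hn2 R1 (List.mem_singleton_self _)]
  have hk3 : (n * k0) • x = X0 := by rw [mul_smul, hn']
  generalize n * k0 = k at hk1 hk2 hk3
  have key := hs_key v w k hk1 hk2
  have dkey : ∀ y : ↥leechLattice, dotInt (x : GolayPt → ℤ) (y : GolayPt → ℤ) =
      dotInt x0 ((k • y : ↥leechLattice) : GolayPt → ℤ) := by
    intro y
    have e := co0_dot k x y
    rw [hk3] at e
    exact e.symm
  have hneq : ∀ y : ↥leechLattice, ((k • y : ↥leechLattice) : GolayPt → ℤ) = x0 → y = x := by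
    intro y e
    exact MulAction.injective k ((Subtype.ext e : k • y = X0).trans hk3.symm)
  refine ⟨?_, ?_, ?_⟩
  · have h22 : ∀ y : ↥leechLattice, y ∈ {y : ↥leechLattice |
        y ∈ {x : ↥leechLattice | sqNorm (x : GolayPt → ℤ) = 32 ∧
        dotInt (v : GolayPt → ℤ) (x : GolayPt → ℤ) = 24 ∧
        dotInt (w : GolayPt → ℤ) (x : GolayPt → ℤ) = -24} ∧
        dotInt (x : GolayPt → ℤ) (y : GolayPt → ℤ) = 8} ↔
        ((k • y : ↥leechLattice) : GolayPt → ℤ) ∈ KHC := by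
      intro y
      rw [Set.mem_ofPred_eq, ← hfibC, Finset.mem_filter, dkey y]
      constructor
      · rintro ⟨h1, h2⟩
        have hm := (key y).mp h1
        have := XH_dot_x0 hm
        exact ⟨hm, by omega⟩
      · rintro ⟨hm, h2⟩
        have := XH_dot_x0 hm
        exact ⟨(key y).mpr hm, by omega⟩
    exact (ncard_smul_val k _ KHC KHC_mem_lattice h22).trans card_KHC
  · have h77 : ∀ y : ↥leechLattice, y ∈ {y : ↥leechLattice |
        y ∈ {x : ↥leechLattice | sqNorm (x : GolayPt → ℤ) = 32 ∧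
        dotInt (v : GolayPt → ℤ) (x : GolayPt → ℤ) = 24 ∧
        dotInt (w : GolayPt → ℤ) (x : GolayPt → ℤ) = -24} ∧ y ≠ x ∧
        dotInt (x : GolayPt → ℤ) (y : GolayPt → ℤ) ≠ 8} ↔
        ((k • y : ↥leechLattice) : GolayPt → ℤ) ∈ KHB := by
      intro y
      rw [Set.mem_ofPred_eq, ← hfibB, Finset.mem_filter, dkey y]
      constructor
      · rintro ⟨h1, h2, h3⟩
        have hm := (key y).mp h1
        have hd := XH_dot_x0 hm
        have h4 : ((k • y : ↥leechLattice) : GolayPt → ℤ) none ≠ 4 :=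
          fun h => h2 (hneq y ((XH_eq_x0_iff hm).mpr h))
        rcases XH_vals hm with h | h | h
        · exact absurd h h4
        · exact ⟨hm, h⟩
        · exfalso
          apply h3
          rw [hd, h]
          norm_num
      · rintro ⟨hm, h2⟩
        have hd := XH_dot_x0 hm
        refine ⟨(key y).mpr hm, ?_, ?_⟩
        · rintro rfl
          rw [hk3] at h2
          have : x0 none = 2 := h2
          rw [x0_props.2.2.2] at this
          norm_num at this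
        · rw [hd, h2]
          norm_num
    exact (ncard_smul_val k _ KHB KHB_mem_lattice h77).trans card_KHB
  · intro y hy y' hy' hyx hyx' hiff
    have hz := (key y).mp hy
    have hz' := (key y').mp hy'
    have hne : ((k • y : ↥leechLattice) : GolayPt → ℤ) ≠ x0 := fun e => hyx (hneq y e)
    have hne' : ((k • y' : ↥leechLattice) : GolayPt → ℤ) ≠ x0 := fun e => hyx' (hneq y' e)
    have hiff' : ((k • y : ↥leechLattice) : GolayPt → ℤ) none = 1 ↔
        ((k • y' : ↥leechLattice) : GolayPt → ℤ) none = 1 := by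
      have a := XH_dot_x0 hz
      have b := XH_dot_x0 hz'
      rw [dkey y, dkey y'] at hiff
      constructor
      · intro h
        have := hiff.mp (by omega)
        omega
      · intro h
        have := hiff.mpr (by omega)
        omega
    obtain ⟨_, _, n2, hm1, hm2, hmm⟩ := hs3_rel hz hz' hne hne' hiff'
    have hmm' : n2 • (k • y) = k • y' := hmm
    have hmR := hm2 R1 (by simp)
    have hmX := hm2 X0 (by simp)
    have gv : (k⁻¹ * n2 * k) • v = v := by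
      rw [mul_smul, mul_smul, hk1, hm1, ← hk1, inv_smul_smul]
    have gm : (k⁻¹ * n2 * k) • (-(v + w)) = -(v + w) := by
      rw [mul_smul, mul_smul, hk2, hmR, ← hk2, inv_smul_smul]
    refine ⟨k⁻¹ * n2 * k, gv, fix_of_fix _ v w gv gm, ?_, ?_⟩
    · rw [mul_smul, mul_smul, hk3, hmX, ← hk3, inv_smul_smul]
    · rw [mul_smul, mul_smul, hmm', inv_smul_smul]

end Cfsg.Agent.Lib.helper28.XI
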