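import Cfsg.Agent.Lib.helper28.LeechHS

set_option autoImplicit false

namespace Cfsg.Agent.Lib.helper28.XI

open Cfsg
open Cfsg.Agent.Lib.helper28
open Cfsg.Agent.Lib.helper27
open Cfsg.Agent.Lib.helper28.LC
open scoped Pointwise

/-! A fixed-point-free involution of the Higman–Sims configuration: the sign change on a dodecad
in a frame where the norm 48 vector is `2` on the complementary dodecad. -/

/-- If `a` is `2` off `c` and `x` is a lattice vector vanishing on the nonempty set `c`, then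
`a · x` is divisible by 16. -/
theorem dot_mod16 (c : Finset GolayPt) (k : GolayPt) (hk : k ∈ c) (a x : GolayPt → ℤ)
    (ha : ∀ i, i ∉ c → a i = 2) (hx : x ∈ leechLattice) (h0 : ∀ i, i ∈ c → x i = 0) :
    dotInt a x % 16 = 0 := by
  have hev : ∀ i, x i % 2 = 0 := by
    rcases parity_cases hx with h | h
    · exact h
    · have := h k
      rw [h0 k hk] at this
      norm_num at this
  have h8 := (even_data hx hev).1
  have e : dotInt a x = 2 * ∑ i, x i := by
    unfold dotInt
    rw [Finset.mul_sum]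
    apply Finset.sum_congr rfl
    intro i _
    by_cases hi : i ∈ c
    · rw [h0 i hi]; ring
    · rw [ha i hi]
  rw [e]
  omega

/-- The complementary dodecad. -/
def dC : Finset GolayPt := (setOf d0)ᶜ

theorem dC_mem : dC ∈ GC := (compl_mem_dodecads setOf_d0_mem_dodecads).1

/-- The frame vector of norm 48. -/
def aD : GolayPt → ℤ := pat 2 (setOf d0)

/-- The frame vector of norm 32. -/
def bD : GolayPt → ℤ := pat (-4) {pt 0, pt 1}

theorem aD_props : aD ∈ leechLattice ∧ sqNorm aD = 48 := by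
  have h : aD ∈ E2 := by
    unfold E2
    rw [mem_clsE]
    refine ⟨setOf d0, (mem_dodecadFinset _).mpr setOf_d0_mem_dodecads, ∅, ?_, ?_⟩
    · rw [mem_par]
      exact ⟨Finset.empty_subset _, rfl⟩
    · rw [tw_empty]
      rfl
  exact ⟨(E2_props h).1, (E2_props h).2.1⟩

theorem bD_props : bD ∈ leechLattice ∧ sqNorm bD = 32 := by
  have h : bD ∈ E0 := by
    unfold E0
    rw [mem_clsE]
    refine ⟨{pt 0, pt 1}, ?_, {pt 0, pt 1}, Finset.mem_powerset.mpr (Finset.Subset.refl _), ?_⟩
    · rw [Finset.mem_powersetCard]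
      exact ⟨Finset.subset_univ _, by decide⟩
    · funext j
      unfold bD tw pat
      split_ifs <;> norm_num
  exact ⟨(E0_props h).1, (E0_props h).2.1⟩

theorem aD_bD : dotInt aD bD = -16 := by decide +kernel

def AD : ↥leechLattice := ⟨aD, aD_props.1⟩
def BD : ↥leechLattice := ⟨bD, bD_props.1⟩

/-- The sign change on the complementary dodecad. -/
def gD : ↥Co0 := ⟨signPerm dC dC_mem, signPerm_mem dC dC_mem⟩

theorem gD_apply (x : ↥leechLattice) (i : GolayPt) :
    ((gD • x : ↥leechLattice) : GolayPt → ℤ) i = if i ∈ dC then -(x : GolayPt → ℤ) i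
      else (x : GolayPt → ℤ) i := rfl

theorem gD_fix (x : ↥leechLattice) (h : ∀ i, i ∈ dC → (x : GolayPt → ℤ) i = 0) : gD • x = x := by
  apply Subtype.ext
  funext i
  rw [gD_apply]
  split_ifs with hi
  · rw [h i hi]; rfl
  · rfl

theorem gD_AD : gD • AD = AD := by
  apply gD_fix
  intro i hi
  show pat 2 (setOf d0) i = 0
  unfold pat
  rw [if_neg (Finset.mem_compl.mp hi)]

theorem gD_BD : gD • BD = BD := by
  apply gD_fix
  intro i hi
  have hi' : i ∉ setOf d0 := Finset.mem_compl.mp hi
  show pat (-4) {pt 0, pt 1} i = 0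
  unfold pat
  rw [if_neg]
  intro h
  rw [Finset.mem_insert, Finset.mem_singleton] at h
  rcases h with rfl | rfl
  · exact hi' (by rw [mem_setOf]; decide)
  · exact hi' (by rw [mem_setOf]; decide)

theorem gD_sq : gD * gD = 1 := by
  apply Subtype.ext
  apply Equiv.ext
  intro x
  apply Subtype.ext
  funext i
  show ((gD • (gD • x) : ↥leechLattice) : GolayPt → ℤ) i = (x : GolayPt → ℤ) i
  rw [gD_apply, gD_apply]
  split_ifs <;> simp

theorem none_mem_dC : none ∈ dC := Finset.mem_compl.mpr none_not_mem_d0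

theorem gD_ne : gD ≠ 1 := by
  intro h
  have e : gD • T0 = T0 := by rw [h, one_smul]
  have e2 := congrFun (congrArg Subtype.val e) none
  rw [gD_apply, if_pos none_mem_dC] at e2
  revert e2
  show ¬ (-(t0 none) = t0 none)
  decide +kernel

theorem gD_nofix (x : ↥leechLattice) (hx : dotInt aD (x : GolayPt → ℤ) = 24) : gD • x ≠ x := by
  intro h
  have h0 : ∀ i, i ∈ dC → (x : GolayPt → ℤ) i = 0 := by
    intro i hi
    have e := congrFun (congrArg Subtype.val h) i
    rw [gD_apply, if_pos hi] at e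
    omega
  have := dot_mod16 dC none none_mem_dC aD x (fun i hi => by
    show pat 2 (setOf d0) i = 2
    unfold pat
    rw [if_pos]
    by_contra hc
    exact hi (Finset.mem_compl.mpr hc)) x.2 h0
  omega

/-- Statement S1642. -/
theorem hs_fpf (v w : ↥leechLattice) (hv : sqNorm (v : GolayPt → ℤ) = 48)
    (hw : sqNorm (w : GolayPt → ℤ) = 48)
    (hvw : dotInt (v : GolayPt → ℤ) (w : GolayPt → ℤ) = -32) :
    ∃ g : ↥Co0, g • v = v ∧ g • w = w ∧ orderOf g = 2 ∧
      ∀ x ∈ {x : ↥leechLattice | sqNorm (x : GolayPt → ℤ) = 32 ∧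
        dotInt (v : GolayPt → ℤ) (x : GolayPt → ℤ) = 24 ∧
        dotInt (w : GolayPt → ℤ) (x : GolayPt → ℤ) = -24}, g • x ≠ x := by
  obtain ⟨hm, hvm⟩ := neg_sum_props v w hv hw hvw
  obtain ⟨k1, hk1, hk1'⟩ := hs_frame v (-(v + w)) hv hm hvm
  obtain ⟨k2, hk2, hk2'⟩ := hs_frame AD BD aD_props.2 bD_props.2 aD_bD
  have hkv : (k2⁻¹ * k1) • v = AD := by
    rw [mul_smul, hk1, ← hk2, inv_smul_smul]
  have hkm : (k2⁻¹ * k1) • (-(v + w)) = BD := by
    rw [mul_smul, hk1', ← hk2', inv_smul_smul]
  generalize k2⁻¹ * k1 = k at hkv hkm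
  have g1 : (k⁻¹ * gD * k) • v = v := by
    rw [mul_smul, mul_smul, hkv, gD_AD, ← hkv, inv_smul_smul]
  have g2 : (k⁻¹ * gD * k) • (-(v + w)) = -(v + w) := by
    rw [mul_smul, mul_smul, hkm, gD_BD, ← hkm, inv_smul_smul]
  refine ⟨k⁻¹ * gD * k, g1, fix_of_fix _ v w g1 g2, ?_, ?_⟩
  · apply orderOf_eq_prime
    · rw [pow_two]
      have : k⁻¹ * gD * k * (k⁻¹ * gD * k) = k⁻¹ * (gD * gD) * k := by group
      rw [this, gD_sq]
      group
    · intro h
      apply gD_ne
      have : gD = k * (k⁻¹ * gD * k) * k⁻¹ := by group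
      rw [this, h]
      group
  · intro x hx hfix
    rw [Set.mem_ofPred_eq] at hx
    apply gD_nofix (k • x)
    · have e := co0_dot k v x
      rw [hkv] at e
      exact e.trans hx.2.1
    · have e := congrArg (fun y => k • y) hfix
      simp only [mul_smul, smul_inv_smul] at e
      exact e

end Cfsg.Agent.Lib.helper28.XI
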