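import Cfsg.Agent.Lib.helper28.LeechQuad
import Cfsg.Agent.Lib.helper28.StdCross
import Cfsg.Agent.S1567

set_option autoImplicit false

namespace Cfsg.Agent.Lib.helper28.XI

open Cfsg
open Cfsg.Agent.Lib.helper28
open Cfsg.Agent.Lib.helper27
open Cfsg.Agent.Lib.helper28.LC
open scoped Pointwise

/-! The lattice modulo twice the lattice is a faithful irreducible module. -/

theorem eq_zero_of_neg_eq {x : ↥leechLattice} (h : -x = x) : x = 0 := by
  apply Subtype.ext
  funext i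
  have h1 := congrFun (congrArg Subtype.val h) i
  have h2 : ((-x : ↥leechLattice) : GolayPt → ℤ) i = -((x : GolayPt → ℤ) i) := rfl
  rw [h2] at h1
  show (x : GolayPt → ℤ) i = 0
  omega

theorem ne_zero_of_norm {x : ↥leechLattice} {n : ℤ} (hn : sqNorm (x : GolayPt → ℤ) = n)
    (h0 : n ≠ 0) : x ≠ 0 := by
  rintro rfl
  have : sqNorm ((0 : ↥leechLattice) : GolayPt → ℤ) = 0 := sqNorm_zero
  rw [this] at hn
  exact h0 hn.symm

/-- Additive maps of the lattice agreeing on the minimal vectors are equal. -/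
theorem hom_ext_min (f₁ f₂ : ↥leechLattice →+ ↥leechLattice)
    (h : ∀ v : ↥leechLattice, sqNorm (v : GolayPt → ℤ) = 32 → f₁ v = f₂ v) (v : ↥leechLattice) :
    f₁ v = f₂ v := by
  have hv : (v : GolayPt → ℤ) ∈ AddSubgroup.closure
      {x : GolayPt → ℤ | x ∈ leechLattice ∧ sqNorm x = 32} := by
    rw [Cfsg.Agent.S1567.result]
    exact v.2
  have key : ∀ x (_ : x ∈ AddSubgroup.closure
      {x : GolayPt → ℤ | x ∈ leechLattice ∧ sqNorm x = 32}),
      ∀ hx : x ∈ leechLattice, f₁ ⟨x, hx⟩ = f₂ ⟨x, hx⟩ := by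
    intro x hx
    induction hx using AddSubgroup.closure_induction with
    | mem x hx =>
      intro hx'
      exact h ⟨x, hx'⟩ hx.2
    | zero =>
      intro hx'
      have : (⟨0, hx'⟩ : ↥leechLattice) = 0 := rfl
      rw [this, map_zero, map_zero]
    | add x y hx hy ihx ihy =>
      intro hxy
      have hxL : x ∈ leechLattice := by rw [← Cfsg.Agent.S1567.result]; exact hx
      have hyL : y ∈ leechLattice := by rw [← Cfsg.Agent.S1567.result]; exact hy
      have : (⟨x + y, hxy⟩ : ↥leechLattice) = ⟨x, hxL⟩ + ⟨y, hyL⟩ := rfl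
      rw [this, map_add, map_add, ihx hxL, ihy hyL]
    | neg x hx ihx =>
      intro hnx
      have hxL : x ∈ leechLattice := by rw [← Cfsg.Agent.S1567.result]; exact hx
      have : (⟨-x, hnx⟩ : ↥leechLattice) = -⟨x, hxL⟩ := rfl
      rw [this, map_neg, map_neg, ihx hxL]
  exact key v.1 hv v.2

/-- Standard vectors for the orthogonal case. -/
def mV : GolayPt → ℤ := tw ∅ (pat 4 {none, pt 0})

def mW : GolayPt → ℤ := tw {pt 0} (pat 4 {none, pt 0})

def mX : GolayPt → ℤ := tw ∅ (pat 4 {none, pt 1})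

theorem mV_mem : mV ∈ leechLattice := pat4_pair_mem (by decide) _ (by decide)
theorem mW_mem : mW ∈ leechLattice := pat4_pair_mem (by decide) _ (by decide)
theorem mX_mem : mX ∈ leechLattice := pat4_pair_mem (by decide) _ (by decide)

theorem mV_norm : sqNorm mV = 32 := by decide +kernel
theorem mW_norm : sqNorm mW = 32 := by decide +kernel
theorem mX_norm : sqNorm mX = 32 := by decide +kernel
theorem mVW : dotInt mV mW = 0 := by decide +kernel
theorem mVX : dotInt mV mX = 16 := by decide +kernel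
theorem mWX : dotInt mW mX = 16 := by decide +kernel

theorem exists_mid (v w : ↥leechLattice) (hv : sqNorm (v : GolayPt → ℤ) = 32)
    (hw : sqNorm (w : GolayPt → ℤ) = 32)
    (hd : dotInt (v : GolayPt → ℤ) (w : GolayPt → ℤ) = 0) :
    ∃ x : ↥leechLattice, sqNorm (x : GolayPt → ℤ) = 32 ∧
      dotInt (v : GolayPt → ℤ) (x : GolayPt → ℤ) = 16 ∧
      dotInt (w : GolayPt → ℤ) (x : GolayPt → ℤ) = 16 := by
  obtain ⟨h, hh⟩ := transitive32 ⟨mV, mV_mem⟩ v mV_norm hv
  have hd' : dotInt mV ((h⁻¹ • w : ↥leechLattice) : GolayPt → ℤ) = 0 := by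
    have e := co0_dot h ⟨mV, mV_mem⟩ (h⁻¹ • w)
    rw [hh, smul_inv_smul] at e
    rw [← e]
    exact hd
  obtain ⟨m, hm1, hm2⟩ := ortho_trans ⟨mV, mV_mem⟩ ⟨mW, mW_mem⟩ (h⁻¹ • w) mV_norm mW_norm
    (by rw [co0_norm]; exact hw) mVW hd'
  have e1 : (h * m) • (⟨mV, mV_mem⟩ : ↥leechLattice) = v := by rw [mul_smul, hm1, hh]
  have e2 : (h * m) • (⟨mW, mW_mem⟩ : ↥leechLattice) = w := by
    rw [mul_smul, hm2, smul_inv_smul]
  refine ⟨(h * m) • ⟨mX, mX_mem⟩, by rw [co0_norm]; exact mX_norm, ?_, ?_⟩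
  · have e := co0_dot (h * m) ⟨mV, mV_mem⟩ ⟨mX, mX_mem⟩
    rw [e1] at e
    rw [e]
    exact mVX
  · have e := co0_dot (h * m) ⟨mW, mW_mem⟩ ⟨mX, mX_mem⟩
    rw [e2] at e
    rw [e]
    exact mWX

section

variable (g : ↥Co0)
  (hg : ∀ v : ↥leechLattice, ∃ w : ↥leechLattice,
    ((g • v : ↥leechLattice) : GolayPt → ℤ) - (v : GolayPt → ℤ) = 2 • (w : GolayPt → ℤ))

include hg

theorem triv_pm (v : ↥leechLattice)
    (hv : sqNorm (v : GolayPt → ℤ) = 32 ∨ sqNorm (v : GolayPt → ℤ) = 48) :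
    g • v = v ∨ g • v = -v := by
  obtain ⟨w, hw⟩ := hg v
  have hr : rho ((g • v : ↥leechLattice) : GolayPt → ℤ) = rho (v : GolayPt → ℤ) :=
    (rho_eq_iff (g • v).2 v.2).mpr ⟨w.1, w.2, hw⟩
  rcases congr_cases (g • v).2 v.2 (by rw [co0_norm]; omega) (by omega) hr with h | h | ⟨h, -, -⟩
  · exact Or.inl (Subtype.ext h)
  · exact Or.inr (Subtype.ext h)
  · rw [co0_norm] at h
    omega

theorem triv_fwd (v w : ↥leechLattice) (hv : sqNorm (v : GolayPt → ℤ) = 32)
    (hw : sqNorm (w : GolayPt → ℤ) = 32)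
    (hs : sqNorm ((v + w : ↥leechLattice) : GolayPt → ℤ) = 32 ∨
      sqNorm ((v + w : ↥leechLattice) : GolayPt → ℤ) = 48)
    (h1 : g • v = v) : g • w = w := by
  rcases triv_pm g hg w (Or.inl hw) with h2 | h2
  · exact h2
  · exfalso
    have h3 : g • (v + w) = v + -w := by rw [co0_add, h1, h2]
    rcases triv_pm g hg (v + w) hs with h4 | h4
    · rw [h3] at h4
      exact ne_zero_of_norm hw (by norm_num) (eq_zero_of_neg_eq (add_left_cancel h4))
    · rw [h3, neg_add] at h4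
      exact ne_zero_of_norm hv (by norm_num) (eq_zero_of_neg_eq (add_right_cancel h4).symm)

theorem triv_iff_sum (v w : ↥leechLattice) (hv : sqNorm (v : GolayPt → ℤ) = 32)
    (hw : sqNorm (w : GolayPt → ℤ) = 32)
    (hs : sqNorm ((v + w : ↥leechLattice) : GolayPt → ℤ) = 32 ∨
      sqNorm ((v + w : ↥leechLattice) : GolayPt → ℤ) = 48) :
    g • v = v ↔ g • w = w :=
  ⟨triv_fwd g hg v w hv hw hs, triv_fwd g hg w v hw hv (by rw [add_comm]; exact hs)⟩

theorem triv_neg_iff (w : ↥leechLattice) : g • (-w) = -w ↔ g • w = w := by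
  rw [SC.smul_neg', neg_inj]

theorem triv_iff_dot (v w : ↥leechLattice) (hv : sqNorm (v : GolayPt → ℤ) = 32)
    (hw : sqNorm (w : GolayPt → ℤ) = 32)
    (hd : dotInt (v : GolayPt → ℤ) (w : GolayPt → ℤ) = -16 ∨
      dotInt (v : GolayPt → ℤ) (w : GolayPt → ℤ) = -8 ∨
      dotInt (v : GolayPt → ℤ) (w : GolayPt → ℤ) = 16 ∨
      dotInt (v : GolayPt → ℤ) (w : GolayPt → ℤ) = 8) :
    g • v = v ↔ g • w = w := by
  have hsum : ∀ w' : ↥leechLattice, sqNorm (w' : GolayPt → ℤ) = 32 →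
      (dotInt (v : GolayPt → ℤ) (w' : GolayPt → ℤ) = -16 ∨
        dotInt (v : GolayPt → ℤ) (w' : GolayPt → ℤ) = -8) → (g • v = v ↔ g • w' = w') := by
    intro w' hw' hd'
    apply triv_iff_sum g hg v w' hv hw'
    have e : sqNorm ((v + w' : ↥leechLattice) : GolayPt → ℤ) =
        sqNorm (v : GolayPt → ℤ) + sqNorm (w' : GolayPt → ℤ) +
          2 * dotInt (v : GolayPt → ℤ) (w' : GolayPt → ℤ) := sqNorm_add _ _
    rw [e, hv, hw']
    omega
  rcases hd with h | h | h | h
  · exact hsum w hw (Or.inl h)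
  · exact hsum w hw (Or.inr h)
  · have hn : sqNorm ((-w : ↥leechLattice) : GolayPt → ℤ) = 32 := by
      show sqNorm (-(w : GolayPt → ℤ)) = 32
      rw [sqNorm_neg]; exact hw
    have hd' : dotInt (v : GolayPt → ℤ) ((-w : ↥leechLattice) : GolayPt → ℤ) = -16 := by
      show dotInt (v : GolayPt → ℤ) (-(w : GolayPt → ℤ)) = -16
      rw [dotInt_neg_right, h]
    exact (hsum (-w) hn (Or.inl hd')).trans (triv_neg_iff g hg w)
  · have hn : sqNorm ((-w : ↥leechLattice) : GolayPt → ℤ) = 32 := by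
      show sqNorm (-(w : GolayPt → ℤ)) = 32
      rw [sqNorm_neg]; exact hw
    have hd' : dotInt (v : GolayPt → ℤ) ((-w : ↥leechLattice) : GolayPt → ℤ) = -8 := by
      show dotInt (v : GolayPt → ℤ) (-(w : GolayPt → ℤ)) = -8
      rw [dotInt_neg_right, h]
    exact (hsum (-w) hn (Or.inr hd')).trans (triv_neg_iff g hg w)

theorem triv_iff (v w : ↥leechLattice) (hv : sqNorm (v : GolayPt → ℤ) = 32)
    (hw : sqNorm (w : GolayPt → ℤ) = 32) : g • v = v ↔ g • w = w := by
  have hvS : (v : GolayPt → ℤ) ∈ S32 := (mem_S32 _).mpr ⟨v.2, hv⟩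
  have hwS : (w : GolayPt → ℤ) ∈ S32 := (mem_S32 _).mpr ⟨w.2, hw⟩
  rcases dot_vals hvS hwS with h | h | h | h | h | h | h
  · have : w = v := Subtype.ext h.2
    rw [this]
  · have : w = -v := Subtype.ext h.2
    rw [this]
    exact (triv_neg_iff g hg v).symm
  · exact triv_iff_dot g hg v w hv hw (Or.inr (Or.inr (Or.inl h)))
  · exact triv_iff_dot g hg v w hv hw (Or.inr (Or.inr (Or.inr h)))
  · obtain ⟨x, hx, h1, h2⟩ := exists_mid v w hv hw h
    exact (triv_iff_dot g hg v x hv hx (Or.inr (Or.inr (Or.inl h1)))).trans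
      (triv_iff_dot g hg w x hw hx (Or.inr (Or.inr (Or.inl h2)))).symm
  · exact triv_iff_dot g hg v w hv hw (Or.inr (Or.inl h))
  · exact triv_iff_dot g hg v w hv hw (Or.inl h)

/-- First half of statement S5392. -/
theorem triv_center : g ∈ Subgroup.center ↥Co0 := by
  rw [Subgroup.mem_center_iff]
  intro h
  have hext : ∀ a b : ↥Co0, (∀ v : ↥leechLattice, a • v = b • v) → a = b := by
    intro a b hab
    apply Subtype.ext
    apply Equiv.ext
    intro v
    exact hab v
  by_cases h0 : g • (⟨mV, mV_mem⟩ : ↥leechLattice) = ⟨mV, mV_mem⟩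
  · have hall : ∀ v : ↥leechLattice, g • v = v := by
      intro v
      have := hom_ext_min (toAddHom g.1 g.2) (AddMonoidHom.id _) (fun w hw =>
        (triv_iff g hg ⟨mV, mV_mem⟩ w mV_norm hw).mp h0) v
      exact this
    apply hext
    intro v
    rw [mul_smul, mul_smul, hall, hall]
  · have hall : ∀ v : ↥leechLattice, g • v = -v := by
      intro v
      have := hom_ext_min (toAddHom g.1 g.2) (-AddMonoidHom.id _) (fun w hw => by
        rcases triv_pm g hg w (Or.inl hw) with h1 | h1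
        · exact absurd ((triv_iff g hg ⟨mV, mV_mem⟩ w mV_norm hw).mpr h1) h0
        · exact h1) v
      exact this
    apply hext
    intro v
    rw [mul_smul, mul_smul, hall, hall, SC.smul_neg']

end

/-! ### Irreducibility -/

def iT1 : GolayPt → ℤ := tw ∅ (pt1 5 {none})

def iT2 : GolayPt → ℤ := tw ∅ (pt1 5 {pt 0})

theorem iT1_mem : iT1 ∈ leechLattice :=
  mem_of_odd empty_mem_supports (pt1_mod (v := 5) (by decide) _)
    (by rw [sum_pt1, Finset.card_singleton]; decide)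

theorem iT2_mem : iT2 ∈ leechLattice :=
  mem_of_odd empty_mem_supports (pt1_mod (v := 5) (by decide) _)
    (by rw [sum_pt1, Finset.card_singleton]; decide)

theorem iT1_norm : sqNorm iT1 = 48 := by decide +kernel
theorem iT2_norm : sqNorm iT2 = 48 := by decide +kernel
theorem iT12_norm : sqNorm (iT1 - iT2) = 32 := by decide +kernel

def iF1 : GolayPt → ℤ := tw ∅ (pat 4 {pt 0, pt 1, pt 2, pt 3})

def iF2 : GolayPt → ℤ := tw ∅ (pat 4 {pt 0, pt 1, pt 2, pt 4})

theorem iF1_mem : iF1 ∈ leechLattice := by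
  have hE : iF1 ∈ E44 := by
    unfold E44
    rw [mem_clsE]
    exact ⟨{pt 0, pt 1, pt 2, pt 3}, Finset.mem_powersetCard.mpr ⟨Finset.subset_univ _, by decide⟩,
      ∅, Finset.empty_mem_powerset _, rfl⟩
  exact (E44_props hE).1

theorem iF2_mem : iF2 ∈ leechLattice := by
  have hE : iF2 ∈ E44 := by
    unfold E44
    rw [mem_clsE]
    exact ⟨{pt 0, pt 1, pt 2, pt 4}, Finset.mem_powersetCard.mpr ⟨Finset.subset_univ _, by decide⟩,
      ∅, Finset.empty_mem_powerset _, rfl⟩
  exact (E44_props hE).1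

theorem iF1_norm : sqNorm iF1 = 64 := by decide +kernel
theorem iF2_norm : sqNorm iF2 = 64 := by decide +kernel
theorem iF12_norm : sqNorm (iF1 - iF2) = 32 := by decide +kernel

/-- Second half of statement S5392. -/
theorem irreducible (M : AddSubgroup (GolayPt → ℤ))
    (h2 : ∀ v ∈ leechLattice, (2 : ℤ) • v ∈ M) (hM : M ≤ leechLattice)
    (hinv : ∀ g : ↥Co0, ∀ v : ↥leechLattice, (v : GolayPt → ℤ) ∈ M →
      ((g • v : ↥leechLattice) : GolayPt → ℤ) ∈ M) :
    (∀ x ∈ M, ∃ w ∈ leechLattice, x = (2 : ℤ) • w) ∨ M = leechLattice := by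
  by_cases hall : ∀ x ∈ M, ∃ w ∈ leechLattice, x = (2 : ℤ) • w
  · exact Or.inl hall
  · right
    push Not at hall
    obtain ⟨x, hxM, hx⟩ := hall
    obtain ⟨y, hy, hyn, z, hz, hxy⟩ := mod_two_representatives x (hM hxM)
    have hz2 : (2 : ℤ) • z = 2 • z := by
      funext i
      simp
    have hyM : y ∈ M := by
      have e : y = x - (2 : ℤ) • z := by
        rw [hz2, ← hxy]
        abel
      rw [e]
      exact M.sub_mem hxM (h2 z hz)
    have hy0 : y ≠ 0 := by
      rintro rfl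
      apply hx z hz
      rw [hz2, ← hxy, sub_zero]
    -- transport along the transitive actions
    have spread : ∀ (n : ℤ), (∀ v w : ↥leechLattice, sqNorm (v : GolayPt → ℤ) = n →
        sqNorm (w : GolayPt → ℤ) = n → ∃ g : ↥Co0, g • v = w) →
        ∀ a : GolayPt → ℤ, a ∈ M → sqNorm a = n →
        ∀ b : GolayPt → ℤ, b ∈ leechLattice → sqNorm b = n → b ∈ M := by
      intro n tr a haM han b hb hbn
      obtain ⟨g, hg⟩ := tr ⟨a, hM haM⟩ ⟨b, hb⟩ han hbn
      have := hinv g ⟨a, hM haM⟩ haM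
      rw [hg] at this
      exact this
    -- a minimal vector in M
    have hmin : ∃ a : GolayPt → ℤ, a ∈ M ∧ sqNorm a = 32 := by
      have h32 := leechLattice_le_sqNorm hy hy0
      obtain ⟨c, hc⟩ := leechLattice_sixteen_dvd hy
      have hcases : sqNorm y = 32 ∨ sqNorm y = 48 ∨ sqNorm y = 64 := by omega
      rcases hcases with h | h | h
      · exact ⟨y, hyM, h⟩
      · have s := spread 48 transitive48 y hyM h
        exact ⟨iT1 - iT2, M.sub_mem (s iT1 iT1_mem iT1_norm) (s iT2 iT2_mem iT2_norm),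
          iT12_norm⟩
      · have s := spread 64 transitive64 y hyM h
        exact ⟨iF1 - iF2, M.sub_mem (s iF1 iF1_mem iF1_norm) (s iF2 iF2_mem iF2_norm),
          iF12_norm⟩
    obtain ⟨a, haM, han⟩ := hmin
    apply le_antisymm hM
    rw [← Cfsg.Agent.S1567.result, AddSubgroup.closure_le]
    intro b hb
    exact spread 32 transitive32 a haM han b hb.1 hb.2

end Cfsg.Agent.Lib.helper28.XI
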