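import Cfsg.Agent.Lib.helper28.LeechHS

set_option autoImplicit false

namespace Cfsg.Agent.Lib.helper28.XI

open Cfsg
open Cfsg.Agent.Lib.helper28
open Cfsg.Agent.Lib.helper27
open Cfsg.Agent.Lib.helper28.LC
open scoped Pointwise

/-! The McLaughlin configuration: the minimal vectors `x` with `t0 · x = 24` and `x0 · x = 16`. -/

theorem McL_cases {x : GolayPt → ℤ} (hx : x ∈ leechLattice) (hn : sqNorm x = 32)
    (hd : dotInt t0 x = 24) (hr : dotInt x0 x = 16) :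
    (x none = 4 ∧ ∃ a, a ≠ none ∧ a ≠ pt 0 ∧ x = pat 4 {none, a}) ∨
    (x none = 2 ∧ ∃ o ∈ octads, none ∈ o ∧ pt 0 ∈ o ∧ x = pat 2 o) ∨
    (x none = 3 ∧ ∃ o ∈ octads, none ∈ o ∧ pt 0 ∉ o ∧ x = tw o (pt1 (-3) {none})) := by
  rw [dot_t0] at hd
  rw [dot_x0] at hr
  obtain ⟨i, rfl⟩ := Fdec_surj hx hn hd
  have hk := (Fdec_props i).2.2.2
  rcases i with a | o | k | o
  · left
    have hk' : Fdec (Sum.inl a) none = 4 := hk
    refine ⟨hk', a.1, a.2, ?_, rfl⟩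
    rw [hk'] at hr
    have h0 : pat 4 {none, a.1} (pt 0) = 0 := by
      have : Fdec (Sum.inl a) (pt 0) = 0 := by omega
      exact this
    intro ha0
    unfold pat at h0
    rw [if_pos (by rw [ha0]; simp)] at h0
    norm_num at h0
  · right; left
    have hk' : Fdec (Sum.inr (Sum.inl o)) none = 2 := hk
    have ho := (mem_octI o.1).mp o.2
    refine ⟨hk', o.1, ho.1, ho.2, ?_, rfl⟩
    rw [hk'] at hr
    have h0 : pat 2 o.1 (pt 0) = 2 := by
      have : Fdec (Sum.inr (Sum.inl o)) (pt 0) = 2 := by omega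
      exact this
    by_contra hm
    unfold pat at h0
    rw [if_neg hm] at h0
    norm_num at h0
  · exfalso
    have hk' : Fdec (Sum.inr (Sum.inr (Sum.inl k))) none = 1 := hk
    rw [hk'] at hr
    have h0 : pt1 (-3) {k.1} (pt 0) = 3 := by
      have : Fdec (Sum.inr (Sum.inr (Sum.inl k))) (pt 0) = 3 := by omega
      exact this
    unfold pt1 at h0
    split_ifs at h0 <;> omega
  · right; right
    have hk' : Fdec (Sum.inr (Sum.inr (Sum.inr o))) none = 3 := hk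
    have ho := (mem_octI o.1).mp o.2
    refine ⟨hk', o.1, ho.1, ho.2, ?_, rfl⟩
    rw [hk'] at hr
    have h0 : tw o.1 (pt1 (-3) {none}) (pt 0) = 1 := by
      have : Fdec (Sum.inr (Sum.inr (Sum.inr o))) (pt 0) = 1 := by omega
      exact this
    rw [tw_pt1_apply, if_neg (by decide : (pt 0 : GolayPt) ≠ none)] at h0
    intro hm
    rw [if_pos hm] at h0
    norm_num at h0

def tblMA : List ℕ :=
  [0, 23, 2, 3, 22, 14, 7, 19, 9, 11, 18, 15, 10, 16, 5, 8, 4, 17, 20, 21, 12, 6, 13, 1]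

def tblMD : List ℕ :=
  [0, 23, 1, 3, 6, 5, 15, 10, 11, 22, 13, 12, 8, 7, 14, 4, 19, 17, 18, 20, 16, 9, 21, 2]

theorem tblMA_good : tabGood tblMA = true := by decide +kernel
theorem tblMA_ok : tabOK tblMA = true := by decide +kernel
theorem tblMD_good : tabGood tblMD = true := by decide +kernel
theorem tblMD_ok : tabOK tblMD = true := by decide +kernel

def sgMA : Equiv.Perm GolayPt := tabPerm tblMA tblMA_good
def sgMD : Equiv.Perm GolayPt := tabPerm tblMD tblMD_good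

theorem sgMA_mem : sgMA ∈ M24 := tabPerm_mem_M24 _ _ tblMA_ok
theorem sgMD_mem : sgMD ∈ M24 := tabPerm_mem_M24 _ _ tblMD_ok

theorem mixMA_t0 : mixFun sgMA ∅ t0 = t0 := by
  funext k
  revert k
  decide +kernel

theorem mixMA_x0 : mixFun sgMA ∅ x0 = x0 := by
  funext k
  revert k
  decide +kernel

theorem mixMD_t0 : mixFun sgMD ∅ t0 = t0 := by
  funext k
  revert k
  decide +kernel

theorem mixMD_x0 : mixFun sgMD ∅ x0 = x0 := by
  funext k
  revert k
  decide +kernel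

theorem mixMA_a : mixFun sgMA ∅ (pat 4 {none, pt 1}) none = 2 := by decide +kernel

theorem mixMD_d : mixFun sgMD ∅ (tw oD (pt1 (-3) {none})) none = 2 := by decide +kernel

theorem pA_props {a : GolayPt} (ha : a ≠ none) :
    pat 4 {none, a} ∈ leechLattice ∧ sqNorm (pat 4 {none, a}) = 32 ∧
      dotInt t0 (pat 4 {none, a}) = 24 ∧ pat 4 {none, a} none = 4 := by
  obtain ⟨h1, h2, h3, h4⟩ := Fdec_props (Sum.inl ⟨a, ha⟩)
  exact ⟨h1, h2, by rw [dot_t0]; exact h3, h4⟩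

theorem pD_props {o : Finset GolayPt} (ho : o ∈ octads) (hno : none ∈ o) :
    tw o (pt1 (-3) {none}) ∈ leechLattice ∧ sqNorm (tw o (pt1 (-3) {none})) = 32 ∧
      dotInt t0 (tw o (pt1 (-3) {none})) = 24 ∧ tw o (pt1 (-3) {none}) none = 3 := by
  obtain ⟨h1, h2, h3, h4⟩ :=
    Fdec_props (Sum.inr (Sum.inr (Sum.inr ⟨o, (mem_octI o).mpr ⟨ho, hno⟩⟩)))
  exact ⟨h1, h2, by rw [dot_t0]; exact h3, h4⟩

theorem pA_x0 {a : GolayPt} (ha : a ≠ none) (ha0 : a ≠ pt 0) :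
    dotInt x0 (pat 4 {none, a}) = 16 := by
  rw [dot_x0, (pA_props ha).2.2.2]
  unfold pat
  rw [if_neg (by
    rw [Finset.mem_insert, Finset.mem_singleton]
    rintro (h | h)
    · exact absurd h (by decide)
    · exact ha0 h.symm)]
  norm_num

theorem pB_x0 {o : Finset GolayPt} (hno : none ∈ o) (h0 : pt 0 ∈ o) :
    dotInt x0 (pat 2 o) = 16 := by
  rw [dot_x0]
  unfold pat
  rw [if_pos hno, if_pos h0]
  norm_num

theorem pD_x0 {o : Finset GolayPt} (ho : o ∈ octads) (hno : none ∈ o) (h0 : pt 0 ∉ o) :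
    dotInt x0 (tw o (pt1 (-3) {none})) = 16 := by
  rw [dot_x0, (pD_props ho hno).2.2.2, tw_pt1_apply, if_neg h0,
    if_neg (by decide : (pt 0 : GolayPt) ≠ none)]
  norm_num

theorem mcl_main2 {x : GolayPt → ℤ} (hx : x ∈ leechLattice) (hn : sqNorm x = 32)
    (hd : dotInt t0 x = 24) (hr : dotInt x0 x = 16) (hv : x none = 2) :
    RelL [X0] x (pat 2 oI) := by
  rcases McL_cases hx hn hd hr with ⟨h, -⟩ | ⟨-, o, ho, hno, h0, rfl⟩ | ⟨h, -⟩
  · omega
  · exact famB_rel inv22_X0 ho hno h0 hx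
  · omega

theorem mcl_fuseA : RelL [X0] (pat 4 {none, pt 1}) (pat 2 oI) := by
  have hp := pA_props (a := pt 1) (by decide)
  have h1 := relL_mix (L := [X0]) hp.1 empty_mem_supports sgMA_mem mixMA_t0 (by
    intro b hb
    rw [List.mem_singleton] at hb
    subst hb
    exact mixMA_x0)
  exact relL_trans h1 (mcl_main2 (relL_right h1) ((relL_norm h1).trans hp.2.1)
    ((relL_dot0 h1).trans hp.2.2.1)
    ((relL_dotB h1 (b := X0) (List.mem_singleton_self _)).trans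
      (pA_x0 (by decide) (by decide))) mixMA_a)

theorem mcl_fuseD : RelL [X0] (tw oD (pt1 (-3) {none})) (pat 2 oI) := by
  have hp := pD_props oD_mem oD_pts.1
  have h1 := relL_mix (L := [X0]) hp.1 empty_mem_supports sgMD_mem mixMD_t0 (by
    intro b hb
    rw [List.mem_singleton] at hb
    subst hb
    exact mixMD_x0)
  exact relL_trans h1 (mcl_main2 (relL_right h1) ((relL_norm h1).trans hp.2.1)
    ((relL_dot0 h1).trans hp.2.2.1)
    ((relL_dotB h1 (b := X0) (List.mem_singleton_self _)).trans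
      (pD_x0 oD_mem oD_pts.1 oD_pts.2)) mixMD_d)

theorem rel_McL {x : GolayPt → ℤ} (hx : x ∈ leechLattice) (hn : sqNorm x = 32)
    (hd : dotInt t0 x = 24) (hr : dotInt x0 x = 16) : RelL [X0] x (pat 2 oI) := by
  rcases McL_cases hx hn hd hr with ⟨-, a, ha, ha0, rfl⟩ | ⟨h, -⟩ | ⟨-, o, ho, hno, h0, rfl⟩
  · exact relL_trans (famA_rel inv22_X0 ha ha0 (by decide) (by decide) hx) mcl_fuseA
  · exact mcl_main2 hx hn hd hr h
  · exact relL_trans (famD_rel inv22_X0 ho hno h0 hx) mcl_fuseD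

theorem t0_sub_x0 : sqNorm (t0 - x0) = 32 := by decide +kernel

/-- A vector of norm 48 with a minimal summand can be moved to the reference pair. -/
theorem mcl_frame (u v : ↥leechLattice) (hu : sqNorm (u : GolayPt → ℤ) = 48)
    (hv : sqNorm (v : GolayPt → ℤ) = 32 ∧
      sqNorm ((u : GolayPt → ℤ) - (v : GolayPt → ℤ)) = 32) :
    ∃ k : ↥Co0, k • u = T0 ∧ k • v = X0 := by
  obtain ⟨h, hh⟩ := transitive48 u T0 hu sqNorm_t0
  have e : sqNorm ((T0 : GolayPt → ℤ) - ((h • v : ↥leechLattice) : GolayPt → ℤ)) = 32 := by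
    have e1 := co0_norm h (u - v)
    rw [co0_sub, hh] at e1
    exact e1.trans hv.2
  obtain ⟨g, hg1, hg2⟩ := co3_trans T0 (h • v) X0 sqNorm_t0
    ⟨by rw [co0_norm]; exact hv.1, e⟩ ⟨x0_props.2.1, t0_sub_x0⟩
  exact ⟨g * h, by rw [mul_smul, hh, hg1], by rw [mul_smul, hg2]⟩

/-- The 275 vectors of the configuration for the reference pair. -/
noncomputable def XM : Finset (GolayPt → ℤ) :=
  S32.filter (fun w => dotInt t0 w = 24 ∧ dotInt x0 w = 16)

theorem mem_XM (x : GolayPt → ℤ) :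
    x ∈ XM ↔ x ∈ leechLattice ∧ sqNorm x = 32 ∧ dotInt t0 x = 24 ∧ dotInt x0 x = 16 := by
  unfold XM
  rw [Finset.mem_filter, mem_S32, and_assoc]

theorem XM_mem_lattice : ∀ y ∈ XM, y ∈ leechLattice := fun y hy => ((mem_XM y).mp hy).1

theorem mcl_key (u v : ↥leechLattice) (hu : sqNorm (u : GolayPt → ℤ) = 48) (k : ↥Co0)
    (hk1 : k • u = T0) (hk2 : k • v = X0) (x : ↥leechLattice) :
    (sqNorm (x : GolayPt → ℤ) = 32 ∧
      sqNorm ((u : GolayPt → ℤ) - (x : GolayPt → ℤ)) = 32 ∧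
      dotInt (v : GolayPt → ℤ) (x : GolayPt → ℤ) = 16) ↔
      ((k • x : ↥leechLattice) : GolayPt → ℤ) ∈ XM := by
  rw [mem_XM, sqNorm_sub', hu]
  have e1 := co0_dot k u x
  rw [hk1] at e1
  have e2 := co0_dot k v x
  rw [hk2] at e2
  have e3 := co0_norm k x
  have e1' : dotInt t0 ((k • x : ↥leechLattice) : GolayPt → ℤ) =
    dotInt (u : GolayPt → ℤ) (x : GolayPt → ℤ) := e1
  have e2' : dotInt x0 ((k • x : ↥leechLattice) : GolayPt → ℤ) =
    dotInt (v : GolayPt → ℤ) (x : GolayPt → ℤ) := e2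
  rw [e1', e2', e3]
  constructor
  · rintro ⟨h1, h2, h3⟩
    exact ⟨(k • x).2, h1, by omega, h3⟩
  · rintro ⟨-, h1, h2, h3⟩
    exact ⟨h1, by omega, h3⟩

theorem mcl_trans (u v x x' : ↥leechLattice) (hu : sqNorm (u : GolayPt → ℤ) = 48)
    (hv : sqNorm (v : GolayPt → ℤ) = 32 ∧
      sqNorm ((u : GolayPt → ℤ) - (v : GolayPt → ℤ)) = 32)
    (hx : sqNorm (x : GolayPt → ℤ) = 32 ∧
      sqNorm ((u : GolayPt → ℤ) - (x : GolayPt → ℤ)) = 32 ∧
      dotInt (v : GolayPt → ℤ) (x : GolayPt → ℤ) = 16)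
    (hx' : sqNorm (x' : GolayPt → ℤ) = 32 ∧
      sqNorm ((u : GolayPt → ℤ) - (x' : GolayPt → ℤ)) = 32 ∧
      dotInt (v : GolayPt → ℤ) (x' : GolayPt → ℤ) = 16) :
    ∃ g : ↥Co0, g • u = u ∧ g • v = v ∧ g • x = x' := by
  obtain ⟨k, hk1, hk2⟩ := mcl_frame u v hu hv
  have q : ∀ y : ↥leechLattice, (sqNorm (y : GolayPt → ℤ) = 32 ∧
      sqNorm ((u : GolayPt → ℤ) - (y : GolayPt → ℤ)) = 32 ∧
      dotInt (v : GolayPt → ℤ) (y : GolayPt → ℤ) = 16) →
      RelL [X0] ((k • y : ↥leechLattice) : GolayPt → ℤ) (pat 2 oI) := by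
    intro y hy
    have hm := (mem_XM _).mp ((mcl_key u v hu k hk1 hk2 y).mp hy)
    exact rel_McL hm.1 hm.2.1 hm.2.2.1 hm.2.2.2
  obtain ⟨_, _, n, hn1, hn2, hn⟩ := relL_trans (q x hx) (relL_symm (q x' hx'))
  have hn' : n • (k • x) = k • x' := hn
  have hn2' := hn2 X0 (List.mem_singleton_self _)
  refine ⟨k⁻¹ * n * k, ?_, ?_, ?_⟩
  · rw [mul_smul, mul_smul, hk1, hn1, ← hk1, inv_smul_smul]
  · rw [mul_smul, mul_smul, hk2, hn2', ← hk2, inv_smul_smul]
  · rw [mul_smul, mul_smul, hn', inv_smul_smul]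

/-! ### The count -/

noncomputable def KMA : Finset (GolayPt → ℤ) := pts22.image (fun a => pat 4 {none, a})

noncomputable def KMD : Finset (GolayPt → ℤ) := octI1.image (fun o => tw o (pt1 (-3) {none}))

theorem card_KMA : KMA.card = 22 := by
  unfold KMA
  rw [Finset.card_image_of_injOn, card_pts22]
  intro a ha a' ha' h
  rw [Finset.mem_coe, mem_pts22] at ha ha'
  have h2 : ({none, a} : Finset GolayPt) = {none, a'} := pat_inj (v := 4) (by norm_num) h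
  have : a ∈ ({none, a'} : Finset GolayPt) := by
    rw [← h2]
    simp
  rw [Finset.mem_insert, Finset.mem_singleton] at this
  rcases this with h | h
  · exact absurd h ha.1
  · exact h

theorem card_KMD : KMD.card = 176 := by
  unfold KMD
  rw [Finset.card_image_of_injOn, card_octI1]
  intro d _ d' _ h
  have h' : tw d (pt1 (-3) {none}) = tw d' (pt1 (-3) {none}) := h
  rw [← resSet_tw (pt1_mod (v := -3) (by decide) {none}) d, h',
    resSet_tw (pt1_mod (v := -3) (by decide) {none}) d']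

theorem mfibA : XM.filter (fun x => x none = 4) = KMA := by
  ext x
  unfold KMA
  rw [Finset.mem_filter, mem_XM, Finset.mem_image]
  constructor
  · rintro ⟨⟨hx, hn, hd, hr⟩, hv⟩
    rcases McL_cases hx hn hd hr with ⟨-, a, ha, ha0, rfl⟩ | ⟨h, -⟩ | ⟨h, -⟩
    · exact ⟨a, (mem_pts22 a).mpr ⟨ha, ha0⟩, rfl⟩
    · omega
    · omega
  · rintro ⟨a, ha, rfl⟩
    rw [mem_pts22] at ha
    obtain ⟨h1, h2, h3, h4⟩ := pA_props ha.1
    exact ⟨⟨h1, h2, h3, pA_x0 ha.1 ha.2⟩, h4⟩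

theorem mfibB : XM.filter (fun x => x none = 2) = KHB := by
  ext x
  unfold KHB
  rw [Finset.mem_filter, mem_XM, Finset.mem_image]
  constructor
  · rintro ⟨⟨hx, hn, hd, hr⟩, hv⟩
    rcases McL_cases hx hn hd hr with ⟨h, -⟩ | ⟨-, o, ho, hno, h0, rfl⟩ | ⟨h, -⟩
    · omega
    · exact ⟨o, (mem_octI0 o).mpr ⟨ho, hno, h0⟩, rfl⟩
    · omega
  · rintro ⟨o, ho, rfl⟩
    rw [mem_octI0] at ho
    obtain ⟨h1, h2, h3, h4⟩ := pB_props ho.1 ho.2.1
    exact ⟨⟨h1, h2, h3, pB_x0 ho.2.1 ho.2.2⟩, h4⟩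

theorem mfibD : XM.filter (fun x => x none = 3) = KMD := by
  ext x
  unfold KMD
  rw [Finset.mem_filter, mem_XM, Finset.mem_image]
  constructor
  · rintro ⟨⟨hx, hn, hd, hr⟩, hv⟩
    rcases McL_cases hx hn hd hr with ⟨h, -⟩ | ⟨h, -⟩ | ⟨-, o, ho, hno, h0, rfl⟩
    · omega
    · omega
    · exact ⟨o, (mem_octI1 o).mpr ⟨ho, hno, h0⟩, rfl⟩
  · rintro ⟨o, ho, rfl⟩
    rw [mem_octI1] at ho
    obtain ⟨h1, h2, h3, h4⟩ := pD_props ho.1 ho.2.1
    exact ⟨⟨h1, h2, h3, pD_x0 ho.1 ho.2.1 ho.2.2⟩, h4⟩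

theorem XM_vals {x : GolayPt → ℤ} (hx : x ∈ XM) : x none = 4 ∨ x none = 2 ∨ x none = 3 := by
  rw [mem_XM] at hx
  rcases McL_cases hx.1 hx.2.1 hx.2.2.1 hx.2.2.2 with ⟨h, -⟩ | ⟨h, -⟩ | ⟨h, -⟩
  · exact Or.inl h
  · exact Or.inr (Or.inl h)
  · exact Or.inr (Or.inr h)

theorem card_XM : XM.card = 275 := by
  rw [card_fib3 XM 4 2 3 (by decide) (by decide) (by decide) (fun x hx => XM_vals hx), mfibA,
    mfibB, mfibD, card_KMA, card_KHB, card_KMD]

/-- Statement S1580. -/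
theorem mcl_275 (u v : ↥leechLattice) (hu : sqNorm (u : GolayPt → ℤ) = 48)
    (hv : sqNorm (v : GolayPt → ℤ) = 32 ∧
      sqNorm ((u : GolayPt → ℤ) - (v : GolayPt → ℤ)) = 32) :
    {x : ↥leechLattice | sqNorm (x : GolayPt → ℤ) = 32 ∧
      sqNorm ((u : GolayPt → ℤ) - (x : GolayPt → ℤ)) = 32 ∧
      dotInt (v : GolayPt → ℤ) (x : GolayPt → ℤ) = 16}.ncard = 275 ∧
    ∀ x ∈ {x : ↥leechLattice | sqNorm (x : GolayPt → ℤ) = 32 ∧
      sqNorm ((u : GolayPt → ℤ) - (x : GolayPt → ℤ)) = 32 ∧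
      dotInt (v : GolayPt → ℤ) (x : GolayPt → ℤ) = 16},
    ∀ x' ∈ {x : ↥leechLattice | sqNorm (x : GolayPt → ℤ) = 32 ∧
      sqNorm ((u : GolayPt → ℤ) - (x : GolayPt → ℤ)) = 32 ∧
      dotInt (v : GolayPt → ℤ) (x : GolayPt → ℤ) = 16},
    ∃ g : ↥Co0, g • u = u ∧ g • v = v ∧ g • x = x' := by
  constructor
  · obtain ⟨k, hk1, hk2⟩ := mcl_frame u v hu hv
    have key : ∀ x : ↥leechLattice, x ∈ {x : ↥leechLattice | sqNorm (x : GolayPt → ℤ) = 32 ∧
        sqNorm ((u : GolayPt → ℤ) - (x : GolayPt → ℤ)) = 32 ∧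
        dotInt (v : GolayPt → ℤ) (x : GolayPt → ℤ) = 16} ↔
        ((k • x : ↥leechLattice) : GolayPt → ℤ) ∈ XM := by
      intro x
      rw [Set.mem_ofPred_eq]
      exact mcl_key u v hu k hk1 hk2 x
    exact (ncard_smul_val k _ XM XM_mem_lattice key).trans card_XM
  · intro x hx x' hx'
    exact mcl_trans u v x x' hu hv hx hx'

end Cfsg.Agent.Lib.helper28.XI
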