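import Cfsg.Agent.Lib.helper28.LeechCnt9
import Cfsg.Agent.Lib.helper27.LeechIndex2
import Cfsg.Agent.S5592

set_option autoImplicit false

namespace Cfsg.Agent.Lib.helper28.LC

open Cfsg
open Cfsg.Agent.Lib.helper28
open Cfsg.Agent.Lib.helper27

/-! The lattice modulo twice the lattice: index and the class map. -/

/-- Doubling. -/
def dbl : (GolayPt → ℤ) →+ (GolayPt → ℤ) where
  toFun x := 2 • x
  map_zero' := smul_zero 2
  map_add' x y := smul_add 2 x y

theorem two_smul_apply (x : GolayPt → ℤ) (i : GolayPt) : (2 • x) i = 2 * x i := by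
  simp

theorem dbl_apply (x : GolayPt → ℤ) (i : GolayPt) : dbl x i = 2 * x i := two_smul_apply x i

theorem dbl_injective : Function.Injective dbl := by
  intro x y h
  funext i
  have := congrFun h i
  rw [dbl_apply, dbl_apply] at this
  omega

/-- Twice the lattice. -/
def twoL : AddSubgroup (GolayPt → ℤ) := leechLattice.map dbl

theorem mem_twoL (x : GolayPt → ℤ) : x ∈ twoL ↔ ∃ z ∈ leechLattice, x = 2 • z := by
  unfold twoL
  rw [AddSubgroup.mem_map]
  constructor
  · rintro ⟨z, hz, h⟩; exact ⟨z, hz, h.symm⟩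
  · rintro ⟨z, hz, h⟩; exact ⟨z, hz, h.symm⟩

theorem twoL_le : twoL ≤ leechLattice := by
  intro x hx
  rw [mem_twoL] at hx
  obtain ⟨z, hz, h⟩ := hx
  rw [h]
  exact leechLattice.nsmul_mem hz 2

theorem evenSub_eq : evenSub = (⊤ : AddSubgroup (GolayPt → ℤ)).map dbl := by
  ext x
  rw [AddSubgroup.mem_map]
  constructor
  · intro hx
    refine ⟨fun i => x i / 2, AddSubgroup.mem_top _, ?_⟩
    funext i
    rw [dbl_apply]
    have := hx i
    omega
  · rintro ⟨y, -, h⟩ i
    rw [← h, dbl_apply]
    omega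

theorem relIndex_twoL : twoL.relIndex leechLattice = 2 ^ 24 := by
  have hle : twoL ≤ evenSub := by
    rw [evenSub_eq]
    exact AddSubgroup.map_mono le_top
  have h2 : twoL.relIndex evenSub = leechLattice.index := by
    rw [evenSub_eq]
    unfold twoL
    rw [AddSubgroup.relIndex_map_map_of_injective _ _ dbl_injective, AddSubgroup.relIndex_top_right]
  have h3 := AddSubgroup.relIndex_mul_index hle
  have h4 := AddSubgroup.relIndex_mul_index twoL_le
  rw [h2, index_leechLattice, index_evenSub] at h3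
  rw [index_leechLattice, ← h3] at h4
  have : twoL.relIndex leechLattice * 2 ^ 36 = 2 ^ 24 * 2 ^ 36 := by rw [h4]; ring
  exact Nat.eq_of_mul_eq_mul_right (by positivity) this

/-- The lattice modulo twice the lattice. -/
abbrev Q2 : Type := ↥leechLattice ⧸ (twoL.addSubgroupOf leechLattice)

theorem card_Q2 : Nat.card Q2 = 2 ^ 24 := relIndex_twoL

open Classical in
/-- The class of a lattice vector modulo twice the lattice (and a junk value elsewhere). -/
noncomputable def rho (x : GolayPt → ℤ) : Q2 :=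
  if h : x ∈ leechLattice then QuotientAddGroup.mk ⟨x, h⟩ else 0

theorem rho_eq_iff {x y : GolayPt → ℤ} (hx : x ∈ leechLattice) (hy : y ∈ leechLattice) :
    rho x = rho y ↔ ∃ z ∈ leechLattice, x - y = 2 • z := by
  unfold rho
  rw [dif_pos hx, dif_pos hy, QuotientAddGroup.eq, AddSubgroup.mem_addSubgroupOf]
  have hco : (((-⟨x, hx⟩ + ⟨y, hy⟩ : ↥leechLattice)) : GolayPt → ℤ) = -x + y := rfl
  rw [hco, mem_twoL]
  constructor
  · rintro ⟨z, hz, h⟩
    refine ⟨-z, leechLattice.neg_mem hz, ?_⟩
    funext i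
    have := congrFun h i
    rw [two_smul_apply] at this
    rw [two_smul_apply]
    simp only [Pi.add_apply, Pi.neg_apply, Pi.sub_apply] at this ⊢
    omega
  · rintro ⟨z, hz, h⟩
    refine ⟨-z, leechLattice.neg_mem hz, ?_⟩
    funext i
    have := congrFun h i
    rw [two_smul_apply] at this
    rw [two_smul_apply]
    simp only [Pi.add_apply, Pi.neg_apply, Pi.sub_apply] at this ⊢
    omega

theorem sqNorm_neg (x : GolayPt → ℤ) : sqNorm (-x) = sqNorm x := by
  unfold sqNorm
  apply Finset.sum_congr rfl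
  intro i _
  simp

theorem congr_cases {x y : GolayPt → ℤ} (hx : x ∈ leechLattice) (hy : y ∈ leechLattice)
    (hxn : sqNorm x ≤ 64) (hyn : sqNorm y ≤ 64) (h : rho x = rho y) :
    x = y ∨ x = -y ∨ (sqNorm x = 64 ∧ sqNorm y = 64 ∧ dotInt x y = 0) := by
  by_cases hxy : x = y
  · exact Or.inl hxy
  · right
    exact Cfsg.Agent.S5592.result x y hx hy hxy hxn hyn ((rho_eq_iff hx hy).mp h)

/-! ### The finsets of short vectors -/

/-- The vectors of norm 32. -/
noncomputable def S32 : Finset (GolayPt → ℤ) := clsO (-3) 1 ∪ E1 ∪ E0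

theorem mem_S32 (x : GolayPt → ℤ) : x ∈ S32 ↔ x ∈ leechLattice ∧ sqNorm x = 32 := by
  unfold S32
  rw [Finset.mem_union, Finset.mem_union]
  constructor
  · rintro ((h | h) | h)
    · exact ⟨(O3_props h).1, (O3_props h).2.1⟩
    · exact ⟨(E1_props h).1, (E1_props h).2.1⟩
    · exact ⟨(E0_props h).1, (E0_props h).2.1⟩
  · rintro ⟨hx, hn⟩
    rcases parity_cases hx with h | h
    · rcases even32 hx hn h with h' | h'
      · exact Or.inl (Or.inr h')
      · exact Or.inr h'
    · exact Or.inl (Or.inl (odd32 hx hn h))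

theorem card_S32 : S32.card = 196560 := by
  have hd1 : Disjoint (clsO (-3) 1) E1 := by
    rw [Finset.disjoint_left]
    intro x h h'
    have := (O3_props h).2.2 none
    have := (E1_props h').2.2.1 none
    omega
  have hd2 : Disjoint (clsO (-3) 1 ∪ E1) E0 := by
    rw [Finset.disjoint_left]
    intro x h h'
    rcases Finset.mem_union.mp h with h | h
    · have := (O3_props h).2.2 none
      have := (E0_props h').2.2.1 none
      omega
    · have h8 := (E1_props h).2.2.2
      rw [(E0_props h').2.2.2] at h8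
      simp at h8
  unfold S32
  rw [Finset.card_union_of_disjoint hd2, Finset.card_union_of_disjoint hd1,
    card_clsO (-3) (by decide) (by decide), card_E1, card_E0]
  decide

/-- The vectors of norm 48. -/
noncomputable def S48 : Finset (GolayPt → ℤ) := E2 ∪ clsO (-3) 3 ∪ E3 ∪ clsO 5 1

theorem mem_S48 (x : GolayPt → ℤ) : x ∈ S48 ↔ x ∈ leechLattice ∧ sqNorm x = 48 := by
  unfold S48
  rw [Finset.mem_union, Finset.mem_union, Finset.mem_union]
  constructor
  · rintro (((h | h) | h) | h)
    · exact ⟨(E2_props h).1, (E2_props h).2.1⟩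
    · exact ⟨(O33_props h).1, (O33_props h).2.1⟩
    · exact ⟨(E3_props h).1, (E3_props h).2.1⟩
    · exact ⟨(O5_props h).1, (O5_props h).2.1⟩
  · rintro ⟨hx, hn⟩
    rcases class48 hx hn with h | h | h | h
    · exact Or.inl (Or.inl (Or.inl h))
    · exact Or.inl (Or.inl (Or.inr h))
    · exact Or.inl (Or.inr h)
    · exact Or.inr h

theorem card_S48 : S48.card = 16773120 := by
  have hd1 : Disjoint E2 (clsO (-3) 3) := by
    rw [Finset.disjoint_left]
    intro x h h'
    exact (O33_shape h').1 (E2_shape h).1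
  have hd2 : Disjoint (E2 ∪ clsO (-3) 3) E3 := by
    rw [Finset.disjoint_left]
    intro x h h'
    rcases Finset.mem_union.mp h with h | h
    · exact (E2_shape h).2.2.1 (E3_shape h').2.2.1
    · exact (O33_shape h).2.2.1 (E3_shape h').2.2.1
  have hd3 : Disjoint (E2 ∪ clsO (-3) 3 ∪ E3) (clsO 5 1) := by
    rw [Finset.disjoint_left]
    intro x h h'
    rcases Finset.mem_union.mp h with h | h
    · rcases Finset.mem_union.mp h with h | h
      · exact (E2_shape h).2.2.2 (O5_shape h').2.2.2
      · exact (O33_shape h).2.2.2 (O5_shape h').2.2.2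
    · exact (E3_shape h).2.2.2 (O5_shape h').2.2.2
  unfold S48
  rw [Finset.card_union_of_disjoint hd3, Finset.card_union_of_disjoint hd2,
    Finset.card_union_of_disjoint hd1, card_E2, card_O33, card_E3, card_O5]

end Cfsg.Agent.Lib.helper28.LC
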