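import Cfsg.Agent.Lib.helper28.LeechMod1
import Cfsg.Prelude.Def_SporadicCombinatorics

set_option autoImplicit false

namespace Cfsg.Agent.Lib.helper28.LC

open Cfsg
open Cfsg.Agent.Lib.helper28
open Cfsg.Agent.Lib.helper27

/-! Frames: sets of vectors that are pairwise equal, opposite or orthogonal. -/

/-- Pairwise orthogonal vectors of norm 64 are at most 24. -/
theorem ortho_card_le (F : Finset (GolayPt → ℤ)) (hF : ∀ u ∈ F, sqNorm u = 64)
    (hpair : ∀ u ∈ F, ∀ v ∈ F, u ≠ v → dotInt u v = 0) : F.card ≤ 24 := by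
  have hli : LinearIndependent ℚ (fun u : ↥F => (fun i => ((u : GolayPt → ℤ) i : ℚ))) := by
    rw [linearIndependent_iff']
    intro s g hg u0 hu0
    have hc : ∀ i, ∑ u ∈ s, g u * ((u : GolayPt → ℤ) i : ℚ) = 0 := by
      intro i
      have := congrFun hg i
      simpa [Finset.sum_apply, Pi.smul_apply, smul_eq_mul] using this
    have h1 : ∑ i, (∑ u ∈ s, g u * ((u : GolayPt → ℤ) i : ℚ)) * ((u0 : GolayPt → ℤ) i : ℚ) = 0 := by
      apply Finset.sum_eq_zero
      intro i _
      rw [hc i, zero_mul]
    have h2 : ∑ i, (∑ u ∈ s, g u * ((u : GolayPt → ℤ) i : ℚ)) * ((u0 : GolayPt → ℤ) i : ℚ) =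
        ∑ u ∈ s, g u * (dotInt (u : GolayPt → ℤ) (u0 : GolayPt → ℤ) : ℚ) := by
      simp only [Finset.sum_mul]
      rw [Finset.sum_comm]
      apply Finset.sum_congr rfl
      intro u _
      unfold dotInt
      push_cast
      rw [Finset.mul_sum]
      apply Finset.sum_congr rfl
      intro i _
      ring
    rw [h2, Finset.sum_eq_single u0] at h1
    · have h64 : dotInt (u0 : GolayPt → ℤ) (u0 : GolayPt → ℤ) = 64 := by
        have := hF u0 u0.2
        unfold sqNorm at this
        unfold dotInt
        rw [← this]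
        apply Finset.sum_congr rfl
        intro i _
        ring
      rw [h64] at h1
      have h3 : g u0 * 64 = 0 := by exact_mod_cast h1
      exact (mul_eq_zero.mp h3).resolve_right (by norm_num)
    · intro u _ hne
      rw [hpair u u.2 u0 u0.2 (fun h => hne (Subtype.ext h))]
      simp
    · intro h
      exact absurd hu0 h
  have h := hli.fintype_card_le_finrank
  rw [Fintype.card_coe, Module.finrank_fintype_fun_eq_card,
    show Fintype.card GolayPt = 24 from by decide] at h
  exact h

/-- The outer product of a vector with itself. -/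
def outer (u : GolayPt → ℤ) : GolayPt × GolayPt → ℤ := fun p => u p.1 * u p.2

theorem outer_eq {u v : GolayPt → ℤ} (hu : sqNorm u = 64) (h : outer u = outer v) :
    v = u ∨ v = -u := by
  have hk : ∃ k, u k ≠ 0 := by
    by_contra hall
    push Not at hall
    unfold sqNorm at hu
    rw [Finset.sum_eq_zero (fun i _ => by rw [hall i]; rfl)] at hu
    norm_num at hu
  obtain ⟨k, hk⟩ := hk
  have hkk := congrFun h (k, k)
  unfold outer at hkk
  simp only at hkk
  rcases mul_self_eq_mul_self_iff.mp hkk with h1 | h1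
  · left
    funext j
    have hj := congrFun h (k, j)
    unfold outer at hj
    simp only at hj
    rw [h1] at hj
    have hvk : v k ≠ 0 := by rw [← h1]; exact hk
    exact (mul_left_cancel₀ hvk hj).symm
  · right
    funext j
    have hj := congrFun h (k, j)
    unfold outer at hj
    simp only at hj
    rw [h1] at hj
    have hvk : v k ≠ 0 := by
      intro h0
      rw [h0, neg_zero] at h1
      exact hk h1
    have : v k * (-u j) = v k * v j := by rw [← hj]; ring
    rw [Pi.neg_apply]
    exact (mul_left_cancel₀ hvk this).symm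

theorem outer_neg (u : GolayPt → ℤ) : outer (-u) = outer u := by
  funext p
  unfold outer
  simp

/-- A set of vectors of norm 64 that are pairwise equal, opposite or orthogonal has at most 48
elements. -/
theorem frame_card_le (F : Finset (GolayPt → ℤ)) (hF : ∀ u ∈ F, sqNorm u = 64)
    (hpair : ∀ u ∈ F, ∀ v ∈ F, u = v ∨ u = -v ∨ dotInt u v = 0) : F.card ≤ 48 := by
  classical
  have h1 : F.card ≤ 2 * (F.image outer).card := by
    apply Finset.card_le_mul_card_image
    intro b hb
    obtain ⟨u, hu, rfl⟩ := Finset.mem_image.mp hb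
    have hsub : F.filter (fun a => outer a = outer u) ⊆ {u, -u} := by
      intro v hv
      rw [Finset.mem_filter] at hv
      rw [Finset.mem_insert, Finset.mem_singleton]
      exact outer_eq (hF u hu) hv.2.symm
    exact (Finset.card_le_card hsub).trans Finset.card_le_two
  obtain ⟨F', hF's, hinj, himg⟩ := Finset.exists_subset_injOn_image_eq_of_surjOn (f := outer)
    (↑F : Set (GolayPt → ℤ)) (F.image outer) (by
      rw [Finset.coe_image]
      exact Set.surjOn_image outer _)
  have h2 : F'.card ≤ 24 := by
    apply ortho_card_le F' (fun u hu => hF u (hF's hu))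
    intro u hu v hv hne
    rcases hpair u (hF's hu) v (hF's hv) with h | h | h
    · exact absurd h hne
    · exfalso
      apply hne
      apply hinj hu hv
      rw [h, outer_neg]
    · exact h
  have h3 : (F.image outer).card = F'.card := by
    rw [← himg, Finset.card_image_of_injOn hinj]
  omega

/-! ### Counting the classes -/

open Classical in
theorem fiber_le_two (S : Finset (GolayPt → ℤ)) (n : ℤ) (hn : n < 64)
    (hS : ∀ x ∈ S, x ∈ leechLattice ∧ sqNorm x = n) (q : Q2) :
    (S.filter (fun x => rho x = q)).card ≤ 2 := by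
  by_cases hne : (S.filter (fun x => rho x = q)).Nonempty
  · obtain ⟨u, hu⟩ := hne
    rw [Finset.mem_filter] at hu
    have hsub : S.filter (fun x => rho x = q) ⊆ {u, -u} := by
      intro v hv
      rw [Finset.mem_filter] at hv
      rw [Finset.mem_insert, Finset.mem_singleton]
      have hv' := hS v hv.1
      have hu' := hS u hu.1
      rcases congr_cases hv'.1 hu'.1 (by rw [hv'.2]; omega) (by rw [hu'.2]; omega)
        (by rw [hv.2, hu.2]) with h | h | h
      · exact Or.inl h
      · exact Or.inr h
      · exfalso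
        have := h.1
        omega
    exact (Finset.card_le_card hsub).trans Finset.card_le_two
  · rw [Finset.not_nonempty_iff_eq_empty.mp hne]
    simp

open Classical in
theorem fiber_le_48 (q : Q2) : (S64.filter (fun x => rho x = q)).card ≤ 48 := by
  apply frame_card_le
  · intro u hu
    rw [Finset.mem_filter, mem_S64] at hu
    exact hu.1.2
  · intro u hu v hv
    rw [Finset.mem_filter, mem_S64] at hu hv
    rcases congr_cases hu.1.1 hv.1.1 (by rw [hu.1.2]) (by rw [hv.1.2]) (by rw [hu.2, hv.2])
      with h | h | h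
    · exact Or.inl h
    · exact Or.inr (Or.inl h)
    · exact Or.inr (Or.inr h.2.2)

open Classical in
theorem image_disjoint (A B : Finset (GolayPt → ℤ)) (na nb : ℤ)
    (hA : ∀ x ∈ A, x ∈ leechLattice ∧ sqNorm x = na)
    (hB : ∀ x ∈ B, x ∈ leechLattice ∧ sqNorm x = nb) (hne : na ≠ nb) (ha : na ≤ 64)
    (hb : nb ≤ 64) : Disjoint (A.image rho) (B.image rho) := by
  rw [Finset.disjoint_left]
  intro q hqa hqb
  obtain ⟨u, hu, hqu⟩ := Finset.mem_image.mp hqa
  obtain ⟨v, hv, hqv⟩ := Finset.mem_image.mp hqb
  have hu' := hA u hu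
  have hv' := hB v hv
  rcases congr_cases hu'.1 hv'.1 (by rw [hu'.2]; exact ha) (by rw [hv'.2]; exact hb)
    (by rw [hqu, hqv]) with h | h | h
  · apply hne
    rw [← hu'.2, ← hv'.2, h]
  · apply hne
    rw [← hu'.2, ← hv'.2, h, sqNorm_neg]
  · apply hne
    rw [← hu'.2, ← hv'.2, h.1, h.2.1]

theorem arith_key {a b c : ℕ} (h32 : 196560 ≤ 2 * a) (h48 : 16773120 ≤ 2 * b)
    (h64 : 398034000 ≤ 48 * c) (hle : 1 + a + b + c ≤ 16777216) :
    1 + a + b + c = 16777216 ∧ c = 8292375 := by
  omega

theorem sqNorm_zero : sqNorm (0 : GolayPt → ℤ) = 0 := by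
  unfold sqNorm
  simp

open Classical in
/-- Every class modulo twice the lattice contains a short vector, and the classes of vectors of
norm 64 contain 48 such vectors each. -/
theorem counting :
    (∀ q : Q2, ∃ y ∈ ({0} : Finset (GolayPt → ℤ)) ∪ S32 ∪ S48 ∪ S64, rho y = q) ∧
      ∀ q ∈ S64.image rho, (S64.filter (fun x => rho x = q)).card = 48 := by
  have : Finite Q2 := Nat.finite_of_card_ne_zero (by rw [card_Q2]; norm_num)
  letI : Fintype Q2 := Fintype.ofFinite Q2
  have hQ : Fintype.card Q2 = 16777216 := by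
    rw [← Nat.card_eq_fintype_card, card_Q2]; norm_num
  have p0 : ∀ x ∈ ({0} : Finset (GolayPt → ℤ)), x ∈ leechLattice ∧ sqNorm x = 0 := by
    intro x hx
    rw [Finset.mem_singleton.mp hx]
    exact ⟨leechLattice.zero_mem, sqNorm_zero⟩
  have p32 : ∀ x ∈ S32, x ∈ leechLattice ∧ sqNorm x = 32 := fun x hx => (mem_S32 x).mp hx
  have p48 : ∀ x ∈ S48, x ∈ leechLattice ∧ sqNorm x = 48 := fun x hx => (mem_S48 x).mp hx
  have p64 : ∀ x ∈ S64, x ∈ leechLattice ∧ sqNorm x = 64 := fun x hx => (mem_S64 x).mp hx
  have c32 := Finset.card_le_mul_card_image (f := rho) S32 2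
    (fun b _ => fiber_le_two S32 32 (by norm_num) p32 b)
  have c48 := Finset.card_le_mul_card_image (f := rho) S48 2
    (fun b _ => fiber_le_two S48 48 (by norm_num) p48 b)
  have c64 := Finset.card_le_mul_card_image (f := rho) S64 48 (fun b _ => fiber_le_48 b)
  rw [card_S32] at c32
  rw [card_S48] at c48
  rw [card_S64] at c64
  have d1 : Disjoint (({0} : Finset (GolayPt → ℤ)).image rho) (S32.image rho) :=
    image_disjoint _ _ 0 32 p0 p32 (by norm_num) (by norm_num) (by norm_num)
  have d2 : Disjoint (({0} : Finset (GolayPt → ℤ)).image rho ∪ S32.image rho) (S48.image rho) := by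
    rw [Finset.disjoint_union_left]
    exact ⟨image_disjoint _ _ 0 48 p0 p48 (by norm_num) (by norm_num) (by norm_num),
      image_disjoint _ _ 32 48 p32 p48 (by norm_num) (by norm_num) (by norm_num)⟩
  have d3 : Disjoint (({0} : Finset (GolayPt → ℤ)).image rho ∪ S32.image rho ∪ S48.image rho)
      (S64.image rho) := by
    rw [Finset.disjoint_union_left, Finset.disjoint_union_left]
    exact ⟨⟨image_disjoint _ _ 0 64 p0 p64 (by norm_num) (by norm_num) (by norm_num),
      image_disjoint _ _ 32 64 p32 p64 (by norm_num) (by norm_num) (by norm_num)⟩,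
      image_disjoint _ _ 48 64 p48 p64 (by norm_num) (by norm_num) (by norm_num)⟩
  have hle : (({0} : Finset (GolayPt → ℤ)).image rho ∪ S32.image rho ∪ S48.image rho ∪
      S64.image rho).card ≤ 16777216 := by
    rw [← hQ]
    exact Finset.card_le_univ _
  have h0 : (({0} : Finset (GolayPt → ℤ)).image rho).card = 1 := by
    rw [Finset.image_singleton, Finset.card_singleton]
  have hU := Finset.card_union_of_disjoint d3
  rw [Finset.card_union_of_disjoint d2, Finset.card_union_of_disjoint d1, h0] at hU
  rw [hU] at hle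
  obtain ⟨htot, hc⟩ := arith_key c32 c48 c64 hle
  constructor
  · intro q
    have huniv : ({0} : Finset (GolayPt → ℤ)).image rho ∪ S32.image rho ∪ S48.image rho ∪
        S64.image rho = Finset.univ := by
      apply Finset.eq_univ_of_card
      rw [hU, htot, hQ]
    have hq : q ∈ ({0} : Finset (GolayPt → ℤ)).image rho ∪ S32.image rho ∪ S48.image rho ∪
        S64.image rho := by rw [huniv]; exact Finset.mem_univ q
    rw [← Finset.image_union, ← Finset.image_union, ← Finset.image_union] at hq
    obtain ⟨y, hy, hyq⟩ := Finset.mem_image.mp hq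
    exact ⟨y, hy, hyq⟩
  · intro q0 hq0
    by_contra hne
    have hlt : (S64.filter (fun x => rho x = q0)).card < 48 :=
      lt_of_le_of_ne (fiber_le_48 q0) hne
    have hsum := Finset.card_eq_sum_card_image rho S64
    have hlt2 : ∑ b ∈ S64.image rho, (S64.filter (fun x => rho x = b)).card <
        ∑ _b ∈ S64.image rho, 48 :=
      Finset.sum_lt_sum (fun b _ => fiber_le_48 b) ⟨q0, hq0, hlt⟩
    rw [← hsum, card_S64, Finset.sum_const, hc] at hlt2
    norm_num at hlt2

/-- Every class of the lattice modulo twice the lattice contains a vector of norm at most 64. -/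
theorem mod_two_representatives (x : GolayPt → ℤ) (hx : x ∈ leechLattice) :
    ∃ y ∈ leechLattice, sqNorm y ≤ 64 ∧ ∃ z ∈ leechLattice, x - y = 2 • z := by
  classical
  obtain ⟨y, hy, hyq⟩ := counting.1 (rho x)
  have hy' : y ∈ leechLattice ∧ sqNorm y ≤ 64 := by
    rw [Finset.mem_union, Finset.mem_union, Finset.mem_union, Finset.mem_singleton] at hy
    rcases hy with ((h | h) | h) | h
    · rw [h]
      exact ⟨leechLattice.zero_mem, by rw [sqNorm_zero]; norm_num⟩
    · have := (mem_S32 y).mp h
      exact ⟨this.1, by rw [this.2]; norm_num⟩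
    · have := (mem_S48 y).mp h
      exact ⟨this.1, by rw [this.2]; norm_num⟩
    · have := (mem_S64 y).mp h
      exact ⟨this.1, by rw [this.2]⟩
  exact ⟨y, hy'.1, hy'.2, (rho_eq_iff hx hy'.1).mp hyq.symm⟩

/-- The cross through a lattice vector of norm 64 has 48 members. -/
theorem cross_card (x : GolayPt → ℤ) (hx : x ∈ leechLattice) (hxn : sqNorm x = 64) :
    (Cfsg.cross x).ncard = 48 := by
  classical
  have hset : Cfsg.cross x = ↑(S64.filter (fun y => rho y = rho x)) := by
    ext y
    rw [Finset.mem_coe, Finset.mem_filter, mem_S64]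
    unfold Cfsg.cross
    rw [Set.mem_ofPred_eq, hxn]
    constructor
    · rintro ⟨hy, hn, hz⟩
      exact ⟨⟨hy, hn⟩, ((rho_eq_iff hx hy).mpr hz).symm⟩
    · rintro ⟨⟨hy, hn⟩, hr⟩
      exact ⟨hy, hn, (rho_eq_iff hx hy).mp hr.symm⟩
  rw [hset, Set.ncard_coe_finset]
  apply counting.2
  rw [Finset.mem_image]
  exact ⟨x, (mem_S64 x).mpr ⟨hx, hxn⟩, rfl⟩

end Cfsg.Agent.Lib.helper28.LC
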