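import Cfsg.Agent.Lib.helper28.LeechOrtho
import Cfsg.Agent.Lib.helper28.StdCross

set_option autoImplicit false

namespace Cfsg.Agent.Lib.helper28.XI

open Cfsg
open Cfsg.Agent.Lib.helper28
open Cfsg.Agent.Lib.helper27
open Cfsg.Agent.Lib.helper28.LC
open Cfsg.Agent.Lib.helper28.SC
open scoped Pointwise

/-! The order of the automorphism group of the lattice. -/

theorem aux_arith {α : Type*} (s : Finset α) (h : 398034000 = ∑ _q ∈ s, 48) :
    s.card = 8292375 := by
  rw [Finset.sum_const, smul_eq_mul] at h
  omega

open Classical in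
theorem card_classes_sum : S64.card = ∑ _q ∈ S64.image rho, 48 := by
  have h := Finset.card_eq_sum_card_image rho S64
  rw [Finset.sum_congr rfl (fun q hq => counting.2 q hq)] at h
  exact h

open Classical in
/-- The number of classes modulo twice the lattice of the vectors of norm 64. -/
theorem card_classes : (S64.image rho).card = 8292375 := by
  have h := card_classes_sum
  rw [card_S64] at h
  exact aux_arith _ h

theorem lvl0_cases {x : GolayPt → ℤ} (hx : x ∈ leechLattice) (hn : sqNorm x = 64)
    (hev : ∀ i, x i % 2 = 0) (hne : resSet x 2 = ∅) : x ∈ E44 ∨ x ∈ E8 := by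
  have hc0 : (resSet x 2).card = 0 := by rw [hne]; rfl
  rcases even64 hx hn hev with h | h | h | h | h | h
  · have h2 : (resSet x 2).card = 16 :=
      congrArg (fun t : ℤ × ℕ × ℕ => t.2.1) (H16_props h).2.2
    omega
  · have h2 : (resSet x 2).card = 12 :=
      congrArg (fun t : ℤ × ℕ × ℕ => t.2.1) (E4b_props h).2.2
    omega
  · have h2 : (resSet x 2).card = 8 :=
      congrArg (fun t : ℤ × ℕ × ℕ => t.2.1) (E6_props h).2.2
    omega
  · have h2 : (resSet x 2).card = 8 :=
      congrArg (fun t : ℤ × ℕ × ℕ => t.2.1) (E7_props h).2.2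
    omega
  · exact Or.inl h
  · exact Or.inr h

theorem e8i_eq_single : e8i = Pi.single none 8 := by
  funext j
  unfold e8i pat
  rw [Pi.single_apply]
  by_cases hj : j = none
  · rw [if_pos (Finset.mem_singleton.mpr hj), if_pos hj]
  · rw [if_neg (fun h => hj (Finset.mem_singleton.mp h)), if_neg hj]

theorem e8i_mod (j : GolayPt) : e8i j % 4 = 0 := by
  unfold e8i pat
  split_ifs <;> decide

theorem e8i_of_ne {j : GolayPt} (hj : j ≠ none) : e8i j = 0 := by
  unfold e8i pat
  rw [if_neg (fun h => hj (Finset.mem_singleton.mp h))]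

/-- The vectors of norm 64 congruent to `(8, 0, ..., 0)` are those of the standard cross. -/
theorem cross_char {y : GolayPt → ℤ} (hy : y ∈ leechLattice) (hn : sqNorm y = 64)
    (h : rho y = rho e8i) : y ∈ stdCross := by
  obtain ⟨z, hz, hyz⟩ := (rho_eq_iff hy e8i_mem).mp h
  have hcoord : ∀ j, y j = e8i j + 2 * z j := by
    intro j
    have := congrFun hyz j
    rw [two_smul_apply] at this
    have e : (y - e8i) j = y j - e8i j := rfl
    rw [e] at this
    omega
  rcases parity_cases hz with hzev | hzodd
  · have h4 : ∀ j, y j % 4 = 0 := by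
      intro j
      have := hzev j
      have := e8i_mod j
      rw [hcoord j]
      omega
    have hyev : ∀ j, y j % 2 = 0 := fun j => by have := h4 j; omega
    have hR : resSet y 2 = ∅ := by
      ext j
      rw [mem_resSet]
      have := h4 j
      simp only [Finset.notMem_empty, iff_false]
      omega
    rcases lvl0_cases hy hn hyev hR with h44 | h8
    · exfalso
      unfold E44 at h44
      rw [mem_clsE] at h44
      obtain ⟨p, hp, s, hs, hye⟩ := h44
      rw [Finset.mem_powersetCard] at hp
      have hRz := (even_data hz hzev).2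
      have hsub1 : p.erase none ⊆ resSet z 2 := by
        intro j hj
        rw [Finset.mem_erase] at hj
        rw [mem_resSet]
        have h1 := hcoord j
        rw [e8i_of_ne hj.1, hye] at h1
        rcases tw_pat_mem 4 s hj.2 with h2 | h2 <;> rw [h2] at h1 <;> omega
      have hsub2 : resSet z 2 ⊆ insert none p := by
        intro j hj
        rw [mem_resSet] at hj
        rw [Finset.mem_insert]
        by_contra hcon
        rw [not_or] at hcon
        have h1 := hcoord j
        rw [e8i_of_ne hcon.1, hye, tw_pat_not_mem 4 s hcon.2] at h1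
        omega
      have hc1 := Finset.card_le_card hsub1
      have hc2 := Finset.card_le_card hsub2
      have hc3 := Finset.pred_card_le_card_erase (s := p) (a := none)
      have hc4 := Finset.card_insert_le none p
      rw [hp.2] at hc3 hc4
      rcases card_of_mem_supports hRz with h0 | h0 | h0 | h0 | h0 <;> omega
    · unfold E8 at h8
      rw [mem_clsE] at h8
      obtain ⟨p, hp, s, hs, hye⟩ := h8
      rw [Finset.mem_powersetCard] at hp
      obtain ⟨i, hpi⟩ := Finset.card_eq_one.mp hp.2
      by_cases his : i ∈ s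
      · refine ⟨i, -8, Or.inr rfl, ?_⟩
        funext j
        rw [hye, hpi, Pi.single_apply]
        unfold tw pat
        by_cases hj : j = i
        · rw [if_pos hj, if_pos (by rw [hj]; exact his), if_pos (Finset.mem_singleton.mpr hj)]
        · rw [if_neg hj, if_neg (fun h => hj (Finset.mem_singleton.mp h))]
          split_ifs <;> rfl
      · refine ⟨i, 8, Or.inl rfl, ?_⟩
        funext j
        rw [hye, hpi, Pi.single_apply]
        unfold tw pat
        by_cases hj : j = i
        · rw [if_pos hj, if_neg (by rw [hj]; exact his), if_pos (Finset.mem_singleton.mpr hj)]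
        · rw [if_neg hj, if_neg (fun h => hj (Finset.mem_singleton.mp h))]
          split_ifs <;> rfl
  · exfalso
    have h2 : ∀ j, y j % 4 = 2 := by
      intro j
      have := hzodd j
      have := e8i_mod j
      rw [hcoord j]
      omega
    have hyev : ∀ j, y j % 2 = 0 := fun j => by have := h2 j; omega
    have hR : resSet y 2 = Finset.univ := by
      ext j
      rw [mem_resSet]
      have := h2 j
      simp only [Finset.mem_univ, iff_true]
      omega
    have hle := card_resSet_le hyev
    rw [hn, hR, Finset.card_univ] at hle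
    have : Fintype.card GolayPt = 24 := rfl
    rw [this] at hle
    norm_num at hle

theorem rho_neg {x : GolayPt → ℤ} (hx : x ∈ leechLattice) : rho (-x) = rho x := by
  rw [rho_eq_iff (neg_mem hx) hx]
  refine ⟨-x, neg_mem hx, ?_⟩
  funext j
  rw [two_smul_apply]
  show -(x j) - x j = 2 * (-(x j))
  ring

theorem single_pos_mem (i : GolayPt) : (Pi.single i 8 : GolayPt → ℤ) ∈ leechLattice := by
  rw [← bVec_coe]
  exact (bVec i).2

theorem rho_single_pos (i : GolayPt) : rho (Pi.single i 8) = rho e8i := by
  by_cases hi : i = none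
  · rw [hi, e8i_eq_single]
  · rw [rho_eq_iff (single_pos_mem i) e8i_mem]
    refine ⟨tw {none} (pat 4 {none, i}), pat4_mem hi {none}
      (Finset.singleton_subset_iff.mpr (Finset.mem_insert_self _ _)), ?_⟩
    funext j
    rw [two_smul_apply]
    show (Pi.single i 8 : GolayPt → ℤ) j - e8i j = 2 * tw {none} (pat 4 {none, i}) j
    rw [Pi.single_apply]
    unfold e8i tw pat
    by_cases hj1 : j = none
    · subst hj1
      simp [Ne.symm hi]
    · by_cases hj2 : j = i
      · subst hj2
        simp [hj1]
      · simp [hj1, hj2]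

theorem rho_stdCross {y : GolayPt → ℤ} (hy : y ∈ stdCross) : rho y = rho e8i := by
  obtain ⟨i, s, hs, rfl⟩ := hy
  rcases hs with rfl | rfl
  · exact rho_single_pos i
  · have e : (Pi.single i (-8) : GolayPt → ℤ) = -(Pi.single i 8) := by
      funext j
      show (Pi.single i (-8) : GolayPt → ℤ) j = -((Pi.single i 8 : GolayPt → ℤ) j)
      rw [Pi.single_apply, Pi.single_apply]
      split_ifs <;> rfl
    rw [e, rho_neg (single_pos_mem i)]
    exact rho_single_pos i

theorem sqNorm_stdCross {y : GolayPt → ℤ} (hy : y ∈ stdCross) : sqNorm y = 64 := by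
  obtain ⟨i, s, hs, rfl⟩ := hy
  unfold sqNorm
  rw [Finset.sum_eq_single i]
  · rw [Pi.single_eq_same]
    rcases hs with rfl | rfl <;> norm_num
  · intro j _ hj
    rw [Pi.single_eq_of_ne hj]
    norm_num
  · intro h
    exact absurd (Finset.mem_univ _) h

/-- Automorphisms respect congruence modulo twice the lattice. -/
theorem rho_smul (g : ↥Co0) {x y : ↥leechLattice}
    (h : rho (x : GolayPt → ℤ) = rho (y : GolayPt → ℤ)) :
    rho ((g • x : ↥leechLattice) : GolayPt → ℤ) = rho ((g • y : ↥leechLattice) : GolayPt → ℤ) := by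
  obtain ⟨z, hz, hxy⟩ := (rho_eq_iff x.2 y.2).mp h
  rw [rho_eq_iff (g • x).2 (g • y).2]
  refine ⟨((g • (⟨z, hz⟩ : ↥leechLattice) : ↥leechLattice) : GolayPt → ℤ),
    (g • (⟨z, hz⟩ : ↥leechLattice)).2, ?_⟩
  have e1 : x - y = (⟨z, hz⟩ : ↥leechLattice) + ⟨z, hz⟩ := by
    apply Subtype.ext
    show (x : GolayPt → ℤ) - (y : GolayPt → ℤ) = z + z
    rw [hxy, two_smul]
  have e2 : g • x - g • y = g • (⟨z, hz⟩ : ↥leechLattice) + g • (⟨z, hz⟩ : ↥leechLattice) := by
    rw [← co0_sub, e1, co0_add]
  have e3 := congrArg (Subtype.val) e2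
  rw [two_smul]
  exact e3

/-- The base point `(8, 0, ..., 0)` as a lattice vector. -/
def E8i : ↥leechLattice := ⟨e8i, e8i_mem⟩

theorem presCross_iff (k : ↥Co0) :
    PresCross k ↔ rho ((k • E8i : ↥leechLattice) : GolayPt → ℤ) = rho e8i := by
  constructor
  · intro hk
    apply rho_stdCross
    apply hk E8i
    show e8i ∈ stdCross
    rw [e8i_eq_single]
    exact ⟨none, 8, Or.inl rfl, rfl⟩
  · intro hk v hv
    have h1 : rho (v : GolayPt → ℤ) = rho (E8i : GolayPt → ℤ) := rho_stdCross hv
    have h2 := rho_smul k h1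
    rw [hk] at h2
    exact cross_char (k • v).2 (by rw [co0_norm]; exact sqNorm_stdCross hv) h2

/-- The stabiliser of the standard cross, as a subgroup. -/
def Hcross : Subgroup ↥Co0 where
  carrier := {k | rho ((k • E8i : ↥leechLattice) : GolayPt → ℤ) = rho e8i}
  one_mem' := by
    show rho (((1 : ↥Co0) • E8i : ↥leechLattice) : GolayPt → ℤ) = rho e8i
    rw [one_smul]
    rfl
  mul_mem' := by
    intro a b ha hb
    show rho (((a * b) • E8i : ↥leechLattice) : GolayPt → ℤ) = rho e8i
    rw [mul_smul]
    have h := rho_smul a (x := b • E8i) (y := E8i) hb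
    exact h.trans ha
  inv_mem' := by
    intro a ha
    show rho ((a⁻¹ • E8i : ↥leechLattice) : GolayPt → ℤ) = rho e8i
    have h := rho_smul a⁻¹ (x := a • E8i) (y := E8i) ha
    rw [inv_smul_smul] at h
    exact h.symm

theorem mem_Hcross (k : ↥Co0) :
    k ∈ Hcross ↔ rho ((k • E8i : ↥leechLattice) : GolayPt → ℤ) = rho e8i := Iff.rfl

theorem card_Hcross : Nat.card ↥Hcross = 4096 * 244823040 := by
  rw [← card_cross_stab]
  exact Nat.card_congr (Equiv.subtypeEquivRight (fun k => ((mem_Hcross k).trans (presCross_iff k).symm)))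

/-- The class of the image of the base point, on cosets. -/
noncomputable def clsMap (q : ↥Co0 ⧸ Hcross) : Q2 :=
  Quotient.liftOn' q (fun g => rho ((g • E8i : ↥leechLattice) : GolayPt → ℤ)) (by
    intro a b hab
    rw [QuotientGroup.leftRel_apply] at hab
    have h := rho_smul a (x := (a⁻¹ * b) • E8i) (y := E8i) ((mem_Hcross _).mp hab)
    rw [← mul_smul, mul_inv_cancel_left] at h
    exact h.symm)

theorem clsMap_mk (g : ↥Co0) :
    clsMap (QuotientGroup.mk g) = rho ((g • E8i : ↥leechLattice) : GolayPt → ℤ) := rfl

theorem clsMap_injective : Function.Injective clsMap := by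
  intro q q'
  induction q using QuotientGroup.induction_on with
  | H a =>
    induction q' using QuotientGroup.induction_on with
    | H b =>
      intro h
      rw [clsMap_mk, clsMap_mk] at h
      rw [QuotientGroup.eq, mem_Hcross]
      have h2 := rho_smul a⁻¹ (x := a • E8i) (y := b • E8i) h
      rw [inv_smul_smul, ← mul_smul] at h2
      exact h2.symm

open Classical in
theorem range_clsMap : Set.range clsMap = ↑(S64.image rho) := by
  ext q
  rw [Finset.mem_coe, Finset.mem_image]
  constructor
  · rintro ⟨c, rfl⟩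
    induction c using QuotientGroup.induction_on with
    | H a =>
      exact ⟨_, (mem_S64 _).mpr ⟨(a • E8i).2, by rw [co0_norm]; exact sqNorm_e8i⟩, rfl⟩
  · rintro ⟨y, hy, rfl⟩
    rw [mem_S64] at hy
    obtain ⟨g, hg⟩ := transitive64 E8i ⟨y, hy.1⟩ sqNorm_e8i hy.2
    refine ⟨QuotientGroup.mk g, ?_⟩
    rw [clsMap_mk, hg]

theorem index_Hcross : Hcross.index = 8292375 := by
  classical
  rw [Subgroup.index, ← Nat.card_range_of_injective clsMap_injective, range_clsMap,
    Nat.card_coe_set_eq, Set.ncard_coe_finset, card_classes]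

/-- Statement S0397. -/
theorem card_Co0 : Nat.card ↥Co0 = 8315553613086720000 := by
  have h := Subgroup.card_mul_index Hcross
  rw [card_Hcross, index_Hcross] at h
  rw [← h]

end Cfsg.Agent.Lib.helper28.XI
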