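import Cfsg.Agent.Lib.helper28.LeechTrans3
import Cfsg.Agent.Lib.helper28.LeechCensus

set_option autoImplicit false

namespace Cfsg.Agent.Lib.helper28.XI

open Cfsg
open Cfsg.Agent.Lib.helper28
open Cfsg.Agent.Lib.helper27
open Cfsg.Agent.Lib.helper28.LC
open scoped Pointwise

/-! Orthogonal pairs of minimal vectors: transitivity of the stabiliser of a minimal vector. -/

/-- The vector `(8, 0, ..., 0)`. -/
def e8i : GolayPt → ℤ := pat 8 {none}

theorem e8i_mem_E8 : e8i ∈ E8 := by
  unfold E8
  rw [mem_clsE]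
  exact ⟨{none}, Finset.mem_powersetCard.mpr ⟨Finset.subset_univ _, Finset.card_singleton _⟩, ∅,
    Finset.empty_mem_powerset _, (tw_empty _).symm⟩

theorem e8i_mem : e8i ∈ leechLattice := (E8_props e8i_mem_E8).1

theorem sqNorm_e8i : sqNorm e8i = 64 := (E8_props e8i_mem_E8).2.1

theorem dot_e8i (a : GolayPt → ℤ) : dotInt e8i a = 8 * a none := by
  unfold dotInt e8i pat
  rw [Finset.sum_eq_single none]
  · rw [if_pos (Finset.mem_singleton_self _)]
  · intro j _ hj
    rw [if_neg (fun h => hj (Finset.mem_singleton.mp h)), zero_mul]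
  · intro h
    exact absurd (Finset.mem_univ _) h

theorem tw_e8i {c : Finset GolayPt} (hn : none ∉ c) : tw c e8i = e8i := by
  funext j
  unfold tw e8i pat
  by_cases hj : j = none
  · subst hj
    rw [if_neg hn]
  · rw [if_neg (fun h => hj (Finset.mem_singleton.mp h))]
    split_ifs <;> rfl

theorem perm_e8i {σ : Equiv.Perm GolayPt} (hn : σ none = none) : (fun i => e8i (σ i)) = e8i := by
  funext j
  unfold e8i pat
  have hiff : σ j ∈ ({none} : Finset GolayPt) ↔ j ∈ ({none} : Finset GolayPt) := by
    rw [Finset.mem_singleton, Finset.mem_singleton]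
    constructor
    · intro h
      exact σ.injective (h.trans hn.symm)
    · intro h
      rw [h, hn]
  by_cases hj : j ∈ ({none} : Finset GolayPt)
  · rw [if_pos hj, if_pos (hiff.mpr hj)]
  · rw [if_neg hj, if_neg (fun h => hj (hiff.mp h))]

/-- Related by an automorphism fixing `(8, 0, ..., 0)`. -/
def RelE (a a' : GolayPt → ℤ) : Prop :=
  ∃ (ha : a ∈ leechLattice) (ha' : a' ∈ leechLattice) (g : ↥Co0),
    g • (⟨e8i, e8i_mem⟩ : ↥leechLattice) = ⟨e8i, e8i_mem⟩ ∧
      g • (⟨a, ha⟩ : ↥leechLattice) = ⟨a', ha'⟩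

theorem relE_trans {x y z : GolayPt → ℤ} (h1 : RelE x y) (h2 : RelE y z) : RelE x z := by
  obtain ⟨hx, hy, g, hge, hg⟩ := h1
  obtain ⟨hy', hz, g', hge', hg'⟩ := h2
  exact ⟨hx, hz, g' * g, by rw [mul_smul, hge, hge'], by rw [mul_smul, hg, hg']⟩

theorem relE_symm {x y : GolayPt → ℤ} (h : RelE x y) : RelE y x := by
  obtain ⟨hx, hy, g, hge, hg⟩ := h
  refine ⟨hy, hx, g⁻¹, ?_, ?_⟩
  · conv_lhs => rw [← hge]
    rw [inv_smul_smul]
  · rw [← hg, inv_smul_smul]

theorem relE_sign {a : GolayPt → ℤ} (ha : a ∈ leechLattice) {c : Finset GolayPt} (hc : c ∈ GC)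
    (hn : none ∉ c) : RelE a (tw c a) :=
  ⟨ha, signChange_mem_leechLattice ha hc, ⟨signPerm c hc, signPerm_mem c hc⟩,
    Subtype.ext (tw_e8i hn), Subtype.ext rfl⟩

theorem relE_perm {a : GolayPt → ℤ} (ha : a ∈ leechLattice) {σ : Equiv.Perm GolayPt}
    (hσ : σ ∈ M24) (hn : σ none = none) : RelE a (fun i => a (σ i)) :=
  ⟨ha, Cfsg.Agent.S0432.result σ hσ a ha, ⟨coordPerm σ hσ, coordPerm_mem σ hσ⟩,
    Subtype.ext (perm_e8i hn), Subtype.ext rfl⟩

theorem exists_code_sep {p q : GolayPt} (hpq : p ≠ q) : ∃ c ∈ GC, p ∈ c ∧ q ∉ c := by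
  obtain ⟨σ, hσ, hσp, hσq⟩ := exists_mem_M24_apply₂ (a := pt 0) (b := none) (c := p) (d := q)
    (by decide) hpq
  refine ⟨σ • setOf o0, (smul_mem_octads hσ setOf_o0_mem_octads).1, ?_, ?_⟩
  · rw [mem_smul_iff, ← hσp]
    simp only [Equiv.Perm.coe_inv, Equiv.symm_apply_apply]
    rw [mem_setOf]
    decide
  · rw [mem_smul_iff, ← hσq]
    simp only [Equiv.Perm.coe_inv, Equiv.symm_apply_apply]
    rw [mem_setOf]
    decide

theorem pat4_mem {k : GolayPt} (hk : k ≠ none) (s : Finset GolayPt) (hs : s ⊆ {none, k}) :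
    tw s (pat 4 {none, k}) ∈ leechLattice := by
  have hE : tw s (pat 4 {none, k}) ∈ E0 := by
    unfold E0
    rw [mem_clsE]
    exact ⟨{none, k}, Finset.mem_powersetCard.mpr ⟨Finset.subset_univ _,
      Finset.card_pair hk.symm⟩, s, Finset.mem_powerset.mpr hs, rfl⟩
  exact (E0_props hE).1

/-- The reference vector `(4, 4, 0, ..., 0)`. -/
def a44 : GolayPt → ℤ := pat 4 {none, pt 0}

theorem relE_canon_pos {k : GolayPt} (hk : k ≠ none) : RelE (pat 4 {none, k}) a44 := by
  have hL : pat 4 {none, k} ∈ leechLattice := by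
    have := pat4_mem hk ∅ (Finset.empty_subset _)
    rw [tw_empty] at this
    exact this
  obtain ⟨σ, hσ, hσn, hσk⟩ := exists_mem_M24_apply₂ (a := none) (b := pt 0) (c := none) (d := k)
    (by decide) hk.symm
  have h := relE_perm hL hσ hσn
  have he : (fun i => pat 4 {none, k} (σ i)) = a44 := by
    funext j
    unfold a44 pat
    have hiff : σ j ∈ ({none, k} : Finset GolayPt) ↔ j ∈ ({none, pt 0} : Finset GolayPt) := by
      rw [Finset.mem_insert, Finset.mem_singleton, Finset.mem_insert, Finset.mem_singleton]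
      constructor
      · rintro (h | h)
        · exact Or.inl (σ.injective (h.trans hσn.symm))
        · exact Or.inr (σ.injective (h.trans hσk.symm))
      · rintro (h | h)
        · exact Or.inl (by rw [h, hσn])
        · exact Or.inr (by rw [h, hσk])
    by_cases hj : j ∈ ({none, pt 0} : Finset GolayPt)
    · rw [if_pos hj, if_pos (hiff.mpr hj)]
    · rw [if_neg hj, if_neg (fun h => hj (hiff.mp h))]
  rw [he] at h
  exact h

theorem relE_canon_neg {k : GolayPt} (hk : k ≠ none) : RelE (tw {k} (pat 4 {none, k})) a44 := by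
  have hL : tw {k} (pat 4 {none, k}) ∈ leechLattice :=
    pat4_mem hk {k} (by
      intro j hj
      rw [Finset.mem_singleton] at hj
      rw [hj]
      exact Finset.mem_insert_of_mem (Finset.mem_singleton_self _))
  obtain ⟨c, hc, hkc, hnc⟩ := exists_code_sep hk
  have h := relE_sign hL hc hnc
  have he : tw c (tw {k} (pat 4 {none, k})) = pat 4 {none, k} := by
    funext j
    unfold tw pat
    by_cases hj1 : j = k
    · subst hj1
      simp [hkc]
    · by_cases hj2 : j = none
      · subst hj2
        simp [hnc, hj1]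
      · simp [hj1, hj2]
  rw [he] at h
  exact relE_trans h (relE_canon_pos hk)

theorem shape_of_dot {a : GolayPt → ℤ} (ha : a ∈ leechLattice) (hn : sqNorm a = 32)
    (hd : dotInt e8i a = 32) :
    ∃ k, k ≠ none ∧ (a = pat 4 {none, k} ∨ a = tw {k} (pat 4 {none, k})) := by
  rw [dot_e8i] at hd
  have h4 : a none = 4 := by omega
  rcases parity_cases ha with hev | hodd
  · rcases even32 ha hn hev with h | h
    · exfalso
      unfold E1 at h
      rw [mem_clsE] at h
      obtain ⟨o, ho, s, hs, rfl⟩ := h
      by_cases hno : none ∈ o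
      · rcases tw_pat_mem 2 s hno with h2 | h2 <;> rw [h2] at h4 <;> norm_num at h4
      · rw [tw_pat_not_mem 2 s hno] at h4
        norm_num at h4
    · unfold E0 at h
      rw [mem_clsE] at h
      obtain ⟨p, hp, s, hs, rfl⟩ := h
      rw [Finset.mem_powersetCard] at hp
      rw [Finset.mem_powerset] at hs
      have hno : none ∈ p := by
        by_contra hno
        rw [tw_pat_not_mem 4 s hno] at h4
        norm_num at h4
      have hns : none ∉ s := by
        intro hns
        have : tw s (pat 4 p) none = -4 := by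
          unfold tw pat
          rw [if_pos hns, if_pos hno]
        rw [this] at h4
        norm_num at h4
      obtain ⟨x, y, hxy, rfl⟩ := Finset.card_eq_two.mp hp.2
      have key : ∀ k : GolayPt, k ≠ none → ({x, y} : Finset GolayPt) = {none, k} →
          ∃ k, k ≠ none ∧ (tw s (pat 4 {x, y}) = pat 4 {none, k} ∨
            tw s (pat 4 {x, y}) = tw {k} (pat 4 {none, k})) := by
        intro k hk hpe
        refine ⟨k, hk, ?_⟩
        rw [hpe] at hs ⊢
        by_cases hks : k ∈ s
        · right
          have : s = {k} := by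
            ext j
            rw [Finset.mem_singleton]
            constructor
            · intro hj
              have := hs hj
              rw [Finset.mem_insert, Finset.mem_singleton] at this
              rcases this with h | h
              · rw [h] at hj
                exact absurd hj hns
              · exact h
            · intro hj
              rw [hj]
              exact hks
          rw [this]
        · left
          have : s = ∅ := by
            ext j
            simp only [Finset.notMem_empty, iff_false]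
            intro hj
            have := hs hj
            rw [Finset.mem_insert, Finset.mem_singleton] at this
            rcases this with h | h
            · rw [h] at hj
              exact absurd hj hns
            · rw [h] at hj
              exact absurd hj hks
          rw [this, tw_empty]
      rw [Finset.mem_insert, Finset.mem_singleton] at hno
      rcases hno with h | h
      · exact key y (fun hy => hxy (h.symm.trans hy.symm) |> False.elim) (by rw [← h])
      · exact key x (fun hx => hxy (hx.trans h)) (by rw [← h, Finset.pair_comm])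
  · have := hodd none
    omega

theorem relE_of_dot {a : GolayPt → ℤ} (ha : a ∈ leechLattice) (hn : sqNorm a = 32)
    (hd : dotInt e8i a = 32) : RelE a a44 := by
  obtain ⟨k, hk, h | h⟩ := shape_of_dot ha hn hd
  · rw [h]
    exact relE_canon_pos hk
  · rw [h]
    exact relE_canon_neg hk

theorem dot_add_self_of_ortho {v w : GolayPt → ℤ} (hv : sqNorm v = 32) (hd : dotInt v w = 0) :
    dotInt (v + w) v = 32 := by
  rw [dot_comm, dot_add_right, dot_self, hv, hd]
  norm_num

/-- Statement S1576 (in the stronger form without the sign). -/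
theorem ortho_trans (v w w' : ↥leechLattice) (hv : sqNorm (v : GolayPt → ℤ) = 32)
    (hw : sqNorm (w : GolayPt → ℤ) = 32) (hw' : sqNorm (w' : GolayPt → ℤ) = 32)
    (hd : dotInt (v : GolayPt → ℤ) (w : GolayPt → ℤ) = 0)
    (hd' : dotInt (v : GolayPt → ℤ) (w' : GolayPt → ℤ) = 0) :
    ∃ g : ↥Co0, g • v = v ∧ g • w = w' := by
  have hu : sqNorm ((v + w : ↥leechLattice) : GolayPt → ℤ) = 64 := by
    show sqNorm ((v : GolayPt → ℤ) + (w : GolayPt → ℤ)) = 64
    rw [sqNorm_add, hv, hw, hd]
    norm_num
  have hu' : sqNorm ((v + w' : ↥leechLattice) : GolayPt → ℤ) = 64 := by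
    show sqNorm ((v : GolayPt → ℤ) + (w' : GolayPt → ℤ)) = 64
    rw [sqNorm_add, hv, hw', hd']
    norm_num
  obtain ⟨g1, hg1⟩ := transitive64 (v + w) ⟨e8i, e8i_mem⟩ hu sqNorm_e8i
  obtain ⟨g2, hg2⟩ := transitive64 (v + w') ⟨e8i, e8i_mem⟩ hu' sqNorm_e8i
  have ha : RelE ((g1 • v : ↥leechLattice) : GolayPt → ℤ) a44 := by
    apply relE_of_dot (g1 • v).2 (by rw [co0_norm]; exact hv)
    have h := co0_dot g1 (v + w) v
    rw [hg1] at h
    rw [h]
    exact dot_add_self_of_ortho hv hd
  have ha' : RelE ((g2 • v : ↥leechLattice) : GolayPt → ℤ) a44 := by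
    apply relE_of_dot (g2 • v).2 (by rw [co0_norm]; exact hv)
    have h := co0_dot g2 (v + w') v
    rw [hg2] at h
    rw [h]
    exact dot_add_self_of_ortho hv hd'
  obtain ⟨h1, h2, m, hme, hma⟩ := relE_trans ha (relE_symm ha')
  have hma' : m • (g1 • v) = g2 • v := hma
  have key1 : (g2⁻¹ * m * g1) • (v + w) = v + w' := by
    rw [mul_smul, mul_smul, hg1, hme, ← hg2, inv_smul_smul]
  have key2 : (g2⁻¹ * m * g1) • v = v := by
    rw [mul_smul, mul_smul, hma', inv_smul_smul]
  refine ⟨g2⁻¹ * m * g1, key2, ?_⟩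
  have e1 : w = (v + w) - v := (add_sub_cancel_left v w).symm
  have e2 : w' = (v + w') - v := (add_sub_cancel_left v w').symm
  rw [e1, co0_sub, key1, key2, ← e2]

end Cfsg.Agent.Lib.helper28.XI
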