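import Cfsg.Agent.Lib.helper28.LeechTrans2
import Cfsg.Agent.Lib.helper28.LeechMod2
import Cfsg.Agent.Lib.helper28.GolayProf

set_option autoImplicit false

namespace Cfsg.Agent.Lib.helper28.XI

open Cfsg
open Cfsg.Agent.Lib.helper28
open Cfsg.Agent.Lib.helper27
open Cfsg.Agent.Lib.helper28.LC
open scoped Pointwise

/-! Decompositions of a vector of norm 48 as a sum of two vectors of norm 32. -/

theorem setOf_top : setOf 8388608 = {none} := by
  ext p
  rw [mem_setOf, Finset.mem_singleton]
  revert p
  decide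

theorem count_oct_none :
    countLt (fun n => profF [(16777215, 8), (8388608, 1)] (cwF n)) 4096 = 253 := by
  decide +kernel

/-- There are 253 octads through a point. -/
theorem ncard_octads_none : {o : Finset GolayPt | o ∈ octads ∧ none ∈ o}.ncard = 253 := by
  have key : ∀ o : Finset GolayPt, (o ∈ octads ∧ none ∈ o) ↔
      (o ∈ supports (golayCode : Set (GolayPt → ZMod 2)) ∧
        HasProf (profSets 1 [(16777215, 8), (8388608, 1)]) o) := by
    intro o
    rw [profSets_cons, profSets_cons, profSets_nil, hasProf_cons, hasProf_cons, card_inter_full,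
      one_smul, setOf_top]
    have hsub : none ∈ o ↔ (o ∩ {none}).card = 1 := by
      constructor
      · intro h
        rw [Finset.inter_singleton_of_mem h]
        rfl
      · intro h
        by_contra hn
        rw [Finset.inter_singleton_of_notMem hn] at h
        simp at h
    rw [hsub]
    exact ⟨fun ⟨⟨h1, h2⟩, h3⟩ => ⟨h1, h2, h3, hasProf_nil _⟩,
      fun ⟨h1, h2, h3, _⟩ => ⟨⟨h1, h2⟩, h3⟩⟩
  have hlt : ∀ c ∈ [(16777215, 8), (8388608, 1)], c.1 < 2 ^ 24 := by
    intro c hc
    simp only [List.mem_cons, List.not_mem_nil, or_false] at hc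
    rcases hc with rfl | rfl <;> decide
  rw [Set.ext key]
  exact (ncard_prof M24.one_mem _ hlt).trans count_oct_none

/-- The octads through the point `none`. -/
def octI : Finset (Finset GolayPt) := octadFinset.filter (fun o => none ∈ o)

theorem mem_octI (o : Finset GolayPt) : o ∈ octI ↔ o ∈ octads ∧ none ∈ o := by
  unfold octI
  rw [Finset.mem_filter, mem_octadFinset]

theorem card_octI : octI.card = 253 := by
  rw [← ncard_octads_none, ← Set.ncard_coe_finset]
  congr 1
  ext o
  rw [Finset.mem_coe, mem_octI]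
  rfl

theorem tw_empty (a : GolayPt → ℤ) : tw ∅ a = a := by
  funext j
  unfold tw
  rw [if_neg (Finset.notMem_empty j)]

theorem sum_pt1_on (v : ℤ) (T c : Finset GolayPt) :
    ∑ j ∈ c, pt1 v T j = c.card + (c ∩ T).card * (v - 1) := by
  classical
  unfold pt1
  have h : ∀ j ∈ c, (if j ∈ T then v else 1) = 1 + (if j ∈ T then (v - 1) else 0) := by
    intro j _
    split_ifs <;> ring
  rw [Finset.sum_congr rfl h, Finset.sum_add_distrib, Finset.sum_const, Finset.sum_ite_mem,
    Finset.sum_const]
  simp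

/-- The index type of the decompositions. -/
abbrev Idx : Type :=
  {j : GolayPt // j ≠ none} ⊕ ↥octI ⊕ {j : GolayPt // j ≠ none} ⊕ ↥octI

theorem card_ne_none : Fintype.card {j : GolayPt // j ≠ none} = 23 := by
  rw [Fintype.card_subtype_compl, Fintype.card_subtype_eq]
  rfl

theorem card_Idx : Nat.card Idx = 552 := by
  rw [Nat.card_eq_fintype_card, Fintype.card_sum, Fintype.card_sum, Fintype.card_sum,
    Fintype.card_coe, card_octI, card_ne_none]

/-- The vectors of norm 32 having inner product 24 with `(5, 1, ..., 1)`. -/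
def Fdec : Idx → (GolayPt → ℤ)
  | Sum.inl a => pat 4 {none, a.1}
  | Sum.inr (Sum.inl o) => pat 2 o.1
  | Sum.inr (Sum.inr (Sum.inl k)) => pt1 (-3) {k.1}
  | Sum.inr (Sum.inr (Sum.inr o)) => tw o.1 (pt1 (-3) {none})

/-- The value at `none` distinguishes the four families. -/
def kind : Idx → ℤ
  | Sum.inl _ => 4
  | Sum.inr (Sum.inl _) => 2
  | Sum.inr (Sum.inr (Sum.inl _)) => 1
  | Sum.inr (Sum.inr (Sum.inr _)) => 3

theorem Fdec_props (i : Idx) : Fdec i ∈ leechLattice ∧ sqNorm (Fdec i) = 32 ∧
    ∑ j, Fdec i j + 4 * Fdec i none = 24 ∧ Fdec i none = kind i := by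
  rcases i with a | o | k | o
  · have hv : pat 4 {none, a.1} none = 4 := by
      unfold pat
      rw [if_pos (Finset.mem_insert_self _ _)]
    have hE : pat 4 {none, a.1} ∈ E0 := by
      unfold E0
      rw [mem_clsE]
      exact ⟨{none, a.1}, Finset.mem_powersetCard.mpr ⟨Finset.subset_univ _,
        Finset.card_pair a.2.symm⟩, ∅, Finset.empty_mem_powerset _, (tw_empty _).symm⟩
    refine ⟨(E0_props hE).1, (E0_props hE).2.1, ?_, hv⟩
    show ∑ j, pat 4 {none, a.1} j + 4 * pat 4 {none, a.1} none = 24
    rw [sum_pat, hv, Finset.card_pair a.2.symm]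
    norm_num
  · have ho := (mem_octI o.1).mp o.2
    have hv : pat 2 o.1 none = 2 := by
      unfold pat
      rw [if_pos ho.2]
    have hE : pat 2 o.1 ∈ E1 := by
      unfold E1
      rw [mem_clsE]
      exact ⟨o.1, (mem_octadFinset _).mpr ho.1, ∅, mem_par.mpr ⟨Finset.empty_subset _, rfl⟩,
        (tw_empty _).symm⟩
    refine ⟨(E1_props hE).1, (E1_props hE).2.1, ?_, hv⟩
    show ∑ j, pat 2 o.1 j + 4 * pat 2 o.1 none = 24
    rw [sum_pat, hv, ho.1.2]
    norm_num
  · have hv : pt1 (-3) {k.1} none = 1 := by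
      unfold pt1
      rw [if_neg (fun h => k.2 (Finset.mem_singleton.mp h).symm)]
    have hE : pt1 (-3) {k.1} ∈ clsO (-3) 1 := by
      rw [mem_clsO]
      exact ⟨∅, empty_mem_supports, {k.1}, Finset.card_singleton _, (tw_empty _).symm⟩
    refine ⟨(O3_props hE).1, (O3_props hE).2.1, ?_, hv⟩
    show ∑ j, pt1 (-3) {k.1} j + 4 * pt1 (-3) {k.1} none = 24
    rw [sum_pt1, hv, Finset.card_singleton]
    norm_num
  · have ho := (mem_octI o.1).mp o.2
    have hv : tw o.1 (pt1 (-3) {none}) none = 3 := by
      unfold tw pt1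
      rw [if_pos ho.2, if_pos (Finset.mem_singleton_self _)]
      norm_num
    have hE : tw o.1 (pt1 (-3) {none}) ∈ clsO (-3) 1 := by
      rw [mem_clsO]
      exact ⟨o.1, ho.1.1, {none}, Finset.card_singleton _, rfl⟩
    refine ⟨(O3_props hE).1, (O3_props hE).2.1, ?_, hv⟩
    show ∑ j, tw o.1 (pt1 (-3) {none}) j + 4 * tw o.1 (pt1 (-3) {none}) none = 24
    rw [sum_tw, sum_pt1, sum_pt1_on, hv, Finset.card_singleton, ho.1.2,
      Finset.inter_singleton_of_mem ho.2, Finset.card_singleton]
    norm_num

theorem Fdec_injective : Function.Injective Fdec := by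
  intro i i' h
  have hk : kind i = kind i' := by
    rw [← (Fdec_props i).2.2.2, ← (Fdec_props i').2.2.2, h]
  rcases i with a | o | k | o <;> rcases i' with a' | o' | k' | o' <;>
    try (exfalso; revert hk; unfold kind; norm_num; done)
  · have h1 : pat 4 {none, a.1} = pat 4 {none, a'.1} := h
    have h2 := congrFun h1 a.1
    unfold pat at h2
    rw [if_pos (by simp)] at h2
    by_cases hm : a.1 ∈ ({none, a'.1} : Finset GolayPt)
    · rw [Finset.mem_insert, Finset.mem_singleton] at hm
      rcases hm with hm | hm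
      · exact absurd hm a.2
      · rw [Subtype.ext hm]
    · rw [if_neg hm] at h2
      norm_num at h2
  · have h1 : pat 2 o.1 = pat 2 o'.1 := h
    have : o.1 = o'.1 := by
      ext j
      have h2 := congrFun h1 j
      unfold pat at h2
      by_cases hj : j ∈ o.1 <;> by_cases hj' : j ∈ o'.1
      · exact ⟨fun _ => hj', fun _ => hj⟩
      · rw [if_pos hj, if_neg hj'] at h2; norm_num at h2
      · rw [if_neg hj, if_pos hj'] at h2; norm_num at h2
      · exact ⟨fun hh => absurd hh hj, fun hh => absurd hh hj'⟩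
    rw [Subtype.ext this]
  · have h1 : pt1 (-3) {k.1} = pt1 (-3) {k'.1} := h
    have h2 := congrFun h1 k.1
    unfold pt1 at h2
    rw [if_pos (Finset.mem_singleton_self _)] at h2
    by_cases hm : k.1 ∈ ({k'.1} : Finset GolayPt)
    · rw [Subtype.ext (Finset.mem_singleton.mp hm)]
    · rw [if_neg hm] at h2
      norm_num at h2
  · have h1 : tw o.1 (pt1 (-3) {none}) = tw o'.1 (pt1 (-3) {none}) := h
    have : o.1 = o'.1 := by
      rw [← resSet_tw (pt1_mod (v := -3) (by decide) {none}) o.1, h1,
        resSet_tw (pt1_mod (v := -3) (by decide) {none}) o'.1]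
    rw [Subtype.ext this]

theorem Fdec_surj {v : GolayPt → ℤ} (hv : v ∈ leechLattice) (hn : sqNorm v = 32)
    (hs : ∑ j, v j + 4 * v none = 24) : ∃ i, Fdec i = v := by
  rcases parity_cases hv with hev | hodd
  · rcases even32 hv hn hev with h | h
    · unfold E1 at h
      rw [mem_clsE] at h
      obtain ⟨o, ho, s, hs', rfl⟩ := h
      rw [mem_octadFinset] at ho
      rw [mem_par] at hs'
      rw [sum_tw_pat 2 o s hs'.1, ho.2] at hs
      by_cases hno : none ∈ o
      · rcases tw_pat_mem 2 s hno with h2 | h2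
        · rw [h2] at hs
          have h0 : s.card = 0 := by omega
          rw [Finset.card_eq_zero] at h0
          subst h0
          refine ⟨Sum.inr (Sum.inl ⟨o, (mem_octI o).mpr ⟨ho, hno⟩⟩), ?_⟩
          exact (tw_empty _).symm
        · rw [h2] at hs
          omega
      · rw [tw_pat_not_mem 2 s hno] at hs
        omega
    · unfold E0 at h
      rw [mem_clsE] at h
      obtain ⟨p, hp, s, hs', rfl⟩ := h
      rw [Finset.mem_powersetCard] at hp
      rw [Finset.mem_powerset] at hs'
      rw [sum_tw_pat 4 p s hs', hp.2] at hs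
      by_cases hno : none ∈ p
      · rcases tw_pat_mem 4 s hno with h2 | h2
        · rw [h2] at hs
          have h0 : s.card = 0 := by omega
          rw [Finset.card_eq_zero] at h0
          subst h0
          obtain ⟨a, b, hab, rfl⟩ := Finset.card_eq_two.mp hp.2
          rw [Finset.mem_insert, Finset.mem_singleton] at hno
          rcases hno with rfl | rfl
          · refine ⟨Sum.inl ⟨b, fun h => hab h.symm⟩, ?_⟩
            exact (tw_empty _).symm
          · refine ⟨Sum.inl ⟨a, hab⟩, ?_⟩
            show pat 4 {none, a} = _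
            rw [Finset.pair_comm]
            exact (tw_empty _).symm
        · rw [h2] at hs
          omega
      · rw [tw_pat_not_mem 4 s hno] at hs
        omega
  · have h := odd32 hv hn hodd
    rw [mem_clsO] at h
    obtain ⟨c, hc, T, hT, rfl⟩ := h
    obtain ⟨k, rfl⟩ := Finset.card_eq_one.mp hT
    rw [sum_tw, sum_pt1, sum_pt1_on, Finset.card_singleton] at hs
    have hcard := card_of_mem_supports hc
    have hval : pt1 (-3) {k} none = if none = k then -3 else 1 := by
      unfold pt1
      simp only [Finset.mem_singleton]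
    by_cases h1 : k ∈ c
    · rw [Finset.inter_singleton_of_mem h1, Finset.card_singleton] at hs
      have hpos : 0 < c.card := Finset.card_pos.mpr ⟨k, h1⟩
      by_cases h2 : none ∈ c
      · have hw : tw c (pt1 (-3) {k}) none = -(pt1 (-3) {k} none) := by
          unfold tw
          rw [if_pos h2]
        rw [hw, hval] at hs
        by_cases h3 : none = k
        · rw [if_pos h3] at hs
          subst h3
          have h8 : c.card = 8 := by omega
          exact ⟨Sum.inr (Sum.inr (Sum.inr ⟨c, (mem_octI c).mpr ⟨⟨hc, h8⟩, h2⟩⟩)), rfl⟩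
        · rw [if_neg h3] at hs
          omega
      · have hw : tw c (pt1 (-3) {k}) none = pt1 (-3) {k} none := by
          unfold tw
          rw [if_neg h2]
        rw [hw, hval] at hs
        by_cases h3 : none = k
        · rw [if_pos h3] at hs
          omega
        · rw [if_neg h3] at hs
          omega
    · rw [Finset.inter_singleton_of_notMem h1, Finset.card_empty] at hs
      by_cases h2 : none ∈ c
      · have hw : tw c (pt1 (-3) {k}) none = -(pt1 (-3) {k} none) := by
          unfold tw
          rw [if_pos h2]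
        rw [hw, hval] at hs
        by_cases h3 : none = k
        · rw [if_pos h3] at hs
          omega
        · rw [if_neg h3] at hs
          omega
      · have hw : tw c (pt1 (-3) {k}) none = pt1 (-3) {k} none := by
          unfold tw
          rw [if_neg h2]
        rw [hw, hval] at hs
        by_cases h3 : none = k
        · rw [if_pos h3] at hs
          omega
        · rw [if_neg h3] at hs
          have h0 : c.card = 0 := by omega
          rw [Finset.card_eq_zero] at h0
          subst h0
          refine ⟨Sum.inr (Sum.inr (Sum.inl ⟨k, fun h => h3 h.symm⟩)), ?_⟩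
          exact (tw_empty _).symm

theorem range_Fdec : Set.range Fdec =
    {v : GolayPt → ℤ | v ∈ leechLattice ∧ sqNorm v = 32 ∧ ∑ j, v j + 4 * v none = 24} := by
  ext v
  constructor
  · rintro ⟨i, rfl⟩
    exact ⟨(Fdec_props i).1, (Fdec_props i).2.1, (Fdec_props i).2.2.1⟩
  · rintro ⟨h1, h2, h3⟩
    exact Fdec_surj h1 h2 h3

theorem ncard_W : {v : GolayPt → ℤ | v ∈ leechLattice ∧ sqNorm v = 32 ∧
    ∑ j, v j + 4 * v none = 24}.ncard = 552 := by
  rw [← range_Fdec, ← Set.image_univ, Set.ncard_image_of_injective _ Fdec_injective,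
    Set.ncard_univ, card_Idx]

/-- The vector `(5, 1, ..., 1)`. -/
def t0 : GolayPt → ℤ := pt1 5 {none}

theorem t0_mem : t0 ∈ leechLattice := by
  have h := mem_of_odd (c := ∅) empty_mem_supports (a := pt1 5 {none})
    (pt1_mod (v := 5) (by decide) {none}) (by rw [sum_pt1, Finset.card_singleton]; decide)
  rw [tw_empty] at h
  exact h

theorem sqNorm_t0 : sqNorm t0 = 48 := by
  unfold t0
  rw [sqNorm_pt1, Finset.card_singleton]
  norm_num

theorem dot_t0 (v : GolayPt → ℤ) : dotInt t0 v = ∑ j, v j + 4 * v none := by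
  unfold dotInt t0 pt1
  have h : ∀ j : GolayPt, (if j ∈ ({none} : Finset GolayPt) then (5 : ℤ) else 1) * v j =
      v j + (if j = none then 4 * v j else 0) := by
    intro j
    simp only [Finset.mem_singleton]
    split_ifs <;> ring
  rw [Finset.sum_congr rfl (fun j _ => h j), Finset.sum_add_distrib, Finset.sum_ite_eq']
  simp

theorem dotInt_neg_right (x y : GolayPt → ℤ) : dotInt x (-y) = -dotInt x y := by
  unfold dotInt
  rw [← Finset.sum_neg_distrib]
  apply Finset.sum_congr rfl
  intro i _
  show x i * -y i = _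
  ring

theorem sqNorm_sub' (x y : GolayPt → ℤ) :
    sqNorm (x - y) = sqNorm x + sqNorm y - 2 * dotInt x y := by
  rw [sub_eq_add_neg, sqNorm_add, sqNorm_neg, dotInt_neg_right]
  ring

/-! ### Transport along `Co0` -/

theorem co0_norm (g : ↥Co0) (v : ↥leechLattice) :
    sqNorm ((g • v : ↥leechLattice) : GolayPt → ℤ) = sqNorm (v : GolayPt → ℤ) := g.2.2 v

theorem co0_sub (g : ↥Co0) (v w : ↥leechLattice) : g • (v - w) = g • v - g • w :=
  map_sub (toAddHom g.1 g.2) v w

theorem co0_add (g : ↥Co0) (v w : ↥leechLattice) : g • (v + w) = g • v + g • w :=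
  g.2.1 v w

/-- The summands of norm 32 of `u` with complement of norm 32. -/
def Adec (u : ↥leechLattice) : Set ↥leechLattice :=
  {v | sqNorm (v : GolayPt → ℤ) = 32 ∧ sqNorm ((u : GolayPt → ℤ) - (v : GolayPt → ℤ)) = 32}

theorem Adec_smul_sub (g : ↥Co0) (u : ↥leechLattice) :
    (fun v => g • v) '' Adec u ⊆ Adec (g • u) := by
  rintro _ ⟨v, ⟨h1, h2⟩, rfl⟩
  refine ⟨by rw [co0_norm]; exact h1, ?_⟩
  have h3 : ((g • u : ↥leechLattice) : GolayPt → ℤ) - ((g • v : ↥leechLattice) : GolayPt → ℤ)
      = ((g • (u - v) : ↥leechLattice) : GolayPt → ℤ) := by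
    rw [co0_sub]
    rfl
  rw [h3, co0_norm]
  exact h2

theorem Adec_smul (g : ↥Co0) (u : ↥leechLattice) :
    (fun v => g • v) '' Adec u = Adec (g • u) := by
  apply Set.Subset.antisymm (Adec_smul_sub g u)
  intro w hw
  refine ⟨g⁻¹ • w, ?_, smul_inv_smul g w⟩
  have := Adec_smul_sub g⁻¹ (g • u) ⟨w, hw, rfl⟩
  rw [inv_smul_smul] at this
  exact this

theorem ncard_Adec_smul (g : ↥Co0) (u : ↥leechLattice) :
    (Adec (g • u)).ncard = (Adec u).ncard := by
  rw [← Adec_smul, Set.ncard_image_of_injective _ (MulAction.injective g)]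

theorem ncard_Adec_t0 : (Adec ⟨t0, t0_mem⟩).ncard = 552 := by
  rw [← ncard_W, ← Set.ncard_image_of_injective _ Subtype.val_injective]
  congr 1
  ext v
  constructor
  · rintro ⟨w, ⟨h1, h2⟩, rfl⟩
    refine ⟨w.2, h1, ?_⟩
    have h3 : sqNorm (t0 - (w : GolayPt → ℤ)) = 32 := h2
    rw [sqNorm_sub', sqNorm_t0, h1, dot_t0] at h3
    omega
  · rintro ⟨h1, h2, h3⟩
    refine ⟨⟨v, h1⟩, ⟨h2, ?_⟩, rfl⟩
    show sqNorm (t0 - v) = 32
    rw [sqNorm_sub', sqNorm_t0, h2, dot_t0]
    omega

/-- S1578. -/
theorem pairs552 (u : ↥leechLattice) (hu : sqNorm (u : GolayPt → ℤ) = 48) :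
    {v : ↥leechLattice | sqNorm (v : GolayPt → ℤ) = 32 ∧
      sqNorm ((u : GolayPt → ℤ) - (v : GolayPt → ℤ)) = 32}.ncard = 552 := by
  obtain ⟨g, hg⟩ := transitive48 ⟨t0, t0_mem⟩ u sqNorm_t0 hu
  have h := ncard_Adec_smul g ⟨t0, t0_mem⟩
  rw [hg, ncard_Adec_t0] at h
  exact h

end Cfsg.Agent.Lib.helper28.XI
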