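import Cfsg.Agent.Lib.helper28.LeechOrtho

set_option autoImplicit false

namespace Cfsg.Agent.Lib.helper28.XI

open Cfsg
open Cfsg.Agent.Lib.helper28
open Cfsg.Agent.Lib.helper27
open Cfsg.Agent.Lib.helper28.LC
open scoped Pointwise

/-! Uniqueness of the invariant quadratic form on the lattice modulo twice the lattice. -/

theorem pat4_pair_mem {a b : GolayPt} (hab : a ≠ b) (s : Finset GolayPt) (hs : s ⊆ {a, b}) :
    tw s (pat 4 {a, b}) ∈ leechLattice := by
  have hE : tw s (pat 4 {a, b}) ∈ E0 := by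
    unfold E0
    rw [mem_clsE]
    exact ⟨{a, b}, Finset.mem_powersetCard.mpr ⟨Finset.subset_univ _, Finset.card_pair hab⟩, s,
      Finset.mem_powerset.mpr hs, rfl⟩
  exact (E0_props hE).1

/-- `4 e_i + 4 e_j`. -/
def qP (i j : ℕ) : GolayPt → ℤ := tw ∅ (pat 4 {pt i, pt j})

/-- `4 e_i - 4 e_j`. -/
def qM (i j : ℕ) : GolayPt → ℤ := tw {pt j} (pat 4 {pt i, pt j})

theorem qP01_mem : qP 0 1 ∈ leechLattice := pat4_pair_mem (by decide) _ (by decide)
theorem qM01_mem : qM 0 1 ∈ leechLattice := pat4_pair_mem (by decide) _ (by decide)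
theorem qP02_mem : qP 0 2 ∈ leechLattice := pat4_pair_mem (by decide) _ (by decide)
theorem qP23_mem : qP 2 3 ∈ leechLattice := pat4_pair_mem (by decide) _ (by decide)
theorem qP45_mem : qP 4 5 ∈ leechLattice := pat4_pair_mem (by decide) _ (by decide)

/-- `2` on the standard octad. -/
def qZ : GolayPt → ℤ := pat 2 (setOf o0)

theorem qZ_mem : qZ ∈ leechLattice := by
  have hE : qZ ∈ E1 := by
    unfold E1
    rw [mem_clsE]
    exact ⟨setOf o0, (mem_octadFinset _).mpr setOf_o0_mem_octads, ∅,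
      mem_par.mpr ⟨Finset.empty_subset _, rfl⟩, (tw_empty _).symm⟩
  exact (E1_props hE).1

theorem qn1 : sqNorm (qP 0 1) = 32 := by decide +kernel
theorem qn2 : sqNorm (qM 0 1) = 32 := by decide +kernel
theorem qn3 : sqNorm (qP 0 2) = 32 := by decide +kernel
theorem qn4 : sqNorm (qP 0 1 + qM 0 1) = 64 := by decide +kernel
theorem qn5 : sqNorm (qP 0 1 - qP 0 2) = 32 := by decide +kernel
theorem qn6 : sqNorm (qM 0 1 - qP 0 2) = 32 := by decide +kernel
theorem qn7 : sqNorm (qP 0 1 + qM 0 1 - qP 0 2) = 32 := by decide +kernel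
theorem qn8 : sqNorm (qP 2 3) = 32 := by decide +kernel
theorem qn9 : sqNorm (qP 4 5) = 32 := by decide +kernel
theorem qn10 : sqNorm (qP 0 1 + qP 2 3) = 64 := by decide +kernel
theorem qn11 : sqNorm (qP 0 1 + qP 4 5) = 64 := by decide +kernel
theorem qn12 : sqNorm (qP 2 3 + qP 4 5) = 64 := by decide +kernel
theorem qn13 : sqNorm (qP 0 1 + qP 2 3 + qP 4 5 - (qZ + qZ)) = 64 := by decide +kernel

section

variable (Q : ↥leechLattice → ZMod 2)

theorem Q_zero
    (hquad : ∀ u v w : ↥leechLattice, Q (u + v + w) + Q u + Q v + Q w =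
      Q (u + v) + Q (u + w) + Q (v + w)) : Q 0 = 0 := by
  have h := hquad 0 0 0
  simp only [add_zero] at h
  have key : ∀ a : ZMod 2, a + a + a + a = a + a + a → a = 0 := by decide
  exact key _ h

theorem Q_const32 (hinv : ∀ (g : ↥Co0) (v : ↥leechLattice), Q (g • v) = Q v)
    (x y : ↥leechLattice) (hx : sqNorm (x : GolayPt → ℤ) = 32)
    (hy : sqNorm (y : GolayPt → ℤ) = 32) : Q x = Q y := by
  obtain ⟨g, hg⟩ := transitive32 x y hx hy
  rw [← hg, hinv]

theorem Q_const48 (hinv : ∀ (g : ↥Co0) (v : ↥leechLattice), Q (g • v) = Q v)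
    (x y : ↥leechLattice) (hx : sqNorm (x : GolayPt → ℤ) = 48)
    (hy : sqNorm (y : GolayPt → ℤ) = 48) : Q x = Q y := by
  obtain ⟨g, hg⟩ := transitive48 x y hx hy
  rw [← hg, hinv]

theorem Q_const64 (hinv : ∀ (g : ↥Co0) (v : ↥leechLattice), Q (g • v) = Q v)
    (x y : ↥leechLattice) (hx : sqNorm (x : GolayPt → ℤ) = 64)
    (hy : sqNorm (y : GolayPt → ℤ) = 64) : Q x = Q y := by
  obtain ⟨g, hg⟩ := transitive64 x y hx hy
  rw [← hg, hinv]

theorem Q_64 (hcoset : ∀ v w : ↥leechLattice, Q (v + (w + w)) = Q v)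
    (hquad : ∀ u v w : ↥leechLattice, Q (u + v + w) + Q u + Q v + Q w =
      Q (u + v) + Q (u + w) + Q (v + w))
    (hinv : ∀ (g : ↥Co0) (v : ↥leechLattice), Q (g • v) = Q v)
    (x : ↥leechLattice) (hx : sqNorm (x : GolayPt → ℤ) = 64) : Q x = 0 := by
  let u : ↥leechLattice := ⟨qP 0 1, qP01_mem⟩
  let v : ↥leechLattice := ⟨qM 0 1, qM01_mem⟩
  let w : ↥leechLattice := ⟨qP 0 2, qP02_mem⟩
  have c := Q_const32 Q hinv
  have e2 : Q v = Q u := c v u qn2 qn1
  have e3 : Q w = Q u := c w u qn3 qn1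
  have e4 : Q (u + w) = Q u := by
    have h := hcoset (u - w) w
    have : u - w + (w + w) = u + w := by abel
    rw [this] at h
    rw [h]
    exact c (u - w) u qn5 qn1
  have e5 : Q (v + w) = Q u := by
    have h := hcoset (v - w) w
    have : v - w + (w + w) = v + w := by abel
    rw [this] at h
    rw [h]
    exact c (v - w) u qn6 qn1
  have e1 : Q (u + v + w) = Q u := by
    have h := hcoset (u + v - w) w
    have : u + v - w + (w + w) = u + v + w := by abel
    rw [this] at h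
    rw [h]
    exact c (u + v - w) u qn7 qn1
  have h := hquad u v w
  rw [e1, e2, e3, e4, e5] at h
  have key : ∀ a b : ZMod 2, a + a + a + a = b + a + a → b = 0 := by decide
  have h0 : Q (u + v) = 0 := key _ _ h
  rw [Q_const64 Q hinv x (u + v) hx qn4]
  exact h0

theorem Q_32 (hcoset : ∀ v w : ↥leechLattice, Q (v + (w + w)) = Q v)
    (hquad : ∀ u v w : ↥leechLattice, Q (u + v + w) + Q u + Q v + Q w =
      Q (u + v) + Q (u + w) + Q (v + w))
    (hinv : ∀ (g : ↥Co0) (v : ↥leechLattice), Q (g • v) = Q v)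
    (x : ↥leechLattice) (hx : sqNorm (x : GolayPt → ℤ) = 32) : Q x = 0 := by
  let u : ↥leechLattice := ⟨qP 0 1, qP01_mem⟩
  let v : ↥leechLattice := ⟨qP 2 3, qP23_mem⟩
  let w : ↥leechLattice := ⟨qP 4 5, qP45_mem⟩
  let z : ↥leechLattice := ⟨qZ, qZ_mem⟩
  have c := Q_const32 Q hinv
  have q64 := Q_64 Q hcoset hquad hinv
  have e2 : Q v = Q u := c v u qn8 qn1
  have e3 : Q w = Q u := c w u qn9 qn1
  have e1 : Q (u + v + w) = 0 := by
    have h := hcoset (u + v + w - (z + z)) z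
    have : u + v + w - (z + z) + (z + z) = u + v + w := by abel
    rw [this] at h
    rw [h]
    exact q64 _ qn13
  have h := hquad u v w
  rw [e1, e2, e3, q64 (u + v) qn10, q64 (u + w) qn11, q64 (v + w) qn12] at h
  have key : ∀ a : ZMod 2, 0 + a + a + a = 0 + 0 + 0 → a = 0 := by decide
  have h0 : Q u = 0 := key _ h
  rw [c x u hx qn1]
  exact h0

/-- Statement S5552. -/
theorem quad_unique (hcoset : ∀ v w : ↥leechLattice, Q (v + (w + w)) = Q v)
    (hquad : ∀ u v w : ↥leechLattice, Q (u + v + w) + Q u + Q v + Q w =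
      Q (u + v) + Q (u + w) + Q (v + w))
    (hinv : ∀ (g : ↥Co0) (v : ↥leechLattice), Q (g • v) = Q v)
    (hne : ∃ v : ↥leechLattice, Q v ≠ 0) (v : ↥leechLattice) :
    Q v = ((sqNorm (v : GolayPt → ℤ) / 16 : ℤ) : ZMod 2) := by
  have q0 := Q_zero Q hquad
  have q32 := Q_32 Q hcoset hquad hinv
  have q64 := Q_64 Q hcoset hquad hinv
  -- reduction to short representatives
  have red : ∀ x : ↥leechLattice, ∃ y : ↥leechLattice, Q x = Q y ∧
      (sqNorm (x : GolayPt → ℤ) / 16) % 2 = (sqNorm (y : GolayPt → ℤ) / 16) % 2 ∧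
      (y = 0 ∨ sqNorm (y : GolayPt → ℤ) = 32 ∨ sqNorm (y : GolayPt → ℤ) = 48 ∨
        sqNorm (y : GolayPt → ℤ) = 64) := by
    intro x
    obtain ⟨y, hy, hyn, z, hz, hxy⟩ := mod_two_representatives x.1 x.2
    have hx_eq : x = (⟨y, hy⟩ : ↥leechLattice) + (⟨z, hz⟩ + ⟨z, hz⟩) := by
      apply Subtype.ext
      show (x : GolayPt → ℤ) = y + (z + z)
      have : (x : GolayPt → ℤ) - y = z + z := by rw [hxy, two_smul]
      rw [← this]
      abel
    refine ⟨⟨y, hy⟩, ?_, ?_, ?_⟩
    · rw [hx_eq]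
      exact hcoset _ _
    · have hn : sqNorm (x : GolayPt → ℤ) = sqNorm y + 4 * sqNorm z + 4 * dotInt y z := by
        have e : (x : GolayPt → ℤ) = y + 2 • z := by
          rw [← hxy]
          abel
        rw [e, sqNorm_add, sqNorm_two, dot_two_right]
        ring
      obtain ⟨a, ha⟩ := leechLattice_sixteen_dvd hz
      obtain ⟨b, hb⟩ := eight_dvd_dotInt hy hz
      obtain ⟨c, hc⟩ := leechLattice_sixteen_dvd hy
      show (sqNorm (x : GolayPt → ℤ) / 16) % 2 = (sqNorm y / 16) % 2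
      rw [hn, ha, hb, hc]
      omega
    · by_cases h0 : y = 0
      · left
        exact Subtype.ext h0
      · right
        have h32 := leechLattice_le_sqNorm hy h0
        obtain ⟨c, hc⟩ := leechLattice_sixteen_dvd hy
        show sqNorm y = 32 ∨ sqNorm y = 48 ∨ sqNorm y = 64
        omega
  -- the value on vectors of norm 48
  have q48 : ∀ x : ↥leechLattice, sqNorm (x : GolayPt → ℤ) = 48 → Q x = 1 := by
    obtain ⟨v0, hv0⟩ := hne
    obtain ⟨y0, hQ, -, hcases⟩ := red v0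
    have hy48 : sqNorm (y0 : GolayPt → ℤ) = 48 := by
      rcases hcases with h | h | h | h
      · rw [hQ, h, q0] at hv0
        exact absurd rfl hv0
      · rw [hQ, q32 y0 h] at hv0
        exact absurd rfl hv0
      · exact h
      · rw [hQ, q64 y0 h] at hv0
        exact absurd rfl hv0
    intro x hx
    rw [Q_const48 Q hinv x y0 hx hy48, ← hQ]
    have key : ∀ a : ZMod 2, a ≠ 0 → a = 1 := by decide
    exact key _ hv0
  obtain ⟨y, hQ, hmod, hcases⟩ := red v
  rw [hQ, (ZMod.intCast_eq_intCast_iff' _ _ 2).mpr hmod]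
  rcases hcases with h | h | h | h
  · rw [h, q0]
    have : sqNorm ((0 : ↥leechLattice) : GolayPt → ℤ) = 0 := sqNorm_zero
    rw [this]
    rfl
  · rw [q32 y h, h]
    rfl
  · rw [q48 y h, h]
    rfl
  · rw [q64 y h, h]
    rfl

end

end Cfsg.Agent.Lib.helper28.XI
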