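import Mathlib

set_option autoImplicit false

namespace Cfsg.Agent.Lib.helper28.Crit

open scoped Pointwise

universe u v

section Max

variable {G : Type u} [Group G] {α : Type v} [MulAction G α]

theorem stab_sub (M : Subgroup G) (x : α) :
    MulAction.stabilizer ↥M x = (MulAction.stabilizer G x).subgroupOf M := by
  ext g
  rw [MulAction.mem_stabilizer_iff, Subgroup.mem_subgroupOf, MulAction.mem_stabilizer_iff]
  rfl

theorem orbit_sub_ncard_dvd (M : Subgroup G) (x : α) (h : MulAction.stabilizer G x ≤ M) :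
    (MulAction.orbit ↥M x).ncard ∣ (MulAction.orbit G x).ncard := by
  rw [← MulAction.index_stabilizer, ← MulAction.index_stabilizer, stab_sub]
  exact Subgroup.relIndex_dvd_index_of_le h

/-- A point stabiliser is a maximal subgroup as soon as no proper union of suborbits has a size
dividing the degree. -/
theorem maximal_of_suborbits (x : α) (n r : ℕ) (a : ℕ → ℕ) (c : α → ℕ)
    (hn : (MulAction.orbit G x).ncard = n) (hn0 : n ≠ 0)
    (hcx : c x = 0)
    (hc0 : ∀ y ∈ MulAction.orbit G x, c y = 0 → y = x)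
    (hcr : ∀ y ∈ MulAction.orbit G x, c y ≤ r)
    (htr : ∀ y ∈ MulAction.orbit G x, ∀ y' ∈ MulAction.orbit G x, c y = c y' → c y ≠ 0 →
      ∃ g : G, g • x = x ∧ g • y = y')
    (hsz : ∀ i ∈ Finset.Icc 1 r, {y | y ∈ MulAction.orbit G x ∧ c y = i}.ncard = a i)
    (har : ∀ I ∈ (Finset.Icc 1 r).powerset, (1 + ∑ i ∈ I, a i) ∣ n →
      I = ∅ ∨ I = Finset.Icc 1 r)
    (M : Subgroup G) (hM : MulAction.stabilizer G x ≤ M) :
    M = MulAction.stabilizer G x ∨ M = ⊤ := by
  classical
  have hfin : (MulAction.orbit G x).Finite :=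
    Set.finite_of_ncard_ne_zero (by rw [hn]; exact hn0)
  have hBsub : MulAction.orbit ↥M x ⊆ MulAction.orbit G x := by
    rintro _ ⟨m, rfl⟩
    exact ⟨m.1, rfl⟩
  have hxB : x ∈ MulAction.orbit ↥M x := MulAction.mem_orbit_self x
  have hdvd : (MulAction.orbit ↥M x).ncard ∣ n := by
    rw [← hn]
    exact orbit_sub_ncard_dvd M x hM
  obtain ⟨I, hI⟩ : ∃ I : Finset ℕ,
      I = (Finset.Icc 1 r).filter (fun i => ∃ y ∈ MulAction.orbit ↥M x, c y = i) := ⟨_, rfl⟩
  have hIsub : I ∈ (Finset.Icc 1 r).powerset := by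
    rw [hI]
    exact Finset.mem_powerset.mpr (Finset.filter_subset _ _)
  have hchar : ∀ y, y ∈ MulAction.orbit ↥M x ↔
      y = x ∨ (y ∈ MulAction.orbit G x ∧ c y ∈ I) := by
    intro y
    constructor
    · intro hy
      by_cases h0 : c y = 0
      · exact Or.inl (hc0 y (hBsub hy) h0)
      · right
        refine ⟨hBsub hy, ?_⟩
        rw [hI, Finset.mem_filter, Finset.mem_Icc]
        exact ⟨⟨Nat.one_le_iff_ne_zero.mpr h0, hcr y (hBsub hy)⟩, y, hy, rfl⟩
    · rintro (rfl | ⟨hy, hcy⟩)
      · exact hxB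
      · rw [hI, Finset.mem_filter, Finset.mem_Icc] at hcy
        obtain ⟨⟨h1, -⟩, y', hy', hc⟩ := hcy
        obtain ⟨g, hgx, hgy⟩ := htr y' (hBsub hy') y hy hc (by omega)
        obtain ⟨m, rfl⟩ := hy'
        have hgM : g ∈ M := hM (MulAction.mem_stabilizer_iff.mpr hgx)
        refine ⟨⟨g, hgM⟩ * m, ?_⟩
        show (⟨g, hgM⟩ * m : ↥M) • x = y
        rw [mul_smul]
        exact hgy
  have hcard : (MulAction.orbit ↥M x).ncard = 1 + ∑ i ∈ I, a i := by
    obtain ⟨F, hF⟩ : ∃ F : Finset α, F = hfin.toFinset.filter (fun y => c y ∈ I) := ⟨_, rfl⟩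
    have hxF : x ∉ F := by
      rw [hF, Finset.mem_filter, hcx]
      rintro ⟨-, h0⟩
      have := Finset.mem_powerset.mp hIsub h0
      rw [Finset.mem_Icc] at this
      omega
    have hBF : MulAction.orbit ↥M x = ↑(insert x F) := by
      ext y
      rw [hchar, Finset.coe_insert, Set.mem_insert_iff, Finset.mem_coe, hF, Finset.mem_filter,
        Set.Finite.mem_toFinset]
    rw [hBF, Set.ncard_coe_finset, Finset.card_insert_of_notMem hxF, add_comm]
    congr 1
    have hmap : (F : Set α).MapsTo c (I : Set ℕ) := by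
      intro y hy
      rw [Finset.mem_coe, hF, Finset.mem_filter] at hy
      exact Finset.mem_coe.mpr hy.2
    rw [Finset.card_eq_sum_card_fiberwise hmap]
    apply Finset.sum_congr rfl
    intro i hi
    rw [← hsz i (Finset.mem_powerset.mp hIsub hi), ← Set.ncard_coe_finset]
    congr 1
    ext y
    rw [Finset.mem_coe, Finset.mem_filter, hF, Finset.mem_filter, Set.Finite.mem_toFinset,
      Set.mem_ofPred_eq]
    constructor
    · rintro ⟨⟨h1, -⟩, h2⟩
      exact ⟨h1, h2⟩
    · rintro ⟨h1, h2⟩
      exact ⟨⟨h1, h2 ▸ hi⟩, h2⟩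
  rw [hcard] at hdvd
  rcases har I hIsub hdvd with h | h
  · left
    apply le_antisymm _ hM
    intro m hm
    have hmB : (⟨m, hm⟩ : ↥M) • x ∈ MulAction.orbit ↥M x := ⟨⟨m, hm⟩, rfl⟩
    rw [hchar, h] at hmB
    rcases hmB with e | ⟨-, e⟩
    · exact MulAction.mem_stabilizer_iff.mpr e
    · exact absurd e (Finset.notMem_empty _)
  · right
    rw [eq_top_iff]
    intro g _
    have hg : g • x ∈ MulAction.orbit ↥M x := by
      rw [hchar]
      by_cases h0 : c (g • x) = 0
      · exact Or.inl (hc0 _ ⟨g, rfl⟩ h0)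
      · right
        refine ⟨⟨g, rfl⟩, ?_⟩
        rw [h, Finset.mem_Icc]
        exact ⟨Nat.one_le_iff_ne_zero.mpr h0, hcr _ ⟨g, rfl⟩⟩
    obtain ⟨m, hm⟩ := hg
    have hm' : (m : G) • x = g • x := hm
    have hst : (m : G)⁻¹ * g ∈ MulAction.stabilizer G x := by
      rw [MulAction.mem_stabilizer_iff, mul_smul, ← hm', inv_smul_smul]
    have h2 := M.mul_mem m.2 (hM hst)
    rwa [mul_inv_cancel_left] at h2

/-- Simplicity of a group acting faithfully with a maximal point stabiliser that is simple (in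
the weak form used here), once regular normal subgroups are excluded. -/
theorem simple_of_maximal [Finite G] (x : α) (n : ℕ)
    (hn : (MulAction.stabilizer G x).index = n) (hn1 : 1 < n)
    (hmax : ∀ M : Subgroup G, MulAction.stabilizer G x ≤ M →
      M = MulAction.stabilizer G x ∨ M = ⊤)
    (hfaith : ∀ g : G, (∀ y ∈ MulAction.orbit G x, g • y = y) → g = 1)
    (hstab : ∀ K : Subgroup G, K ≤ MulAction.stabilizer G x →
      (∀ g ∈ MulAction.stabilizer G x, ∀ k ∈ K, g * k * g⁻¹ ∈ K) →
      K = ⊥ ∨ K = MulAction.stabilizer G x)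
    (hreg : ∀ N : Subgroup G, N.Normal → Nat.card N = n →
      ∃ C : Subgroup G, C.Normal ∧ C ≠ ⊥ ∧ Nat.card C < n) :
    IsSimpleGroup G := by
  have step1 : ∀ N : Subgroup G, N.Normal → N ≠ ⊥ → N ⊔ MulAction.stabilizer G x = ⊤ := by
    intro N hN hne
    rcases hmax (N ⊔ MulAction.stabilizer G x) le_sup_right with h | h
    · exfalso
      apply hne
      rw [eq_bot_iff]
      intro m hm
      rw [Subgroup.mem_bot]
      apply hfaith
      rintro _ ⟨g, rfl⟩
      have h1 : g⁻¹ * m * g ∈ N := by
        have := hN.conj_mem m hm g⁻¹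
        rwa [inv_inv] at this
      have h2 : g⁻¹ * m * g ∈ MulAction.stabilizer G x := by
        rw [← h]
        exact Subgroup.mem_sup_left h1
      rw [MulAction.mem_stabilizer_iff, mul_smul, mul_smul] at h2
      exact inv_smul_eq_iff.mp h2
    · exact h
  have step2 : ∀ C : Subgroup G, C.Normal → C ≠ ⊥ → n ≤ Nat.card C := by
    intro C hC hne
    have h := step1 C hC hne
    rw [← hn, Subgroup.index_eq_card]
    apply Nat.card_le_card_of_surjective
      (fun c : C => (QuotientGroup.mk (c : G) : G ⧸ MulAction.stabilizer G x))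
    intro q
    obtain ⟨g, rfl⟩ := QuotientGroup.mk_surjective q
    have hg : g ∈ (↑(C ⊔ MulAction.stabilizer G x) : Set G) := by
      rw [h]
      exact Set.mem_univ g
    have := hC
    rw [Subgroup.normal_mul] at hg
    obtain ⟨c, hc, s, hs, rfl⟩ := hg
    refine ⟨⟨c, hc⟩, ?_⟩
    show (QuotientGroup.mk c : G ⧸ MulAction.stabilizer G x) = QuotientGroup.mk (c * s)
    rw [QuotientGroup.eq, inv_mul_cancel_left]
    exact hs
  have hnt : Nontrivial G := by
    by_contra hc
    rw [not_nontrivial_iff_subsingleton] at hc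
    have h1 : (MulAction.stabilizer G x).index = 1 := by
      rw [Subgroup.index_eq_one]
      exact Subsingleton.elim _ _
    omega
  refine { toNontrivial := hnt, eq_bot_or_eq_top_of_normal := ?_ }
  intro N hN
  by_cases hne : N = ⊥
  · exact Or.inl hne
  right
  have hsup := step1 N hN hne
  have hK := hstab (N ⊓ MulAction.stabilizer G x) inf_le_right (by
    intro g hg k hk
    exact ⟨hN.conj_mem k hk.1 g, Subgroup.mul_mem _ (Subgroup.mul_mem _ hg hk.2)
      (Subgroup.inv_mem _ hg)⟩)
  rcases hK with hK | hK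
  · exfalso
    have hcomp : Subgroup.IsComplement' N (MulAction.stabilizer G x) := by
      apply Subgroup.isComplement'_of_disjoint_and_mul_eq_univ (disjoint_iff.mpr hK)
      have := hN
      rw [← Subgroup.normal_mul, hsup, Subgroup.coe_top]
    have h1 := hcomp.card_mul_card
    have h2 := Subgroup.card_mul_index (MulAction.stabilizer G x)
    rw [hn] at h2
    have hSpos : 0 < Nat.card (MulAction.stabilizer G x) := Nat.card_pos
    have hcardN : Nat.card N = n := by
      have h3 : Nat.card N * Nat.card (MulAction.stabilizer G x) =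
          n * Nat.card (MulAction.stabilizer G x) := by
        rw [h1, ← h2, mul_comm]
      exact Nat.eq_of_mul_eq_mul_right hSpos h3
    obtain ⟨C, hC, hCne, hClt⟩ := hreg N hN hcardN
    have := step2 C hC hCne
    omega
  · rw [eq_top_iff, ← hsup]
    apply sup_le le_rfl
    rw [← hK]
    exact inf_le_left

/-- Normal subgroups of a point stabiliser that is the image of a simple group. -/
theorem quasi_simple_of_hom {M : Type*} [Group M] [IsSimpleGroup M] (φ : M →* G)
    (S : Subgroup G) (hrange : ∀ s, s ∈ S ↔ ∃ m, φ m = s)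
    (K : Subgroup G) (hK : K ≤ S) (hnorm : ∀ g ∈ S, ∀ k ∈ K, g * k * g⁻¹ ∈ K) :
    K = ⊥ ∨ K = S := by
  have hN : (K.comap φ).Normal := by
    constructor
    intro k hk m
    rw [Subgroup.mem_comap] at hk ⊢
    rw [map_mul, map_mul, map_inv]
    exact hnorm _ ((hrange _).mpr ⟨m, rfl⟩) _ hk
  rcases hN.eq_bot_or_eq_top with h | h
  · left
    rw [eq_bot_iff]
    intro k hk
    obtain ⟨m, rfl⟩ := (hrange k).mp (hK hk)
    have hm : m ∈ K.comap φ := hk
    rw [h, Subgroup.mem_bot] at hm
    rw [hm, map_one]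
    exact Subgroup.one_mem _
  · right
    apply le_antisymm hK
    intro s hs
    obtain ⟨m, rfl⟩ := (hrange s).mp hs
    have hm : m ∈ K.comap φ := by
      rw [h]
      exact Subgroup.mem_top m
    exact hm

/-- Transfer of characteristic subgroups of a normal subgroup to normal subgroups. -/
theorem reg_of_char [Finite G] (n : ℕ)
    (h : ∀ (N : Type u) [Group N] [Finite N], Nat.card N = n →
      ∃ C : Subgroup N, C.Characteristic ∧ C ≠ ⊥ ∧ Nat.card C < n)
    (N : Subgroup G) (hN : N.Normal) (hc : Nat.card N = n) :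
    ∃ C : Subgroup G, C.Normal ∧ C ≠ ⊥ ∧ Nat.card C < n := by
  obtain ⟨C, hC, hne, hlt⟩ := h N hc
  have := hN
  have := hC
  refine ⟨C.map N.subtype, ConjAct.normal_of_characteristic_of_normal, ?_, ?_⟩
  · rw [Ne, Subgroup.map_eq_bot_iff_of_injective _ N.subtype_injective]
    exact hne
  · rw [Subgroup.card_map_of_injective N.subtype_injective]
    exact hlt

end Max

section Sylow

variable (N : Type u) [Group N] [Finite N]

theorem factorization_aux (p a m : ℕ) (hp : p.Prime) (hpm : ¬ p ∣ m) (hm : m ≠ 0) :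
    (p ^ a * m).factorization p = a := by
  rw [Nat.factorization_mul (pow_ne_zero _ hp.ne_zero) hm, Nat.Prime.factorization_pow hp]
  simp [Nat.factorization_eq_zero_of_not_dvd hpm]

theorem sylow_card_index (p a m : ℕ) [Fact p.Prime] (hcard : Nat.card N = p ^ a * m)
    (hpm : ¬ p ∣ m) (hm : m ≠ 0) (P : Sylow p N) :
    Nat.card P = p ^ a ∧ (P : Subgroup N).index = m := by
  have hp : p.Prime := Fact.out
  have h1 : Nat.card P = p ^ a := by
    rw [Sylow.card_eq_multiplicity, hcard, factorization_aux p a m hp hpm hm]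
  refine ⟨h1, ?_⟩
  have h2 := Subgroup.card_mul_index (P : Subgroup N)
  rw [hcard] at h2
  have h3 : Nat.card (P : Subgroup N) = p ^ a := h1
  rw [h3] at h2
  exact Nat.eq_of_mul_eq_mul_left (pow_pos hp.pos a) h2

/-- A group whose order forces a normal Sylow subgroup has a proper nontrivial characteristic
subgroup. -/
theorem char_of_sylow_unique (p a m : ℕ) [Fact p.Prime] (hcard : Nat.card N = p ^ a * m)
    (hpm : ¬ p ∣ m) (ha : 0 < a) (hm : 1 < m) (hd : ∀ d, d ∣ m → d % p = 1 → d = 1) :
    ∃ C : Subgroup N, C.Characteristic ∧ C ≠ ⊥ ∧ Nat.card C < p ^ a * m := by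
  have hp : p.Prime := Fact.out
  obtain ⟨P⟩ : Nonempty (Sylow p N) := inferInstance
  obtain ⟨h1, h2⟩ := sylow_card_index N p a m hcard hpm (by omega) P
  have hn : Nat.card (Sylow p N) = 1 := by
    apply hd
    · rw [← h2]
      exact Sylow.card_dvd_index P
    · have := card_sylow_modEq_one p N
      rw [Nat.ModEq, Nat.mod_eq_of_lt hp.one_lt] at this
      exact this
  have : Subsingleton (Sylow p N) := (Nat.card_eq_one_iff_unique.mp hn).1
  have hpa : 1 < p ^ a := Nat.one_lt_pow (by omega) hp.one_lt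
  refine ⟨P, Sylow.characteristic_of_subsingleton P, ?_, ?_⟩
  · intro hbot
    have h3 : Nat.card (P : Subgroup N) = p ^ a := h1
    rw [hbot, Subgroup.card_bot] at h3
    omega
  · have h3 : Nat.card (P : Subgroup N) = p ^ a := h1
    rw [h3]
    nlinarith

theorem exists_char_100 (hc : Nat.card N = 100) :
    ∃ C : Subgroup N, C.Characteristic ∧ C ≠ ⊥ ∧ Nat.card C < 100 := by
  have : Fact (Nat.Prime 5) := ⟨by norm_num⟩
  have h := char_of_sylow_unique N 5 2 4 (by rw [hc]; norm_num) (by norm_num) (by norm_num) (by norm_num)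
    (by
      intro d hd h5
      have hle := Nat.le_of_dvd (by norm_num) hd
      interval_cases d <;> simp_all)
  simpa using h

end Sylow

section Burnside

variable {N : Type u} [Group N]

/-- A normal Hall subgroup is characteristic. -/
theorem char_of_normal_hall (K : Subgroup N) [K.Normal]
    (h : Nat.Coprime (Nat.card K) K.index) : K.Characteristic := by
  rw [Subgroup.characteristic_iff_map_le]
  rintro ϕ _ ⟨g, hg, rfl⟩
  change ϕ g ∈ K
  have hgK : g ^ Nat.card K = 1 := by
    have h1 : (⟨g, hg⟩ : K) ^ Nat.card K = 1 := pow_card_eq_one'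
    exact congrArg Subtype.val h1
  have h1 : (QuotientGroup.mk (ϕ g) : N ⧸ K) ^ Nat.card K = 1 := by
    rw [← QuotientGroup.mk_pow, ← map_pow, hgK, map_one]
    rfl
  have h2 : (QuotientGroup.mk (ϕ g) : N ⧸ K) ^ K.index = 1 := by
    rw [Subgroup.index_eq_card]
    exact pow_card_eq_one'
  have h3 := Nat.eq_one_of_dvd_coprimes h (orderOf_dvd_of_pow_eq_one h1)
    (orderOf_dvd_of_pow_eq_one h2)
  rw [orderOf_eq_one_iff] at h3
  exact (QuotientGroup.eq_one_iff _).mp h3

variable [Finite N]

/-- Burnside's normal complement, as a proper nontrivial characteristic subgroup. -/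
theorem char_of_burnside (p a m : ℕ) [Fact p.Prime]
    (hcard : Nat.card N = p ^ a * m) (hpm : ¬ p ∣ m) (ha : 0 < a) (hm : 1 < m)
    (P : Sylow p N)
    (hP : Subgroup.normalizer ((P : Subgroup N) : Set N) ≤
      Subgroup.centralizer ((P : Subgroup N) : Set N)) :
    ∃ C : Subgroup N, C.Characteristic ∧ C ≠ ⊥ ∧ Nat.card C < p ^ a * m := by
  have hp : p.Prime := Fact.out
  obtain ⟨h1, h2⟩ := sylow_card_index N p a m hcard hpm (by omega) P
  have hpa : 1 < p ^ a := Nat.one_lt_pow (by omega) hp.one_lt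
  have hcomp := MonoidHom.ker_transferSylow_isComplement' P hP
  have hmul := hcomp.card_mul_card
  have h1' : Nat.card (P : Subgroup N) = p ^ a := h1
  rw [h1', hcard] at hmul
  have hK : Nat.card (MonoidHom.transferSylow P hP).ker = m := by
    apply Nat.eq_of_mul_eq_mul_right (pow_pos hp.pos a)
    rw [hmul, mul_comm]
  have hidx : (MonoidHom.transferSylow P hP).ker.index = p ^ a := by
    have h3 := Subgroup.card_mul_index (MonoidHom.transferSylow P hP).ker
    rw [hK, hcard, mul_comm (p ^ a) m] at h3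
    exact Nat.eq_of_mul_eq_mul_left (by omega) h3
  have hcop : Nat.Coprime (Nat.card (MonoidHom.transferSylow P hP).ker)
      (MonoidHom.transferSylow P hP).ker.index := by
    rw [hK, hidx]
    exact Nat.Coprime.pow_right a ((Nat.Prime.coprime_iff_not_dvd hp).mpr hpm).symm
  refine ⟨_, char_of_normal_hall _ hcop, ?_, ?_⟩
  · intro hbot
    rw [hbot, Subgroup.card_bot] at hK
    omega
  · rw [hK]
    nlinarith

theorem exists_char_2025 (hc : Nat.card N = 2025) :
    ∃ C : Subgroup N, C.Characteristic ∧ C ≠ ⊥ ∧ Nat.card C < 2025 := by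
  have : Fact (Nat.Prime 5) := ⟨by norm_num⟩
  obtain ⟨P⟩ : Nonempty (Sylow 5 N) := inferInstance
  obtain ⟨h1, h2⟩ := sylow_card_index N 5 2 81 (by rw [hc]; norm_num) (by norm_num) (by norm_num) P
  have h1' : Nat.card (P : Subgroup N) = 25 := h1
  have hdvd : Nat.card (Sylow 5 N) ∣ 81 := h2 ▸ Sylow.card_dvd_index P
  have hmod : Nat.card (Sylow 5 N) % 5 = 1 := card_sylow_modEq_one 5 N
  have hcases : Nat.card (Sylow 5 N) = 1 ∨ Nat.card (Sylow 5 N) = 81 := by
    have hle := Nat.le_of_dvd (by norm_num) hdvd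
    generalize Nat.card (Sylow 5 N) = d at hdvd hmod hle
    have h81 : (81 : ℕ) = 3 ^ 4 := by norm_num
    rw [h81, Nat.dvd_prime_pow (by norm_num)] at hdvd
    obtain ⟨k, hk, rfl⟩ := hdvd
    interval_cases k <;> simp_all
  rcases hcases with h | h
  · have : Subsingleton (Sylow 5 N) := (Nat.card_eq_one_iff_unique.mp h).1
    refine ⟨P, Sylow.characteristic_of_subsingleton P, ?_, ?_⟩
    · intro hbot
      rw [hbot, Subgroup.card_bot] at h1'
      omega
    · rw [h1']
      norm_num
  · have hidx : (Subgroup.normalizer ((P : Subgroup N) : Set N)).index = 81 := by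
      rw [← h]
      exact (Sylow.card_eq_index_normalizer P).symm
    have hNP : (P : Subgroup N) = Subgroup.normalizer ((P : Subgroup N) : Set N) := by
      apply Subgroup.eq_of_le_of_card_ge Subgroup.le_normalizer
      have h3 := Subgroup.card_mul_index (Subgroup.normalizer ((P : Subgroup N) : Set N))
      rw [hidx, hc] at h3
      rw [h1']
      omega
    have hmc : IsMulCommutative (P : Subgroup N) :=
      IsPGroup.isMulCommutative_of_card_eq_prime_sq (p := 5) h1
    have hcomm : ∀ x y : (P : Subgroup N), x * y = y * x := fun x y => hmc.1.1 x y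
    have hP : Subgroup.normalizer ((P : Subgroup N) : Set N) ≤
        Subgroup.centralizer ((P : Subgroup N) : Set N) := by
      rw [← hNP]
      intro g hg
      rw [Subgroup.mem_centralizer_iff]
      intro h hh
      exact congrArg Subtype.val (hcomm ⟨h, hh⟩ ⟨g, hg⟩)
    have h4 := char_of_burnside 5 2 81 (by rw [hc]; norm_num) (by norm_num) (by norm_num) (by norm_num) P hP
    simpa using h4

theorem exists_char_11178 (hc : Nat.card N = 11178) :
    ∃ C : Subgroup N, C.Characteristic ∧ C ≠ ⊥ ∧ Nat.card C < 11178 := by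
  have : Fact (Nat.Prime 2) := ⟨by norm_num⟩
  obtain ⟨P⟩ : Nonempty (Sylow 2 N) := inferInstance
  obtain ⟨h1, h2⟩ := sylow_card_index N 2 1 5589 (by rw [hc]; norm_num) (by norm_num) (by norm_num) P
  have h1' : Nat.card (P : Subgroup N) = 2 := by simpa using h1
  obtain ⟨t, -, ht⟩ := (Nat.card_eq_two_iff' (1 : (P : Subgroup N))).mp h1'
  have hP : Subgroup.normalizer ((P : Subgroup N) : Set N) ≤
      Subgroup.centralizer ((P : Subgroup N) : Set N) := by
    intro g hg
    rw [Subgroup.mem_centralizer_iff]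
    intro h hh
    have hmem : g * h * g⁻¹ ∈ (P : Subgroup N) := (Subgroup.mem_normalizer_iff.mp hg h).mp hh
    by_cases h1'' : h = 1
    · rw [h1'', one_mul, mul_one]
    · have e1 : (⟨g * h * g⁻¹, hmem⟩ : (P : Subgroup N)) = t := by
        apply ht
        intro e
        apply h1''
        have e' : g * h * g⁻¹ = 1 := congrArg Subtype.val e
        rw [mul_inv_eq_one] at e'
        exact mul_left_cancel (e'.trans (mul_one g).symm)
      have e2 : (⟨h, hh⟩ : (P : Subgroup N)) = t := by
        apply ht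
        intro e
        exact h1'' (congrArg Subtype.val e)
      have e3 : g * h * g⁻¹ = h := congrArg Subtype.val (e1.trans e2.symm)
      rw [mul_inv_eq_iff_eq_mul] at e3
      exact e3.symm
  have h4 := char_of_burnside 2 1 5589 (by rw [hc]; norm_num) (by norm_num) (by norm_num) (by norm_num) P hP
  simpa using h4

end Burnside

end Cfsg.Agent.Lib.helper28.Crit
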