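import Cfsg.Agent.Lib.helper28.LeechCo3R2
import Cfsg.Agent.Lib.helper28.PrimCrit
import Cfsg.Agent.Lib.helper28.GolaySimpleB
import Cfsg.Agent.Lib.helper28.GolaySimpleC
import Cfsg.Agent.Lib.helper28.LeechOrder

set_option autoImplicit false

namespace Cfsg.Agent.Lib.helper28.XI

open Cfsg
open Cfsg.Agent.Lib.helper28
open Cfsg.Agent.Lib.helper27
open Cfsg.Agent.Lib.helper28.LC
open Cfsg.Agent.Lib.helper28.SC
open scoped Pointwise

/-! Simplicity of the Higman–Sims, McLaughlin and third Conway groups: common tools. -/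

/-- The empty code word. -/
def e0 : ↥LC.codeFinset := ⟨∅, (LC.mem_codeFinset ∅).mpr empty_mem_supports⟩

/-- The coordinate permutation attached to an element of the group of the code. -/
def cp (σ : ↥M24) : ↥Co0 := mono σ e0

theorem cp_apply (σ : ↥M24) (v : ↥leechLattice) (k : GolayPt) :
    ((cp σ • v : ↥leechLattice) : GolayPt → ℤ) k = (v : GolayPt → ℤ) (σ.1.symm k) := by
  show signedPerm σ.1 (∅ : Finset GolayPt) (v : GolayPt → ℤ) k = _
  rw [signedPerm_apply, if_neg (Finset.notMem_empty k)]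

theorem cp_mul (σ τ : ↥M24) : cp (σ * τ) = cp σ * cp τ := by
  apply Subtype.ext
  apply Equiv.ext
  intro v
  apply Subtype.ext
  funext k
  have h1 := cp_apply (σ * τ) v k
  have h2 := cp_apply σ (cp τ • v) k
  have h3 := cp_apply τ v (σ.1.symm k)
  have h4 : ((cp σ * cp τ) • v : ↥leechLattice) = cp σ • (cp τ • v) := mul_smul _ _ _
  exact h1.trans ((congrArg (fun w : ↥leechLattice => (w : GolayPt → ℤ) k) h4).trans
    (h2.trans h3)).symm

/-- The coordinate permutations as a homomorphism. -/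
def cpHom : ↥M24 →* ↥Co0 := MonoidHom.mk' cp cp_mul

theorem cpHom_apply (σ : ↥M24) : cpHom σ = cp σ := rfl

theorem t0_apply : ∀ j : GolayPt, t0 j = if j = none then 5 else 1 := by
  decide +kernel

theorem cp_T0 (σ : ↥M24) (h : σ.1 none = none) : cp σ • T0 = T0 := by
  apply Subtype.ext
  funext k
  rw [cp_apply]
  show t0 (σ.1.symm k) = t0 k
  rw [t0_apply, t0_apply]
  by_cases hk : k = none
  · rw [if_pos hk, if_pos (by rw [hk, Equiv.symm_apply_eq, h])]
  · rw [if_neg hk, if_neg (fun e => hk (by rw [Equiv.symm_apply_eq] at e; rw [e, h]))]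

theorem symm_fix {σ : Equiv.Perm GolayPt} {a : GolayPt} (h : σ a = a) (k : GolayPt) :
    σ.symm k = a ↔ k = a := by
  rw [Equiv.symm_apply_eq, h]

theorem cp_X0 (σ : ↥M24) (h : σ.1 none = none) (h0 : σ.1 (pt 0) = pt 0) : cp σ • X0 = X0 := by
  apply Subtype.ext
  funext k
  rw [cp_apply]
  show x0 (σ.1.symm k) = x0 k
  rw [x0_apply, x0_apply]
  simp only [symm_fix h, symm_fix h0]

theorem cp_R1 (σ : ↥M24) (h : σ.1 none = none) (h0 : σ.1 (pt 0) = pt 0) : cp σ • R1 = R1 := by
  apply Subtype.ext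
  funext k
  rw [cp_apply]
  show r1 (σ.1.symm k) = r1 k
  rw [r1_apply, r1_apply]
  simp only [symm_fix h, symm_fix h0]

theorem E8i_eq : E8i = X0 - R1 := by
  apply Subtype.ext
  show e8i = x0 - r1
  funext k
  revert k
  decide +kernel

/-- An automorphism fixing the reference vector and `(8, 0, ..., 0)` is a coordinate permutation
fixing the first coordinate. -/
theorem perm_of_fix (g : ↥Co0) (h1 : g • T0 = T0) (h2 : g • E8i = E8i) :
    ∃ σ : ↥M24, σ.1 none = none ∧ g = cp σ := by
  have hg : PresCross g := (presCross_iff g).mpr (by rw [h2]; rfl)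
  obtain ⟨⟨σ, c⟩, hσ⟩ := mono_surjective g hg
  have hσ' : mono σ c = g := hσ
  have key : ∀ k, signedPerm σ.1 c.1 t0 k = t0 k := by
    intro k
    have e := congrArg (fun w : ↥leechLattice => (w : GolayPt → ℤ) k) h1
    rw [← hσ'] at e
    exact e
  have hpos : ∀ j, 0 < t0 j := by
    intro j
    rw [t0_apply]
    split_ifs <;> norm_num
  have hc : c.1 = ∅ := by
    rw [Finset.eq_empty_iff_forall_notMem]
    intro k hk
    have e := key k
    rw [signedPerm_apply, if_pos hk] at e
    have e1 := hpos k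
    have e2 := hpos (σ.1.symm k)
    omega
  have hce : c = e0 := Subtype.ext hc
  refine ⟨σ, ?_, ?_⟩
  · have e := key none
    rw [signedPerm_apply, hc, if_neg (Finset.notMem_empty _), t0_apply, t0_apply, if_pos rfl] at e
    by_cases hn : σ.1.symm none = none
    · rw [Equiv.symm_apply_eq] at hn
      exact hn.symm
    · rw [if_neg hn] at e
      norm_num at e
  · rw [← hσ', hce]
    rfl

theorem cp_inj_pt (σ : ↥M24) (h : ∀ k, σ.1 k = k) : cp σ = 1 := by
  have hσ : σ = 1 := by
    apply Subtype.ext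
    apply Equiv.ext
    intro k
    exact h k
  rw [hσ]
  apply Subtype.ext
  apply Equiv.ext
  intro v
  apply Subtype.ext
  funext k
  exact cp_apply 1 v k

/-- The two-point stabiliser in the group of the code. -/
abbrev M22s : Subgroup ↥M24 :=
  MulAction.stabilizer ↥M24 (none : GolayPt) ⊓ MulAction.stabilizer ↥M24 (pt 0)

theorem mem_M22s (σ : ↥M24) : σ ∈ M22s ↔ σ.1 none = none ∧ σ.1 (pt 0) = pt 0 := by
  rw [Subgroup.mem_inf, MulAction.mem_stabilizer_iff, MulAction.mem_stabilizer_iff]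
  rfl

instance m22s_simple : IsSimpleGroup ↥M22s := simple_stabilizer_pair none (pt 0) (by decide)

/-- The elements fixing the three reference vectors are the coordinate permutations of the
two-point stabiliser. -/
theorem fix3_iff (g : ↥Co0) :
    (g • T0 = T0 ∧ g • R1 = R1 ∧ g • X0 = X0) ↔ ∃ σ : ↥M22s, cp σ.1 = g := by
  constructor
  · rintro ⟨h1, h2, h3⟩
    have h4 : g • E8i = E8i := by rw [E8i_eq, co0_sub, h2, h3]
    obtain ⟨σ, hσ, rfl⟩ := perm_of_fix g h1 h4
    have e := congrArg (fun w : ↥leechLattice => (w : GolayPt → ℤ) (pt 0)) h3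
    have e' : ((cp σ • X0 : ↥leechLattice) : GolayPt → ℤ) (pt 0) = x0 (pt 0) := e
    rw [cp_apply] at e'
    have e'' : x0 (σ.1.symm (pt 0)) = x0 (pt 0) := e'
    have hn : σ.1.symm (pt 0) ≠ none := by
      intro hh
      rw [Equiv.symm_apply_eq, hσ] at hh
      exact absurd hh (by decide)
    rw [x0_apply, x0_apply, if_neg hn, if_neg (show (pt 0 : GolayPt) ≠ none by decide),
      if_pos rfl] at e''
    have h0 : σ.1 (pt 0) = pt 0 := by
      by_cases h00 : σ.1.symm (pt 0) = pt 0
      · rw [Equiv.symm_apply_eq] at h00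
        exact h00.symm
      · rw [if_neg h00] at e''
        norm_num at e''
    exact ⟨⟨σ, (mem_M22s σ).mpr ⟨hσ, h0⟩⟩, rfl⟩
  · rintro ⟨σ, rfl⟩
    obtain ⟨h, h0⟩ := (mem_M22s σ.1).mp σ.2
    exact ⟨cp_T0 σ.1 h, cp_R1 σ.1 h h0, cp_X0 σ.1 h h0⟩

end Cfsg.Agent.Lib.helper28.XI
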