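import Cfsg.Agent.Lib.helper28.LeechSimpleHS

set_option autoImplicit false

namespace Cfsg.Agent.Lib.helper28.XI

open Cfsg
open Cfsg.Agent.Lib.helper28
open Cfsg.Agent.Lib.helper27
open Cfsg.Agent.Lib.helper28.LC
open Cfsg.Agent.Lib.helper28.SC
open scoped Pointwise

/-! Simplicity and order of the third Conway group. -/

theorem ncard_orbit_R1 : (MulAction.orbit ↥C3 R1).ncard = 11178 := by
  rw [← MulAction.index_stabilizer]
  exact index_stab_R1

theorem dot_r1_r1 : dotInt r1 r1 = 32 := by decide +kernel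

/-- The label of a suborbit. -/
def labR (y : ↥leechLattice) : ℕ :=
  if dotInt r1 (y : GolayPt → ℤ) = 32 then 0
  else if dotInt r1 (y : GolayPt → ℤ) = -8 then 1
  else if dotInt r1 (y : GolayPt → ℤ) = 16 then 2
  else if dotInt r1 (y : GolayPt → ℤ) = 0 then 3 else 4

theorem XF_dots {y : GolayPt → ℤ} (hy : y ∈ XF) :
    dotInt r1 y = 32 ∨ dotInt r1 y = -8 ∨ dotInt r1 y = 16 ∨ dotInt r1 y = 0 ∨
      dotInt r1 y = 8 := by
  rcases XF_combos hy with h | h | h | h | h | h | h | h | h | h | h | h <;> omega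

theorem labR_iff (y : ↥leechLattice) (hy : (y : GolayPt → ℤ) ∈ XF) :
    (labR y = 0 ↔ dotInt r1 (y : GolayPt → ℤ) = 32) ∧
    (labR y = 1 ↔ dotInt r1 (y : GolayPt → ℤ) = -8) ∧
    (labR y = 2 ↔ dotInt r1 (y : GolayPt → ℤ) = 16) ∧
    (labR y = 3 ↔ dotInt r1 (y : GolayPt → ℤ) = 0) ∧
    (labR y = 4 ↔ dotInt r1 (y : GolayPt → ℤ) = 8) := by
  unfold labR
  rcases XF_dots hy with h | h | h | h | h <;> rw [h] <;> norm_num

theorem labR_class (i : ℕ) (d : ℤ)
    (hi : ∀ y : ↥leechLattice, (y : GolayPt → ℤ) ∈ XF →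
      (labR y = i ↔ dotInt r1 (y : GolayPt → ℤ) = d)) :
    {y | y ∈ MulAction.orbit ↥C3 R1 ∧ labR y = i}.ncard = (ZR d).card := by
  apply ncard_eq_card _ (ZR d) _ (fun z hz => XF_mem_lattice ((mem_ZR _ z).mp hz).1)
  intro y
  rw [Set.mem_ofPred_eq, orbit_R1, Set.mem_ofPred_eq, mem_ZR]
  constructor
  · rintro ⟨h1, h2⟩
    exact ⟨h1, (hi y h1).mp h2⟩
  · rintro ⟨h1, h2⟩
    exact ⟨h1, (hi y h1).mpr h2⟩

theorem c3_max (M : Subgroup ↥C3) (hM : MulAction.stabilizer ↥C3 R1 ≤ M) :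
    M = MulAction.stabilizer ↥C3 R1 ∨ M = ⊤ := by
  apply Crit.maximal_of_suborbits R1 11178 4
    (fun i => if i = 1 then 352 else if i = 2 then 1100 else if i = 3 then 4125 else 5600) labR
    ncard_orbit_R1 (by norm_num)
  · unfold labR
    exact if_pos (show dotInt r1 (R1 : GolayPt → ℤ) = 32 from dot_r1_r1)
  · intro y hy h0
    rw [orbit_R1, Set.mem_ofPred_eq] at hy
    have hd := (labR_iff y hy).1.mp h0
    rcases relR_main hy with ⟨-, h⟩ | ⟨hd', -⟩ | ⟨hd', -⟩ | ⟨hd', -⟩ | ⟨hd', -⟩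
    · exact Subtype.ext h
    all_goals omega
  · intro y _
    unfold labR
    split_ifs <;> omega
  · intro y hy y' hy' hc h0
    rw [orbit_R1, Set.mem_ofPred_eq] at hy hy'
    have hne : dotInt r1 (y : GolayPt → ℤ) ≠ 32 := fun e => h0 ((labR_iff y hy).1.mpr e)
    have heq : dotInt r1 (y : GolayPt → ℤ) = dotInt r1 (y' : GolayPt → ℤ) := by
      obtain ⟨a0, a1, a2, a3, a4⟩ := labR_iff y hy
      obtain ⟨b0, b1, b2, b3, b4⟩ := labR_iff y' hy'
      rcases XF_dots hy with h | h | h | h | h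
      · exact absurd h hne
      · rw [h]
        exact (b1.mp (hc.symm.trans (a1.mpr h))).symm
      · rw [h]
        exact (b2.mp (hc.symm.trans (a2.mpr h))).symm
      · rw [h]
        exact (b3.mp (hc.symm.trans (a3.mpr h))).symm
      · rw [h]
        exact (b4.mp (hc.symm.trans (a4.mpr h))).symm
    obtain ⟨_, _, n, hn1, hn2, hn⟩ := relR_fam hy hy' hne heq
    exact ⟨⟨n, MulAction.mem_stabilizer_iff.mpr hn1⟩, hn2 R1 (by simp), hn⟩
  · intro i hi
    rw [Finset.mem_Icc] at hi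
    have hi' : i = 1 ∨ i = 2 ∨ i = 3 ∨ i = 4 := by omega
    rcases hi' with rfl | rfl | rfl | rfl
    · rw [if_pos rfl, ← card_ZRm8]
      exact labR_class 1 (-8) (fun y hy => (labR_iff y hy).2.1)
    · rw [if_neg (by norm_num), if_pos rfl, ← card_ZR16]
      exact labR_class 2 16 (fun y hy => (labR_iff y hy).2.2.1)
    · rw [if_neg (by norm_num), if_neg (by norm_num), if_pos rfl, ← card_ZR0]
      exact labR_class 3 0 (fun y hy => (labR_iff y hy).2.2.2.1)
    · rw [if_neg (by norm_num), if_neg (by norm_num), if_neg (by norm_num), ← card_ZR8]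
      exact labR_class 4 8 (fun y hy => (labR_iff y hy).2.2.2.2)
  · decide
  · exact hM

theorem oQ_6 : pt 6 ∈ oQ := by
  unfold oQ
  rw [mem_setOf]
  decide

theorem sum16 : vBq oQ {pt 2, pt 4} + vBq oQ {pt 5, pt 6} + r1 + vA (pt 10) + vA (pt 11) =
    -(e8i + e8i) := by
  funext k
  revert k
  decide +kernel

theorem vA_apply {k : GolayPt} (hk : k ≠ none) (j : GolayPt) :
    vA k j = if j = none then -4 else if j = k then 4 else 0 := by
  unfold vA tw pat
  by_cases hj : j = none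
  · subst hj
    simp
  · by_cases hjk : j = k
    · subst hjk
      simp [hj]
    · simp [hj, hjk]

theorem c3_faith (g : ↥C3) (h : ∀ y ∈ MulAction.orbit ↥C3 R1, g • y = y) : g = 1 := by
  obtain ⟨g, hg⟩ := g
  have h1 : g • T0 = T0 := MulAction.mem_stabilizer_iff.mp hg
  have hfix : ∀ (s : GolayPt → ℤ) (hs : s ∈ XF),
      g • (⟨s, XF_mem_lattice hs⟩ : ↥leechLattice) = ⟨s, XF_mem_lattice hs⟩ := by
    intro s hs
    apply h
    rw [orbit_R1, Set.mem_ofPred_eq]
    exact hs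
  have q1 := (sBm_props oQ_pts2.1 oQ_pts2.2.1 (by decide) (by decide) (by decide) (by decide)
    (by decide)).1
  have q2 := (sBm_props oQ_pts2.2.2 oQ_6 (by decide) (by decide) (by decide) (by decide)
    (by decide)).1
  have q3 : r1 ∈ XF := (mem_XF r1).mpr ⟨r1_mem.1, r1_mem.2, r1_dot⟩
  have q4 := (sA_props (pt 10) (by decide) (by decide)).1
  have q5 := (sA_props (pt 11) (by decide) (by decide)).1
  have hE : g • E8i = E8i := by
    have e1 : ((⟨_, XF_mem_lattice q1⟩ : ↥leechLattice) + ⟨_, XF_mem_lattice q2⟩ +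
        ⟨_, XF_mem_lattice q3⟩ + ⟨_, XF_mem_lattice q4⟩ + ⟨_, XF_mem_lattice q5⟩) =
        -(E8i + E8i) := Subtype.ext sum16
    have e2 : g • (-(E8i + E8i)) = -(E8i + E8i) := by
      rw [← e1, co0_add, co0_add, co0_add, co0_add, hfix _ q1, hfix _ q2, hfix _ q3, hfix _ q4,
        hfix _ q5]
    rw [SC.smul_neg', co0_add] at e2
    apply Subtype.ext
    funext k
    have e3 := congrArg (fun w : ↥leechLattice => (w : GolayPt → ℤ) k) e2
    have e4 : -(((g • E8i : ↥leechLattice) : GolayPt → ℤ) k +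
        ((g • E8i : ↥leechLattice) : GolayPt → ℤ) k) =
        -((E8i : GolayPt → ℤ) k + (E8i : GolayPt → ℤ) k) := e3
    omega
  obtain ⟨σ, hσ, rfl⟩ := perm_of_fix g h1 hE
  apply Subtype.ext
  show cp σ = 1
  apply cp_inj_pt
  intro k
  by_cases hk : k = none
  · rw [hk, hσ]
  have hm : vA k ∈ XF := by
    by_cases hk0 : k = pt 0
    · rw [hk0]
      exact q3
    · exact (sA_props k hk hk0).1
  have hf := hfix _ hm
  have e := congrArg (fun w : ↥leechLattice => (w : GolayPt → ℤ) k) hf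
  have e' : ((cp σ • (⟨vA k, XF_mem_lattice hm⟩ : ↥leechLattice) : ↥leechLattice) :
      GolayPt → ℤ) k = vA k k := e
  rw [cp_apply] at e'
  have e'' : vA k (σ.1.symm k) = vA k k := e'
  rw [vA_apply hk, vA_apply hk, if_neg hk, if_pos rfl] at e''
  by_cases hs : σ.1.symm k = k
  · rw [Equiv.symm_apply_eq] at hs
    exact hs.symm
  · exfalso
    rw [if_neg hs] at e''
    split_ifs at e''
    omega

theorem c3_stab (K : Subgroup ↥C3) (hK : K ≤ MulAction.stabilizer ↥C3 R1)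
    (hnorm : ∀ g ∈ MulAction.stabilizer ↥C3 R1, ∀ k ∈ K, g * k * g⁻¹ ∈ K) :
    K = ⊥ ∨ K = MulAction.stabilizer ↥C3 R1 := by
  have := hs0_simple
  apply Crit.quasi_simple_of_hom (Subgroup.inclusion (inf_le_left : HS0 ≤ C3)) _ _ K hK hnorm
  rintro ⟨g, hg⟩
  rw [MulAction.mem_stabilizer_iff]
  constructor
  · intro h3
    exact ⟨⟨g, ⟨hg, MulAction.mem_stabilizer_iff.mpr h3⟩⟩, rfl⟩
  · rintro ⟨⟨g', hg'⟩, hσ⟩
    have e : g' = g := congrArg Subtype.val hσ
    subst e
    exact MulAction.mem_stabilizer_iff.mp hg'.2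

theorem c3_simple : IsSimpleGroup ↥C3 :=
  Crit.simple_of_maximal R1 11178 index_stab_R1 (by norm_num) c3_max c3_faith c3_stab
    (Crit.reg_of_char 11178 (fun _ _ _ hc => Crit.exists_char_11178 hc))

/-- Statement S0403. -/
theorem co3_simple (v : Cfsg.leechLattice) (hv : Cfsg.sqNorm (v : Cfsg.GolayPt → ℤ) = 48) : Cfsg.IsCo3 (MulAction.stabilizer Cfsg.Co0 v) := by
  obtain ⟨k, hk⟩ := transitive48 v T0 hv sqNorm_t0
  have key : ∀ g : ↥Co0, g ∈ MulAction.stabilizer ↥Co0 v ↔ k * g * k⁻¹ ∈ C3 := by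
    intro g
    rw [MulAction.mem_stabilizer_iff, MulAction.mem_stabilizer_iff, mul_smul, mul_smul, ← hk,
      inv_smul_smul]
    constructor
    · intro h
      rw [h]
    · intro h
      exact MulAction.injective k h
  have e := conjEquiv k _ C3 key
  have := c3_simple
  exact ⟨e.isSimpleGroup, (Nat.card_congr e.toEquiv).trans card_C3⟩

end Cfsg.Agent.Lib.helper28.XI
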