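import Cfsg.Agent.Lib.helper28.PrimCrit

set_option autoImplicit false

namespace Cfsg.Agent.Lib.helper28.Crit

open scoped Pointwise

universe u v

section Over

variable {G : Type u} [Group G] {α : Type v} [MulAction G α]

/-- The orbit of a point under an overgroup of its stabiliser is a union of suborbits. -/
theorem overgroup_orbit (x : α) (n r : ℕ) (a : ℕ → ℕ) (c : α → ℕ)
    (hn : (MulAction.orbit G x).ncard = n) (hn0 : n ≠ 0)
    (hcx : c x = 0)
    (hc0 : ∀ y ∈ MulAction.orbit G x, c y = 0 → y = x)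
    (hcr : ∀ y ∈ MulAction.orbit G x, c y ≤ r)
    (htr : ∀ y ∈ MulAction.orbit G x, ∀ y' ∈ MulAction.orbit G x, c y = c y' → c y ≠ 0 →
      ∃ g : G, g • x = x ∧ g • y = y')
    (hsz : ∀ i ∈ Finset.Icc 1 r, {y | y ∈ MulAction.orbit G x ∧ c y = i}.ncard = a i)
    (M : Subgroup G) (hM : MulAction.stabilizer G x ≤ M) :
    ∃ I ∈ (Finset.Icc 1 r).powerset, (MulAction.orbit ↥M x).ncard = 1 + ∑ i ∈ I, a i ∧
      (1 + ∑ i ∈ I, a i) ∣ n ∧
      ∀ y, y ∈ MulAction.orbit ↥M x ↔ y = x ∨ (y ∈ MulAction.orbit G x ∧ c y ∈ I) := by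
  classical
  have hfin : (MulAction.orbit G x).Finite :=
    Set.finite_of_ncard_ne_zero (by rw [hn]; exact hn0)
  have hBsub : MulAction.orbit ↥M x ⊆ MulAction.orbit G x := by
    rintro _ ⟨m, rfl⟩
    exact ⟨m.1, rfl⟩
  have hxB : x ∈ MulAction.orbit ↥M x := MulAction.mem_orbit_self x
  have hdvd : (MulAction.orbit ↥M x).ncard ∣ n := by
    rw [← hn]
    exact orbit_sub_ncard_dvd M x hM
  obtain ⟨I, hI⟩ : ∃ I : Finset ℕ,
      I = (Finset.Icc 1 r).filter (fun i => ∃ y ∈ MulAction.orbit ↥M x, c y = i) := ⟨_, rfl⟩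
  have hIsub : I ∈ (Finset.Icc 1 r).powerset := by
    rw [hI]
    exact Finset.mem_powerset.mpr (Finset.filter_subset _ _)
  have hchar : ∀ y, y ∈ MulAction.orbit ↥M x ↔
      y = x ∨ (y ∈ MulAction.orbit G x ∧ c y ∈ I) := by
    intro y
    constructor
    · intro hy
      by_cases h0 : c y = 0
      · exact Or.inl (hc0 y (hBsub hy) h0)
      · right
        refine ⟨hBsub hy, ?_⟩
        rw [hI, Finset.mem_filter, Finset.mem_Icc]
        exact ⟨⟨Nat.one_le_iff_ne_zero.mpr h0, hcr y (hBsub hy)⟩, y, hy, rfl⟩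
    · rintro (rfl | ⟨hy, hcy⟩)
      · exact hxB
      · rw [hI, Finset.mem_filter, Finset.mem_Icc] at hcy
        obtain ⟨⟨h1, -⟩, y', hy', hc⟩ := hcy
        obtain ⟨g, hgx, hgy⟩ := htr y' (hBsub hy') y hy hc (by omega)
        obtain ⟨m, rfl⟩ := hy'
        have hgM : g ∈ M := hM (MulAction.mem_stabilizer_iff.mpr hgx)
        refine ⟨⟨g, hgM⟩ * m, ?_⟩
        show (⟨g, hgM⟩ * m : ↥M) • x = y
        rw [mul_smul]
        exact hgy
  have hcard : (MulAction.orbit ↥M x).ncard = 1 + ∑ i ∈ I, a i := by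
    obtain ⟨F, hF⟩ : ∃ F : Finset α, F = hfin.toFinset.filter (fun y => c y ∈ I) := ⟨_, rfl⟩
    have hxF : x ∉ F := by
      rw [hF, Finset.mem_filter, hcx]
      rintro ⟨-, h0⟩
      have := Finset.mem_powerset.mp hIsub h0
      rw [Finset.mem_Icc] at this
      omega
    have hBF : MulAction.orbit ↥M x = ↑(insert x F) := by
      ext y
      rw [hchar, Finset.coe_insert, Set.mem_insert_iff, Finset.mem_coe, hF, Finset.mem_filter,
        Set.Finite.mem_toFinset]
    rw [hBF, Set.ncard_coe_finset, Finset.card_insert_of_notMem hxF, add_comm]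
    congr 1
    have hmap : (F : Set α).MapsTo c (I : Set ℕ) := by
      intro y hy
      rw [Finset.mem_coe, hF, Finset.mem_filter] at hy
      exact Finset.mem_coe.mpr hy.2
    rw [Finset.card_eq_sum_card_fiberwise hmap]
    apply Finset.sum_congr rfl
    intro i hi
    rw [← hsz i (Finset.mem_powerset.mp hIsub hi), ← Set.ncard_coe_finset]
    congr 1
    ext y
    rw [Finset.mem_coe, Finset.mem_filter, hF, Finset.mem_filter, Set.Finite.mem_toFinset,
      Set.mem_ofPred_eq]
    constructor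
    · rintro ⟨⟨h1, -⟩, h2⟩
      exact ⟨h1, h2⟩
    · rintro ⟨h1, h2⟩
      exact ⟨⟨h1, h2 ▸ hi⟩, h2⟩
  rw [hcard] at hdvd
  exact ⟨I, hIsub, hcard, hdvd, hchar⟩

/-- The orbit of a point under a normal subgroup meeting the stabiliser trivially. -/
theorem ncard_orbit_of_inf_bot (N : Subgroup G) (x : α)
    (h : N ⊓ MulAction.stabilizer G x = ⊥) : (MulAction.orbit ↥N x).ncard = Nat.card ↥N := by
  rw [← MulAction.index_stabilizer]
  have hb : MulAction.stabilizer ↥N x = ⊥ := by
    rw [eq_bot_iff]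
    rintro ⟨g, hg⟩ hs
    rw [MulAction.mem_stabilizer_iff] at hs
    have hs' : g • x = x := hs
    have hm : g ∈ N ⊓ MulAction.stabilizer G x :=
      ⟨hg, MulAction.mem_stabilizer_iff.mpr hs'⟩
    rw [h, Subgroup.mem_bot] at hm
    rw [Subgroup.mem_bot]
    exact Subtype.ext hm
  rw [hb, Subgroup.index_bot]

/-- The orbit under the join of a normal subgroup with the stabiliser. -/
theorem orbit_sup_stab (N : Subgroup G) [N.Normal] (x : α) :
    MulAction.orbit ↥(N ⊔ MulAction.stabilizer G x) x = MulAction.orbit ↥N x := by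
  ext y
  constructor
  · rintro ⟨⟨m, hm⟩, rfl⟩
    have hm' : m ∈ (↑(N ⊔ MulAction.stabilizer G x) : Set G) := hm
    rw [Subgroup.normal_mul] at hm'
    obtain ⟨n, hn, s, hs, rfl⟩ := hm'
    refine ⟨⟨n, hn⟩, ?_⟩
    show n • x = (n * s) • x
    rw [mul_smul, MulAction.mem_stabilizer_iff.mp hs]
  · rintro ⟨⟨n, hn⟩, rfl⟩
    exact ⟨⟨n, (le_sup_left : N ≤ N ⊔ MulAction.stabilizer G x) hn⟩, rfl⟩

end Over

section Grp

variable {G : Type u} [Group G]

/-- A normal subgroup meeting a subgroup trivially. -/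
theorem card_mul_dvd_of_inf_bot [Finite G] (N K : Subgroup G) [N.Normal] (h : N ⊓ K = ⊥) :
    Nat.card ↥N * Nat.card ↥K ∣ Nat.card G := by
  have h1 : N.relIndex (K ⊔ N) = Nat.card ↥K := by
    rw [Subgroup.relIndex_sup_right, ← Subgroup.inf_relIndex_right, h,
      Subgroup.relIndex_bot_left]
  have h2 := Subgroup.relIndex_mul_relIndex (⊥ : Subgroup G) N (K ⊔ N) bot_le le_sup_right
  rw [Subgroup.relIndex_bot_left, Subgroup.relIndex_bot_left, h1] at h2
  rw [h2]
  exact Subgroup.card_subgroup_dvd_card _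

/-- A normal subgroup of order two is central. -/
theorem normal_two_le_center (N : Subgroup G) [hN : N.Normal] (h : Nat.card ↥N = 2) :
    N ≤ Subgroup.center G := by
  obtain ⟨t, -, ht⟩ := (Nat.card_eq_two_iff' (1 : ↥N)).mp h
  intro n hn
  rw [Subgroup.mem_center_iff]
  intro g
  by_cases h1 : n = 1
  · rw [h1, one_mul, mul_one]
  · have hmem : g * n * g⁻¹ ∈ N := hN.conj_mem n hn g
    have e1 : (⟨g * n * g⁻¹, hmem⟩ : ↥N) = t := by
      apply ht
      intro e
      apply h1
      have e' : g * n * g⁻¹ = 1 := congrArg Subtype.val e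
      rw [mul_inv_eq_one] at e'
      exact mul_left_cancel (e'.trans (mul_one g).symm)
    have e2 : (⟨n, hn⟩ : ↥N) = t := by
      apply ht
      intro e
      exact h1 (congrArg Subtype.val e)
    have e3 : g * n * g⁻¹ = n := congrArg Subtype.val (e1.trans e2.symm)
    rw [mul_inv_eq_iff_eq_mul] at e3
    exact e3

/-- Simplicity of a quotient. -/
theorem simple_quot (Z : Subgroup G) [Z.Normal] [Nontrivial (G ⧸ Z)]
    (h : ∀ N : Subgroup G, N.Normal → N ≤ Z ∨ N = ⊤) : IsSimpleGroup (G ⧸ Z) := by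
  refine { eq_bot_or_eq_top_of_normal := ?_ }
  intro M hM
  have hN : (M.comap (QuotientGroup.mk' Z)).Normal := hM.comap _
  rcases h _ hN with h1 | h1
  · left
    rw [eq_bot_iff]
    intro q hq
    obtain ⟨g, rfl⟩ := QuotientGroup.mk_surjective q
    have hg : g ∈ M.comap (QuotientGroup.mk' Z) := hq
    rw [Subgroup.mem_bot]
    exact (QuotientGroup.eq_one_iff g).mpr (h1 hg)
  · right
    rw [eq_top_iff]
    intro q _
    obtain ⟨g, rfl⟩ := QuotientGroup.mk_surjective q
    have hg : g ∈ M.comap (QuotientGroup.mk' Z) := by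
      rw [h1]
      exact Subgroup.mem_top g
    exact hg

end Grp

end Cfsg.Agent.Lib.helper28.Crit
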