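import Cfsg.Agent.Lib.helper28.LeechSimpleCo2
import Cfsg.Agent.Lib.helper28.LeechSimpleCo3
import Cfsg.Agent.Lib.helper28.PrimCrit3
import Cfsg.Agent.Lib.helper28.LeechDot16
import Cfsg.Agent.Lib.helper28.LeechOrtho

set_option autoImplicit false

namespace Cfsg.Agent.Lib.helper28.XI

open Cfsg
open Cfsg.Agent.Lib.helper28
open Cfsg.Agent.Lib.helper27
open Cfsg.Agent.Lib.helper28.LC
open Cfsg.Agent.Lib.helper28.SC
open scoped Pointwise

/-! Simplicity and order of the first Conway group. -/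

/-- The stabiliser of a minimal vector is transitive on each class of minimal vectors. -/
theorem class_trans (v w w' : ↥leechLattice) (hv : sqNorm (v : GolayPt → ℤ) = 32)
    (hw : sqNorm (w : GolayPt → ℤ) = 32) (hw' : sqNorm (w' : GolayPt → ℤ) = 32) (c : ℤ)
    (hc : c = 16 ∨ c = 8 ∨ c = 0 ∨ c = -8 ∨ c = -16)
    (hd : dotInt (v : GolayPt → ℤ) (w : GolayPt → ℤ) = c)
    (hd' : dotInt (v : GolayPt → ℤ) (w' : GolayPt → ℤ) = c) :
    ∃ g : ↥Co0, g • v = v ∧ g • w = w' := by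
  have neg : ∀ (k : ℤ), (∀ a b : ↥leechLattice, sqNorm (a : GolayPt → ℤ) = 32 →
      sqNorm (b : GolayPt → ℤ) = 32 → dotInt (v : GolayPt → ℤ) (a : GolayPt → ℤ) = -k →
      dotInt (v : GolayPt → ℤ) (b : GolayPt → ℤ) = -k → ∃ g : ↥Co0, g • v = v ∧ g • a = b) →
      dotInt (v : GolayPt → ℤ) (w : GolayPt → ℤ) = k →
      dotInt (v : GolayPt → ℤ) (w' : GolayPt → ℤ) = k → ∃ g : ↥Co0, g • v = v ∧ g • w = w' := by
    intro k H h1 h2
    obtain ⟨g, hg1, hg2⟩ := H (-w) (-w')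
      (by show sqNorm (-(w : GolayPt → ℤ)) = 32; rw [sqNorm_neg, hw])
      (by show sqNorm (-(w' : GolayPt → ℤ)) = 32; rw [sqNorm_neg, hw'])
      (by show dotInt (v : GolayPt → ℤ) (-(w : GolayPt → ℤ)) = -k; rw [dotInt_neg_right, h1])
      (by show dotInt (v : GolayPt → ℤ) (-(w' : GolayPt → ℤ)) = -k; rw [dotInt_neg_right, h2])
    refine ⟨g, hg1, ?_⟩
    rw [smul_neg'] at hg2
    exact neg_injective hg2
  rcases hc with rfl | rfl | rfl | rfl | rfl
  · exact neg 16 (fun a b ha hb h1 h2 => dot16_trans v a b hv ha hb h1 h2) hd hd'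
  · exact neg 8 (fun a b ha hb h1 h2 => dot8_trans v a b hv ha hb h1 h2) hd hd'
  · exact ortho_trans v w w' hv hw hw' hd hd'
  · exact dot8_trans v w w' hv hw hw' hd hd'
  · exact dot16_trans v w w' hv hw hw' hd hd'

theorem orbit_X0_Co0 :
    MulAction.orbit ↥Co0 X0 = {y : ↥leechLattice | sqNorm (y : GolayPt → ℤ) = 32} := by
  ext y
  rw [Set.mem_ofPred_eq]
  constructor
  · rintro ⟨g, rfl⟩
    exact (co0_norm g X0).trans x0_props.2.1
  · intro hy
    obtain ⟨g, hg⟩ := transitive32 X0 y x0_props.2.1 hy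
    exact ⟨g, hg⟩

theorem ncard_orbit_X0_Co0 : (MulAction.orbit ↥Co0 X0).ncard = 196560 := by
  rw [orbit_X0_Co0]
  refine (ncard_eq_card _ S32 (fun x => ?_) (fun y hy => ((mem_S32 y).mp hy).1)).trans card_S32
  rw [Set.mem_ofPred_eq, mem_S32]
  exact ⟨fun h => ⟨x.2, h⟩, fun h => h.2⟩

theorem x0S : x0 ∈ S32 := (mem_S32 x0).mpr ⟨x0_props.1, x0_props.2.1⟩

/-- The label of a suborbit. -/
def labX (y : ↥leechLattice) : ℕ :=
  if dotInt x0 (y : GolayPt → ℤ) = 32 then 0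
  else if dotInt x0 (y : GolayPt → ℤ) = -32 then 1
  else if dotInt x0 (y : GolayPt → ℤ) = 16 then 2
  else if dotInt x0 (y : GolayPt → ℤ) = -16 then 3
  else if dotInt x0 (y : GolayPt → ℤ) = 8 then 4
  else if dotInt x0 (y : GolayPt → ℤ) = -8 then 5 else 6

theorem X0_dots (y : ↥leechLattice) (hy : sqNorm (y : GolayPt → ℤ) = 32) :
    (dotInt x0 (y : GolayPt → ℤ) = 32 ∧ y = X0) ∨ (dotInt x0 (y : GolayPt → ℤ) = -32 ∧ y = -X0) ∨
      dotInt x0 (y : GolayPt → ℤ) = 16 ∨ dotInt x0 (y : GolayPt → ℤ) = 8 ∨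
      dotInt x0 (y : GolayPt → ℤ) = 0 ∨ dotInt x0 (y : GolayPt → ℤ) = -8 ∨
      dotInt x0 (y : GolayPt → ℤ) = -16 := by
  rcases dot_vals x0S ((mem_S32 _).mpr ⟨y.2, hy⟩) with h | h | h | h | h | h | h
  · exact Or.inl ⟨h.1, Subtype.ext h.2⟩
  · exact Or.inr (Or.inl ⟨h.1, Subtype.ext h.2⟩)
  · exact Or.inr (Or.inr (Or.inl h))
  · exact Or.inr (Or.inr (Or.inr (Or.inl h)))
  · exact Or.inr (Or.inr (Or.inr (Or.inr (Or.inl h))))
  · exact Or.inr (Or.inr (Or.inr (Or.inr (Or.inr (Or.inl h)))))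
  · exact Or.inr (Or.inr (Or.inr (Or.inr (Or.inr (Or.inr h)))))

theorem labX_iff (y : ↥leechLattice) (hy : sqNorm (y : GolayPt → ℤ) = 32) :
    (labX y = 0 ↔ dotInt x0 (y : GolayPt → ℤ) = 32) ∧
    (labX y = 1 ↔ dotInt x0 (y : GolayPt → ℤ) = -32) ∧
    (labX y = 2 ↔ dotInt x0 (y : GolayPt → ℤ) = 16) ∧
    (labX y = 3 ↔ dotInt x0 (y : GolayPt → ℤ) = -16) ∧
    (labX y = 4 ↔ dotInt x0 (y : GolayPt → ℤ) = 8) ∧
    (labX y = 5 ↔ dotInt x0 (y : GolayPt → ℤ) = -8) ∧
    (labX y = 6 ↔ dotInt x0 (y : GolayPt → ℤ) = 0) := by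
  unfold labX
  rcases X0_dots y hy with h | h | h | h | h | h | h
  · rw [h.1]; norm_num
  · rw [h.1]; norm_num
  all_goals rw [h]; norm_num

theorem labX_class (i : ℕ) (k : ℤ)
    (hi : ∀ y : ↥leechLattice, sqNorm (y : GolayPt → ℤ) = 32 →
      (labX y = i ↔ dotInt x0 (y : GolayPt → ℤ) = k)) :
    {y | y ∈ MulAction.orbit ↥Co0 X0 ∧ labX y = i}.ncard = Nk x0 k := by
  refine Eq.trans ?_ (ncard_Bk X0 k)
  congr 1
  ext y
  unfold Bk
  rw [Set.mem_ofPred_eq, orbit_X0_Co0, Set.mem_ofPred_eq, Set.mem_ofPred_eq]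
  constructor
  · rintro ⟨h1, h2⟩
    exact ⟨h1, (hi y h1).mp h2⟩
  · rintro ⟨h1, h2⟩
    exact ⟨h1, (hi y h1).mpr h2⟩

theorem nk16 : Nk x0 (-16) = 4600 := by
  have ht := total x0S
  rw [n8 x0S, n0 x0S] at ht
  generalize Nk x0 (-16) = n at ht ⊢
  omega

theorem co0_over (M : Subgroup ↥Co0) (hM : C2 ≤ M) :
    (MulAction.orbit ↥M X0).ncard = 1 ∨ (MulAction.orbit ↥M X0).ncard = 2 ∨
      (MulAction.orbit ↥M X0).ncard = 196560 := by
  obtain ⟨I, hI, hcard, hdvd, -⟩ := Crit.overgroup_orbit X0 196560 6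
    (fun i => if i = 1 then 1 else if i = 2 then 4600 else if i = 3 then 4600
      else if i = 4 then 47104 else if i = 5 then 47104 else 93150) labX
    ncard_orbit_X0_Co0 (by norm_num) (by
      unfold labX
      exact if_pos (show dotInt x0 x0 = 32 from by decide +kernel)) (by
      intro y hy h0
      rw [orbit_X0_Co0, Set.mem_ofPred_eq] at hy
      have hd := (labX_iff y hy).1.mp h0
      rcases X0_dots y hy with h | h | h | h | h | h | h
      · exact h.2
      · have := h.1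
        omega
      all_goals omega) (by
      intro y _
      unfold labX
      split_ifs <;> omega) (by
      intro y hy y' hy' hc h0
      rw [orbit_X0_Co0, Set.mem_ofPred_eq] at hy hy'
      obtain ⟨a0, a1, a2, a3, a4, a5, a6⟩ := labX_iff y hy
      obtain ⟨b0, b1, b2, b3, b4, b5, b6⟩ := labX_iff y' hy'
      rcases X0_dots y hy with h | h | h | h | h | h | h
      · exact absurd (a0.mpr h.1) h0
      · have h' := b1.mp (hc.symm.trans (a1.mpr h.1))
        rcases X0_dots y' hy' with h2 | h2 | h2 | h2 | h2 | h2 | h2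
        · have := h2.1
          omega
        · exact ⟨1, one_smul _ _, by rw [one_smul, h.2, h2.2]⟩
        all_goals omega
      · exact class_trans X0 y y' x0_props.2.1 hy hy' 16 (by norm_num) h
          (b2.mp (hc.symm.trans (a2.mpr h)))
      · exact class_trans X0 y y' x0_props.2.1 hy hy' 8 (by norm_num) h
          (b4.mp (hc.symm.trans (a4.mpr h)))
      · exact class_trans X0 y y' x0_props.2.1 hy hy' 0 (by norm_num) h
          (b6.mp (hc.symm.trans (a6.mpr h)))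
      · exact class_trans X0 y y' x0_props.2.1 hy hy' (-8) (by norm_num) h
          (b5.mp (hc.symm.trans (a5.mpr h)))
      · exact class_trans X0 y y' x0_props.2.1 hy hy' (-16) (by norm_num) h
          (b3.mp (hc.symm.trans (a3.mpr h)))) (by
      intro i hi
      rw [Finset.mem_Icc] at hi
      have hi' : i = 1 ∨ i = 2 ∨ i = 3 ∨ i = 4 ∨ i = 5 ∨ i = 6 := by omega
      rcases hi' with rfl | rfl | rfl | rfl | rfl | rfl
      · rw [if_pos rfl]
        exact (labX_class 1 (-32) (fun y hy => (labX_iff y hy).2.1)).trans (Nk_neg32 x0S)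
      · rw [if_neg (by norm_num), if_pos rfl]
        exact (labX_class 2 16 (fun y hy => (labX_iff y hy).2.2.1)).trans
          ((Nk_neg x0 16).symm.trans nk16)
      · rw [if_neg (by norm_num), if_neg (by norm_num), if_pos rfl]
        exact (labX_class 3 (-16) (fun y hy => (labX_iff y hy).2.2.2.1)).trans nk16
      · rw [if_neg (by norm_num), if_neg (by norm_num), if_neg (by norm_num), if_pos rfl]
        exact (labX_class 4 8 (fun y hy => (labX_iff y hy).2.2.2.2.1)).trans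
          ((Nk_neg x0 8).symm.trans (n8 x0S))
      · rw [if_neg (by norm_num), if_neg (by norm_num), if_neg (by norm_num),
          if_neg (by norm_num), if_pos rfl]
        exact (labX_class 5 (-8) (fun y hy => (labX_iff y hy).2.2.2.2.2.1)).trans (n8 x0S)
      · rw [if_neg (by norm_num), if_neg (by norm_num), if_neg (by norm_num),
          if_neg (by norm_num), if_neg (by norm_num)]
        exact (labX_class 6 0 (fun y hy => (labX_iff y hy).2.2.2.2.2.2)).trans (n0 x0S)) M hM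
  have key : ∀ I ∈ (Finset.Icc 1 6).powerset,
      (1 + ∑ i ∈ I, (if i = 1 then 1 else if i = 2 then 4600 else if i = 3 then 4600
        else if i = 4 then 47104 else if i = 5 then 47104 else 93150)) ∣ 196560 →
      (1 + ∑ i ∈ I, (if i = 1 then 1 else if i = 2 then 4600 else if i = 3 then 4600
        else if i = 4 then 47104 else if i = 5 then 47104 else 93150)) = 1 ∨
      (1 + ∑ i ∈ I, (if i = 1 then 1 else if i = 2 then 4600 else if i = 3 then 4600
        else if i = 4 then 47104 else if i = 5 then 47104 else 93150)) = 2 ∨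
      (1 + ∑ i ∈ I, (if i = 1 then 1 else if i = 2 then 4600 else if i = 3 then 4600
        else if i = 4 then 47104 else if i = 5 then 47104 else 93150)) = 196560 := by
    decide
  rw [hcard]
  exact key I hI hdvd

/-! ### Normal subgroups containing a vector stabiliser -/

theorem stab_le_of (N : Subgroup ↥Co0) (hN : N.Normal) (h : C2 ≤ N) (u : ↥leechLattice)
    (hu : sqNorm (u : GolayPt → ℤ) = 32) : MulAction.stabilizer ↥Co0 u ≤ N := by
  obtain ⟨g, hg⟩ := transitive32 X0 u x0_props.2.1 hu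
  intro s hs
  rw [MulAction.mem_stabilizer_iff] at hs
  have h1 : g⁻¹ * s * g ∈ C2 := by
    rw [MulAction.mem_stabilizer_iff, mul_smul, mul_smul, hg, hs, ← hg, inv_smul_smul]
  have h2 := hN.conj_mem _ (h h1) g
  have e : g * (g⁻¹ * s * g) * g⁻¹ = s := by group
  rw [e] at h2
  exact h2

theorem reach_step (N : Subgroup ↥Co0) (hN : N.Normal) (h : C2 ≤ N) (u w1 w : ↥leechLattice)
    (hu : sqNorm (u : GolayPt → ℤ) = 32) (hw1 : sqNorm (w1 : GolayPt → ℤ) = 32)
    (hw : sqNorm (w : GolayPt → ℤ) = 32) (c' : ℤ)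
    (hc' : c' = 16 ∨ c' = 8 ∨ c' = 0 ∨ c' = -8 ∨ c' = -16)
    (d1 : dotInt (u : GolayPt → ℤ) x0 = c') (d2 : dotInt (u : GolayPt → ℤ) (w1 : GolayPt → ℤ) = c')
    (c : ℤ) (hc : c = 16 ∨ c = 8 ∨ c = 0 ∨ c = -8 ∨ c = -16)
    (e1 : dotInt x0 (w1 : GolayPt → ℤ) = c) (e2 : dotInt x0 (w : GolayPt → ℤ) = c) :
    ∃ n ∈ N, n • X0 = w := by
  obtain ⟨n1, hn1, hn2⟩ := class_trans u X0 w1 hu x0_props.2.1 hw1 c' hc' d1 d2
  obtain ⟨h1, hh1, hh2⟩ := class_trans X0 w1 w x0_props.2.1 hw1 hw c hc e1 e2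
  refine ⟨h1 * n1, N.mul_mem (h (MulAction.mem_stabilizer_iff.mpr hh1))
    (stab_le_of N hN h u hu (MulAction.mem_stabilizer_iff.mpr hn1)), ?_⟩
  rw [mul_smul, hn2, hh2]

theorem e0_mem {s p : Finset GolayPt} (hp : p.card = 2) (hs : s ⊆ p) :
    tw s (pat 4 p) ∈ leechLattice ∧ sqNorm (tw s (pat 4 p)) = 32 := by
  have hE : tw s (pat 4 p) ∈ E0 := by
    unfold E0
    rw [mem_clsE]
    exact ⟨p, Finset.mem_powersetCard.mpr ⟨Finset.subset_univ _, hp⟩, s,
      Finset.mem_powerset.mpr hs, rfl⟩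
  exact ⟨(E0_props hE).1, (E0_props hE).2.1⟩

/-- `(0, -4, -4, 0, ...)`. -/
def cu1 : GolayPt → ℤ := tw {pt 0, pt 1} (pat 4 {pt 0, pt 1})
/-- `(-4, 0, -4, 0, ...)`. -/
def cu2 : GolayPt → ℤ := tw {none, pt 1} (pat 4 {none, pt 1})
/-- `(0, 0, 4, -4, 0, ...)`. -/
def cu3 : GolayPt → ℤ := tw {pt 2} (pat 4 {pt 1, pt 2})
/-- `(4, 0, 4, 0, ...)`. -/
def cw16 : GolayPt → ℤ := tw ∅ (pat 4 {none, pt 1})
/-- `(-4, 0, 4, 0, ...)`. -/
def cwm16 : GolayPt → ℤ := tw {none} (pat 4 {none, pt 1})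
/-- `(4, -4, 0, ...)`. -/
def cw0 : GolayPt → ℤ := tw {pt 0} (pat 4 {none, pt 0})

theorem u1_p : cu1 ∈ leechLattice ∧ sqNorm cu1 = 32 := e0_mem (by decide) (by decide)
theorem u2_p : cu2 ∈ leechLattice ∧ sqNorm cu2 = 32 := e0_mem (by decide) (by decide)
theorem u3_p : cu3 ∈ leechLattice ∧ sqNorm cu3 = 32 := e0_mem (by decide) (by decide)
theorem w16_p : cw16 ∈ leechLattice ∧ sqNorm cw16 = 32 := e0_mem (by decide) (by decide)
theorem wm16_p : cwm16 ∈ leechLattice ∧ sqNorm cwm16 = 32 := e0_mem (by decide) (by decide)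
theorem w0_p : cw0 ∈ leechLattice ∧ sqNorm cw0 = 32 := e0_mem (by decide) (by decide)

theorem dots1 : dotInt cu1 x0 = -16 ∧ dotInt cu1 cw16 = -16 ∧ dotInt cu1 cwm16 = -16 ∧
    dotInt x0 cw16 = 16 ∧ dotInt x0 cwm16 = -16 := by decide +kernel

theorem dots2 : dotInt cu2 x0 = -16 ∧ dotInt cu2 cw0 = -16 ∧ dotInt x0 cw0 = 0 ∧
    dotInt cw0 x0 = 0 := by decide +kernel

theorem dots3 : dotInt cu3 x0 = 0 ∧ dotInt cu3 (vT ∅ (pt 0)) = 0 := by decide +kernel

theorem reach (N : Subgroup ↥Co0) (hN : N.Normal) (h : C2 ≤ N) (w : ↥leechLattice)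
    (hw : sqNorm (w : GolayPt → ℤ) = 32) : ∃ n ∈ N, n • X0 = w := by
  rcases X0_dots w hw with hd | hd | hd | hd | hd | hd | hd
  · exact ⟨1, N.one_mem, by rw [one_smul, hd.2]⟩
  · obtain ⟨g, hg1, hg2⟩ := ortho_trans ⟨cw0, w0_p.1⟩ X0 w w0_p.2 x0_props.2.1 hw dots2.2.2.2 (by
      rw [hd.2]
      show dotInt cw0 (-x0) = 0
      rw [dotInt_neg_right, dots2.2.2.2]
      norm_num)
    exact ⟨g, stab_le_of N hN h ⟨cw0, w0_p.1⟩ w0_p.2 (MulAction.mem_stabilizer_iff.mpr hg1), hg2⟩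
  · exact reach_step N hN h ⟨cu1, u1_p.1⟩ ⟨cw16, w16_p.1⟩ w u1_p.2 w16_p.2 hw (-16) (by norm_num)
      dots1.1 dots1.2.1 16 (by norm_num) dots1.2.2.2.1 hd
  · exact reach_step N hN h ⟨cu3, u3_p.1⟩ (-C0) w u3_p.2
      (by show sqNorm (-(vT ∅ (pt 0))) = 32; rw [sqNorm_neg, c0_props.2.1]) hw 0 (by norm_num)
      dots3.1 (by show dotInt cu3 (-(vT ∅ (pt 0))) = 0; rw [dotInt_neg_right, dots3.2]; norm_num)
      8 (by norm_num)
      (by show dotInt x0 (-(vT ∅ (pt 0))) = 8; rw [dotInt_neg_right, c0_props.2.2.1]; norm_num) hd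
  · exact reach_step N hN h ⟨cu2, u2_p.1⟩ ⟨cw0, w0_p.1⟩ w u2_p.2 w0_p.2 hw (-16) (by norm_num)
      dots2.1 dots2.2.1 0 (by norm_num) dots2.2.2.1 hd
  · exact reach_step N hN h ⟨cu3, u3_p.1⟩ C0 w u3_p.2 c0_props.2.1 hw 0 (by norm_num)
      dots3.1 dots3.2 (-8) (by norm_num) c0_props.2.2.1 hd
  · exact reach_step N hN h ⟨cu1, u1_p.1⟩ ⟨cwm16, wm16_p.1⟩ w u1_p.2 wm16_p.2 hw (-16)
      (by norm_num) dots1.1 dots1.2.2.1 (-16) (by norm_num) dots1.2.2.2.2 hd

/-- The normal subgroups of the automorphism group of the lattice. -/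
theorem co0_normal (N : Subgroup ↥Co0) (hN : N.Normal) :
    N ≤ Subgroup.center ↥Co0 ∨ N = ⊤ := by
  have hs2 := c2_simple
  have hs3 := c3_simple
  rcases (inferInstance : (N.subgroupOf C2).Normal).eq_bot_or_eq_top with h | h
  · left
    have hNH : N ⊓ C2 = ⊥ := by
      rw [Subgroup.subgroupOf_eq_bot] at h
      exact disjoint_iff.mp h
    have hNK : N ⊓ C3 = ⊥ := by
      rcases (inferInstance : (N.subgroupOf C3).Normal).eq_bot_or_eq_top with h' | h'
      · rw [Subgroup.subgroupOf_eq_bot] at h'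
        exact disjoint_iff.mp h'
      · exfalso
        rw [Subgroup.subgroupOf_eq_top] at h'
        have hML : ML0 ≤ N ⊓ C2 := le_inf (inf_le_left.trans h') inf_le_right
        rw [hNH, le_bot_iff] at hML
        have hc := card_ML0
        rw [hML, Subgroup.card_bot] at hc
        norm_num at hc
    have hdiv := Crit.card_mul_dvd_of_inf_bot N C3 hNK
    rw [card_C3, card_Co0] at hdiv
    have hcard : (MulAction.orbit ↥(N ⊔ C2) X0).ncard = Nat.card ↥N := by
      rw [Crit.orbit_sup_stab N X0]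
      exact Crit.ncard_orbit_of_inf_bot N X0 hNH
    rcases co0_over (N ⊔ C2) le_sup_right with h1 | h1 | h1
    · rw [hcard] at h1
      rw [Subgroup.eq_bot_of_card_eq N h1]
      exact bot_le
    · rw [hcard] at h1
      exact Crit.normal_two_le_center N h1
    · exfalso
      rw [hcard] at h1
      rw [h1] at hdiv
      norm_num at hdiv
  · right
    rw [Subgroup.subgroupOf_eq_top] at h
    rw [eq_top_iff]
    intro g _
    obtain ⟨n, hn, hn'⟩ := reach N hN h (g • X0) (by rw [co0_norm]; exact x0_props.2.1)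
    have h3 : n⁻¹ * g ∈ C2 := by
      rw [MulAction.mem_stabilizer_iff, mul_smul, ← hn', inv_smul_smul]
    have h4 := N.mul_mem hn (h h3)
    rwa [mul_inv_cancel_left] at h4

/-- Statement S0399. -/
theorem co1_simple : Cfsg.IsCo1 (Cfsg.Co0 ⧸ Subgroup.center Cfsg.Co0) := by
  have hidx : (Subgroup.center ↥Co0).index = 4157776806543360000 := by
    have h := Subgroup.card_mul_index (Subgroup.center ↥Co0)
    rw [card_center_Co0, card_Co0] at h
    exact Nat.eq_of_mul_eq_mul_left (by norm_num : 0 < 2) (h.trans (by norm_num))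
  have hcard : Nat.card (↥Co0 ⧸ Subgroup.center ↥Co0) = 4157776806543360000 := by
    rw [← Subgroup.index_eq_card]
    exact hidx
  have hnt : Nontrivial (↥Co0 ⧸ Subgroup.center ↥Co0) := by
    rw [← Finite.one_lt_card_iff_nontrivial, hcard]
    norm_num
  exact ⟨Crit.simple_quot _ co0_normal, hcard⟩

end Cfsg.Agent.Lib.helper28.XI
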