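import Cfsg.Agent.Lib.helper28.PrimCrit

set_option autoImplicit false

namespace Cfsg.Agent.Lib.helper28.Crit

universe u

variable {N : Type u} [Group N] [Finite N]

/-- A group of order `2^11 · 23` has a proper nontrivial characteristic subgroup. -/
theorem exists_char_47104 (hc : Nat.card N = 47104) :
    ∃ C : Subgroup N, C.Characteristic ∧ C ≠ ⊥ ∧ Nat.card C < 47104 := by
  have : Fact (Nat.Prime 23) := ⟨by norm_num⟩
  obtain ⟨P⟩ : Nonempty (Sylow 23 N) := inferInstance
  obtain ⟨h1, h2⟩ := sylow_card_index N 23 1 2048 (by rw [hc]; norm_num) (by norm_num)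
    (by norm_num) P
  have h1' : Nat.card (P : Subgroup N) = 23 := by simpa using h1
  have hdvd : Nat.card (Sylow 23 N) ∣ 2048 := h2 ▸ Sylow.card_dvd_index P
  have hmod : Nat.card (Sylow 23 N) % 23 = 1 := card_sylow_modEq_one 23 N
  have hcases : Nat.card (Sylow 23 N) = 1 ∨ Nat.card (Sylow 23 N) = 2048 := by
    have hle := Nat.le_of_dvd (by norm_num) hdvd
    generalize Nat.card (Sylow 23 N) = d at hdvd hmod hle
    have h2048 : (2048 : ℕ) = 2 ^ 11 := by norm_num
    rw [h2048, Nat.dvd_prime_pow (by norm_num)] at hdvd
    obtain ⟨k, hk, rfl⟩ := hdvd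
    interval_cases k <;> simp_all
  rcases hcases with h | h
  · have : Subsingleton (Sylow 23 N) := (Nat.card_eq_one_iff_unique.mp h).1
    refine ⟨P, Sylow.characteristic_of_subsingleton P, ?_, ?_⟩
    · intro hbot
      rw [hbot, Subgroup.card_bot] at h1'
      omega
    · rw [h1']
      norm_num
  · have hidx : (Subgroup.normalizer ((P : Subgroup N) : Set N)).index = 2048 := by
      rw [← h]
      exact (Sylow.card_eq_index_normalizer P).symm
    have hNP : (P : Subgroup N) = Subgroup.normalizer ((P : Subgroup N) : Set N) := by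
      apply Subgroup.eq_of_le_of_card_ge Subgroup.le_normalizer
      have h3 := Subgroup.card_mul_index (Subgroup.normalizer ((P : Subgroup N) : Set N))
      rw [hidx, hc] at h3
      rw [h1']
      omega
    have hcyc : IsCyclic (P : Subgroup N) := isCyclic_of_prime_card (p := 23) h1'
    have hmc : IsMulCommutative (P : Subgroup N) := IsCyclic.isMulCommutative
    have hcomm : ∀ x y : (P : Subgroup N), x * y = y * x := fun x y => hmc.1.1 x y
    have hP : Subgroup.normalizer ((P : Subgroup N) : Set N) ≤
        Subgroup.centralizer ((P : Subgroup N) : Set N) := by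
      rw [← hNP]
      intro g hg
      rw [Subgroup.mem_centralizer_iff]
      intro h hh
      exact congrArg Subtype.val (hcomm ⟨h, hh⟩ ⟨g, hg⟩)
    have h4 := char_of_burnside 23 1 2048 (by rw [hc]; norm_num) (by norm_num) (by norm_num)
      (by norm_num) P hP
    simpa using h4

end Cfsg.Agent.Lib.helper28.Crit
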