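import Cfsg.Agent.Lib.helper28.LeechCo2C
import Cfsg.Agent.Lib.helper28.PrimCrit2

set_option autoImplicit false

namespace Cfsg.Agent.Lib.helper28.XI

open Cfsg
open Cfsg.Agent.Lib.helper28
open Cfsg.Agent.Lib.helper27
open Cfsg.Agent.Lib.helper28.LC
open Cfsg.Agent.Lib.helper28.SC
open scoped Pointwise

/-! Simplicity and order of the second Conway group. -/

/-- The reference copy of the second Conway group. -/
abbrev C2 : Subgroup ↥Co0 := MulAction.stabilizer ↥Co0 X0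

/-- The vector `t0 - x0`. -/
def C0 : ↥leechLattice := ⟨vT ∅ (pt 0), c0_props.1⟩

theorem c0_fun : vT ∅ (pt 0) = t0 - x0 := by
  funext k
  revert k
  decide +kernel

theorem C0_eq : C0 = T0 - X0 := Subtype.ext c0_fun

theorem T0_eq : T0 = C0 + X0 := by
  rw [C0_eq, sub_add_cancel]

theorem orbit_C0 : MulAction.orbit ↥C2 C0 = {z : ↥leechLattice | (z : GolayPt → ℤ) ∈ XC} := by
  ext z
  rw [Set.mem_ofPred_eq, mem_XC]
  constructor
  · rintro ⟨⟨g, hg⟩, rfl⟩
    have hg' : g • X0 = X0 := MulAction.mem_stabilizer_iff.mp hg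
    have d := co0_dot g X0 C0
    rw [hg'] at d
    exact ⟨(g • C0).2, (co0_norm g C0).trans c0_props.2.1, d.trans c0_props.2.2.1⟩
  · rintro ⟨-, hn, hx⟩
    obtain ⟨g, hg1, hg2⟩ := dot8_trans X0 C0 z x0_props.2.1 c0_props.2.1 hn c0_props.2.2.1 hx
    exact ⟨⟨g, MulAction.mem_stabilizer_iff.mpr hg1⟩, hg2⟩

theorem ncard_orbit_C0 : (MulAction.orbit ↥C2 C0).ncard = 47104 := by
  rw [orbit_C0]
  exact (ncard_eq_card _ XC (fun x => by rw [Set.mem_ofPred_eq]) XC_mem_lattice).trans card_XC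

theorem index_stab_C0 : (MulAction.stabilizer ↥C2 C0).index = 47104 := by
  rw [MulAction.index_stabilizer]
  exact ncard_orbit_C0

theorem inf_C0 : C2 ⊓ MulAction.stabilizer ↥Co0 C0 = ML0 := by
  ext g
  simp only [Subgroup.mem_inf, MulAction.mem_stabilizer_iff]
  constructor
  · rintro ⟨h1, h2⟩
    exact ⟨by rw [T0_eq, co0_add, h2, h1], h1⟩
  · rintro ⟨h1, h2⟩
    exact ⟨h2, by rw [C0_eq, co0_sub, h1, h2]⟩

theorem card_C2 : Nat.card ↥C2 = 42305421312000 := by
  have h0 : Nat.card ↥(MulAction.stabilizer ↥C2 C0) = 898128000 := by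
    rw [← card_ML0, ← Nat.card_congr (stabInfEquiv C2 C0).toEquiv, inf_C0]
  have h1 := Subgroup.card_mul_index (MulAction.stabilizer ↥C2 C0)
  rw [index_stab_C0, h0] at h1
  exact h1.symm.trans (by norm_num)

/-! ### Maximality of the point stabiliser -/

/-- The label of a suborbit. -/
def labC (z : ↥leechLattice) : ℕ :=
  if dotInt t0 (z : GolayPt → ℤ) = 24 then 0
  else if dotInt t0 (z : GolayPt → ℤ) = -24 then 1
  else if dotInt t0 (z : GolayPt → ℤ) = 8 then 2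
  else if dotInt t0 (z : GolayPt → ℤ) = -16 then 3
  else if dotInt t0 (z : GolayPt → ℤ) = 0 then 4 else 5

theorem XC_dots {z : GolayPt → ℤ} (hz : z ∈ XC) :
    dotInt t0 z = 24 ∨ dotInt t0 z = 8 ∨ dotInt t0 z = 0 ∨ dotInt t0 z = -8 ∨
      dotInt t0 z = -16 ∨ dotInt t0 z = -24 := by
  rw [mem_XC] at hz
  exact C_vals hz.1 hz.2.1 hz.2.2

theorem labC_iff (z : ↥leechLattice) (hz : (z : GolayPt → ℤ) ∈ XC) :
    (labC z = 0 ↔ dotInt t0 (z : GolayPt → ℤ) = 24) ∧
    (labC z = 1 ↔ dotInt t0 (z : GolayPt → ℤ) = -24) ∧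
    (labC z = 2 ↔ dotInt t0 (z : GolayPt → ℤ) = 8) ∧
    (labC z = 3 ↔ dotInt t0 (z : GolayPt → ℤ) = -16) ∧
    (labC z = 4 ↔ dotInt t0 (z : GolayPt → ℤ) = 0) ∧
    (labC z = 5 ↔ dotInt t0 (z : GolayPt → ℤ) = -8) := by
  unfold labC
  rcases XC_dots hz with h | h | h | h | h | h <;> rw [h] <;> norm_num

theorem labC_class (i : ℕ) (d : ℤ)
    (hi : ∀ y : ↥leechLattice, (y : GolayPt → ℤ) ∈ XC →
      (labC y = i ↔ dotInt t0 (y : GolayPt → ℤ) = d)) :
    {y | y ∈ MulAction.orbit ↥C2 C0 ∧ labC y = i}.ncard = (WC d).card := by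
  apply ncard_eq_card _ (WC d) _ (fun z hz => XC_mem_lattice z ((mem_WC _ z).mp hz).1)
  intro y
  rw [Set.mem_ofPred_eq, orbit_C0, Set.mem_ofPred_eq, mem_WC]
  constructor
  · rintro ⟨h1, h2⟩
    exact ⟨h1, (hi y h1).mp h2⟩
  · rintro ⟨h1, h2⟩
    exact ⟨h1, (hi y h1).mpr h2⟩

theorem c2_max (M : Subgroup ↥C2) (hM : MulAction.stabilizer ↥C2 C0 ≤ M) :
    M = MulAction.stabilizer ↥C2 C0 ∨ M = ⊤ := by
  apply Crit.maximal_of_suborbits C0 47104 5
    (fun i => if i = 1 then 275 else if i = 2 then 2025 else if i = 3 then 7128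
      else if i = 4 then 15400 else 22275) labC
    ncard_orbit_C0 (by norm_num)
  · unfold labC
    exact if_pos c0_props.2.2.2
  · intro y hy h0
    rw [orbit_C0, Set.mem_ofPred_eq] at hy
    have hd := (labC_iff y hy).1.mp h0
    rw [mem_XC] at hy
    exact Subtype.ext (C_cases_24 hy.1 hy.2.1 hy.2.2 hd)
  · intro y _
    unfold labC
    split_ifs <;> omega
  · intro y hy y' hy' hc h0
    rw [orbit_C0, Set.mem_ofPred_eq] at hy hy'
    have hne : dotInt t0 (y : GolayPt → ℤ) ≠ 24 := fun e => h0 ((labC_iff y hy).1.mpr e)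
    have heq : dotInt t0 (y : GolayPt → ℤ) = dotInt t0 (y' : GolayPt → ℤ) := by
      obtain ⟨a0, a1, a2, a3, a4, a5⟩ := labC_iff y hy
      obtain ⟨b0, b1, b2, b3, b4, b5⟩ := labC_iff y' hy'
      rcases XC_dots hy with h | h | h | h | h | h
      · exact absurd h hne
      · rw [h]
        exact (b2.mp (hc.symm.trans (a2.mpr h))).symm
      · rw [h]
        exact (b4.mp (hc.symm.trans (a4.mpr h))).symm
      · rw [h]
        exact (b5.mp (hc.symm.trans (a5.mpr h))).symm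
      · rw [h]
        exact (b3.mp (hc.symm.trans (a3.mpr h))).symm
      · rw [h]
        exact (b1.mp (hc.symm.trans (a1.mpr h))).symm
    rw [mem_XC] at hy hy'
    obtain ⟨_, _, n, hn1, hn2, hn⟩ := relC_fam hy.1 hy.2.1 hy.2.2 hy'.1 hy'.2.1 hy'.2.2 heq hne
    have hnX : n • X0 = X0 := hn2 X0 (by simp)
    refine ⟨⟨n, MulAction.mem_stabilizer_iff.mpr hnX⟩, ?_, hn⟩
    show n • C0 = C0
    rw [C0_eq, co0_sub, hn1, hnX]
  · intro i hi
    rw [Finset.mem_Icc] at hi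
    have hi' : i = 1 ∨ i = 2 ∨ i = 3 ∨ i = 4 ∨ i = 5 := by omega
    rcases hi' with rfl | rfl | rfl | rfl | rfl
    · rw [if_pos rfl, ← card_WCm24]
      exact labC_class 1 (-24) (fun y hy => (labC_iff y hy).2.1)
    · rw [if_neg (by norm_num), if_pos rfl, ← card_WC8]
      exact labC_class 2 8 (fun y hy => (labC_iff y hy).2.2.1)
    · rw [if_neg (by norm_num), if_neg (by norm_num), if_pos rfl, ← card_WCm16]
      exact labC_class 3 (-16) (fun y hy => (labC_iff y hy).2.2.2.1)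
    · rw [if_neg (by norm_num), if_neg (by norm_num), if_neg (by norm_num), if_pos rfl,
        ← card_WC0]
      exact labC_class 4 0 (fun y hy => (labC_iff y hy).2.2.2.2.1)
    · rw [if_neg (by norm_num), if_neg (by norm_num), if_neg (by norm_num),
        if_neg (by norm_num), ← card_WCm8]
      exact labC_class 5 (-8) (fun y hy => (labC_iff y hy).2.2.2.2.2)
  · decide
  · exact hM

/-! ### Faithfulness -/

theorem YQ_to_XC {y : GolayPt → ℤ} (hy : y ∈ YQ) : y + vT ∅ (pt 0) ∈ XC := by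
  rw [mem_YQ] at hy
  obtain ⟨h1, h2, h3, h4⟩ := hy
  have e : y + vT ∅ (pt 0) = y - (x0 - t0) := by
    rw [c0_fun]
    abel
  rw [e, mem_XC]
  refine ⟨leechLattice.sub_mem h1 (leechLattice.sub_mem x0_props.1 t0_mem), ?_, ?_⟩
  · rw [sqNorm_sub', h2, w0_props.1, dot_sub_right, dot_comm y x0, dot_comm y t0, h4, h3]
    norm_num
  · rw [dot_sub_right, h4, w0_props.2.2]
    norm_num

theorem c2_faith (g : ↥C2) (h : ∀ y ∈ MulAction.orbit ↥C2 C0, g • y = y) : g = 1 := by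
  obtain ⟨g, hg⟩ := g
  have hX : g • X0 = X0 := MulAction.mem_stabilizer_iff.mp hg
  have hC : g • C0 = C0 := h C0 (MulAction.mem_orbit_self C0)
  have hT : g • T0 = T0 := by rw [T0_eq, co0_add, hC, hX]
  have hML : g ∈ ML0 := (mem_ML0 g).mpr ⟨hT, hX⟩
  have key : (⟨g, hML⟩ : ↥ML0) = 1 := by
    apply ml0_faith
    intro y hy
    rw [orbit_R1_ML, Set.mem_ofPred_eq] at hy
    have hfix : g • (y + C0) = y + C0 := by
      apply h
      rw [orbit_C0, Set.mem_ofPred_eq]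
      exact YQ_to_XC hy
    rw [co0_add, hC] at hfix
    exact add_right_cancel hfix
  apply Subtype.ext
  exact congrArg (fun x : ↥ML0 => (x : ↥Co0)) key

theorem c2_stab (K : Subgroup ↥C2) (hK : K ≤ MulAction.stabilizer ↥C2 C0)
    (hnorm : ∀ g ∈ MulAction.stabilizer ↥C2 C0, ∀ k ∈ K, g * k * g⁻¹ ∈ K) :
    K = ⊥ ∨ K = MulAction.stabilizer ↥C2 C0 := by
  have := ml0_simple
  apply Crit.quasi_simple_of_hom (Subgroup.inclusion (inf_le_right : ML0 ≤ C2)) _ _ K hK hnorm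
  rintro ⟨g, hg⟩
  rw [MulAction.mem_stabilizer_iff]
  constructor
  · intro h3
    have hX : g • X0 = X0 := MulAction.mem_stabilizer_iff.mp hg
    have hC : g • C0 = C0 := h3
    exact ⟨⟨g, (mem_ML0 g).mpr ⟨by rw [T0_eq, co0_add, hC, hX], hX⟩⟩, rfl⟩
  · rintro ⟨⟨g', hg'⟩, hσ⟩
    have e : g' = g := congrArg Subtype.val hσ
    subst e
    obtain ⟨h1, h2⟩ := (mem_ML0 g').mp hg'
    show g' • C0 = C0
    rw [C0_eq, co0_sub, h1, h2]

theorem c2_simple : IsSimpleGroup ↥C2 :=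
  Crit.simple_of_maximal C0 47104 index_stab_C0 (by norm_num) c2_max c2_faith c2_stab
    (Crit.reg_of_char 47104 (fun _ _ _ hc => Crit.exists_char_47104 hc))

/-- Statement S0402. -/
theorem co2_simple (v : Cfsg.leechLattice) (hv : Cfsg.sqNorm (v : Cfsg.GolayPt → ℤ) = 32) : Cfsg.IsCo2 (MulAction.stabilizer Cfsg.Co0 v) := by
  obtain ⟨k, hk⟩ := transitive32 v X0 hv x0_props.2.1
  have key : ∀ g : ↥Co0, g ∈ MulAction.stabilizer ↥Co0 v ↔ k * g * k⁻¹ ∈ C2 := by
    intro g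
    rw [MulAction.mem_stabilizer_iff, MulAction.mem_stabilizer_iff, mul_smul, mul_smul, ← hk,
      inv_smul_smul]
    constructor
    · intro h
      rw [h]
    · intro h
      exact MulAction.injective k h
  have e := conjEquiv k _ C2 key
  have := c2_simple
  exact ⟨e.isSimpleGroup, (Nat.card_congr e.toEquiv).trans card_C2⟩

end Cfsg.Agent.Lib.helper28.XI
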