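import Cfsg.Agent.Lib.helper28.LeechSimple
import Cfsg.Prelude.Def_Sporadic

set_option autoImplicit false

namespace Cfsg.Agent.Lib.helper28.XI

open Cfsg
open Cfsg.Agent.Lib.helper28
open Cfsg.Agent.Lib.helper27
open Cfsg.Agent.Lib.helper28.LC
open Cfsg.Agent.Lib.helper28.SC
open scoped Pointwise

/-! Simplicity and order of the Higman–Sims group. -/

instance finite_Co0 : Finite ↥Co0 := Nat.finite_of_card_ne_zero (by rw [card_Co0]; norm_num)

/-- Conjugate subgroups are isomorphic. -/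
def conjEquiv {G : Type*} [Group G] (k : G) (A B : Subgroup G)
    (h : ∀ g, g ∈ A ↔ k * g * k⁻¹ ∈ B) : ↥A ≃* ↥B where
  toFun g := ⟨k * g.1 * k⁻¹, (h g.1).mp g.2⟩
  invFun g := ⟨k⁻¹ * g.1 * k, (h _).mpr (by
    have h1 := g.2
    simp [mul_assoc, h1])⟩
  left_inv g := by
    apply Subtype.ext
    simp [mul_assoc]
  right_inv g := by
    apply Subtype.ext
    simp [mul_assoc]
  map_mul' a b := by
    apply Subtype.ext
    simp [mul_assoc]

/-- The stabiliser of a point in a subgroup. -/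
def stabInfEquiv {G : Type*} [Group G] {α : Type*} [MulAction G α] (A : Subgroup G) (y : α) :
    ↥(A ⊓ MulAction.stabilizer G y) ≃* ↥(MulAction.stabilizer ↥A y) where
  toFun g := ⟨⟨g.1, g.2.1⟩, g.2.2⟩
  invFun g := ⟨g.1.1, ⟨g.1.2, g.2⟩⟩
  left_inv _ := rfl
  right_inv _ := rfl
  map_mul' _ _ := rfl

/-- The reference copy of the third Conway group. -/
abbrev C3 : Subgroup ↥Co0 := MulAction.stabilizer ↥Co0 T0

/-- The reference copy of the Higman–Sims group. -/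
abbrev HS0 : Subgroup ↥Co0 := MulAction.stabilizer ↥Co0 T0 ⊓ MulAction.stabilizer ↥Co0 R1

theorem mem_HS0 (g : ↥Co0) : g ∈ HS0 ↔ g • T0 = T0 ∧ g • R1 = R1 := by
  rw [Subgroup.mem_inf, MulAction.mem_stabilizer_iff, MulAction.mem_stabilizer_iff]

/-! ### Orders -/

theorem orbit_T0 : MulAction.orbit ↥Co0 T0 = {v : ↥leechLattice | (v : GolayPt → ℤ) ∈ S48} := by
  ext v
  rw [Set.mem_ofPred_eq, mem_S48]
  constructor
  · rintro ⟨g, rfl⟩
    exact ⟨(g • T0).2, (co0_norm g T0).trans sqNorm_t0⟩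
  · rintro ⟨-, hv⟩
    obtain ⟨g, hg⟩ := transitive48 T0 v sqNorm_t0 hv
    exact ⟨g, hg⟩

theorem card_C3 : Nat.card ↥C3 = 495766656000 := by
  have h1 := Subgroup.card_mul_index C3
  have h2 : C3.index = 16773120 := by
    rw [MulAction.index_stabilizer, orbit_T0]
    exact (ncard_eq_card _ S48 (fun x => by rw [Set.mem_ofPred_eq])
      (fun y hy => ((mem_S48 y).mp hy).1)).trans card_S48
  rw [h2, card_Co0] at h1
  have h3 : Nat.card ↥C3 * 16773120 = 495766656000 * 16773120 := h1.trans (by norm_num)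
  exact Nat.eq_of_mul_eq_mul_right (by norm_num) h3

theorem orbit_R1 : MulAction.orbit ↥C3 R1 = {y : ↥leechLattice | (y : GolayPt → ℤ) ∈ XF} := by
  ext y
  rw [Set.mem_ofPred_eq, mem_XF]
  constructor
  · rintro ⟨⟨g, hg⟩, rfl⟩
    rw [MulAction.mem_stabilizer_iff] at hg
    show ((g • R1 : ↥leechLattice) : GolayPt → ℤ) ∈ leechLattice ∧
      sqNorm ((g • R1 : ↥leechLattice) : GolayPt → ℤ) = 32 ∧
      dotInt t0 ((g • R1 : ↥leechLattice) : GolayPt → ℤ) = -16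
    have d1 := co0_dot g T0 R1
    rw [hg] at d1
    exact ⟨(g • R1).2, (co0_norm g R1).trans r1_mem.2, d1.trans r1_dot⟩
  · rintro ⟨-, hn, hd⟩
    obtain ⟨g, hg1, hg2⟩ := co3_dot16_trans T0 R1 y sqNorm_t0 r1_mem.2 hn r1_dot hd
    exact ⟨⟨g, MulAction.mem_stabilizer_iff.mpr hg1⟩, hg2⟩

theorem index_stab_R1 : (MulAction.stabilizer ↥C3 R1).index = 11178 := by
  rw [MulAction.index_stabilizer, orbit_R1]
  exact (ncard_eq_card _ XF (fun x => by rw [Set.mem_ofPred_eq])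
    (fun y hy => XF_mem_lattice hy)).trans card_XF

theorem card_HS0 : Nat.card ↥HS0 = 44352000 := by
  have h0 : Nat.card ↥HS0 = Nat.card ↥(MulAction.stabilizer ↥C3 R1) :=
    Nat.card_congr (stabInfEquiv C3 R1).toEquiv
  have h1 := Subgroup.card_mul_index (MulAction.stabilizer ↥C3 R1)
  rw [index_stab_R1, card_C3] at h1
  have h3 : Nat.card ↥(MulAction.stabilizer ↥C3 R1) * 11178 = 44352000 * 11178 :=
    h1.trans (by norm_num)
  exact h0.trans (Nat.eq_of_mul_eq_mul_right (by norm_num) h3)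

/-! ### The action on 100 points -/

theorem orbit_X0 : MulAction.orbit ↥HS0 X0 = {y : ↥leechLattice | (y : GolayPt → ℤ) ∈ XH} := by
  ext y
  rw [Set.mem_ofPred_eq]
  constructor
  · rintro ⟨⟨g, hg⟩, rfl⟩
    obtain ⟨h1, h2⟩ := (mem_HS0 g).mp hg
    show ((g • X0 : ↥leechLattice) : GolayPt → ℤ) ∈ XH
    rw [mem_XH]
    have d1 := co0_dot g T0 X0
    rw [h1] at d1
    have d2 := co0_dot g R1 X0
    rw [h2] at d2
    exact ⟨(g • X0).2, (co0_norm g X0).trans x0_props.2.1, d1.trans x0_dot, d2.trans x0_r1⟩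
  · intro hy
    have hy' := (mem_XH _).mp hy
    have r := rel_HS hy'.1 hy'.2.1 hy'.2.2.1 hy'.2.2.2
    obtain ⟨_, _, n, hn1, hn2, hn⟩ := relL_trans hs_fuseA (relL_symm r)
    exact ⟨⟨n, (mem_HS0 n).mpr ⟨hn1, hn2 R1 (List.mem_singleton_self _)⟩⟩, hn⟩

theorem ncard_orbit_X0 : (MulAction.orbit ↥HS0 X0).ncard = 100 := by
  rw [orbit_X0]
  exact (ncard_eq_card _ XH (fun x => by rw [Set.mem_ofPred_eq]) XH_mem_lattice).trans card_XH

/-- The label of a suborbit. -/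
def labH (y : ↥leechLattice) : ℕ :=
  if (y : GolayPt → ℤ) none = 4 then 0 else if (y : GolayPt → ℤ) none = 2 then 1 else 2

theorem labH_iff (y : ↥leechLattice) (hy : (y : GolayPt → ℤ) ∈ XH) :
    (labH y = 0 ↔ (y : GolayPt → ℤ) none = 4) ∧ (labH y = 1 ↔ (y : GolayPt → ℤ) none = 2) ∧
      (labH y = 2 ↔ (y : GolayPt → ℤ) none = 1) := by
  unfold labH
  rcases XH_vals hy with h | h | h <;> rw [h] <;> norm_num

theorem X0_none : (X0 : GolayPt → ℤ) none = 4 := by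
  show x0 none = 4
  rw [x0_apply, if_pos rfl]

theorem hs0_max (M : Subgroup ↥HS0) (hM : MulAction.stabilizer ↥HS0 X0 ≤ M) :
    M = MulAction.stabilizer ↥HS0 X0 ∨ M = ⊤ := by
  apply Crit.maximal_of_suborbits X0 100 2 (fun i => if i = 1 then 77 else 22) labH
    ncard_orbit_X0 (by norm_num)
  · unfold labH
    rw [if_pos X0_none]
  · intro y hy h0
    rw [orbit_X0, Set.mem_ofPred_eq] at hy
    apply Subtype.ext
    exact (XH_eq_x0_iff hy).mpr ((labH_iff y hy).1.mp h0)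
  · intro y _
    unfold labH
    split_ifs <;> omega
  · intro y hy y' hy' hc h0
    rw [orbit_X0, Set.mem_ofPred_eq] at hy hy'
    have hne : (y : GolayPt → ℤ) ≠ x0 := by
      intro e
      apply h0
      rw [(labH_iff y hy).1, e, x0_apply, if_pos rfl]
    have hne' : (y' : GolayPt → ℤ) ≠ x0 := by
      intro e
      apply h0
      rw [hc, (labH_iff y' hy').1, e, x0_apply, if_pos rfl]
    have hiff : (y : GolayPt → ℤ) none = 1 ↔ (y' : GolayPt → ℤ) none = 1 := by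
      rw [← (labH_iff y hy).2.2, ← (labH_iff y' hy').2.2, hc]
    obtain ⟨_, _, n, hn1, hn2, hn⟩ := hs3_rel hy hy' hne hne' hiff
    exact ⟨⟨n, (mem_HS0 n).mpr ⟨hn1, hn2 R1 (by simp)⟩⟩, hn2 X0 (by simp), hn⟩
  · intro i hi
    rw [Finset.mem_Icc] at hi
    have hi' : i = 1 ∨ i = 2 := by omega
    rcases hi' with rfl | rfl
    · rw [if_pos rfl, ← card_KHB]
      apply ncard_eq_card _ KHB _ KHB_mem_lattice
      intro y
      rw [Set.mem_ofPred_eq, orbit_X0, Set.mem_ofPred_eq, ← hfibB, Finset.mem_filter]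
      constructor
      · rintro ⟨h1, h2⟩
        exact ⟨h1, (labH_iff y h1).2.1.mp h2⟩
      · rintro ⟨h1, h2⟩
        exact ⟨h1, (labH_iff y h1).2.1.mpr h2⟩
    · rw [if_neg (by norm_num), ← card_KHC]
      apply ncard_eq_card _ KHC _ KHC_mem_lattice
      intro y
      rw [Set.mem_ofPred_eq, orbit_X0, Set.mem_ofPred_eq, ← hfibC, Finset.mem_filter]
      constructor
      · rintro ⟨h1, h2⟩
        exact ⟨h1, (labH_iff y h1).2.2.mp h2⟩
      · rintro ⟨h1, h2⟩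
        exact ⟨h1, (labH_iff y h1).2.2.mpr h2⟩
  · decide
  · exact hM

theorem pC_mem_XH {k : GolayPt} (hk : k ≠ none) (hk0 : k ≠ pt 0) : pt1 (-3) {k} ∈ XH := by
  have h : pt1 (-3) {k} ∈ KHC := Finset.mem_image_of_mem _ ((mem_pts22 k).mpr ⟨hk, hk0⟩)
  rw [← hfibC, Finset.mem_filter] at h
  exact h.1

theorem hs0_faith (g : ↥HS0) (h : ∀ y ∈ MulAction.orbit ↥HS0 X0, g • y = y) : g = 1 := by
  obtain ⟨g, hg⟩ := g
  obtain ⟨h1, h2⟩ := (mem_HS0 g).mp hg
  have h3 : g • X0 = X0 := h X0 (MulAction.mem_orbit_self X0)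
  obtain ⟨σ, rfl⟩ := (fix3_iff g).mp ⟨h1, h2, h3⟩
  obtain ⟨hσ, hσ0⟩ := (mem_M22s σ.1).mp σ.2
  apply Subtype.ext
  show cp σ.1 = 1
  apply cp_inj_pt
  intro k
  by_cases hk : k = none
  · rw [hk, hσ]
  by_cases hk0 : k = pt 0
  · rw [hk0, hσ0]
  have hm := pC_mem_XH hk hk0
  have hfix : cp σ.1 • (⟨pt1 (-3) {k}, XH_mem_lattice _ hm⟩ : ↥leechLattice) =
      ⟨pt1 (-3) {k}, XH_mem_lattice _ hm⟩ := by
    apply h
    rw [orbit_X0, Set.mem_ofPred_eq]
    exact hm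
  have e := congrArg (fun w : ↥leechLattice => (w : GolayPt → ℤ) k) hfix
  have e' : ((cp σ.1 • (⟨pt1 (-3) {k}, XH_mem_lattice _ hm⟩ : ↥leechLattice) : ↥leechLattice) :
      GolayPt → ℤ) k = pt1 (-3) {k} k := e
  rw [cp_apply] at e'
  have e'' : pt1 (-3) {k} (σ.1.1.symm k) = pt1 (-3) {k} k := e'
  unfold pt1 at e''
  rw [if_pos (Finset.mem_singleton_self k)] at e''
  by_cases hs : σ.1.1.symm k = k
  · rw [Equiv.symm_apply_eq] at hs
    exact hs.symm
  · rw [if_neg (by rw [Finset.mem_singleton]; exact hs)] at e''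
    norm_num at e''

/-- The coordinate permutations of the two-point stabiliser, inside the reference group. -/
def phiH : ↥M22s →* ↥HS0 :=
  (cpHom.comp M22s.subtype).codRestrict HS0 (fun σ =>
    (mem_HS0 _).mpr ⟨cp_T0 σ.1 ((mem_M22s σ.1).mp σ.2).1,
      cp_R1 σ.1 ((mem_M22s σ.1).mp σ.2).1 ((mem_M22s σ.1).mp σ.2).2⟩)

theorem phiH_val (σ : ↥M22s) : ((phiH σ : ↥HS0) : ↥Co0) = cp σ.1 := rfl

theorem hs0_stab (K : Subgroup ↥HS0) (hK : K ≤ MulAction.stabilizer ↥HS0 X0)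
    (hnorm : ∀ g ∈ MulAction.stabilizer ↥HS0 X0, ∀ k ∈ K, g * k * g⁻¹ ∈ K) :
    K = ⊥ ∨ K = MulAction.stabilizer ↥HS0 X0 := by
  apply Crit.quasi_simple_of_hom phiH _ _ K hK hnorm
  rintro ⟨g, hg⟩
  obtain ⟨h1, h2⟩ := (mem_HS0 g).mp hg
  rw [MulAction.mem_stabilizer_iff]
  constructor
  · intro h3
    have h3' : g • X0 = X0 := h3
    obtain ⟨σ, hσ⟩ := (fix3_iff g).mp ⟨h1, h2, h3'⟩
    exact ⟨σ, Subtype.ext hσ⟩
  · rintro ⟨σ, hσ⟩
    have hσ' : cp σ.1 = g := congrArg Subtype.val hσ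
    exact ((fix3_iff g).mpr ⟨σ, hσ'⟩).2.2

theorem hs0_simple : IsSimpleGroup ↥HS0 := by
  apply Crit.simple_of_maximal X0 100 _ (by norm_num) hs0_max hs0_faith hs0_stab
    (Crit.reg_of_char 100 (fun N _ _ hc => Crit.exists_char_100 N hc))
  rw [MulAction.index_stabilizer]
  exact ncard_orbit_X0

/-- Statement S0405. -/
theorem hs_simple (v w : Cfsg.leechLattice) (hv : Cfsg.sqNorm (v : Cfsg.GolayPt → ℤ) = 48) (hw : Cfsg.sqNorm (w : Cfsg.GolayPt → ℤ) = 48) (hvw : Cfsg.dotInt (v : Cfsg.GolayPt → ℤ) (w : Cfsg.GolayPt → ℤ) = -32) : Cfsg.IsHS ↥(MulAction.stabilizer Cfsg.Co0 v ⊓ MulAction.stabilizer Cfsg.Co0 w) := by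
  obtain ⟨hm, hvm⟩ := neg_sum_props v w hv hw hvw
  obtain ⟨k, hk1, hk2⟩ := hs_frame v (-(v + w)) hv hm hvm
  have key : ∀ g : ↥Co0, g ∈ MulAction.stabilizer ↥Co0 v ⊓ MulAction.stabilizer ↥Co0 w ↔
      k * g * k⁻¹ ∈ HS0 := by
    intro g
    rw [mem_HS0, Subgroup.mem_inf, MulAction.mem_stabilizer_iff, MulAction.mem_stabilizer_iff,
      mul_smul, mul_smul, mul_smul, mul_smul, ← hk1, ← hk2, inv_smul_smul, inv_smul_smul]
    constructor
    · rintro ⟨h1, h2⟩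
      have h3 : g • (-(v + w)) = -(v + w) := by
        rw [SC.smul_neg', co0_add, h1, h2]
      rw [h1, h3]
      exact ⟨rfl, rfl⟩
    · rintro ⟨h1, h2⟩
      have h1' : g • v = v := MulAction.injective k h1
      have h2' : g • (-(v + w)) = -(v + w) := MulAction.injective k h2
      exact ⟨h1', fix_of_fix g v w h1' h2'⟩
  have e := conjEquiv k _ HS0 key
  have := hs0_simple
  exact ⟨e.isSimpleGroup, (Nat.card_congr e.toEquiv).trans card_HS0⟩

end Cfsg.Agent.Lib.helper28.XI
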