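import Cfsg.Agent.Lib.helper28.LeechSimpleHS

set_option autoImplicit false

namespace Cfsg.Agent.Lib.helper28.XI

open Cfsg
open Cfsg.Agent.Lib.helper28
open Cfsg.Agent.Lib.helper27
open Cfsg.Agent.Lib.helper28.LC
open Cfsg.Agent.Lib.helper28.SC
open scoped Pointwise

/-! Simplicity and order of the McLaughlin group. -/

/-- The reference copy of the McLaughlin group. -/
abbrev ML0 : Subgroup ↥Co0 := MulAction.stabilizer ↥Co0 T0 ⊓ MulAction.stabilizer ↥Co0 X0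

theorem mem_ML0 (g : ↥Co0) : g ∈ ML0 ↔ g • T0 = T0 ∧ g • X0 = X0 := by
  rw [Subgroup.mem_inf, MulAction.mem_stabilizer_iff, MulAction.mem_stabilizer_iff]

theorem orbit_R1_ML : MulAction.orbit ↥ML0 R1 = {y : ↥leechLattice | (y : GolayPt → ℤ) ∈ YQ} := by
  ext y
  rw [Set.mem_ofPred_eq]
  constructor
  · rintro ⟨⟨g, hg⟩, rfl⟩
    obtain ⟨h1, h2⟩ := (mem_ML0 g).mp hg
    show ((g • R1 : ↥leechLattice) : GolayPt → ℤ) ∈ YQ
    rw [mem_YQ]
    have d1 := co0_dot g T0 R1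
    rw [h1] at d1
    have d2 := co0_dot g X0 R1
    rw [h2] at d2
    exact ⟨(g • R1).2, (co0_norm g R1).trans r1_mem.2, d1.trans r1_dot,
      d2.trans ((mem_YQ r1).mp r1_mem_YQ).2.2.2⟩
  · intro hy
    obtain ⟨_, _, n, hn1, hn2, hn⟩ := relL_symm (relQ_main hy)
    exact ⟨⟨n, (mem_ML0 n).mpr ⟨hn1, hn2 X0 (List.mem_singleton_self _)⟩⟩, hn⟩

theorem ncard_orbit_R1_ML : (MulAction.orbit ↥ML0 R1).ncard = 2025 := by
  rw [orbit_R1_ML]
  exact (ncard_eq_card _ YQ (fun x => by rw [Set.mem_ofPred_eq]) YQ_mem_lattice).trans card_YQ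

theorem index_stab_R1_ML : (MulAction.stabilizer ↥ML0 R1).index = 2025 := by
  rw [MulAction.index_stabilizer]
  exact ncard_orbit_R1_ML

/-! ### The order -/

theorem card_stab_X0 : Nat.card ↥(MulAction.stabilizer ↥HS0 X0) = 443520 := by
  have h1 := Subgroup.card_mul_index (MulAction.stabilizer ↥HS0 X0)
  rw [MulAction.index_stabilizer, ncard_orbit_X0, card_HS0] at h1
  have h3 : Nat.card ↥(MulAction.stabilizer ↥HS0 X0) * 100 = 443520 * 100 :=
    h1.trans (by norm_num)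
  exact Nat.eq_of_mul_eq_mul_right (by norm_num) h3

theorem inf_swap : HS0 ⊓ MulAction.stabilizer ↥Co0 X0 = ML0 ⊓ MulAction.stabilizer ↥Co0 R1 := by
  ext g
  simp only [Subgroup.mem_inf, MulAction.mem_stabilizer_iff]
  tauto

theorem card_ML0 : Nat.card ↥ML0 = 898128000 := by
  have h0 : Nat.card ↥(MulAction.stabilizer ↥ML0 R1) = 443520 := by
    rw [← card_stab_X0, ← Nat.card_congr (stabInfEquiv ML0 R1).toEquiv,
      ← Nat.card_congr (stabInfEquiv HS0 X0).toEquiv, inf_swap]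
  have h1 := Subgroup.card_mul_index (MulAction.stabilizer ↥ML0 R1)
  rw [index_stab_R1_ML, h0] at h1
  exact h1.symm.trans (by norm_num)

/-! ### Maximality of the point stabiliser -/

/-- The label of a suborbit. -/
def labQ (y : ↥leechLattice) : ℕ :=
  if (y : GolayPt → ℤ) none = -4 then 0 else if (y : GolayPt → ℤ) none = -2 then 1
  else if (y : GolayPt → ℤ) none = 0 then 2 else 3

theorem labQ_iff (y : ↥leechLattice) (hy : (y : GolayPt → ℤ) ∈ YQ) :
    (labQ y = 0 ↔ (y : GolayPt → ℤ) none = -4) ∧ (labQ y = 1 ↔ (y : GolayPt → ℤ) none = -2) ∧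
    (labQ y = 2 ↔ (y : GolayPt → ℤ) none = 0) ∧ (labQ y = 3 ↔ (y : GolayPt → ℤ) none = -1) := by
  unfold labQ
  rcases YQ_vals hy with h | h | h | h <;> rw [h] <;> norm_num

theorem labQ_class (i : ℕ) (c : ℤ) (F : Finset (GolayPt → ℤ))
    (hF : YQ.filter (fun x => x none = c) = F)
    (hi : ∀ y : ↥leechLattice, (y : GolayPt → ℤ) ∈ YQ →
      (labQ y = i ↔ (y : GolayPt → ℤ) none = c)) :
    {y | y ∈ MulAction.orbit ↥ML0 R1 ∧ labQ y = i}.ncard = F.card := by
  apply ncard_eq_card _ F _ (fun z hz => by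
    rw [← hF, Finset.mem_filter] at hz
    exact YQ_mem_lattice z hz.1)
  intro y
  rw [Set.mem_ofPred_eq, orbit_R1_ML, Set.mem_ofPred_eq, ← hF, Finset.mem_filter]
  constructor
  · rintro ⟨h1, h2⟩
    exact ⟨h1, (hi y h1).mp h2⟩
  · rintro ⟨h1, h2⟩
    exact ⟨h1, (hi y h1).mpr h2⟩

theorem R1_none : (R1 : GolayPt → ℤ) none = -4 := by
  show r1 none = -4
  rw [r1_apply, if_pos rfl]

theorem ml0_max (M : Subgroup ↥ML0) (hM : MulAction.stabilizer ↥ML0 R1 ≤ M) :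
    M = MulAction.stabilizer ↥ML0 R1 ∨ M = ⊤ := by
  apply Crit.maximal_of_suborbits R1 2025 3
    (fun i => if i = 1 then 462 else if i = 2 then 330 else 1232) labQ
    ncard_orbit_R1_ML (by norm_num)
  · unfold labQ
    rw [if_pos R1_none]
  · intro y hy h0
    rw [orbit_R1_ML, Set.mem_ofPred_eq] at hy
    have hd := (labQ_iff y hy).1.mp h0
    have hm : (y : GolayPt → ℤ) ∈ YQ.filter (fun x => x none = -4) :=
      Finset.mem_filter.mpr ⟨hy, hd⟩
    rw [qfib1, Finset.mem_singleton] at hm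
    exact Subtype.ext hm
  · intro y _
    unfold labQ
    split_ifs <;> omega
  · intro y hy y' hy' hc h0
    rw [orbit_R1_ML, Set.mem_ofPred_eq] at hy hy'
    have hne : (y : GolayPt → ℤ) none ≠ -4 := fun e => h0 ((labQ_iff y hy).1.mpr e)
    have heq : (y : GolayPt → ℤ) none = (y' : GolayPt → ℤ) none := by
      obtain ⟨a0, a1, a2, a3⟩ := labQ_iff y hy
      obtain ⟨b0, b1, b2, b3⟩ := labQ_iff y' hy'
      rcases YQ_vals hy with h | h | h | h
      · exact absurd h hne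
      · rw [h]
        exact (b1.mp (hc.symm.trans (a1.mpr h))).symm
      · rw [h]
        exact (b2.mp (hc.symm.trans (a2.mpr h))).symm
      · rw [h]
        exact (b3.mp (hc.symm.trans (a3.mpr h))).symm
    obtain ⟨_, _, n, hn1, hn2, hn⟩ := relQ_fam hy hy' hne heq
    exact ⟨⟨n, (mem_ML0 n).mpr ⟨hn1, hn2 X0 (by simp)⟩⟩, hn2 R1 (by simp), hn⟩
  · intro i hi
    rw [Finset.mem_Icc] at hi
    have hi' : i = 1 ∨ i = 2 ∨ i = 3 := by omega
    rcases hi' with rfl | rfl | rfl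
    · rw [if_pos rfl, ← card_QB]
      exact labQ_class 1 (-2) QB qfib2 (fun y hy => (labQ_iff y hy).2.1)
    · rw [if_neg (by norm_num), if_pos rfl, ← card_QC]
      exact labQ_class 2 0 QC qfib3 (fun y hy => (labQ_iff y hy).2.2.1)
    · rw [if_neg (by norm_num), if_neg (by norm_num), ← card_QD]
      exact labQ_class 3 (-1) QD qfib4 (fun y hy => (labQ_iff y hy).2.2.2)
  · decide
  · exact hM

/-! ### Faithfulness -/

theorem vB_self {o : Finset GolayPt} {b : GolayPt} (hb : b ∈ o) : vB o b b = 2 := by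
  unfold vB tw pat
  rw [if_neg (by
    rw [Finset.mem_sdiff, Finset.mem_insert, Finset.mem_singleton]
    tauto), if_pos hb]

theorem vB_eq_two {o : Finset GolayPt} {b j : GolayPt} (h : vB o b j = 2) :
    j = pt 0 ∨ j = b := by
  unfold vB tw pat at h
  by_cases hj : j ∈ o \ {pt 0, b}
  · rw [if_pos hj] at h
    split_ifs at h
    all_goals omega
  · rw [if_neg hj] at h
    by_cases hjo : j ∈ o
    · rw [Finset.mem_sdiff, Finset.mem_insert, Finset.mem_singleton] at hj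
      tauto
    · rw [if_neg hjo] at h
      omega

theorem exists_vB {k : GolayPt} (hk : k ≠ none) (hk0 : k ≠ pt 0) :
    ∃ o : Finset GolayPt, k ∈ o ∧ vB o k ∈ YQ := by
  obtain ⟨g, hg, hmap⟩ := exists_mem_M24_map_list [none, pt 0, pt 4] [none, pt 0, k]
    (by decide) (by
      simp only [List.nodup_cons, List.mem_cons, List.not_mem_nil, or_false, not_or,
        List.nodup_nil, and_true, not_false_eq_true]
      exact ⟨⟨by decide, fun e => hk e.symm⟩, fun e => hk0 e.symm⟩) rfl (by decide)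
  simp only [List.map_cons, List.map_nil, List.cons.injEq, and_true] at hmap
  obtain ⟨g1, g2, g3⟩ := hmap
  have ho : g • oQ ∈ octads := smul_mem_octads hg oQ_mem
  have hn : none ∈ g • oQ := by
    have := Finset.smul_mem_smul_finset (a := g) oQ_pts.1
    rwa [Equiv.Perm.smul_def, g1] at this
  have h0 : pt 0 ∈ g • oQ := by
    have := Finset.smul_mem_smul_finset (a := g) oQ_pts.2.1
    rwa [Equiv.Perm.smul_def, g2] at this
  have hko : k ∈ g • oQ := by
    have := Finset.smul_mem_smul_finset (a := g) oQ_pts.2.2.1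
    rwa [Equiv.Perm.smul_def, g3] at this
  refine ⟨g • oQ, hko, ?_⟩
  have hm : vB (g • oQ) k ∈ QB := by
    unfold QB
    rw [mem_cls]
    exact ⟨g • oQ, (mem_octI0 _).mpr ⟨ho, hn, h0⟩, k,
      Finset.mem_erase.mpr ⟨hk0, Finset.mem_erase.mpr ⟨hk, hko⟩⟩, rfl⟩
  rw [← qfib2, Finset.mem_filter] at hm
  exact hm.1

theorem ml0_faith (g : ↥ML0) (h : ∀ y ∈ MulAction.orbit ↥ML0 R1, g • y = y) : g = 1 := by
  obtain ⟨g, hg⟩ := g
  obtain ⟨h1, h2⟩ := (mem_ML0 g).mp hg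
  have h3 : g • R1 = R1 := h R1 (MulAction.mem_orbit_self R1)
  obtain ⟨σ, rfl⟩ := (fix3_iff g).mp ⟨h1, h3, h2⟩
  obtain ⟨hσ, hσ0⟩ := (mem_M22s σ.1).mp σ.2
  apply Subtype.ext
  show cp σ.1 = 1
  apply cp_inj_pt
  intro k
  by_cases hk : k = none
  · rw [hk, hσ]
  by_cases hk0 : k = pt 0
  · rw [hk0, hσ0]
  obtain ⟨o, hko, hm⟩ := exists_vB hk hk0
  have hfix : cp σ.1 • (⟨vB o k, YQ_mem_lattice _ hm⟩ : ↥leechLattice) =
      ⟨vB o k, YQ_mem_lattice _ hm⟩ := by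
    apply h
    rw [orbit_R1_ML, Set.mem_ofPred_eq]
    exact hm
  have e := congrArg (fun w : ↥leechLattice => (w : GolayPt → ℤ) k) hfix
  have e' : ((cp σ.1 • (⟨vB o k, YQ_mem_lattice _ hm⟩ : ↥leechLattice) : ↥leechLattice) :
      GolayPt → ℤ) k = vB o k k := e
  rw [cp_apply] at e'
  have e'' : vB o k (σ.1.1.symm k) = vB o k k := e'
  rw [vB_self hko] at e''
  rcases vB_eq_two e'' with hs | hs
  · exfalso
    rw [Equiv.symm_apply_eq, hσ0] at hs
    exact hk0 hs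
  · rw [Equiv.symm_apply_eq] at hs
    exact hs.symm

/-- The coordinate permutations of the two-point stabiliser, inside the reference group. -/
def phiM : ↥M22s →* ↥ML0 :=
  (cpHom.comp M22s.subtype).codRestrict ML0 (fun σ =>
    (mem_ML0 _).mpr ⟨cp_T0 σ.1 ((mem_M22s σ.1).mp σ.2).1,
      cp_X0 σ.1 ((mem_M22s σ.1).mp σ.2).1 ((mem_M22s σ.1).mp σ.2).2⟩)

theorem ml0_stab (K : Subgroup ↥ML0) (hK : K ≤ MulAction.stabilizer ↥ML0 R1)
    (hnorm : ∀ g ∈ MulAction.stabilizer ↥ML0 R1, ∀ k ∈ K, g * k * g⁻¹ ∈ K) :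
    K = ⊥ ∨ K = MulAction.stabilizer ↥ML0 R1 := by
  apply Crit.quasi_simple_of_hom phiM _ _ K hK hnorm
  rintro ⟨g, hg⟩
  obtain ⟨h1, h2⟩ := (mem_ML0 g).mp hg
  rw [MulAction.mem_stabilizer_iff]
  constructor
  · intro h3
    have h3' : g • R1 = R1 := h3
    obtain ⟨σ, hσ⟩ := (fix3_iff g).mp ⟨h1, h3', h2⟩
    exact ⟨σ, Subtype.ext hσ⟩
  · rintro ⟨σ, hσ⟩
    have hσ' : cp σ.1 = g := congrArg Subtype.val hσ
    exact ((fix3_iff g).mpr ⟨σ, hσ'⟩).2.1

theorem ml0_simple : IsSimpleGroup ↥ML0 :=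
  Crit.simple_of_maximal R1 2025 index_stab_R1_ML (by norm_num) ml0_max ml0_faith ml0_stab
    (Crit.reg_of_char 2025 (fun _ _ _ hc => Crit.exists_char_2025 hc))

/-- Statement S0404. -/
theorem mcl_simple (v w : Cfsg.leechLattice) (hv : Cfsg.sqNorm (v : Cfsg.GolayPt → ℤ) = 32) (hw : Cfsg.sqNorm (w : Cfsg.GolayPt → ℤ) = 32) (hvw : Cfsg.dotInt (v : Cfsg.GolayPt → ℤ) (w : Cfsg.GolayPt → ℤ) = -8) : Cfsg.IsMcL ↥(MulAction.stabilizer Cfsg.Co0 v ⊓ MulAction.stabilizer Cfsg.Co0 w) := by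
  have hu : sqNorm ((-(v + w) : ↥leechLattice) : GolayPt → ℤ) = 48 := by
    show sqNorm (-((v : GolayPt → ℤ) + (w : GolayPt → ℤ))) = 48
    rw [sqNorm_neg, sqNorm_add, hv, hw, hvw]
    norm_num
  have hv' : sqNorm ((-v : ↥leechLattice) : GolayPt → ℤ) = 32 ∧
      sqNorm (((-(v + w) : ↥leechLattice) : GolayPt → ℤ) -
        ((-v : ↥leechLattice) : GolayPt → ℤ)) = 32 := by
    constructor
    · show sqNorm (-(v : GolayPt → ℤ)) = 32
      rw [sqNorm_neg, hv]
    · have e : ((-(v + w) : ↥leechLattice) : GolayPt → ℤ) -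
          ((-v : ↥leechLattice) : GolayPt → ℤ) = -(w : GolayPt → ℤ) := by
        show -((v : GolayPt → ℤ) + (w : GolayPt → ℤ)) - -(v : GolayPt → ℤ) = -(w : GolayPt → ℤ)
        abel
      rw [e, sqNorm_neg, hw]
  obtain ⟨k, hk1, hk2⟩ := mcl_frame (-(v + w)) (-v) hu hv'
  have key : ∀ g : ↥Co0, g ∈ MulAction.stabilizer ↥Co0 v ⊓ MulAction.stabilizer ↥Co0 w ↔
      k * g * k⁻¹ ∈ ML0 := by
    intro g
    rw [mem_ML0, Subgroup.mem_inf, MulAction.mem_stabilizer_iff, MulAction.mem_stabilizer_iff,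
      mul_smul, mul_smul, mul_smul, mul_smul, ← hk1, ← hk2, inv_smul_smul, inv_smul_smul]
    constructor
    · rintro ⟨h1, h2⟩
      obtain ⟨h3, h4⟩ := fix_neg g v w h1 h2
      rw [h3, h4]
      exact ⟨rfl, rfl⟩
    · rintro ⟨h1, h2⟩
      exact fix_vw g v w (MulAction.injective k h1) (MulAction.injective k h2)
  have e := conjEquiv k _ ML0 key
  have := ml0_simple
  exact ⟨e.isSimpleGroup, (Nat.card_congr e.toEquiv).trans card_ML0⟩

end Cfsg.Agent.Lib.helper28.XI
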