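import Cfsg.Agent.Lib.helper28.LeechCensus
import Cfsg.Agent.Lib.helper28.GolaySix

set_option autoImplicit false

namespace Cfsg.Agent.Lib.helper28.XI

open Cfsg
open Cfsg.Agent.Lib.helper28
open Cfsg.Agent.Lib.helper27
open Cfsg.Agent.Lib.helper28.LC
open scoped Pointwise

/-! The stabiliser of a minimal vector: tools for transitivity statements. -/

/-- The reference minimal vector `4 e_a - 4 e_b`, with `a` and `b` in one tetrad. -/
def v1 : GolayPt → ℤ := tw {pt 7} (pat 4 {pt 4, pt 7})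

theorem v1_mem_E0 : v1 ∈ E0 := by
  unfold E0
  rw [mem_clsE]
  exact ⟨{pt 4, pt 7}, Finset.mem_powersetCard.mpr ⟨Finset.subset_univ _, by decide⟩, {pt 7},
    Finset.mem_powerset.mpr (by decide), rfl⟩

theorem v1_mem : v1 ∈ leechLattice := (E0_props v1_mem_E0).1

theorem sqNorm_v1 : sqNorm v1 = 32 := (E0_props v1_mem_E0).2.1

theorem v1_apply : ∀ j : GolayPt, v1 j = if j = pt 4 then 4 else if j = pt 7 then -4 else 0 := by
  decide +kernel

theorem dot_v1 (w : GolayPt → ℤ) : dotInt v1 w = 4 * w (pt 4) - 4 * w (pt 7) := by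
  unfold dotInt
  have h : ∀ i, v1 i * w i = (if i = pt 4 then 4 * w i else 0) +
      (if i = pt 7 then -4 * w i else 0) := by
    intro i
    rw [v1_apply]
    by_cases h4 : i = pt 4
    · have h7 : i ≠ pt 7 := by rw [h4]; decide
      rw [if_pos h4, if_pos h4, if_neg h7, add_zero]
    · by_cases h7 : i = pt 7
      · rw [if_neg h4, if_pos h7, if_neg h4, if_pos h7, zero_add]
      · rw [if_neg h4, if_neg h7, if_neg h4, if_neg h7, zero_mul, add_zero]
  rw [Finset.sum_congr rfl (fun i _ => h i), Finset.sum_add_distrib, Finset.sum_ite_eq',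
    Finset.sum_ite_eq', if_pos (Finset.mem_univ _), if_pos (Finset.mem_univ _)]
  ring

theorem xi_v1_apply : ∀ k, xiFun v1 k = v1 k := by decide +kernel

theorem xi_v1 : xiFun v1 = v1 := funext xi_v1_apply

theorem tw_v1 {c : Finset GolayPt} (h4 : pt 4 ∉ c) (h7 : pt 7 ∉ c) : tw c v1 = v1 := by
  funext j
  unfold tw
  by_cases hj : j ∈ c
  · have e4 : j ≠ pt 4 := fun h => h4 (by rw [← h]; exact hj)
    have e7 : j ≠ pt 7 := fun h => h7 (by rw [← h]; exact hj)
    rw [if_pos hj, v1_apply, if_neg e4, if_neg e7]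
    rfl
  · rw [if_neg hj]

theorem perm_v1 {σ : Equiv.Perm GolayPt} (h4 : σ (pt 4) = pt 4) (h7 : σ (pt 7) = pt 7) :
    (fun i => v1 (σ i)) = v1 := by
  funext j
  show v1 (σ j) = v1 j
  rw [v1_apply, v1_apply]
  have e4 : σ j = pt 4 ↔ j = pt 4 :=
    ⟨fun h => σ.injective (h.trans h4.symm), fun h => by rw [h, h4]⟩
  have e7 : σ j = pt 7 ↔ j = pt 7 :=
    ⟨fun h => σ.injective (h.trans h7.symm), fun h => by rw [h, h7]⟩
  simp only [e4, e7]

/-- The reference vector as a lattice element. -/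
def V1 : ↥leechLattice := ⟨v1, v1_mem⟩

/-- Related by an automorphism fixing the reference minimal vector. -/
def RelV (w w' : GolayPt → ℤ) : Prop :=
  ∃ (hw : w ∈ leechLattice) (hw' : w' ∈ leechLattice) (g : ↥Co0),
    g • V1 = V1 ∧ g • (⟨w, hw⟩ : ↥leechLattice) = ⟨w', hw'⟩

theorem relV_trans {x y z : GolayPt → ℤ} (h1 : RelV x y) (h2 : RelV y z) : RelV x z := by
  obtain ⟨hx, hy, g, hge, hg⟩ := h1
  obtain ⟨hy', hz, g', hge', hg'⟩ := h2
  exact ⟨hx, hz, g' * g, by rw [mul_smul, hge, hge'], by rw [mul_smul, hg, hg']⟩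

theorem relV_symm {x y : GolayPt → ℤ} (h : RelV x y) : RelV y x := by
  obtain ⟨hx, hy, g, hge, hg⟩ := h
  refine ⟨hy, hx, g⁻¹, ?_, ?_⟩
  · conv_lhs => rw [← hge]
    rw [inv_smul_smul]
  · rw [← hg, inv_smul_smul]

theorem relV_right {x y : GolayPt → ℤ} (h : RelV x y) : y ∈ leechLattice := by
  obtain ⟨-, hy, -, -⟩ := h
  exact hy

theorem relV_norm {x y : GolayPt → ℤ} (h : RelV x y) : sqNorm y = sqNorm x := by
  obtain ⟨hx, hy, g, -, hg⟩ := h
  have := co0_norm g ⟨x, hx⟩
  rw [hg] at this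
  exact this

theorem relV_dot {x y : GolayPt → ℤ} (h : RelV x y) : dotInt v1 y = dotInt v1 x := by
  obtain ⟨hx, hy, g, hge, hg⟩ := h
  have := co0_dot g V1 ⟨x, hx⟩
  rw [hge, hg] at this
  exact this

theorem relV_sign {w : GolayPt → ℤ} (hw : w ∈ leechLattice) {c : Finset GolayPt} (hc : c ∈ GC)
    (h4 : pt 4 ∉ c) (h7 : pt 7 ∉ c) : RelV w (tw c w) :=
  ⟨hw, signChange_mem_leechLattice hw hc, ⟨signPerm c hc, signPerm_mem c hc⟩,
    Subtype.ext (tw_v1 h4 h7), Subtype.ext rfl⟩

theorem relV_perm {w : GolayPt → ℤ} (hw : w ∈ leechLattice) {σ : Equiv.Perm GolayPt}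
    (hσ : σ ∈ M24) (h4 : σ (pt 4) = pt 4) (h7 : σ (pt 7) = pt 7) : RelV w (fun i => w (σ i)) :=
  ⟨hw, Cfsg.Agent.S0432.result σ hσ w hw, ⟨coordPerm σ hσ, coordPerm_mem σ hσ⟩,
    Subtype.ext (perm_v1 h4 h7), Subtype.ext rfl⟩

theorem relV_xi {w : GolayPt → ℤ} (hw : w ∈ leechLattice) : RelV w (xiFun w) :=
  ⟨hw, xiFun_mem hw, ⟨xi, xi_mem⟩, Subtype.ext xi_v1, Subtype.ext rfl⟩

theorem tw_symmDiff (c c' : Finset GolayPt) (x : GolayPt → ℤ) :
    tw (symmDiff c c') (tw c x) = tw c' x := by
  funext j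
  unfold tw
  by_cases h1 : j ∈ c <;> by_cases h2 : j ∈ c' <;> simp [Finset.mem_symmDiff, h1, h2]

theorem relV_resign {c c' : Finset GolayPt} (hc : c ∈ GC) (hc' : c' ∈ GC)
    (h4 : pt 4 ∈ c ↔ pt 4 ∈ c') (h7 : pt 7 ∈ c ↔ pt 7 ∈ c') {x : GolayPt → ℤ}
    (hL : tw c x ∈ leechLattice) : RelV (tw c x) (tw c' x) := by
  have h := relV_sign hL (symmDiff_mem_supports hc hc')
    (by rw [Finset.mem_symmDiff]; tauto) (by rw [Finset.mem_symmDiff]; tauto)
  rw [tw_symmDiff] at h
  exact h

/-- The stabiliser of two points is transitive on the octads through the first point that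
contain (or avoid) the second point. -/
theorem exists_fix_octad {o o' : Finset GolayPt} (ho : o ∈ octads) (ho' : o' ∈ octads)
    {p q : GolayPt} (hpq : p ≠ q) (hp : p ∈ o) (hp' : p ∈ o') (hq : q ∈ o ↔ q ∈ o') :
    ∃ σ ∈ M24, σ p = p ∧ σ q = q ∧ σ • o' = o := by
  by_cases hqo : q ∈ o
  · have hqo' := hq.mp hqo
    have hc : ((o.erase p).erase q).card = 6 := by
      rw [Finset.card_erase_of_mem (Finset.mem_erase.mpr ⟨hpq.symm, hqo⟩),
        Finset.card_erase_of_mem hp, ho.2]
    have hc' : ((o'.erase p).erase q).card = 6 := by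
      rw [Finset.card_erase_of_mem (Finset.mem_erase.mpr ⟨hpq.symm, hqo'⟩),
        Finset.card_erase_of_mem hp', ho'.2]
    obtain ⟨t, ht, ht3⟩ := Finset.exists_subset_card_eq (s := (o.erase p).erase q) (n := 3)
      (by rw [hc]; norm_num)
    obtain ⟨t', ht', ht3'⟩ := Finset.exists_subset_card_eq (s := (o'.erase p).erase q) (n := 3)
      (by rw [hc']; norm_num)
    have hmem : ∀ x ∈ t, x ≠ q ∧ x ≠ p ∧ x ∈ o := by
      intro x hx
      have h1 := Finset.mem_erase.mp (ht hx)
      have h2 := Finset.mem_erase.mp h1.2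
      exact ⟨h1.1, h2.1, h2.2⟩
    have hmem' : ∀ x ∈ t', x ≠ q ∧ x ≠ p ∧ x ∈ o' := by
      intro x hx
      have h1 := Finset.mem_erase.mp (ht' hx)
      have h2 := Finset.mem_erase.mp h1.2
      exact ⟨h1.1, h2.1, h2.2⟩
    have hnd : (p :: q :: t.toList).Nodup := by
      rw [List.nodup_cons, List.nodup_cons]
      refine ⟨?_, ?_, t.nodup_toList⟩
      · rw [List.mem_cons, Finset.mem_toList]
        rintro (h | h)
        · exact hpq h
        · exact (hmem p h).2.1 rfl
      · rw [Finset.mem_toList]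
        intro h
        exact (hmem q h).1 rfl
    have hnd' : (p :: q :: t'.toList).Nodup := by
      rw [List.nodup_cons, List.nodup_cons]
      refine ⟨?_, ?_, t'.nodup_toList⟩
      · rw [List.mem_cons, Finset.mem_toList]
        rintro (h | h)
        · exact hpq h
        · exact (hmem' p h).2.1 rfl
      · rw [Finset.mem_toList]
        intro h
        exact (hmem' q h).1 rfl
    obtain ⟨σ, hσ, hmap⟩ := exists_mem_M24_map_list (p :: q :: t'.toList) (p :: q :: t.toList)
      hnd' hnd (by simp [Finset.length_toList, ht3, ht3']) (by simp [Finset.length_toList, ht3'])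
    simp only [List.map_cons, List.cons.injEq] at hmap
    obtain ⟨hσp, hσq, hσt⟩ := hmap
    refine ⟨σ, hσ, hσp, hσq, ?_⟩
    have hF : (insert p (insert q t)).card = 5 := by
      rw [Finset.card_insert_of_notMem, Finset.card_insert_of_notMem, ht3]
      · intro h
        exact (hmem q h).1 rfl
      · rw [Finset.mem_insert]
        rintro (h | h)
        · exact hpq h
        · exact (hmem p h).2.1 rfl
    apply (octads_isSteinerSystem.2 _ hF).unique ⟨smul_mem_octads hσ ho', ?_⟩ ⟨ho, ?_⟩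
    · intro x hx
      rw [Finset.mem_insert, Finset.mem_insert] at hx
      rcases hx with rfl | rfl | hx
      · have := Finset.smul_mem_smul_finset (a := σ) hp'
        rw [Equiv.Perm.smul_def, hσp] at this
        exact this
      · have := Finset.smul_mem_smul_finset (a := σ) hqo'
        rw [Equiv.Perm.smul_def, hσq] at this
        exact this
      · rw [← Finset.mem_toList, ← hσt, List.mem_map] at hx
        obtain ⟨y, hy, rfl⟩ := hx
        rw [Finset.mem_toList] at hy
        exact Finset.smul_mem_smul_finset (a := σ) (hmem' y hy).2.2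
    · intro x hx
      rw [Finset.mem_insert, Finset.mem_insert] at hx
      rcases hx with rfl | rfl | hx
      · exact hp
      · exact hqo
      · exact (hmem x hx).2.2
  · have hqo' : q ∉ o' := fun h => hqo (hq.mpr h)
    have hc : (o.erase p).card = 7 := by rw [Finset.card_erase_of_mem hp, ho.2]
    have hc' : (o'.erase p).card = 7 := by rw [Finset.card_erase_of_mem hp', ho'.2]
    obtain ⟨t, ht, ht4⟩ := Finset.exists_subset_card_eq (s := o.erase p) (n := 4)
      (by rw [hc]; norm_num)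
    obtain ⟨t', ht', ht4'⟩ := Finset.exists_subset_card_eq (s := o'.erase p) (n := 4)
      (by rw [hc']; norm_num)
    have hmem : ∀ x ∈ t, x ≠ p ∧ x ∈ o := fun x hx => Finset.mem_erase.mp (ht hx)
    have hmem' : ∀ x ∈ t', x ≠ p ∧ x ∈ o' := fun x hx => Finset.mem_erase.mp (ht' hx)
    have hnd : (p :: t.toList).Nodup := by
      rw [List.nodup_cons]
      refine ⟨?_, t.nodup_toList⟩
      rw [Finset.mem_toList]
      intro h
      exact (hmem p h).1 rfl
    have hnd' : (p :: t'.toList).Nodup := by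
      rw [List.nodup_cons]
      refine ⟨?_, t'.nodup_toList⟩
      rw [Finset.mem_toList]
      intro h
      exact (hmem' p h).1 rfl
    obtain ⟨τ, hτ, hmap⟩ := exists_mem_M24_map_list (p :: t'.toList) (p :: t.toList)
      hnd' hnd (by simp [Finset.length_toList, ht4, ht4']) (by simp [Finset.length_toList, ht4'])
    simp only [List.map_cons, List.cons.injEq] at hmap
    obtain ⟨hτp, hτt⟩ := hmap
    have hF : (insert p t).card = 5 := by
      rw [Finset.card_insert_of_notMem, ht4]
      intro h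
      exact (hmem p h).1 rfl
    have hFo : insert p t ⊆ o := by
      intro x hx
      rw [Finset.mem_insert] at hx
      rcases hx with rfl | hx
      · exact hp
      · exact (hmem x hx).2
    have hτo : τ • o' = o := by
      apply (octads_isSteinerSystem.2 _ hF).unique ⟨smul_mem_octads hτ ho', ?_⟩ ⟨ho, hFo⟩
      intro x hx
      rw [Finset.mem_insert] at hx
      rcases hx with rfl | hx
      · have := Finset.smul_mem_smul_finset (a := τ) hp'
        rw [Equiv.Perm.smul_def, hτp] at this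
        exact this
      · rw [← Finset.mem_toList, ← hτt, List.mem_map] at hx
        obtain ⟨y, hy, rfl⟩ := hx
        rw [Finset.mem_toList] at hy
        exact Finset.smul_mem_smul_finset (a := τ) (hmem' y hy).2
    have hτq : τ q ∉ o := by
      rw [← hτo, mem_smul_iff]
      simp only [Equiv.Perm.coe_inv, Equiv.symm_apply_apply]
      exact hqo'
    obtain ⟨g, hg, hgq⟩ := fixer_five_trans hF ho hFo (p := τ q) (q := q)
      (fun h => hτq (hFo h)) (fun h => hqo (hFo h))
      ⟨fun h => absurd h hτq, fun h => absurd h hqo⟩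
    rw [mem_fixer] at hg
    refine ⟨g * τ, M24.mul_mem hg.1 hτ, ?_, ?_, ?_⟩
    · show g (τ p) = p
      rw [hτp]
      exact hg.2 p (Finset.mem_insert_self _ _)
    · exact hgq
    · rw [mul_smul, hτo]
      apply (octads_isSteinerSystem.2 _ hF).unique ⟨smul_mem_octads hg.1 ho, ?_⟩ ⟨ho, hFo⟩
      intro x hx
      have := Finset.smul_mem_smul_finset (a := g) (hFo hx)
      rw [Equiv.Perm.smul_def, hg.2 x hx] at this
      exact this

/-- Even vectors whose positions `2` modulo `4` can be moved, fixing the two base points, onto a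
set meeting every tetrad oddly are related to vectors with odd coordinates. -/
theorem relV_to_odd {w : GolayPt → ℤ} (hw : w ∈ leechLattice) (hev : ∀ i, w i % 2 = 0)
    (R : Finset GolayPt) (hR : ∀ j : Fin 6, (tetS j ∩ R).card % 2 = 1)
    (hσ : ∃ σ ∈ M24, σ (pt 4) = pt 4 ∧ σ (pt 7) = pt 7 ∧ σ • R = resSet w 2) :
    ∃ y, RelV w y ∧ ∀ i, y i % 2 = 1 := by
  obtain ⟨σ, hσ, h4, h7, hσo⟩ := hσ
  have h1 := relV_perm hw hσ h4 h7
  have hx' := relV_right h1
  have hres : resSet (fun i => w (σ i)) 2 = R := by rw [resSet_perm, ← hσo, inv_smul_smul]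
  refine ⟨xiFun (fun i => w (σ i)), relV_trans h1 (relV_xi hx'), ?_⟩
  exact xi_odd_of_even hx' (fun i => hev (σ i)) (by rw [hres]; exact hR)

/-- Structure of the minimal vectors with odd coordinates. -/
theorem odd32_struct {w : GolayPt → ℤ} (hw : w ∈ leechLattice) (hn : sqNorm w = 32)
    (hodd : ∀ i, w i % 2 = 1) :
    ∃ c ∈ GC, ∃ k, w = tw c (pt1 (-3) {k}) := by
  have h := odd32 hw hn hodd
  rw [mem_clsO] at h
  obtain ⟨c, hc, T, hT, hwe⟩ := h
  obtain ⟨k, rfl⟩ := Finset.card_eq_one.mp hT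
  exact ⟨c, hc, k, hwe⟩

theorem tw_pt1_apply (c : Finset GolayPt) (k j : GolayPt) :
    tw c (pt1 (-3) {k}) j = (if j ∈ c then -1 else 1) * (if j = k then -3 else 1) := by
  unfold tw pt1
  simp only [Finset.mem_singleton]
  split_ifs <;> ring

theorem tw_pt1_mem {c : Finset GolayPt} (hc : c ∈ GC) (k : GolayPt) :
    tw c (pt1 (-3) {k}) ∈ leechLattice :=
  mem_of_odd hc (pt1_mod (by decide) _) (by rw [sum_pt1, Finset.card_singleton]; decide)

theorem tw_pt1_norm (c : Finset GolayPt) (k : GolayPt) : sqNorm (tw c (pt1 (-3) {k})) = 32 := by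
  rw [sqNorm_tw, sqNorm_pt1, Finset.card_singleton]
  norm_num

theorem tw_pt1_odd (c : Finset GolayPt) (k j : GolayPt) : tw c (pt1 (-3) {k}) j % 2 = 1 := by
  rw [tw_pt1_apply]
  split_ifs <;> decide

end Cfsg.Agent.Lib.helper28.XI
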