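import Cfsg.Agent.Lib.helper28.LeechXi
import Cfsg.Agent.Lib.helper28.GolayM12
import Cfsg.Agent.Lib.helper28.GolaySextet
import Cfsg.Agent.Lib.helper28.GolayFix
import Cfsg.Agent.Lib.helper28.GolayMeet

set_option autoImplicit false

namespace Cfsg.Agent.Lib.helper28.XI

open Cfsg
open Cfsg.Agent.Lib.helper28
open Cfsg.Agent.Lib.helper27
open Cfsg.Agent.Lib.helper28.LC
open scoped Pointwise

/-! Transitivity of the automorphism group on short vectors. -/

/-- Two vectors of the lattice are related when an automorphism maps the first to the second. -/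
def RelF (x y : GolayPt → ℤ) : Prop :=
  ∃ (hx : x ∈ leechLattice) (hy : y ∈ leechLattice) (g : ↥Co0),
    g • (⟨x, hx⟩ : ↥leechLattice) = ⟨y, hy⟩

theorem relF_trans {x y z : GolayPt → ℤ} (h1 : RelF x y) (h2 : RelF y z) : RelF x z := by
  obtain ⟨hx, hy, g, hg⟩ := h1
  obtain ⟨hy', hz, g', hg'⟩ := h2
  exact ⟨hx, hz, g' * g, by rw [mul_smul, hg, hg']⟩

theorem relF_symm {x y : GolayPt → ℤ} (h : RelF x y) : RelF y x := by
  obtain ⟨hx, hy, g, hg⟩ := h
  exact ⟨hy, hx, g⁻¹, by rw [← hg, inv_smul_smul]⟩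

theorem relF_right {x y : GolayPt → ℤ} (h : RelF x y) : y ∈ leechLattice := by
  obtain ⟨-, hy, -, -⟩ := h
  exact hy

theorem relF_norm {x y : GolayPt → ℤ} (h : RelF x y) : sqNorm y = sqNorm x := by
  obtain ⟨hx, hy, g, hg⟩ := h
  have := g.2.2 ⟨x, hx⟩
  have h2 : ((g : Equiv.Perm ↥leechLattice) ⟨x, hx⟩ : ↥leechLattice) = ⟨y, hy⟩ := hg
  rw [h2] at this
  exact this

theorem relF_sign {x : GolayPt → ℤ} (hx : x ∈ leechLattice) {c : Finset GolayPt} (hc : c ∈ GC) :
    RelF x (tw c x) :=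
  ⟨hx, signChange_mem_leechLattice hx hc, ⟨signPerm c hc, signPerm_mem c hc⟩, Subtype.ext rfl⟩

theorem relF_perm {x : GolayPt → ℤ} (hx : x ∈ leechLattice) {σ : Equiv.Perm GolayPt}
    (hσ : σ ∈ M24) : RelF x (fun i => x (σ i)) :=
  ⟨hx, Cfsg.Agent.S0432.result σ hσ x hx, ⟨coordPerm σ hσ, coordPerm_mem σ hσ⟩, Subtype.ext rfl⟩

theorem relF_xi {x : GolayPt → ℤ} (hx : x ∈ leechLattice) : RelF x (xiFun x) :=
  ⟨hx, xiFun_mem hx, ⟨xi, xi_mem⟩, Subtype.ext rfl⟩

theorem resSet_perm (x : GolayPt → ℤ) (σ : Equiv.Perm GolayPt) (k : ℤ) :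
    resSet (fun i => x (σ i)) k = σ⁻¹ • resSet x k := by
  ext i
  rw [mem_resSet, mem_inv_smul_iff, mem_resSet]

/-- If the coordinates are even and the positions of the coordinates `2` modulo `4` meet every
tetrad in an odd number of points, then the image under the map has odd coordinates. -/
theorem xi_odd_of_even {x : GolayPt → ℤ} (hx : x ∈ leechLattice) (hev : ∀ i, x i % 2 = 0)
    (hR : ∀ j : Fin 6, (tetS j ∩ resSet x 2).card % 2 = 1) : ∀ i, xiFun x i % 2 = 1 := by
  classical
  have hte := te_of_mem hx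
  have hh_odd : ∀ j, hh x j % 2 = 1 := by
    intro j
    have h1 := modEq_sum (tetS j) x (fun i => if i ∈ resSet x 2 then 2 else 0) 4 (fun i _ => by
      have := hev i
      by_cases hi : i ∈ resSet x 2
      · rw [if_pos hi]; rw [mem_resSet] at hi; omega
      · rw [if_neg hi]; rw [mem_resSet] at hi; omega)
    rw [Finset.sum_ite_mem, Finset.sum_const, nsmul_eq_mul] at h1
    have h2 := two_hh hte j
    unfold tsum at h2
    have h3 := hR j
    omega
  intro i
  have := hev i
  have := hh_odd (tet i)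
  unfold xiFun epsJ
  split_ifs <;> omega

theorem xi_even_of_four {x : GolayPt → ℤ} (hx : x ∈ leechLattice) (h4 : ∀ i, x i % 4 = 0) :
    ∀ i, xiFun x i % 2 = 0 := by
  have hte := te_of_mem hx
  have hh_even : ∀ j, hh x j % 2 = 0 := by
    intro j
    have h1 := modEq_sum (tetS j) x (fun _ => 0) 4 (fun i _ => by rw [h4 i]; rfl)
    rw [Finset.sum_const_zero] at h1
    have h2 := two_hh hte j
    unfold tsum at h2
    omega
  intro i
  have := h4 i
  have := hh_even (tet i)
  unfold xiFun epsJ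
  split_ifs <;> omega

theorem xi_odd_of_one {x : GolayPt → ℤ} (hx : x ∈ leechLattice) (h4 : ∀ i, x i % 4 = 1) :
    ∀ i, xiFun x i % 2 = 1 := by
  have hte := te_of_mem hx
  have hh_even : ∀ j, hh x j % 2 = 0 := by
    intro j
    have h1 := modEq_sum (tetS j) x (fun _ => 1) 4 (fun i _ => by rw [h4 i]; rfl)
    rw [Finset.sum_const, card_tetS] at h1
    have h2 := two_hh hte j
    unfold tsum at h2
    have h5 : ((4 : ℕ) • (1 : ℤ)) % 4 = 0 := by decide
    omega
  intro i
  have := h4 i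
  have := hh_even (tet i)
  unfold xiFun epsJ
  split_ifs <;> omega

/-- An octad meeting every tetrad in an odd number of points. -/
def Ostar : Finset GolayPt := setOf 10558

theorem Ostar_mem : Ostar ∈ octads := setOf_mem_octads (by decide +kernel)

theorem Ostar_odd : ∀ j : Fin 6, (tetS j ∩ Ostar).card % 2 = 1 := by decide +kernel

/-- A dodecad meeting every tetrad in an odd number of points. -/
def Dstar : Finset GolayPt := setOf 28637

theorem Dstar_mem : Dstar ∈ dodecads := by
  unfold Dstar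
  rw [mem_dodecads_iff, maskS_setOf (by norm_num)]
  exact ⟨by decide +kernel, by decide +kernel⟩

theorem Dstar_odd : ∀ j : Fin 6, (tetS j ∩ Dstar).card % 2 = 1 := by decide +kernel

/-- Even vectors whose positions `2` modulo `4` form a set conjugate to one meeting every tetrad
oddly are related to vectors with odd coordinates. -/
theorem to_odd {x : GolayPt → ℤ} (hx : x ∈ leechLattice) (hev : ∀ i, x i % 2 = 0)
    (R : Finset GolayPt) (hR : ∀ j : Fin 6, (tetS j ∩ R).card % 2 = 1)
    (hσ : ∃ σ ∈ M24, σ • R = resSet x 2) : ∃ y, RelF x y ∧ ∀ i, y i % 2 = 1 := by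
  obtain ⟨σ, hσ, hσo⟩ := hσ
  have h1 := relF_perm hx hσ
  have hx' := relF_right h1
  have hres : resSet (fun i => x (σ i)) 2 = R := by rw [resSet_perm, ← hσo, inv_smul_smul]
  refine ⟨xiFun (fun i => x (σ i)), relF_trans h1 (relF_xi hx'), ?_⟩
  exact xi_odd_of_even hx' (fun i => hev (σ i)) (by rw [hres]; exact hR)

/-! ### Norm 32 -/

/-- The reference vector of norm 32. -/
def u0 : GolayPt → ℤ := pt1 (-3) {none}

theorem hub32 {x : GolayPt → ℤ} (hx : x ∈ clsO (-3) 1) : RelF x u0 := by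
  rw [mem_clsO] at hx
  obtain ⟨c, hc, T, hT, hxe⟩ := hx
  obtain ⟨i, hTi⟩ := Finset.card_eq_one.mp hT
  rw [hxe, hTi]
  have hL : tw c (pt1 (-3) {i}) ∈ leechLattice :=
    mem_of_odd hc (pt1_mod (by decide) _) (by rw [sum_pt1]; simp)
  have h1 := relF_sign hL hc
  rw [tw_tw] at h1
  obtain ⟨σ, hσ, hσi⟩ := exists_mem_M24_apply none i
  have h2 := relF_perm (relF_right h1) hσ
  have he : (fun k => pt1 (-3) {i} (σ k)) = u0 := by
    funext k
    unfold u0 pt1
    by_cases hk : k = none
    · rw [if_pos (Finset.mem_singleton.mpr hk), if_pos (Finset.mem_singleton.mpr (by rw [hk, hσi]))]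
    · rw [if_neg (fun h => hk (Finset.mem_singleton.mp h)),
        if_neg (fun h => hk (σ.injective ((Finset.mem_singleton.mp h).trans hσi.symm)))]
  rw [he] at h2
  exact relF_trans h1 h2

theorem E0_to_E1 {x : GolayPt → ℤ} (hx : x ∈ E0) :
    ∃ y, RelF x y ∧ (∀ i, y i % 2 = 0) ∧ resSet y 2 ∈ octads := by
  have hxL := (E0_props hx).1
  have hxn := (E0_props hx).2.1
  unfold E0 at hx
  rw [mem_clsE] at hx
  obtain ⟨p, hp, s, hs, hxe⟩ := hx
  rw [Finset.mem_powersetCard] at hp
  obtain ⟨i, j, hij, hpe⟩ := Finset.card_eq_two.mp hp.2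
  obtain ⟨σ, hσ, hσa, hσb⟩ := exists_mem_M24_apply₂ (a := pt 0) (b := pt 4) (by decide) hij
  have h1 := relF_perm hxL hσ
  have hx' := relF_right h1
  have hval : ∀ k, (σ k ∈ p → x (σ k) = 4 ∨ x (σ k) = -4) ∧ (σ k ∉ p → x (σ k) = 0) := by
    intro k
    rw [hxe]
    exact ⟨fun hk => tw_pat_mem 4 s hk, fun hk => tw_pat_not_mem 4 s hk⟩
  have h4 : ∀ k, (fun k => x (σ k)) k % 4 = 0 := by
    intro k
    show x (σ k) % 4 = 0
    by_cases hk : σ k ∈ p
    · rcases (hval k).1 hk with h | h <;> rw [h] <;> decide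
    · rw [(hval k).2 hk]; decide
  have hz_even := xi_even_of_four hx' h4
  have hts : tsum (fun k => x (σ k)) 0 = x (σ (pt 0)) := by
    unfold tsum
    apply Finset.sum_eq_single (pt 0)
    · intro k hk hne
      apply (hval k).2
      rw [hpe, Finset.mem_insert, Finset.mem_singleton]
      rintro (h | h)
      · exact hne (σ.injective (h.trans hσa.symm))
      · have hk4 : k = pt 4 := σ.injective (h.trans hσb.symm)
        rw [hk4, mem_tetS] at hk
        exact absurd hk (by decide)
    · intro h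
      exact absurd ((mem_tetS _ _).mpr (by decide)) h
  have hv : x (σ (pt 0)) = 4 ∨ x (σ (pt 0)) = -4 := by
    apply (hval (pt 0)).1
    rw [hσa, hpe]
    exact Finset.mem_insert_self _ _
  have hz0 : xiFun (fun k => x (σ k)) (pt 0) % 4 = 2 := by
    have h2 := two_hh (te_of_mem hx') 0
    rw [hts] at h2
    have ht0 : tet (pt 0) = 0 := by decide
    have hz : xiFun (fun k => x (σ k)) (pt 0) =
        -1 * (x (σ (pt 0)) - hh (fun k => x (σ k)) 0) := by
      unfold xiFun epsJ
      rw [ht0, if_pos rfl]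
    rw [hz]
    rcases hv with h | h <;> omega
  have h2 := relF_xi hx'
  have h12 := relF_trans h1 h2
  have hzL := relF_right h12
  have hzn : sqNorm (xiFun (fun k => x (σ k))) = 32 := by rw [relF_norm h12, hxn]
  rcases even32 hzL hzn hz_even with hE1 | hE0
  · refine ⟨_, h12, hz_even, ?_⟩
    unfold E1 at hE1
    rw [mem_clsE] at hE1
    obtain ⟨p', hp', s', -, he⟩ := hE1
    rw [he, resSet_tw_pat2]
    exact (mem_octadFinset p').mp hp'
  · exfalso
    have hres := (E0_props hE0).2.2.2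
    have hmem : pt 0 ∈ resSet (xiFun (fun k => x (σ k))) 2 := by
      rw [mem_resSet, hz0]; rfl
    rw [hres] at hmem
    exact absurd hmem (Finset.notMem_empty _)

theorem rel32_octad {x : GolayPt → ℤ} (hx : x ∈ leechLattice) (hn : sqNorm x = 32)
    (hev : ∀ i, x i % 2 = 0) (ho : resSet x 2 ∈ octads) : RelF x u0 := by
  obtain ⟨y, hxy, hyodd⟩ := to_odd hx hev Ostar Ostar_odd (exists_smul_octad_eq Ostar_mem ho)
  exact relF_trans hxy (hub32 (odd32 (relF_right hxy) ((relF_norm hxy).trans hn) hyodd))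

/-- Every vector of norm 32 is related to the reference vector. -/
theorem rel32 {x : GolayPt → ℤ} (hx : x ∈ leechLattice) (hn : sqNorm x = 32) : RelF x u0 := by
  rcases parity_cases hx with hev | hodd
  · rcases even32 hx hn hev with hE1 | hE0
    · apply rel32_octad hx hn hev
      unfold E1 at hE1
      rw [mem_clsE] at hE1
      obtain ⟨p', hp', s', -, he⟩ := hE1
      rw [he, resSet_tw_pat2]
      exact (mem_octadFinset p').mp hp'
    · obtain ⟨y, hxy, hyev, hyo⟩ := E0_to_E1 hE0
      exact relF_trans hxy (rel32_octad (relF_right hxy) ((relF_norm hxy).trans hn) hyev hyo)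
  · exact hub32 (odd32 hx hn hodd)

/-- Statement S0400. -/
theorem transitive32 (v w : ↥leechLattice) (hv : sqNorm (v : GolayPt → ℤ) = 32)
    (hw : sqNorm (w : GolayPt → ℤ) = 32) : ∃ g : ↥Co0, g • v = w := by
  obtain ⟨hx, hy, g, hg⟩ := relF_trans (rel32 v.2 hv) (relF_symm (rel32 w.2 hw))
  exact ⟨g, hg⟩

end Cfsg.Agent.Lib.helper28.XI
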