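import Cfsg.Agent.Lib.helper28.LeechTrans

set_option autoImplicit false

namespace Cfsg.Agent.Lib.helper28.XI

open Cfsg
open Cfsg.Agent.Lib.helper28
open Cfsg.Agent.Lib.helper27
open Cfsg.Agent.Lib.helper28.LC
open scoped Pointwise

/-! ### Norm 48 -/

theorem exists_smul_setOf7 {t : Finset GolayPt} (ht : t.card = 3) :
    ∃ a ∈ M24, a • setOf 7 = t := by
  obtain ⟨a, ha, hmap⟩ := exists_mem_M24_map_list [pt 0, pt 1, pt 2] t.toList
    (by decide) t.nodup_toList (by rw [Finset.length_toList, ht]; rfl) (by norm_num)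
  refine ⟨a, ha, ?_⟩
  have h7 : (7 : ℕ) = orList ([0, 1, 2].map fun b => 2 ^ b) := by decide
  rw [h7, smul_setOf_orList a [0, 1, 2] (by decide)]
  have : ([0, 1, 2].map fun b => a (pt b)) = [pt 0, pt 1, pt 2].map a := rfl
  rw [this, hmap, Finset.toList_toFinset]

/-- The reference vector of norm 48. -/
def u3 : GolayPt → ℤ := pt1 (-3) (setOf 7)

theorem hub48 {x : GolayPt → ℤ} (hx : x ∈ clsO (-3) 3) : RelF x u3 := by
  rw [mem_clsO] at hx
  obtain ⟨c, hc, T, hT, hxe⟩ := hx
  rw [hxe]
  have hL : tw c (pt1 (-3) T) ∈ leechLattice :=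
    mem_of_odd hc (pt1_mod (by decide) _) (by rw [sum_pt1, hT]; decide)
  have h1 := relF_sign hL hc
  rw [tw_tw] at h1
  obtain ⟨σ, hσ, hσT⟩ := exists_smul_setOf7 hT
  have h2 := relF_perm (relF_right h1) hσ
  have he : (fun k => pt1 (-3) T (σ k)) = u3 := by
    funext k
    unfold u3 pt1
    have hiff : σ k ∈ T ↔ k ∈ setOf 7 := by
      rw [← hσT, mem_smul_iff]
      simp
    by_cases hk : k ∈ setOf 7
    · rw [if_pos hk, if_pos (hiff.mpr hk)]
    · rw [if_neg hk, if_neg (fun h => hk (hiff.mp h))]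
  rw [he] at h2
  exact relF_trans h1 h2

theorem O5_to_O33 {x : GolayPt → ℤ} (hx : x ∈ clsO 5 1) :
    ∃ y, RelF x y ∧ y ∈ clsO (-3) 3 := by
  rw [mem_clsO] at hx
  obtain ⟨c, hc, T, hT, hxe⟩ := hx
  obtain ⟨i, hTi⟩ := Finset.card_eq_one.mp hT
  rw [hxe, hTi]
  have hL : tw c (pt1 5 {i}) ∈ leechLattice :=
    mem_of_odd hc (pt1_mod (by decide) _) (by rw [sum_pt1]; simp)
  have h1 := relF_sign hL hc
  rw [tw_tw] at h1
  have hy := relF_right h1
  have h12 := relF_trans h1 (relF_xi hy)
  have hzL := relF_right h12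
  have hzn : sqNorm (xiFun (pt1 5 {i})) = 48 := by
    rw [relF_norm h12, sqNorm_tw, sqNorm_pt1]
    simp
  have hzodd := xi_odd_of_one hy (pt1_mod (by decide) {i})
  refine ⟨_, h12, ?_⟩
  rcases odd48 hzL hzn hzodd with h | h
  · exact h
  · exfalso
    have hprops := (clsO_props (v := 5) (r := 1) (by decide) (by decide) h).2.2.1
    obtain ⟨k, hk, hki⟩ := Finset.exists_mem_ne (s := tetS (tet i))
      (by rw [card_tetS]; norm_num) i
    have hts : tsum (pt1 5 {i}) (tet i) = 8 := by
      unfold tsum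
      have e : ∀ k ∈ tetS (tet i), pt1 5 {i} k = 1 + (if k = i then 4 else 0) := by
        intro k _
        unfold pt1
        by_cases hk : k = i
        · rw [if_pos (Finset.mem_singleton.mpr hk), if_pos hk]; rfl
        · rw [if_neg (fun h => hk (Finset.mem_singleton.mp h)), if_neg hk]; rfl
      rw [Finset.sum_congr rfl e, Finset.sum_add_distrib, Finset.sum_const, card_tetS,
        Finset.sum_ite_eq' (tetS (tet i)) i, if_pos ((mem_tetS i (tet i)).mpr rfl)]
      rfl
    have hh4 : hh (pt1 5 {i}) (tet i) = 4 := by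
      have := two_hh (te_of_mem hy) (tet i)
      rw [hts] at this
      omega
    have hzk : xiFun (pt1 5 {i}) k = 3 ∨ xiFun (pt1 5 {i}) k = -3 := by
      have hk' := (mem_tetS k (tet i)).mp hk
      have hyk : pt1 5 {i} k = 1 := by
        unfold pt1
        rw [if_neg (fun h => hki (Finset.mem_singleton.mp h))]
      unfold xiFun epsJ
      rw [hk', hh4, hyk]
      split_ifs <;> norm_num
    rcases hprops k with h1 | h1 | h1 | h1 <;> rcases hzk with h3 | h3 <;> rw [h3] at h1 <;>
      norm_num at h1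

theorem rel48_odd {x : GolayPt → ℤ} (hx : x ∈ leechLattice) (hn : sqNorm x = 48)
    (hodd : ∀ i, x i % 2 = 1) : RelF x u3 := by
  rcases odd48 hx hn hodd with h | h
  · exact hub48 h
  · obtain ⟨y, hxy, hy⟩ := O5_to_O33 h
    exact relF_trans hxy (hub48 hy)

/-- Every vector of norm 48 is related to the reference vector. -/
theorem rel48 {x : GolayPt → ℤ} (hx : x ∈ leechLattice) (hn : sqNorm x = 48) : RelF x u3 := by
  rcases parity_cases hx with hev | hodd
  · have key : ∃ y, RelF x y ∧ ∀ i, y i % 2 = 1 := by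
      rcases even48 hx hn hev with hE2 | hE3
      · unfold E2 at hE2
        rw [mem_clsE] at hE2
        obtain ⟨p', hp', s', -, he⟩ := hE2
        have hd : resSet x 2 ∈ dodecads := by
          rw [he, resSet_tw_pat2]
          exact (mem_dodecadFinset p').mp hp'
        exact to_odd hx hev Dstar Dstar_odd (exists_smul_dodecad_eq Dstar_mem hd)
      · rw [mem_E3] at hE3
        obtain ⟨o, ho, i, hi, w, hw, s, -, -, he⟩ := hE3
        have ho' : resSet x 2 ∈ octads := by
          rw [he, resSet_f3 s hi hw]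
          exact ho
        exact to_odd hx hev Ostar Ostar_odd (exists_smul_octad_eq Ostar_mem ho')
    obtain ⟨y, hxy, hyodd⟩ := key
    exact relF_trans hxy (rel48_odd (relF_right hxy) ((relF_norm hxy).trans hn) hyodd)
  · exact rel48_odd hx hn hodd

/-- Statement S0401. -/
theorem transitive48 (v w : ↥leechLattice) (hv : sqNorm (v : GolayPt → ℤ) = 48)
    (hw : sqNorm (w : GolayPt → ℤ) = 48) : ∃ g : ↥Co0, g • v = w := by
  obtain ⟨hx, hy, g, hg⟩ := relF_trans (rel48 v.2 hv) (relF_symm (rel48 w.2 hw))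
  exact ⟨g, hg⟩

end Cfsg.Agent.Lib.helper28.XI
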