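import Cfsg.Agent.Lib.helper28.LeechTrans2
import Cfsg.Agent.Lib.helper28.LeechCnt9
import Cfsg.Agent.Lib.helper28.GolaySix
import Cfsg.Agent.Lib.helper28.GolayMax4

set_option autoImplicit false

namespace Cfsg.Agent.Lib.helper28.XI

open Cfsg
open Cfsg.Agent.Lib.helper28
open Cfsg.Agent.Lib.helper27
open Cfsg.Agent.Lib.helper28.LC
open scoped Pointwise

/-! ### Norm 64 -/

/-- The reference vector of norm 64. -/
def y5 : GolayPt → ℤ := pt1 (-3) (setOf 31)

theorem hub64 {x : GolayPt → ℤ} (hx : x ∈ clsO (-3) 5) : RelF x y5 := by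
  rw [mem_clsO] at hx
  obtain ⟨c, hc, T, hT, hxe⟩ := hx
  rw [hxe]
  have hL : tw c (pt1 (-3) T) ∈ leechLattice :=
    mem_of_odd hc (pt1_mod (by decide) _) (by rw [sum_pt1, hT]; decide)
  have h1 := relF_sign hL hc
  rw [tw_tw] at h1
  obtain ⟨σ, hσ, hσT⟩ := exists_smul_setOf31 hT
  have h2 := relF_perm (relF_right h1) hσ
  have he : (fun k => pt1 (-3) T (σ k)) = y5 := by
    funext k
    unfold y5 pt1
    have hiff : σ k ∈ T ↔ k ∈ setOf 31 := by
      rw [← hσT, mem_smul_iff]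
      simp
    by_cases hk : k ∈ setOf 31
    · rw [if_pos hk, if_pos (hiff.mpr hk)]
    · rw [if_neg hk, if_neg (fun h => hk (hiff.mp h))]
  rw [he] at h2
  exact relF_trans h1 h2

/-- The reference vector of shape `(5, -3, -3, 1, ..., 1)`. -/
def y53 : GolayPt → ℤ := p53 {pt 8, pt 15} (pt 4)

theorem xi_y53_small : ∀ k, xiFun y53 k ≠ 5 ∧ xiFun y53 k ≠ -5 := by decide +kernel

theorem O53_to_O5 {x : GolayPt → ℤ} (hx : x ∈ O53) : ∃ y, RelF x y ∧ y ∈ clsO (-3) 5 := by
  rw [mem_O53] at hx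
  obtain ⟨c, hc, T, hT, i, hi, hxe⟩ := hx
  rw [hxe]
  have hL : tw c (p53 T i) ∈ leechLattice :=
    mem_of_odd hc (p53_mod T i) (by rw [sum_p53, hT]; decide)
  have h1 := relF_sign hL hc
  rw [tw_tw] at h1
  obtain ⟨a, b, hab, hTe⟩ := Finset.card_eq_two.mp hT
  have hia : i ≠ a := by
    rintro rfl
    exact hi (by rw [hTe]; exact Finset.mem_insert_self _ _)
  have hib : i ≠ b := by
    rintro rfl
    exact hi (by rw [hTe]; exact Finset.mem_insert_of_mem (Finset.mem_singleton_self _))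
  obtain ⟨σ, hσ, hmap⟩ := exists_mem_M24_map_list [pt 4, pt 8, pt 15] [i, a, b] (by decide)
    (by simp [hia, hib, hab]) rfl (by norm_num)
  simp only [List.map_cons, List.map_nil, List.cons.injEq, and_true] at hmap
  have h2 := relF_perm (relF_right h1) hσ
  have he : (fun k => p53 T i (σ k)) = y53 := by
    funext k
    unfold y53
    rw [p53_apply, p53_apply]
    have h1' : σ k ∈ T ↔ k ∈ ({pt 8, pt 15} : Finset GolayPt) := by
      rw [hTe, Finset.mem_insert, Finset.mem_singleton, Finset.mem_insert, Finset.mem_singleton,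
        ← hmap.2.1, ← hmap.2.2, σ.apply_eq_iff_eq, σ.apply_eq_iff_eq]
    have h2' : σ k ∈ ({i} : Finset GolayPt) ↔ k ∈ ({pt 4} : Finset GolayPt) := by
      rw [Finset.mem_singleton, Finset.mem_singleton, ← hmap.1, σ.apply_eq_iff_eq]
    by_cases hk1 : k ∈ ({pt 8, pt 15} : Finset GolayPt) <;>
      by_cases hk2 : k ∈ ({pt 4} : Finset GolayPt)
    · rw [if_pos (h1'.mpr hk1), if_pos (h2'.mpr hk2), if_pos hk1, if_pos hk2]
    · rw [if_pos (h1'.mpr hk1), if_neg (fun h => hk2 (h2'.mp h)), if_pos hk1, if_neg hk2]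
    · rw [if_neg (fun h => hk1 (h1'.mp h)), if_pos (h2'.mpr hk2), if_neg hk1, if_pos hk2]
    · rw [if_neg (fun h => hk1 (h1'.mp h)), if_neg (fun h => hk2 (h2'.mp h)), if_neg hk1,
        if_neg hk2]
  rw [he] at h2
  have h12 := relF_trans h1 h2
  have h3 := relF_trans h12 (relF_xi (relF_right h12))
  have hzL := relF_right h3
  have hzn : sqNorm (xiFun y53) = 64 := by
    rw [relF_norm h3, sqNorm_tw, sqNorm_p53 hi, hT]
    norm_num
  have hzodd := xi_odd_of_one (relF_right h12) (p53_mod _ _)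
  refine ⟨_, h3, ?_⟩
  rcases odd64 hzL hzn hzodd with h | h
  · exact h
  · exfalso
    obtain ⟨k, hk⟩ := (O53_props h).2.2.2
    have := xi_y53_small k
    rcases hk with hk | hk
    · exact this.1 hk
    · exact this.2 hk

theorem OstarC_odd : ∀ j : Fin 6, (tetS j ∩ Ostarᶜ).card % 2 = 1 := by decide +kernel

theorem even_to_odd64 {x : GolayPt → ℤ} (hx : x ∈ leechLattice) (hn : sqNorm x = 64)
    (hev : ∀ i, x i % 2 = 0) (hne : resSet x 2 ≠ ∅) : ∃ y, RelF x y ∧ ∀ i, y i % 2 = 1 := by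
  obtain ⟨-, hR⟩ := even_data hx hev
  have hle := card_resSet_le hev
  rw [hn] at hle
  have hpos : 0 < (resSet x 2).card := Finset.card_pos.mpr (Finset.nonempty_iff_ne_empty.mpr hne)
  rcases card_of_mem_supports hR with h | h | h | h | h
  · omega
  · exact to_odd hx hev Ostar Ostar_odd (exists_smul_octad_eq Ostar_mem ⟨hR, h⟩)
  · exact to_odd hx hev Dstar Dstar_odd (exists_smul_dodecad_eq Dstar_mem ⟨hR, h⟩)
  · have hc : (resSet x 2)ᶜ ∈ octads :=
      ⟨compl_mem_supports hR, by rw [Finset.card_compl, h]; rfl⟩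
    obtain ⟨σ, hσ, hσo⟩ := exists_smul_octad_eq Ostar_mem hc
    refine to_odd hx hev Ostarᶜ OstarC_odd ⟨σ, hσ, ?_⟩
    rw [smul_compl_finset, hσo, compl_compl]
  · omega

theorem lvl0_step {x : GolayPt → ℤ} (hx : x ∈ leechLattice) (h4 : ∀ i, x i % 4 = 0)
    {σ : Equiv.Perm GolayPt} (hσ : σ ∈ M24)
    (h0 : x (σ (pt 0)) = 4 ∨ x (σ (pt 0)) = -4)
    (hz : ∀ k ∈ tetS 0, k ≠ pt 0 → x (σ k) = 0) :
    ∃ y, RelF x y ∧ (∀ i, y i % 2 = 0) ∧ resSet y 2 ≠ ∅ := by
  have h1 := relF_perm hx hσ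
  have hx' := relF_right h1
  have h4' : ∀ k, (fun k => x (σ k)) k % 4 = 0 := fun k => h4 (σ k)
  have hz_even := xi_even_of_four hx' h4'
  have hts : tsum (fun k => x (σ k)) 0 = x (σ (pt 0)) := by
    unfold tsum
    apply Finset.sum_eq_single (pt 0)
    · intro k hk hne
      exact hz k hk hne
    · intro h
      exact absurd ((mem_tetS _ _).mpr (by decide)) h
  have hz0 : xiFun (fun k => x (σ k)) (pt 0) % 4 = 2 := by
    have h2 := two_hh (te_of_mem hx') 0
    rw [hts] at h2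
    have ht0 : tet (pt 0) = 0 := by decide
    have hzz : xiFun (fun k => x (σ k)) (pt 0) =
        -1 * (x (σ (pt 0)) - hh (fun k => x (σ k)) 0) := by
      unfold xiFun epsJ
      rw [ht0, if_pos rfl]
    rw [hzz]
    rcases h0 with h | h <;> omega
  refine ⟨_, relF_trans h1 (relF_xi hx'), hz_even, ?_⟩
  intro he
  have hmem : pt 0 ∈ resSet (xiFun (fun k => x (σ k))) 2 := by
    rw [mem_resSet, hz0]; rfl
  rw [he] at hmem
  exact absurd hmem (Finset.notMem_empty _)

theorem tet0_others : ∀ k : GolayPt, k ∈ tetS 0 → k ≠ pt 0 → k ∉ [pt 0, pt 4, pt 8, pt 13] := by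
  decide +kernel

theorem E44_step {x : GolayPt → ℤ} (hx : x ∈ E44) :
    ∃ y, RelF x y ∧ (∀ i, y i % 2 = 0) ∧ resSet y 2 ≠ ∅ := by
  have hxL := (E44_props hx).1
  unfold E44 at hx
  rw [mem_clsE] at hx
  obtain ⟨p, hp, s, hs, hxe⟩ := hx
  rw [Finset.mem_powersetCard] at hp
  obtain ⟨σ, hσ, hmap⟩ := exists_mem_M24_map_list [pt 0, pt 4, pt 8, pt 13] p.toList
    (by decide) p.nodup_toList (by rw [Finset.length_toList, hp.2]; rfl) (by norm_num)
  have hmem : ∀ k, σ k ∈ p ↔ k ∈ [pt 0, pt 4, pt 8, pt 13] := by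
    intro k
    rw [← Finset.mem_toList, ← hmap, List.mem_map]
    constructor
    · rintro ⟨k', hk', he⟩
      rw [σ.injective he] at hk'
      exact hk'
    · intro hk
      exact ⟨k, hk, rfl⟩
  have h4 : ∀ i, x i % 4 = 0 := by
    intro i
    rw [hxe]
    by_cases hi : i ∈ p
    · rcases tw_pat_mem 4 s hi with h | h <;> rw [h] <;> decide
    · rw [tw_pat_not_mem 4 s hi]; decide
  apply lvl0_step hxL h4 hσ
  · rw [hxe]
    exact tw_pat_mem 4 s ((hmem (pt 0)).mpr (by decide))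
  · intro k hk hne
    rw [hxe]
    apply tw_pat_not_mem 4 s
    rw [hmem]
    exact tet0_others k hk hne

theorem xi_e8 : ∀ k, xiFun (pat 8 {pt 0}) k = tw {pt 0} (pat 4 {pt 0, pt 1, pt 2, pt 3}) k := by
  decide +kernel

theorem xi_e8n : ∀ k, xiFun (tw {pt 0} (pat 8 {pt 0})) k =
    tw {pt 1, pt 2, pt 3} (pat 4 {pt 0, pt 1, pt 2, pt 3}) k := by
  decide +kernel

theorem mem_E44_of {s : Finset GolayPt} (hs : s ⊆ {pt 0, pt 1, pt 2, pt 3}) :
    tw s (pat 4 {pt 0, pt 1, pt 2, pt 3}) ∈ E44 := by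
  unfold E44
  rw [mem_clsE]
  exact ⟨{pt 0, pt 1, pt 2, pt 3}, Finset.mem_powersetCard.mpr ⟨Finset.subset_univ _, by decide⟩,
    s, Finset.mem_powerset.mpr hs, rfl⟩

theorem E8_step {x : GolayPt → ℤ} (hx : x ∈ E8) : ∃ y, RelF x y ∧ y ∈ E44 := by
  have hxL := (E8_props hx).1
  unfold E8 at hx
  rw [mem_clsE] at hx
  obtain ⟨p, hp, s, hs, hxe⟩ := hx
  rw [Finset.mem_powersetCard] at hp
  obtain ⟨i, hpi⟩ := Finset.card_eq_one.mp hp.2
  obtain ⟨σ, hσ, hσi⟩ := exists_mem_M24_apply (pt 0) i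
  have h1 := relF_perm hxL hσ
  have h2 := relF_trans h1 (relF_xi (relF_right h1))
  have hpat : ∀ k, pat 8 p (σ k) = pat 8 {pt 0} k := by
    intro k
    unfold pat
    have hiff : σ k ∈ p ↔ k ∈ ({pt 0} : Finset GolayPt) := by
      rw [hpi, Finset.mem_singleton, Finset.mem_singleton, ← hσi, σ.apply_eq_iff_eq]
    by_cases hk : k ∈ ({pt 0} : Finset GolayPt)
    · rw [if_pos hk, if_pos (hiff.mpr hk)]
    · rw [if_neg hk, if_neg (fun h => hk (hiff.mp h))]
  by_cases his : i ∈ s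
  · have he : (fun k => x (σ k)) = tw {pt 0} (pat 8 {pt 0}) := by
      funext k
      rw [hxe]
      unfold tw
      rw [hpat]
      by_cases hk : k = pt 0
      · rw [if_pos (by rw [hk, hσi]; exact his), if_pos (Finset.mem_singleton.mpr hk)]
      · have h0 : pat 8 {pt 0} k = 0 := by
          unfold pat
          rw [if_neg (fun h => hk (Finset.mem_singleton.mp h))]
        rw [h0]
        split_ifs <;> rfl
    rw [he] at h2
    have hz : xiFun (tw {pt 0} (pat 8 {pt 0})) =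
        tw {pt 1, pt 2, pt 3} (pat 4 {pt 0, pt 1, pt 2, pt 3}) := funext xi_e8n
    rw [hz] at h2
    exact ⟨_, h2, mem_E44_of (by decide)⟩
  · have he : (fun k => x (σ k)) = pat 8 {pt 0} := by
      funext k
      rw [hxe]
      unfold tw
      rw [hpat]
      by_cases hk : k = pt 0
      · rw [if_neg (by rw [hk, hσi]; exact his)]
      · have h0 : pat 8 {pt 0} k = 0 := by
          unfold pat
          rw [if_neg (fun h => hk (Finset.mem_singleton.mp h))]
        rw [h0]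
        split_ifs <;> rfl
    rw [he] at h2
    have hz : xiFun (pat 8 {pt 0}) = tw {pt 0} (pat 4 {pt 0, pt 1, pt 2, pt 3}) := funext xi_e8
    rw [hz] at h2
    exact ⟨_, h2, mem_E44_of (by decide)⟩

theorem rel64_odd {x : GolayPt → ℤ} (hx : x ∈ leechLattice) (hn : sqNorm x = 64)
    (hodd : ∀ i, x i % 2 = 1) : RelF x y5 := by
  rcases odd64 hx hn hodd with h | h
  · exact hub64 h
  · obtain ⟨y, hxy, hy⟩ := O53_to_O5 h
    exact relF_trans hxy (hub64 hy)

theorem rel64_even_ne {x : GolayPt → ℤ} (hx : x ∈ leechLattice) (hn : sqNorm x = 64)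
    (hev : ∀ i, x i % 2 = 0) (hne : resSet x 2 ≠ ∅) : RelF x y5 := by
  obtain ⟨y, hxy, hyodd⟩ := even_to_odd64 hx hn hev hne
  exact relF_trans hxy (rel64_odd (relF_right hxy) ((relF_norm hxy).trans hn) hyodd)

theorem rel64_E44 {x : GolayPt → ℤ} (hx : x ∈ E44) : RelF x y5 := by
  obtain ⟨y, hxy, hyev, hyne⟩ := E44_step hx
  exact relF_trans hxy (rel64_even_ne (relF_right hxy)
    ((relF_norm hxy).trans (E44_props hx).2.1) hyev hyne)

/-- Every vector of norm 64 is related to the reference vector. -/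
theorem rel64 {x : GolayPt → ℤ} (hx : x ∈ leechLattice) (hn : sqNorm x = 64) : RelF x y5 := by
  rcases parity_cases hx with hev | hodd
  · by_cases hne : resSet x 2 = ∅
    · have hc0 : (resSet x 2).card = 0 := by rw [hne]; rfl
      rcases even64 hx hn hev with h | h | h | h | h | h
      · have h2 : (resSet x 2).card = 16 :=
          congrArg (fun t : ℤ × ℕ × ℕ => t.2.1) (H16_props h).2.2
        omega
      · have h2 : (resSet x 2).card = 12 :=
          congrArg (fun t : ℤ × ℕ × ℕ => t.2.1) (E4b_props h).2.2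
        omega
      · have h2 : (resSet x 2).card = 8 :=
          congrArg (fun t : ℤ × ℕ × ℕ => t.2.1) (E6_props h).2.2
        omega
      · have h2 : (resSet x 2).card = 8 :=
          congrArg (fun t : ℤ × ℕ × ℕ => t.2.1) (E7_props h).2.2
        omega
      · exact rel64_E44 h
      · obtain ⟨y, hxy, hy⟩ := E8_step h
        exact relF_trans hxy (rel64_E44 hy)
    · exact rel64_even_ne hx hn hev hne
  · exact rel64_odd hx hn hodd

/-- The automorphism group is transitive on the vectors of norm 64. -/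
theorem transitive64 (v w : ↥leechLattice) (hv : sqNorm (v : GolayPt → ℤ) = 64)
    (hw : sqNorm (w : GolayPt → ℤ) = 64) : ∃ g : ↥Co0, g • v = w := by
  obtain ⟨hx, hy, g, hg⟩ := relF_trans (rel64 v.2 hv) (relF_symm (rel64 w.2 hw))
  exact ⟨g, hg⟩

/-- Statement S5593. -/
theorem class_transitive64 (v w : ↥leechLattice) (hv : sqNorm (v : GolayPt → ℤ) = 64)
    (hw : sqNorm (w : GolayPt → ℤ) = 64) :
    ∃ g : ↥Co0, ∃ z ∈ leechLattice,
      ((g • v : ↥leechLattice) : GolayPt → ℤ) - (w : GolayPt → ℤ) = 2 • z := by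
  obtain ⟨g, hg⟩ := transitive64 v w hv hw
  exact ⟨g, 0, leechLattice.zero_mem, by rw [hg, sub_self, smul_zero]⟩

end Cfsg.Agent.Lib.helper28.XI
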