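import Cfsg.Agent.Lib.helper28.LeechCo3N

set_option autoImplicit false

namespace Cfsg.Agent.Lib.helper28.XI

open Cfsg
open Cfsg.Agent.Lib.helper28
open Cfsg.Agent.Lib.helper27
open Cfsg.Agent.Lib.helper28.LC
open scoped Pointwise

/-! Tools for the stabiliser of a vector of norm 48 and further vectors. -/

/-- Related by an automorphism fixing the reference vector of norm 48 and the vectors of a list. -/
def RelL (L : List ↥leechLattice) (w w' : GolayPt → ℤ) : Prop :=
  ∃ (hw : w ∈ leechLattice) (hw' : w' ∈ leechLattice) (g : ↥Co0),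
    g • T0 = T0 ∧ (∀ b ∈ L, g • b = b) ∧ g • (⟨w, hw⟩ : ↥leechLattice) = ⟨w', hw'⟩

theorem relL_trans {L : List ↥leechLattice} {x y z : GolayPt → ℤ} (h1 : RelL L x y)
    (h2 : RelL L y z) : RelL L x z := by
  obtain ⟨hx, hy, g, hge, hgb, hg⟩ := h1
  obtain ⟨hy', hz, g', hge', hgb', hg'⟩ := h2
  exact ⟨hx, hz, g' * g, by rw [mul_smul, hge, hge'],
    fun b hb => by rw [mul_smul, hgb b hb, hgb' b hb], by rw [mul_smul, hg, hg']⟩

theorem relL_symm {L : List ↥leechLattice} {x y : GolayPt → ℤ} (h : RelL L x y) : RelL L y x := by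
  obtain ⟨hx, hy, g, hge, hgb, hg⟩ := h
  refine ⟨hy, hx, g⁻¹, ?_, ?_, ?_⟩
  · conv_lhs => rw [← hge]
    rw [inv_smul_smul]
  · intro b hb
    conv_lhs => rw [← hgb b hb]
    rw [inv_smul_smul]
  · rw [← hg, inv_smul_smul]

theorem relL_right {L : List ↥leechLattice} {x y : GolayPt → ℤ} (h : RelL L x y) :
    y ∈ leechLattice := by
  obtain ⟨-, hy, -, -⟩ := h
  exact hy

theorem relL_norm {L : List ↥leechLattice} {x y : GolayPt → ℤ} (h : RelL L x y) :
    sqNorm y = sqNorm x := by
  obtain ⟨hx, hy, g, -, -, hg⟩ := h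
  have := co0_norm g ⟨x, hx⟩
  rw [hg] at this
  exact this

theorem relL_dot0 {L : List ↥leechLattice} {x y : GolayPt → ℤ} (h : RelL L x y) :
    dotInt t0 y = dotInt t0 x := by
  obtain ⟨hx, hy, g, hge, -, hg⟩ := h
  have := co0_dot g T0 ⟨x, hx⟩
  rw [hge, hg] at this
  exact this

theorem relL_dotB {L : List ↥leechLattice} {x y : GolayPt → ℤ} (h : RelL L x y)
    {b : ↥leechLattice} (hb : b ∈ L) :
    dotInt (b : GolayPt → ℤ) y = dotInt (b : GolayPt → ℤ) x := by
  obtain ⟨hx, hy, g, -, hgb, hg⟩ := h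
  have := co0_dot g b ⟨x, hx⟩
  rw [hgb b hb, hg] at this
  exact this

theorem relL_perm {L : List ↥leechLattice} {w : GolayPt → ℤ} (hw : w ∈ leechLattice)
    {σ : Equiv.Perm GolayPt} (hσ : σ ∈ M24) (h : σ none = none)
    (hL : ∀ b ∈ L, (fun i => (b : GolayPt → ℤ) (σ i)) = b) : RelL L w (fun i => w (σ i)) :=
  ⟨hw, Cfsg.Agent.S0432.result σ hσ w hw, ⟨coordPerm σ hσ, coordPerm_mem σ hσ⟩,
    Subtype.ext (perm_t0 h), fun b hb => Subtype.ext (hL b hb), Subtype.ext rfl⟩

theorem relL_mix {L : List ↥leechLattice} {w : GolayPt → ℤ} (hw : w ∈ leechLattice)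
    {c : Finset GolayPt} (hc : c ∈ GC) {σ : Equiv.Perm GolayPt} (hσ : σ ∈ M24)
    (h0 : mixFun σ c t0 = t0) (hL : ∀ b ∈ L, mixFun σ c (b : GolayPt → ℤ) = b) :
    RelL L w (mixFun σ c w) := by
  refine ⟨hw, xiFun_mem (signChange_mem_leechLattice
      (Cfsg.Agent.S0432.result σ hσ _ (xiFun_mem hw)) hc),
    (⟨xi, xi_mem⟩ : ↥Co0) * ⟨signPerm c hc, signPerm_mem c hc⟩ *
      ⟨coordPerm σ hσ, coordPerm_mem σ hσ⟩ * ⟨xi, xi_mem⟩, ?_, ?_, ?_⟩
  · rw [mul_smul, mul_smul, mul_smul]
    exact Subtype.ext h0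
  · intro b hb
    rw [mul_smul, mul_smul, mul_smul]
    exact Subtype.ext (hL b hb)
  · rw [mul_smul, mul_smul, mul_smul]
    exact Subtype.ext rfl

/-! ### Transport of counts -/

theorem ncard_smul_set (g : ↥Co0) (S S' : Set ↥leechLattice) (h : ∀ x, x ∈ S ↔ g • x ∈ S') :
    S.ncard = S'.ncard := by
  have e : S' = (fun v => g • v) '' S := by
    ext y
    constructor
    · intro hy
      exact ⟨g⁻¹ • y, (h _).mpr (by rw [smul_inv_smul]; exact hy), smul_inv_smul g y⟩
    · rintro ⟨x, hx, rfl⟩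
      exact (h x).mp hx
  rw [e, Set.ncard_image_of_injective _ (MulAction.injective g)]

theorem ncard_eq_card (S : Set ↥leechLattice) (F : Finset (GolayPt → ℤ))
    (h : ∀ x : ↥leechLattice, x ∈ S ↔ (x : GolayPt → ℤ) ∈ F) (hF : ∀ y ∈ F, y ∈ leechLattice) :
    S.ncard = F.card := by
  rw [← Set.ncard_coe_finset, ← Set.ncard_image_of_injective _ Subtype.val_injective]
  congr 1
  ext w
  constructor
  · rintro ⟨x, hx, rfl⟩
    exact Finset.mem_coe.mpr ((h x).mp hx)
  · intro hw
    rw [Finset.mem_coe] at hw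
    exact ⟨⟨w, hF w hw⟩, (h _).mpr hw, rfl⟩

theorem ncard_smul_val (g : ↥Co0) (S : Set ↥leechLattice) (F : Finset (GolayPt → ℤ))
    (hF : ∀ y ∈ F, y ∈ leechLattice)
    (h : ∀ x : ↥leechLattice, x ∈ S ↔ ((g • x : ↥leechLattice) : GolayPt → ℤ) ∈ F) :
    S.ncard = F.card := by
  rw [ncard_smul_set g S {y : ↥leechLattice | (y : GolayPt → ℤ) ∈ F} h]
  exact ncard_eq_card _ F (fun x => Iff.rfl) hF

theorem card_fib3 (s : Finset (GolayPt → ℤ)) (a b c : ℤ) (hab : a ≠ b) (hac : a ≠ c)
    (hbc : b ≠ c) (h : ∀ x ∈ s, x none = a ∨ x none = b ∨ x none = c) :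
    s.card = (s.filter (fun x => x none = a)).card + ((s.filter (fun x => x none = b)).card +
      (s.filter (fun x => x none = c)).card) := by
  have hmap : (s : Set (GolayPt → ℤ)).MapsTo (fun x => x none)
      (({a, b, c} : Finset ℤ) : Set ℤ) := by
    intro x hx
    rw [Finset.mem_coe] at hx ⊢
    show x none ∈ ({a, b, c} : Finset ℤ)
    rw [Finset.mem_insert, Finset.mem_insert, Finset.mem_singleton]
    exact h x hx
  rw [Finset.card_eq_sum_card_fiberwise hmap, Finset.sum_insert (by simp [hab, hac]),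
    Finset.sum_insert (by simp [hbc]), Finset.sum_singleton]

/-! ### Coordinate permutations -/

theorem pat_smul (σ : Equiv.Perm GolayPt) (p : Finset GolayPt) (v : ℤ) :
    (fun i => pat v (σ • p) (σ i)) = pat v p := by
  funext i
  have e2 : σ i ∈ σ • p ↔ i ∈ p := by
    rw [← Equiv.Perm.smul_def, Finset.smul_mem_smul_finset_iff]
  unfold pat
  simp only [e2]

theorem pt1_smul (σ : Equiv.Perm GolayPt) (T : Finset GolayPt) (v : ℤ) :
    (fun i => pt1 v (σ • T) (σ i)) = pt1 v T := by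
  funext i
  have e2 : σ i ∈ σ • T ↔ i ∈ T := by
    rw [← Equiv.Perm.smul_def, Finset.smul_mem_smul_finset_iff]
  unfold pt1
  simp only [e2]

theorem smul_pair0 {σ : Equiv.Perm GolayPt} (h1 : σ none = none) (h2 : σ (pt 0) = pt 0) :
    σ • ({none, pt 0} : Finset GolayPt) = {none, pt 0} := by
  rw [Finset.smul_finset_insert, Finset.smul_finset_singleton, Equiv.Perm.smul_def,
    Equiv.Perm.smul_def, h1, h2]

/-- The vector `4 e_∞ + 4 e_0`. -/
def x0 : GolayPt → ℤ := pat 4 {none, pt 0}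

theorem perm_x0 {σ : Equiv.Perm GolayPt} (h1 : σ none = none) (h2 : σ (pt 0) = pt 0) :
    (fun i => x0 (σ i)) = x0 := by
  have e := pat_smul σ {none, pt 0} 4
  rw [smul_pair0 h1 h2] at e
  exact e

theorem perm_r1 {σ : Equiv.Perm GolayPt} (h1 : σ none = none) (h2 : σ (pt 0) = pt 0) :
    (fun i => r1 (σ i)) = r1 := by
  have e := tw_pat_smul σ {none} {none, pt 0} 4
  rw [smul_pair0 h1 h2, Finset.smul_finset_singleton, Equiv.Perm.smul_def, h1] at e
  exact e

theorem x0_props : x0 ∈ leechLattice ∧ sqNorm x0 = 32 ∧ ∑ j, x0 j + 4 * x0 none = 24 ∧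
    x0 none = 4 :=
  Fdec_props (Sum.inl ⟨pt 0, by decide⟩)

/-- The vector `4 e_∞ + 4 e_0` as a lattice element. -/
def X0 : ↥leechLattice := ⟨x0, x0_props.1⟩

/-- The vector `-4 e_∞ + 4 e_0` as a lattice element. -/
def R1 : ↥leechLattice := ⟨r1, r1_mem.1⟩

theorem r1_apply : ∀ j : GolayPt, r1 j = if j = none then -4 else if j = pt 0 then 4 else 0 := by
  decide +kernel

theorem x0_apply : ∀ j : GolayPt, x0 j = if j = none then 4 else if j = pt 0 then 4 else 0 := by
  decide +kernel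

theorem dot_two (a b : ℤ) (f : GolayPt → ℤ)
    (hf : ∀ j, f j = if j = none then a else if j = pt 0 then b else 0) (w : GolayPt → ℤ) :
    dotInt f w = a * w none + b * w (pt 0) := by
  unfold dotInt
  have h : ∀ i, f i * w i = (if i = none then a * w i else 0) +
      (if i = pt 0 then b * w i else 0) := by
    intro i
    rw [hf]
    by_cases h4 : i = none
    · have h7 : i ≠ pt 0 := by rw [h4]; decide
      rw [if_pos h4, if_pos h4, if_neg h7, add_zero]
    · by_cases h7 : i = pt 0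
      · rw [if_neg h4, if_pos h7, if_neg h4, if_pos h7, zero_add]
      · rw [if_neg h4, if_neg h7, if_neg h4, if_neg h7, zero_mul, add_zero]
  rw [Finset.sum_congr rfl (fun i _ => h i), Finset.sum_add_distrib, Finset.sum_ite_eq',
    Finset.sum_ite_eq', if_pos (Finset.mem_univ _), if_pos (Finset.mem_univ _)]

theorem dot_r1 (w : GolayPt → ℤ) : dotInt r1 w = -4 * w none + 4 * w (pt 0) :=
  dot_two (-4) 4 r1 r1_apply w

theorem dot_x0 (w : GolayPt → ℤ) : dotInt x0 w = 4 * w none + 4 * w (pt 0) :=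
  dot_two 4 4 x0 x0_apply w

/-! ### Octads through `none`, by the position of the point `0` -/

theorem setOf_one : setOf 1 = {pt 0} := by
  ext p
  rw [mem_setOf, Finset.mem_singleton]
  revert p
  decide

theorem count_oct_two :
    countLt (fun n => profF [(16777215, 8), (8388608, 1), (1, 1)] (cwF n)) 4096 = 77 := by
  decide +kernel

theorem ncard_octads_two :
    {o : Finset GolayPt | o ∈ octads ∧ none ∈ o ∧ pt 0 ∈ o}.ncard = 77 := by
  have key : ∀ o : Finset GolayPt, (o ∈ octads ∧ none ∈ o ∧ pt 0 ∈ o) ↔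
      (o ∈ supports (golayCode : Set (GolayPt → ZMod 2)) ∧
        HasProf (profSets 1 [(16777215, 8), (8388608, 1), (1, 1)]) o) := by
    intro o
    rw [profSets_cons, profSets_cons, profSets_cons, profSets_nil, hasProf_cons, hasProf_cons,
      hasProf_cons, card_inter_full, one_smul, one_smul, setOf_top, setOf_one]
    have hsub : ∀ p : GolayPt, p ∈ o ↔ (o ∩ {p}).card = 1 := by
      intro p
      constructor
      · intro h
        rw [Finset.inter_singleton_of_mem h]
        rfl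
      · intro h
        by_contra hn
        rw [Finset.inter_singleton_of_notMem hn] at h
        simp at h
    rw [hsub none, hsub (pt 0)]
    exact ⟨fun ⟨⟨h1, h2⟩, h3, h4⟩ => ⟨h1, h2, h3, h4, hasProf_nil _⟩,
      fun ⟨h1, h2, h3, h4, _⟩ => ⟨⟨h1, h2⟩, h3, h4⟩⟩
  have hlt : ∀ c ∈ [(16777215, 8), (8388608, 1), (1, 1)], c.1 < 2 ^ 24 := by
    intro c hc
    simp only [List.mem_cons, List.not_mem_nil, or_false] at hc
    rcases hc with rfl | rfl | rfl <;> decide
  rw [Set.ext key]
  exact (ncard_prof M24.one_mem _ hlt).trans count_oct_two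

/-- The octads through `none` and the point `0`. -/
def octI0 : Finset (Finset GolayPt) := octI.filter (fun o => pt 0 ∈ o)

/-- The octads through `none` avoiding the point `0`. -/
def octI1 : Finset (Finset GolayPt) := octI.filter (fun o => pt 0 ∉ o)

theorem mem_octI0 (o : Finset GolayPt) : o ∈ octI0 ↔ o ∈ octads ∧ none ∈ o ∧ pt 0 ∈ o := by
  unfold octI0
  rw [Finset.mem_filter, mem_octI, and_assoc]

theorem mem_octI1 (o : Finset GolayPt) : o ∈ octI1 ↔ o ∈ octads ∧ none ∈ o ∧ pt 0 ∉ o := by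
  unfold octI1
  rw [Finset.mem_filter, mem_octI, and_assoc]

theorem card_octI0 : octI0.card = 77 := by
  rw [← ncard_octads_two, ← Set.ncard_coe_finset]
  congr 1
  ext o
  rw [Finset.mem_coe, mem_octI0]
  rfl

theorem card_split0 (s : Finset (Finset GolayPt)) :
    (s.filter (fun d => pt 0 ∈ d)).card + (s.filter (fun d => pt 0 ∉ d)).card = s.card :=
  Finset.card_filter_add_card_filter_not _

theorem card_octI1 : octI1.card = 176 :=
  sub_of_split (card_split0 octI) 176 77 card_octI0 card_octI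

/-- The points other than `none` and `0`. -/
def pts22 : Finset GolayPt := (Finset.univ.erase (none : GolayPt)).erase (pt 0)

theorem mem_pts22 (k : GolayPt) : k ∈ pts22 ↔ k ≠ none ∧ k ≠ pt 0 := by
  unfold pts22
  rw [Finset.mem_erase, Finset.mem_erase]
  constructor
  · rintro ⟨h1, h2, -⟩
    exact ⟨h2, h1⟩
  · rintro ⟨h1, h2⟩
    exact ⟨h2, h1, Finset.mem_univ _⟩

theorem card_pts22 : pts22.card = 22 := by decide

/-! ### Orbits of the stabiliser of two points on the shapes -/

/-- The vectors of the list are invariant under the coordinate permutations fixing `none` and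
the point `0`. -/
def Inv22 (L : List ↥leechLattice) : Prop :=
  ∀ b ∈ L, ∀ σ : Equiv.Perm GolayPt, σ none = none → σ (pt 0) = pt 0 →
    (fun i => (b : GolayPt → ℤ) (σ i)) = b

theorem inv22_R1 : Inv22 [R1] := by
  intro b hb σ h1 h2
  rw [List.mem_singleton] at hb
  subst hb
  exact perm_r1 h1 h2

theorem inv22_X0 : Inv22 [X0] := by
  intro b hb σ h1 h2
  rw [List.mem_singleton] at hb
  subst hb
  exact perm_x0 h1 h2

theorem inv22_RX : Inv22 [R1, X0] := by
  intro b hb σ h1 h2
  simp only [List.mem_cons, List.not_mem_nil, or_false] at hb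
  rcases hb with rfl | rfl
  · exact perm_r1 h1 h2
  · exact perm_x0 h1 h2

theorem famB_rel {L : List ↥leechLattice} (hL : Inv22 L) {o : Finset GolayPt} (ho : o ∈ octads)
    (hno : none ∈ o) (h0 : pt 0 ∈ o) (hLm : pat 2 o ∈ leechLattice) :
    RelL L (pat 2 o) (pat 2 oI) := by
  obtain ⟨σ, hσ, hσn, hσ0, hσo⟩ := exists_fix_octad ho oI_mem (p := none) (q := pt 0)
    (by decide) hno oI_pts.1 ⟨fun _ => oI_pts.2.1, fun _ => h0⟩
  have h := relL_perm (L := L) hLm hσ hσn (fun b hb => hL b hb σ hσn hσ0)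
  have e : (fun i => pat 2 o (σ i)) = pat 2 oI := by
    rw [← hσo]
    exact pat_smul σ _ 2
  rw [e] at h
  exact h

theorem famC_rel {L : List ↥leechLattice} (hL : Inv22 L) {k k' : GolayPt} (hk : k ≠ none)
    (hk0 : k ≠ pt 0) (hk' : k' ≠ none) (hk0' : k' ≠ pt 0)
    (hLm : pt1 (-3) {k} ∈ leechLattice) : RelL L (pt1 (-3) {k}) (pt1 (-3) {k'}) := by
  obtain ⟨σ, hσ, hmap⟩ := exists_mem_M24_map_list [none, pt 0, k'] [none, pt 0, k]
    (by simp [hk'.symm, hk0'.symm]; decide) (by simp [hk.symm, hk0.symm]; decide) rfl (by norm_num)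
  simp only [List.map_cons, List.map_nil, List.cons.injEq, and_true] at hmap
  obtain ⟨hσn, hσ0, hσk⟩ := hmap
  have h := relL_perm (L := L) hLm hσ hσn (fun b hb => hL b hb σ hσn hσ0)
  have e : (fun i => pt1 (-3) {k} (σ i)) = pt1 (-3) {k'} := by
    have e0 := pt1_smul σ {k'} (-3)
    rw [Finset.smul_finset_singleton, Equiv.Perm.smul_def, hσk] at e0
    exact e0
  rw [e] at h
  exact h

theorem famA_rel {L : List ↥leechLattice} (hL : Inv22 L) {a a' : GolayPt} (ha : a ≠ none)
    (ha0 : a ≠ pt 0) (ha' : a' ≠ none) (ha0' : a' ≠ pt 0)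
    (hLm : pat 4 {none, a} ∈ leechLattice) : RelL L (pat 4 {none, a}) (pat 4 {none, a'}) := by
  obtain ⟨σ, hσ, hmap⟩ := exists_mem_M24_map_list [none, pt 0, a'] [none, pt 0, a]
    (by simp [ha'.symm, ha0'.symm]; decide) (by simp [ha.symm, ha0.symm]; decide) rfl (by norm_num)
  simp only [List.map_cons, List.map_nil, List.cons.injEq, and_true] at hmap
  obtain ⟨hσn, hσ0, hσa⟩ := hmap
  have h := relL_perm (L := L) hLm hσ hσn (fun b hb => hL b hb σ hσn hσ0)
  have e : (fun i => pat 4 {none, a} (σ i)) = pat 4 {none, a'} := by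
    have e0 := pat_smul σ {none, a'} 4
    rw [Finset.smul_finset_insert, Finset.smul_finset_singleton, Equiv.Perm.smul_def,
      Equiv.Perm.smul_def, hσn, hσa] at e0
    exact e0
  rw [e] at h
  exact h

/-- An octad through `none` avoiding the point `0`. -/
def oD : Finset GolayPt := setOf 8394986

theorem oD_mem : oD ∈ octads := setOf_mem_octads (by decide +kernel)

theorem oD_pts : none ∈ oD ∧ pt 0 ∉ oD := by
  unfold oD
  simp only [mem_setOf]
  decide

theorem famD_rel {L : List ↥leechLattice} (hL : Inv22 L) {o : Finset GolayPt} (ho : o ∈ octads)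
    (hno : none ∈ o) (h0 : pt 0 ∉ o) (hLm : tw o (pt1 (-3) {none}) ∈ leechLattice) :
    RelL L (tw o (pt1 (-3) {none})) (tw oD (pt1 (-3) {none})) := by
  obtain ⟨σ, hσ, hσn, hσ0, hσo⟩ := exists_fix_octad ho oD_mem (p := none) (q := pt 0)
    (by decide) hno oD_pts.1 ⟨fun h => absurd h h0, fun h => absurd h oD_pts.2⟩
  have h := relL_perm (L := L) hLm hσ hσn (fun b hb => hL b hb σ hσn hσ0)
  have e : (fun i => tw o (pt1 (-3) {none}) (σ i)) = tw oD (pt1 (-3) {none}) := by
    have e0 := tw_pt1_smul σ oD {none} (-3)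
    rw [hσo, Finset.smul_finset_singleton, Equiv.Perm.smul_def, hσn] at e0
    exact e0
  rw [e] at h
  exact h

theorem pat_inj {v : ℤ} (hv : 0 < v) {p p' : Finset GolayPt} (h : pat v p = pat v p') :
    p = p' :=
  (tw_pat_inj hv (Finset.empty_subset _) (Finset.empty_subset _)
    (by rw [tw_empty, tw_empty]; exact h)).1

theorem pt1_inj {k k' : GolayPt} (h : pt1 (-3) {k} = pt1 (-3) {k'}) : k = k' := by
  have h3 := congrFun h k
  unfold pt1 at h3
  rw [if_pos (Finset.mem_singleton_self k)] at h3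
  by_contra hne
  rw [if_neg (by rw [Finset.mem_singleton]; exact hne)] at h3
  norm_num at h3

theorem dot_neg_sum (v w x : GolayPt → ℤ) :
    dotInt (-(v + w)) x = -(dotInt v x + dotInt w x) := by
  rw [dot_comm, dotInt_neg_right, dot_add_right, dot_comm x v, dot_comm x w]

end Cfsg.Agent.Lib.helper28.XI
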