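import Cfsg.Agent.Lib.helper27.Co0Basic
import Cfsg.Agent.Lib.helper28.LeechCnt5
import Cfsg.Agent.Lib.helper28.GolayStab

set_option autoImplicit false

namespace Cfsg.Agent.Lib.helper28.XI

open Cfsg
open Cfsg.Agent.Lib.helper28
open Cfsg.Agent.Lib.helper27
open Cfsg.Agent.Lib.helper28.LC

/-! A non-monomial automorphism of the rank-24 lattice, attached to the standard sextet. -/

/-- The tetrad numbers of the 24 points in the standard sextet. -/
def tetTab : List ℕ := [0, 0, 0, 0, 1, 5, 4, 1, 2, 4, 1, 4, 1, 3, 5, 2, 2, 5, 3, 2, 3, 3, 4, 5]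

/-- The tetrad of a point. -/
def tet (p : GolayPt) : Fin 6 := Fin.ofNat 6 (tetTab.getD (idx p) 0)

/-- A tetrad. -/
def tetS (j : Fin 6) : Finset GolayPt := Finset.univ.filter (fun i => tet i = j)

/-- A union of tetrads. -/
def U (J : Finset (Fin 6)) : Finset GolayPt := Finset.univ.filter (fun i => tet i ∈ J)

theorem mem_tetS (i : GolayPt) (j : Fin 6) : i ∈ tetS j ↔ tet i = j := by
  unfold tetS
  rw [Finset.mem_filter]
  exact ⟨fun h => h.2, fun h => ⟨Finset.mem_univ _, h⟩⟩

theorem mem_U (i : GolayPt) (J : Finset (Fin 6)) : i ∈ U J ↔ tet i ∈ J := by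
  unfold U
  rw [Finset.mem_filter]
  exact ⟨fun h => h.2, fun h => ⟨Finset.mem_univ _, h⟩⟩

theorem card_tetS : ∀ j : Fin 6, (tetS j).card = 4 := by decide +kernel

theorem maskS_U (J : Finset (Fin 6)) :
    maskS (U J) = bitsToNat (fun i => decide (tet (pt i) ∈ J)) 24 := by
  unfold maskS
  congr 1
  funext i
  rw [decide_eq_decide]
  exact mem_U _ _

theorem U_check : ∀ J : Finset (Fin 6), J.card % 2 = 0 →
    isCW (bitsToNat (fun i => decide (tet (pt i) ∈ J)) 24) = true := by decide +kernel

theorem U_mem (J : Finset (Fin 6)) (hJ : J.card % 2 = 0) : U J ∈ GC := by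
  show U J ∈ supports (golayCode : Set (GolayPt → ZMod 2))
  rw [mem_supports_iff, maskS_U]
  exact U_check J hJ

/-- The sum of the coordinates over a tetrad. -/
def tsum (x : GolayPt → ℤ) (j : Fin 6) : ℤ := ∑ i ∈ tetS j, x i

/-- Half the sum of the coordinates over a tetrad. -/
def hh (x : GolayPt → ℤ) (j : Fin 6) : ℤ := tsum x j / 2

/-- The sign attached to a tetrad. -/
def epsJ (j : Fin 6) : ℤ := if j = 0 then -1 else 1

/-- The map: subtract half the tetrad sum, and change sign on the first tetrad. -/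
def xiFun (x : GolayPt → ℤ) : GolayPt → ℤ := fun i => epsJ (tet i) * (x i - hh x (tet i))

theorem sum_tet (f : GolayPt → ℤ) : ∑ j : Fin 6, ∑ i ∈ tetS j, f i = ∑ i, f i := by
  unfold tetS
  exact Finset.sum_fiberwise Finset.univ tet f

theorem epsJ_sq (j : Fin 6) : epsJ j * epsJ j = 1 := by
  unfold epsJ
  split_ifs <;> norm_num

/-- Vectors all of whose tetrad sums are even. -/
def TE (x : GolayPt → ℤ) : Prop := ∀ j, tsum x j % 2 = 0

theorem two_hh {x : GolayPt → ℤ} (h : TE x) (j : Fin 6) : 2 * hh x j = tsum x j := by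
  unfold hh
  have := h j
  omega

theorem te_of_mem {x : GolayPt → ℤ} (hx : x ∈ leechLattice) : TE x := by
  intro j
  unfold tsum
  rcases parity_cases hx with h | h
  · have := modEq_sum (tetS j) x (fun _ => 0) 2 (fun i _ => by rw [h i]; rfl)
    rw [this]
    simp
  · have := modEq_sum (tetS j) x (fun _ => 1) 2 (fun i _ => by rw [h i]; rfl)
    rw [this, Finset.sum_const, card_tetS]
    rfl

theorem tsum_add (x y : GolayPt → ℤ) (j : Fin 6) : tsum (x + y) j = tsum x j + tsum y j := by
  unfold tsum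
  rw [← Finset.sum_add_distrib]
  rfl

theorem te_add {x y : GolayPt → ℤ} (hx : TE x) (hy : TE y) : TE (x + y) := by
  intro j
  rw [tsum_add]
  have := hx j
  have := hy j
  omega

theorem hh_add {x y : GolayPt → ℤ} (hx : TE x) (hy : TE y) (j : Fin 6) :
    hh (x + y) j = hh x j + hh y j := by
  have h1 := two_hh (te_add hx hy) j
  rw [tsum_add, ← two_hh hx j, ← two_hh hy j] at h1
  omega

theorem xi_add {x y : GolayPt → ℤ} (hx : TE x) (hy : TE y) :
    xiFun (x + y) = xiFun x + xiFun y := by
  funext i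
  show epsJ (tet i) * ((x i + y i) - hh (x + y) (tet i)) =
    epsJ (tet i) * (x i - hh x (tet i)) + epsJ (tet i) * (y i - hh y (tet i))
  rw [hh_add hx hy]
  ring

theorem tsum_xi {x : GolayPt → ℤ} (h : TE x) (j : Fin 6) :
    tsum (xiFun x) j = -epsJ j * tsum x j := by
  have h2 := two_hh h j
  unfold tsum at h2 ⊢
  have h1 : ∀ i ∈ tetS j, xiFun x i = epsJ j * x i - epsJ j * hh x j := by
    intro i hi
    unfold xiFun
    rw [(mem_tetS i j).mp hi]
    ring
  rw [Finset.sum_congr rfl h1, Finset.sum_sub_distrib, ← Finset.mul_sum, Finset.sum_const,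
    card_tetS, nsmul_eq_mul]
  push_cast
  linear_combination (-2 * epsJ j) * h2

theorem te_xi {x : GolayPt → ℤ} (h : TE x) : TE (xiFun x) := by
  intro j
  rw [tsum_xi h]
  have := h j
  unfold epsJ
  split_ifs <;> omega

theorem hh_xi {x : GolayPt → ℤ} (h : TE x) (j : Fin 6) : hh (xiFun x) j = -epsJ j * hh x j := by
  have h1 := two_hh (te_xi h) j
  rw [tsum_xi h, ← two_hh h j] at h1
  have h3 : 2 * hh (xiFun x) j = 2 * (-epsJ j * hh x j) := by rw [h1]; ring
  omega

theorem xi_xi {x : GolayPt → ℤ} (h : TE x) : xiFun (xiFun x) = x := by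
  funext i
  show epsJ (tet i) * (epsJ (tet i) * (x i - hh x (tet i)) - hh (xiFun x) (tet i)) = x i
  rw [hh_xi h]
  have := epsJ_sq (tet i)
  linear_combination (x i) * this

theorem sqNorm_xi {x : GolayPt → ℤ} (h : TE x) : sqNorm (xiFun x) = sqNorm x := by
  unfold sqNorm
  rw [← sum_tet (fun i => xiFun x i ^ 2), ← sum_tet (fun i => x i ^ 2)]
  apply Finset.sum_congr rfl
  intro j _
  have h1 : ∀ i ∈ tetS j, xiFun x i ^ 2 = x i ^ 2 - 2 * hh x j * x i + hh x j ^ 2 := by
    intro i hi
    unfold xiFun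
    rw [(mem_tetS i j).mp hi]
    have := epsJ_sq j
    linear_combination (x i - hh x j) ^ 2 * this
  have h2 := two_hh h j
  unfold tsum at h2
  rw [Finset.sum_congr rfl h1, Finset.sum_add_distrib, Finset.sum_sub_distrib, ← Finset.mul_sum,
    Finset.sum_const, card_tetS, nsmul_eq_mul]
  push_cast
  linear_combination (2 * hh x j) * h2

theorem sum_U_pair (x : GolayPt → ℤ) {j k : Fin 6} (hjk : j ≠ k) :
    ∑ i ∈ U {j, k}, x i = tsum x j + tsum x k := by
  classical
  have hU : U {j, k} = tetS j ∪ tetS k := by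
    ext i
    rw [mem_U, Finset.mem_union, mem_tetS, mem_tetS, Finset.mem_insert, Finset.mem_singleton]
  have hd : Disjoint (tetS j) (tetS k) := by
    rw [Finset.disjoint_left]
    intro i hi hi'
    rw [mem_tetS] at hi hi'
    exact hjk (hi.symm.trans hi')
  rw [hU, Finset.sum_union hd]
  rfl

theorem sum_xi {x : GolayPt → ℤ} (h : TE x) :
    ∑ i, xiFun x i = 4 * hh x 0 - 2 * ∑ j : Fin 6, hh x j := by
  rw [← sum_tet]
  have e : ∀ j : Fin 6, ∑ i ∈ tetS j, xiFun x i =
      -2 * hh x j + (if j = 0 then 4 * hh x j else 0) := by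
    intro j
    have h1 := tsum_xi h j
    unfold tsum at h1
    rw [h1]
    have h2 := two_hh h j
    unfold tsum at h2
    rw [← h2]
    unfold epsJ
    split_ifs <;> ring
  rw [Finset.sum_congr rfl (fun j _ => e j), Finset.sum_add_distrib, ← Finset.mul_sum,
    Finset.sum_ite_eq' Finset.univ (0 : Fin 6), if_pos (Finset.mem_univ _)]
  ring

/-- The map preserves the lattice. -/
theorem xiFun_mem {x : GolayPt → ℤ} (hx : x ∈ leechLattice) : xiFun x ∈ leechLattice := by
  classical
  have hte := te_of_mem hx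
  have hxs := (mem_leechLattice_iff x).mp hx
  obtain ⟨m, hm1, hm2, hm3⟩ := (mem_leechSet_iff x).mp hxs
  have hpar : ∀ j, hh x j % 2 = hh x 0 % 2 := by
    intro j
    by_cases hj : j = 0
    · rw [hj]
    · have hmem : U {j, 0} ∈ GC := U_mem _ (by rw [Finset.card_pair hj])
      have h4 := sum_codeword_mod_four hxs hmem
      rw [sum_U_pair x hj, ← two_hh hte j, ← two_hh hte 0] at h4
      omega
  have hsum : (2 * ∑ j : Fin 6, hh x j) % 8 = (4 * m) % 8 := by
    rw [Finset.mul_sum, Finset.sum_congr rfl (fun j _ => two_hh hte j)]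
    unfold tsum
    rw [sum_tet]
    exact hm2
  -- the tetrads whose half sum differs from the first one modulo 4
  have hJ : ∀ j : Fin 6, hh x j % 4 =
      (hh x 0 + 2 * (if hh x j % 4 ≠ hh x 0 % 4 then 1 else 0)) % 4 := by
    intro j
    have := hpar j
    split_ifs <;> omega
  have hcount : (∑ j : Fin 6, hh x j) % 4 =
      (6 * hh x 0 + 2 * ((Finset.univ.filter (fun j : Fin 6 => hh x j % 4 ≠ hh x 0 % 4)).card : ℤ))
        % 4 := by
    rw [modEq_sum Finset.univ (fun j => hh x j)
      (fun j => hh x 0 + 2 * (if hh x j % 4 ≠ hh x 0 % 4 then 1 else 0)) 4 (fun j _ => hJ j),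
      Finset.sum_add_distrib, ← Finset.mul_sum, Finset.sum_const, Finset.card_univ,
      Fintype.card_fin, Finset.sum_boole, nsmul_eq_mul]
    push_cast
    rfl
  have hzpar : ∀ i, xiFun x i % 2 = (m + hh x 0) % 2 := by
    intro i
    have h1 := hm1 i
    have h2 := hpar (tet i)
    unfold xiFun epsJ
    split_ifs <;> omega
  have hsx := sum_xi hte
  by_cases hev : (m + hh x 0) % 2 = 0
  · -- the image is even
    have hJc : (Finset.univ.filter (fun j : Fin 6 => hh x j % 4 ≠ hh x 0 % 4)).card % 2 = 0 := by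
      omega
    apply mem_leech_of_even
    · intro i; rw [hzpar i, hev]
    · rw [hsx]; omega
    · have he : resSet (xiFun x) 2 = symmDiff (resSet x (hh x 0 + 2))
          (U (Finset.univ.filter (fun j : Fin 6 => hh x j % 4 ≠ hh x 0 % 4))) := by
        ext i
        rw [mem_resSet, Finset.mem_symmDiff, mem_resSet, mem_U, Finset.mem_filter]
        have h1 := hm1 i
        have h2 := hpar (tet i)
        unfold xiFun epsJ
        simp only [Finset.mem_univ, true_and]
        split_ifs <;> omega
      rw [he]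
      exact symmDiff_mem_supports (hm3 _) (U_mem _ hJc)
  · -- the image is odd
    have hJc : (Finset.univ.filter (fun j : Fin 6 => hh x j % 4 ≠ hh x 0 % 4)).card % 2 = 1 := by
      omega
    have h0 : (0 : Fin 6) ∉ Finset.univ.filter (fun j : Fin 6 => hh x j % 4 ≠ hh x 0 % 4) := by
      rw [Finset.mem_filter]
      intro h
      exact h.2 rfl
    apply mem_leech_of_odd
    · intro i; rw [hzpar i]; omega
    · rw [hsx]; omega
    · have he : resSet (xiFun x) 3 = symmDiff (resSet x (hh x 0 + 3))
          (U (insert 0 (Finset.univ.filter (fun j : Fin 6 => hh x j % 4 ≠ hh x 0 % 4)))) := by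
        ext i
        rw [mem_resSet, Finset.mem_symmDiff, mem_resSet, mem_U, Finset.mem_insert,
          Finset.mem_filter]
        have h1 := hm1 i
        have h2 := hpar (tet i)
        unfold xiFun epsJ
        simp only [Finset.mem_univ, true_and]
        by_cases ht : tet i = 0
        · rw [if_pos ht]
          simp only [ht, true_or, not_true_eq_false, and_false, false_or, true_and]
          rw [ht] at h2
          omega
        · rw [if_neg ht]
          simp only [ht, false_or]
          omega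
      rw [he]
      exact symmDiff_mem_supports (hm3 _)
        (U_mem _ (by rw [Finset.card_insert_of_notMem h0]; omega))

/-- The automorphism. -/
def xi : Equiv.Perm ↥leechLattice where
  toFun v := ⟨xiFun v.1, xiFun_mem v.2⟩
  invFun v := ⟨xiFun v.1, xiFun_mem v.2⟩
  left_inv v := Subtype.ext (xi_xi (te_of_mem v.2))
  right_inv v := Subtype.ext (xi_xi (te_of_mem v.2))

theorem xi_apply (v : ↥leechLattice) : ((xi v : ↥leechLattice) : GolayPt → ℤ) = xiFun v.1 := rfl

theorem xi_mem : xi ∈ Co0 :=
  ⟨fun v w => Subtype.ext (xi_add (te_of_mem v.2) (te_of_mem w.2)),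
    fun v => sqNorm_xi (te_of_mem v.2)⟩

end Cfsg.Agent.Lib.helper28.XI
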