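import Mathlib

set_option autoImplicit false

namespace Cfsg.Agent.Lib.helper28

/-! A maximality criterion: a point stabiliser is a maximal subgroup if no proper union of its
orbits containing the point has a size dividing the size of the whole orbit. -/

section

variable {G X ι : Type*} [Group G] [MulAction G X] [Finite X] [Fintype ι] [DecidableEq ι]

omit [Fintype ι] in
theorem ncard_color_classes (Ω : Set X) (col : X → ι) (n : ι → ℕ)
    (hn : ∀ j, {x | x ∈ Ω ∧ col x = j}.ncard = n j) (J : Finset ι) :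
    {x | x ∈ Ω ∧ col x ∈ J}.ncard = ∑ j ∈ J, n j := by
  induction J using Finset.induction_on with
  | empty =>
    have : {x | x ∈ Ω ∧ col x ∈ (∅ : Finset ι)} = ∅ := by
      ext x; simp
    rw [this, Set.ncard_empty, Finset.sum_empty]
  | insert j J hj ih =>
    have : {x | x ∈ Ω ∧ col x ∈ insert j J} =
        {x | x ∈ Ω ∧ col x = j} ∪ {x | x ∈ Ω ∧ col x ∈ J} := by
      ext x
      simp only [Set.mem_ofPred_eq, Finset.mem_insert, Set.mem_union]
      tauto
    have hdisj : Disjoint {x | x ∈ Ω ∧ col x = j} {x | x ∈ Ω ∧ col x ∈ J} := by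
      rw [Set.disjoint_left]
      rintro x ⟨_, h1⟩ ⟨_, h2⟩
      rw [h1] at h2
      exact hj h2
    rw [this, Set.ncard_union_eq hdisj (Set.toFinite _) (Set.toFinite _), hn, ih,
      Finset.sum_insert hj]

theorem isCoatom_stabilizer_of_suborbits (x0 : X) (col : X → ι) (n : ι → ℕ)
    (hne : ∃ g : G, g • x0 ≠ x0)
    (h0 : ∀ x ∈ MulAction.orbit G x0, col x = col x0 → x = x0)
    (hcol : ∀ x ∈ MulAction.orbit G x0, ∀ y ∈ MulAction.orbit G x0, col x = col y →
      ∃ h : G, h • x0 = x0 ∧ h • x = y)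
    (hn : ∀ j, {x | x ∈ MulAction.orbit G x0 ∧ col x = j}.ncard = n j)
    (harith : ∀ J : Finset ι, col x0 ∈ J → (∑ j ∈ J, n j) ∣ (∑ j, n j) →
      J = {col x0} ∨ J = Finset.univ) :
    IsCoatom (MulAction.stabilizer G x0) := by
  classical
  constructor
  · intro htop
    obtain ⟨g, hg⟩ := hne
    apply hg
    have : g ∈ MulAction.stabilizer G x0 := by rw [htop]; trivial
    exact this
  · intro K hK
    have hHK : MulAction.stabilizer G x0 ≤ K := le_of_lt hK
    have hBsub : ∀ k ∈ K, k • x0 ∈ MulAction.orbit G x0 := fun k _ => ⟨k, rfl⟩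
    have hB : {x | ∃ k ∈ K, k • x0 = x} = {x | x ∈ MulAction.orbit G x0 ∧
        col x ∈ Finset.univ.filter (fun j => ∃ k ∈ K, col (k • x0) = j)} := by
      ext x
      simp only [Set.mem_ofPred_eq, Finset.mem_filter, Finset.mem_univ, true_and]
      constructor
      · rintro ⟨k, hk, rfl⟩
        exact ⟨hBsub k hk, k, hk, rfl⟩
      · rintro ⟨hx, k, hk, hcolk⟩
        obtain ⟨h, hh0, hhx⟩ := hcol (k • x0) (hBsub k hk) x hx hcolk
        refine ⟨h * k, K.mul_mem (hHK hh0) hk, ?_⟩
        rw [mul_smul, hhx]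
    have hBcard := ncard_color_classes (MulAction.orbit G x0) col n hn
      (Finset.univ.filter (fun j => ∃ k ∈ K, col (k • x0) = j))
    rw [← hB] at hBcard
    have hΩ : (MulAction.orbit G x0).ncard = ∑ j, n j := by
      have := ncard_color_classes (MulAction.orbit G x0) col n hn Finset.univ
      rw [← this]
      congr 1
      ext x
      simp
    have horbK : MulAction.orbit K x0 = {x | ∃ k ∈ K, k • x0 = x} := by
      ext x
      constructor
      · rintro ⟨⟨k, hk⟩, rfl⟩
        exact ⟨k, hk, rfl⟩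
      · rintro ⟨k, hk, rfl⟩
        exact ⟨⟨k, hk⟩, rfl⟩
    have hstab : MulAction.stabilizer K x0 = (MulAction.stabilizer G x0).subgroupOf K := by
      ext ⟨k, hk⟩
      rw [MulAction.mem_stabilizer_iff, Subgroup.mem_subgroupOf, MulAction.mem_stabilizer_iff]
      rfl
    have hrel : (MulAction.stabilizer G x0).relIndex K = {x | ∃ k ∈ K, k • x0 = x}.ncard := by
      rw [Subgroup.relIndex, ← hstab, MulAction.index_stabilizer, horbK]
    have hidx : (MulAction.stabilizer G x0).index = ∑ j, n j := by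
      rw [MulAction.index_stabilizer, hΩ]
    have hdvd : (∑ j ∈ Finset.univ.filter (fun j => ∃ k ∈ K, col (k • x0) = j), n j) ∣
        ∑ j, n j := by
      rw [← hBcard, ← hrel, ← hidx]
      exact Subgroup.relIndex_dvd_index_of_le hHK
    have hx0J : col x0 ∈ Finset.univ.filter (fun j => ∃ k ∈ K, col (k • x0) = j) := by
      rw [Finset.mem_filter]
      exact ⟨Finset.mem_univ _, 1, K.one_mem, by rw [one_smul]⟩
    rcases harith _ hx0J hdvd with hJ | hJ
    · exfalso
      apply lt_irrefl K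
      apply lt_of_le_of_lt _ hK
      intro k hk
      have h1 : col (k • x0) ∈ Finset.univ.filter (fun j => ∃ k ∈ K, col (k • x0) = j) := by
        rw [Finset.mem_filter]
        exact ⟨Finset.mem_univ _, k, hk, rfl⟩
      rw [hJ, Finset.mem_singleton] at h1
      exact h0 _ (hBsub k hk) h1
    · rw [eq_top_iff]
      intro g _
      have h1 : g • x0 ∈ {x | x ∈ MulAction.orbit G x0 ∧
          col x ∈ Finset.univ.filter (fun j => ∃ k ∈ K, col (k • x0) = j)} := by
        refine ⟨⟨g, rfl⟩, ?_⟩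
        rw [hJ]
        exact Finset.mem_univ _
      rw [← hB] at h1
      obtain ⟨k, hk, hkg⟩ := h1
      have h2 : k⁻¹ * g ∈ MulAction.stabilizer G x0 := by
        rw [MulAction.mem_stabilizer_iff, mul_smul, ← hkg, inv_smul_smul]
      have h3 : g = k * (k⁻¹ * g) := by group
      rw [h3]
      exact K.mul_mem hk (hHK h2)

/-- The same criterion, with non-triviality read off from the class sizes. -/
theorem isCoatom_stabilizer_of_suborbits' (x0 : X) (col : X → ι) (n : ι → ℕ)
    (hne : ∃ j, j ≠ col x0 ∧ n j ≠ 0)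
    (h0 : ∀ x ∈ MulAction.orbit G x0, col x = col x0 → x = x0)
    (hcol : ∀ x ∈ MulAction.orbit G x0, ∀ y ∈ MulAction.orbit G x0, col x = col y →
      ∃ h : G, h • x0 = x0 ∧ h • x = y)
    (hn : ∀ j, {x | x ∈ MulAction.orbit G x0 ∧ col x = j}.ncard = n j)
    (harith : ∀ J : Finset ι, col x0 ∈ J → (∑ j ∈ J, n j) ∣ (∑ j, n j) →
      J = {col x0} ∨ J = Finset.univ) :
    IsCoatom (MulAction.stabilizer G x0) := by
  apply isCoatom_stabilizer_of_suborbits x0 col n _ h0 hcol hn harith
  obtain ⟨j, hj, hnj⟩ := hne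
  rw [← hn j] at hnj
  obtain ⟨x, ⟨g, rfl⟩, hx⟩ := Set.nonempty_of_ncard_ne_zero hnj
  refine ⟨g, fun h => hj ?_⟩
  rw [← hx]
  exact congrArg col h

end

end Cfsg.Agent.Lib.helper28
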