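import Cfsg.Agent.Lib.helper28.MaxCrit

set_option autoImplicit false

namespace Cfsg.Agent.Lib.helper28

/-! Determining the orbits of a subgroup from lower bounds on orbit sizes. -/

/-- If the points `X i` of an invariant finite set `F` lie in pairwise distinct orbits of `H`, the
orbit of `X i` has at least `n i` elements and the `n i` sum to the size of `F`, then the orbit
of `X i` has exactly `n i` elements and these orbits cover `F`. -/
theorem orbits_of_lower_bounds {G β : Type*} [Group G] [MulAction G β] (H : Subgroup G)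
    (F : Set β) (hF : F.Finite) {r : ℕ} (X : Fin r → β) (n : Fin r → ℕ)
    (hX : ∀ i, X i ∈ F) (hinv : ∀ h ∈ H, ∀ x ∈ F, h • x ∈ F)
    (hlow : ∀ i, n i ≤ (MulAction.orbit H (X i)).ncard)
    (hsep : ∀ i j, i ≠ j → X j ∉ MulAction.orbit H (X i))
    (hsum : ∑ i, n i = F.ncard) :
    (∀ i, (MulAction.orbit H (X i)).ncard = n i) ∧
      ∀ x, x ∈ F ↔ ∃ i, x ∈ MulAction.orbit H (X i) := by
  classical
  have hsub : ∀ i, MulAction.orbit H (X i) ⊆ F := by
    rintro i _ ⟨h, rfl⟩
    exact hinv h h.2 _ (hX i)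
  have hfin : ∀ i, (MulAction.orbit H (X i)).Finite := fun i => hF.subset (hsub i)
  have hdisj : ∀ i j, i ≠ j → Disjoint (hfin i).toFinset (hfin j).toFinset := by
    intro i j hij
    rw [Finset.disjoint_left]
    intro x hxi hxj
    rw [Set.Finite.mem_toFinset] at hxi hxj
    apply hsep i j hij
    rw [← MulAction.orbit_eq_iff.mpr hxi]
    exact MulAction.mem_orbit_symm.mp hxj
  have hU : (Finset.univ.biUnion (fun i => (hfin i).toFinset)).card =
      ∑ i, (hfin i).toFinset.card :=
    Finset.card_biUnion (fun i _ j _ hij => hdisj i j hij)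
  have hUsub : Finset.univ.biUnion (fun i => (hfin i).toFinset) ⊆ hF.toFinset := by
    intro x hx
    obtain ⟨i, _, hxi⟩ := Finset.mem_biUnion.mp hx
    rw [Set.Finite.mem_toFinset] at hxi ⊢
    exact hsub i hxi
  have hcard : ∀ i, (hfin i).toFinset.card = (MulAction.orbit H (X i)).ncard :=
    fun i => (Set.ncard_eq_toFinset_card _ (hfin i)).symm
  have hFc : hF.toFinset.card = F.ncard := (Set.ncard_eq_toFinset_card _ hF).symm
  have h1 : ∑ i, (hfin i).toFinset.card ≤ ∑ i, n i := by
    rw [← hU, hsum, ← hFc]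
    exact Finset.card_le_card hUsub
  have h2 : ∀ i ∈ Finset.univ, n i ≤ (hfin i).toFinset.card := fun i _ => by
    rw [hcard]; exact hlow i
  have h3 : ∑ i, n i = ∑ i, (hfin i).toFinset.card := le_antisymm (Finset.sum_le_sum h2) h1
  have h4 := (Finset.sum_eq_sum_iff_of_le h2).mp h3
  refine ⟨fun i => by rw [← hcard, ← h4 i (Finset.mem_univ _)], ?_⟩
  have hUeq : Finset.univ.biUnion (fun i => (hfin i).toFinset) = hF.toFinset :=
    Finset.eq_of_subset_of_card_le hUsub (by rw [hFc, ← hsum, h3, hU])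
  intro x
  constructor
  · intro hx
    have : x ∈ Finset.univ.biUnion (fun i => (hfin i).toFinset) := by
      rw [hUeq, Set.Finite.mem_toFinset]; exact hx
    obtain ⟨i, _, hxi⟩ := Finset.mem_biUnion.mp this
    exact ⟨i, (Set.Finite.mem_toFinset _).mp hxi⟩
  · rintro ⟨i, hi⟩
    exact hsub i hi

/-- Maximality of a point stabiliser from the list of its orbits on the orbit of the point. -/
theorem isCoatom_of_orbits {G β : Type*} [Group G] [MulAction G β] [Finite β] (x0 : β) {r : ℕ}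
    (X : Fin (r + 1) → β) (n : Fin (r + 1) → ℕ) (hX0 : X 0 = x0)
    (hcard : ∀ i, (MulAction.orbit (MulAction.stabilizer G x0) (X i)).ncard = n i)
    (hcover : ∀ x, x ∈ MulAction.orbit G x0 ↔
      ∃ i, x ∈ MulAction.orbit (MulAction.stabilizer G x0) (X i))
    (hsep : ∀ i j, i ≠ j → X j ∉ MulAction.orbit (MulAction.stabilizer G x0) (X i))
    (hne : ∃ j, j ≠ 0 ∧ n j ≠ 0)
    (harith : ∀ J : Finset (Fin (r + 1)), 0 ∈ J → (∑ j ∈ J, n j) ∣ (∑ j, n j) →
      J = {0} ∨ J = Finset.univ) :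
    IsCoatom (MulAction.stabilizer G x0) := by
  classical
  let col : β → Fin (r + 1) := fun x =>
    if h : ∃ i, x ∈ MulAction.orbit (MulAction.stabilizer G x0) (X i) then Classical.choose h
    else 0
  have hcol : ∀ x ∈ MulAction.orbit G x0,
      x ∈ MulAction.orbit (MulAction.stabilizer G x0) (X (col x)) := by
    intro x hx
    have h := (hcover x).mp hx
    simp only [col, dif_pos h]
    exact Classical.choose_spec h
  have huniq : ∀ x i, x ∈ MulAction.orbit (MulAction.stabilizer G x0) (X i) → col x = i := by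
    intro x i hi
    have hx : x ∈ MulAction.orbit G x0 := (hcover x).mpr ⟨i, hi⟩
    by_contra hne'
    apply hsep i (col x) (Ne.symm hne')
    rw [← MulAction.orbit_eq_iff.mpr hi]
    exact MulAction.mem_orbit_symm.mp (hcol x hx)
  have hc0 : col x0 = 0 := huniq x0 0 (by rw [hX0]; exact MulAction.mem_orbit_self _)
  apply isCoatom_stabilizer_of_suborbits' x0 col n
  · obtain ⟨j, hj, hnj⟩ := hne
    exact ⟨j, by rw [hc0]; exact hj, hnj⟩
  · intro x hx hc
    have := hcol x hx
    rw [hc, hc0, hX0] at this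
    obtain ⟨h, rfl⟩ := this
    exact h.2
  · intro x hx y hy hxy
    have h1 := hcol x hx
    have h2 := hcol y hy
    rw [hxy] at h1
    have : y ∈ MulAction.orbit (MulAction.stabilizer G x0) x := by
      rw [MulAction.orbit_eq_iff.mpr h1]; exact h2
    obtain ⟨h, rfl⟩ := this
    exact ⟨h, h.2, rfl⟩
  · intro j
    have : {x | x ∈ MulAction.orbit G x0 ∧ col x = j} =
        MulAction.orbit (MulAction.stabilizer G x0) (X j) := by
      ext x
      constructor
      · rintro ⟨hx, rfl⟩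
        exact hcol x hx
      · intro hx
        exact ⟨(hcover x).mpr ⟨j, hx⟩, huniq x j hx⟩
    rw [this, hcard]
  · rw [hc0]; exact harith

theorem union3_of_cover {β : Type*} {F : Set β} {O : Fin 3 → Set β}
    (h : ∀ x, x ∈ F ↔ ∃ i, x ∈ O i) : F = O 0 ∪ O 1 ∪ O 2 := by
  ext x
  rw [h x, Set.mem_union, Set.mem_union]
  constructor
  · rintro ⟨i, hi⟩
    fin_cases i
    · exact Or.inl (Or.inl hi)
    · exact Or.inl (Or.inr hi)
    · exact Or.inr hi
  · rintro ((h | h) | h)
    · exact ⟨0, h⟩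
    · exact ⟨1, h⟩
    · exact ⟨2, h⟩

theorem union4_of_cover {β : Type*} {F : Set β} {O : Fin 4 → Set β}
    (h : ∀ x, x ∈ F ↔ ∃ i, x ∈ O i) : F = O 0 ∪ O 1 ∪ O 2 ∪ O 3 := by
  ext x
  rw [h x, Set.mem_union, Set.mem_union, Set.mem_union]
  constructor
  · rintro ⟨i, hi⟩
    fin_cases i
    · exact Or.inl (Or.inl (Or.inl hi))
    · exact Or.inl (Or.inl (Or.inr hi))
    · exact Or.inl (Or.inr hi)
    · exact Or.inr hi
  · rintro (((h | h) | h) | h)
    · exact ⟨0, h⟩
    · exact ⟨1, h⟩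
    · exact ⟨2, h⟩
    · exact ⟨3, h⟩

theorem union5_of_cover {β : Type*} {F : Set β} {O : Fin 5 → Set β}
    (h : ∀ x, x ∈ F ↔ ∃ i, x ∈ O i) : F = O 0 ∪ O 1 ∪ O 2 ∪ O 3 ∪ O 4 := by
  ext x
  rw [h x, Set.mem_union, Set.mem_union, Set.mem_union, Set.mem_union]
  constructor
  · rintro ⟨i, hi⟩
    fin_cases i
    · exact Or.inl (Or.inl (Or.inl (Or.inl hi)))
    · exact Or.inl (Or.inl (Or.inl (Or.inr hi)))
    · exact Or.inl (Or.inl (Or.inr hi))
    · exact Or.inl (Or.inr hi)
    · exact Or.inr hi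
  · rintro ((((h | h) | h) | h) | h)
    · exact ⟨0, h⟩
    · exact ⟨1, h⟩
    · exact ⟨2, h⟩
    · exact ⟨3, h⟩
    · exact ⟨4, h⟩

end Cfsg.Agent.Lib.helper28
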