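import Mathlib
import Cfsg.Prelude.Def_Sporadic_a

set_option autoImplicit false
set_option linter.unusedSectionVars false

namespace Cfsg.Agent.Lib.helper28.Plane4

open Cfsg

variable {α : Type*} [Fintype α] [DecidableEq α]

theorem exists_line {L : Set (Finset α)} (hL : IsSteinerSystem 2 5 L) {p q : α} (h : p ≠ q) :
    ∃ l ∈ L, p ∈ l ∧ q ∈ l := by
  obtain ⟨l, ⟨hl, hsub⟩, _⟩ := hL.2 {p, q} (Finset.card_pair h)
  exact ⟨l, hl, hsub (Finset.mem_insert_self _ _),
    hsub (Finset.mem_insert_of_mem (Finset.mem_singleton_self _))⟩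

theorem line_unique {L : Set (Finset α)} (hL : IsSteinerSystem 2 5 L) {l m : Finset α} (hl : l ∈ L)
    (hm : m ∈ L) {p q : α} (h : p ≠ q) (hpl : p ∈ l) (hql : q ∈ l) (hpm : p ∈ m) (hqm : q ∈ m) :
    l = m := by
  refine (hL.2 {p, q} (Finset.card_pair h)).unique ⟨hl, ?_⟩ ⟨hm, ?_⟩
  · intro x hx
    rcases Finset.mem_insert.mp hx with rfl | hx
    · exact hpl
    · rw [Finset.mem_singleton.mp hx]; exact hql
  · intro x hx
    rcases Finset.mem_insert.mp hx with rfl | hx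
    · exact hpm
    · rw [Finset.mem_singleton.mp hx]; exact hqm

/-- Exactly five lines pass through a point. -/
theorem card_pencil {L : Set (Finset α)} (hα : Fintype.card α = 21) (hL : IsSteinerSystem 2 5 L)
    (p : α) (Lp : Finset (Finset α)) (hLp : ∀ l, l ∈ Lp ↔ l ∈ L ∧ p ∈ l) : Lp.card = 5 := by
  have hU : Finset.univ.erase p = Lp.biUnion (fun l => l.erase p) := by
    ext q
    simp only [Finset.mem_erase, Finset.mem_univ, and_true, Finset.mem_biUnion]
    constructor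
    · intro hq
      obtain ⟨l, hl, hpl, hql⟩ := exists_line hL (Ne.symm hq)
      exact ⟨l, (hLp l).mpr ⟨hl, hpl⟩, hq, hql⟩
    · rintro ⟨l, _, hq, _⟩
      exact hq
  have hdisj : ∀ l ∈ Lp, ∀ m ∈ Lp, l ≠ m → Disjoint (l.erase p) (m.erase p) := by
    intro l hl m hm hne
    rw [Finset.disjoint_left]
    intro q hq hq'
    rw [Finset.mem_erase] at hq hq'
    exact hne (line_unique hL ((hLp l).mp hl).1 ((hLp m).mp hm).1 (Ne.symm hq.1)
      ((hLp l).mp hl).2 hq.2 ((hLp m).mp hm).2 hq'.2)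
  have hc := congrArg Finset.card hU
  rw [Finset.card_biUnion hdisj, Finset.card_erase_of_mem (Finset.mem_univ p), Finset.card_univ,
    hα] at hc
  have h4 : ∀ l ∈ Lp, (l.erase p).card = 4 := by
    intro l hl
    rw [Finset.card_erase_of_mem ((hLp l).mp hl).2, hL.1 l ((hLp l).mp hl).1]
  rw [Finset.sum_congr rfl h4, Finset.sum_const, smul_eq_mul] at hc
  omega

/-- Two distinct lines meet. -/
theorem exists_common {L : Set (Finset α)} (hα : Fintype.card α = 21) (hL : IsSteinerSystem 2 5 L)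
    {l m : Finset α} (hl : l ∈ L) (hm : m ∈ L) : ∃ x, x ∈ l ∧ x ∈ m := by
  classical
  by_contra hno
  have hno' : ∀ x, x ∈ l → x ∉ m := fun x hx hx' => hno ⟨x, hx, hx'⟩
  have hl5 := hL.1 l hl
  obtain ⟨p, hp⟩ : l.Nonempty := Finset.card_pos.mp (by omega)
  let Lp : Finset (Finset α) := Finset.univ.filter (fun k => k ∈ L ∧ p ∈ k)
  have hLp : ∀ k, k ∈ Lp ↔ k ∈ L ∧ p ∈ k := by intro k; simp [Lp]
  have h5 := card_pencil hα hL p Lp hLp
  have hsub : m ⊆ (Lp.erase l).biUnion (fun k => m ∩ k) := by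
    intro q hq
    have hqp : p ≠ q := fun h => hno' p hp (h ▸ hq)
    obtain ⟨k, hk, hpk, hqk⟩ := exists_line hL hqp
    rw [Finset.mem_biUnion]
    refine ⟨k, Finset.mem_erase.mpr ⟨?_, (hLp k).mpr ⟨hk, hpk⟩⟩, Finset.mem_inter.mpr ⟨hq, hqk⟩⟩
    intro hkl
    exact hno' q (hkl ▸ hqk) hq
  have hle := Finset.card_le_card hsub
  have h1 : ∀ k ∈ Lp.erase l, (m ∩ k).card ≤ 1 := by
    intro k hk
    have hk' := (hLp k).mp (Finset.mem_of_mem_erase hk)
    by_contra hgt
    rw [not_le] at hgt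
    obtain ⟨x, hx, y, hy, hxy⟩ := Finset.one_lt_card.mp hgt
    rw [Finset.mem_inter] at hx hy
    have : m = k := line_unique hL hm hk'.1 hxy hx.1 hy.1 hx.2 hy.2
    exact hno' p hp (this ▸ hk'.2)
  have hsum : ((Lp.erase l).biUnion (fun k => m ∩ k)).card ≤ 4 := by
    refine le_trans Finset.card_biUnion_le ?_
    refine le_trans (Finset.sum_le_card_nsmul _ _ 1 h1) ?_
    rw [Finset.card_erase_of_mem ((hLp l).mpr ⟨hl, hp⟩), h5]
    simp
  have := hL.1 m hm
  omega

/-- `u` lies on no line through two points of `S`. -/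
def Off (L : Set (Finset α)) (S : Finset α) (u : α) : Prop :=
  ∀ l ∈ L, ∀ x ∈ S, ∀ y ∈ S, x ≠ y → x ∈ l → y ∈ l → u ∉ l

theorem ind_third {L : Set (Finset α)} {S : Finset α} (hS : ∀ l ∈ L, (l ∩ S).card ≤ 2)
    {l : Finset α} (hl : l ∈ L) {x y z : α} (hx : x ∈ S) (hy : y ∈ S) (hz : z ∈ S)
    (hxy : x ≠ y) (hxz : x ≠ z) (hyz : y ≠ z) (hxl : x ∈ l) (hyl : y ∈ l) : z ∉ l := by
  intro hzl
  have hsub : ({x, y, z} : Finset α) ⊆ l ∩ S := by
    intro w hw
    simp only [Finset.mem_insert, Finset.mem_singleton] at hw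
    rcases hw with rfl | rfl | rfl
    · exact Finset.mem_inter.mpr ⟨hxl, hx⟩
    · exact Finset.mem_inter.mpr ⟨hyl, hy⟩
    · exact Finset.mem_inter.mpr ⟨hzl, hz⟩
  have h3 : ({x, y, z} : Finset α).card = 3 :=
    Finset.card_eq_three.mpr ⟨x, y, z, hxy, hxz, hyz, rfl⟩
  have h1 := Finset.card_le_card hsub
  have h2 := hS l hl
  omega

theorem off_not_mem {L : Set (Finset α)} (hL : IsSteinerSystem 2 5 L) {S : Finset α}
    (h2 : 1 < S.card) {u : α} (hu : Off L S u) : u ∉ S := by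
  intro huS
  obtain ⟨x, hx, hxu⟩ := Finset.exists_mem_ne h2 u
  obtain ⟨l, hl, hul, hxl⟩ := exists_line hL (Ne.symm hxu)
  exact hu l hl u huS x hx (Ne.symm hxu) hul hxl hul


/-- A line through exactly one point `a` of a quadrangle carries exactly one point off the six
lines of the quadrangle. -/
theorem free_line {L : Set (Finset α)} (hα : Fintype.card α = 21) (hL : IsSteinerSystem 2 5 L)
    {S : Finset α} (hS4 : S.card = 4) (hS : ∀ l ∈ L, (l ∩ S).card ≤ 2) {a : α} (ha : a ∈ S)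
    {m : Finset α} (hm : m ∈ L) (ham : a ∈ m) (hfree : ∀ x ∈ S, x ∈ m → x = a) :
    ∃ t ∈ m, Off L S t ∧ ∀ u ∈ m, Off L S u → u = t := by
  classical
  have h3 : (S.erase a).card = 3 := by rw [Finset.card_erase_of_mem ha, hS4]
  obtain ⟨b, c, d, hbc, hbd, hcd, hS'⟩ := Finset.card_eq_three.mp h3
  have hb := Finset.mem_erase.mp (show b ∈ S.erase a by rw [hS']; simp)
  have hc := Finset.mem_erase.mp (show c ∈ S.erase a by rw [hS']; simp)
  have hd := Finset.mem_erase.mp (show d ∈ S.erase a by rw [hS']; simp)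
  have hSmem : ∀ x ∈ S, x = a ∨ x = b ∨ x = c ∨ x = d := by
    intro x hx
    by_cases hxa : x = a
    · exact Or.inl hxa
    · have : x ∈ S.erase a := Finset.mem_erase.mpr ⟨hxa, hx⟩
      rw [hS'] at this
      simp only [Finset.mem_insert, Finset.mem_singleton] at this
      exact Or.inr this
  obtain ⟨k1, hk1, hbk1, hck1⟩ := exists_line hL hbc
  obtain ⟨k2, hk2, hbk2, hdk2⟩ := exists_line hL hbd
  obtain ⟨k3, hk3, hck3, hdk3⟩ := exists_line hL hcd
  have hak1 : a ∉ k1 := ind_third hS hk1 hb.2 hc.2 ha hbc hb.1 hc.1 hbk1 hck1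
  have hak2 : a ∉ k2 := ind_third hS hk2 hb.2 hd.2 ha hbd hb.1 hd.1 hbk2 hdk2
  have hak3 : a ∉ k3 := ind_third hS hk3 hc.2 hd.2 ha hcd hc.1 hd.1 hck3 hdk3
  have hdk1 : d ∉ k1 := ind_third hS hk1 hb.2 hc.2 hd.2 hbc hbd hcd hbk1 hck1
  have hck2 : c ∉ k2 := ind_third hS hk2 hb.2 hd.2 hc.2 hbd hbc (Ne.symm hcd) hbk2 hdk2
  have hk1m : k1 ≠ m := fun h => hak1 (h ▸ ham)
  have hk2m : k2 ≠ m := fun h => hak2 (h ▸ ham)
  have hk3m : k3 ≠ m := fun h => hak3 (h ▸ ham)
  obtain ⟨t1, ht1k, ht1m⟩ := exists_common hα hL hk1 hm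
  obtain ⟨t2, ht2k, ht2m⟩ := exists_common hα hL hk2 hm
  obtain ⟨t3, ht3k, ht3m⟩ := exists_common hα hL hk3 hm
  have ht1a : t1 ≠ a := fun h => hak1 (h ▸ ht1k)
  have ht2a : t2 ≠ a := fun h => hak2 (h ▸ ht2k)
  have ht3a : t3 ≠ a := fun h => hak3 (h ▸ ht3k)
  have hbm : b ∉ m := fun h => hb.1 (hfree b hb.2 h)
  have hcm : c ∉ m := fun h => hc.1 (hfree c hc.2 h)
  have hdm : d ∉ m := fun h => hd.1 (hfree d hd.2 h)
  have ht12 : t1 ≠ t2 := by
    intro h
    have htb : t1 ≠ b := fun h' => hbm (h' ▸ ht1m)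
    have : k1 = k2 := line_unique hL hk1 hk2 htb ht1k hbk1 (h ▸ ht2k) hbk2
    exact hdk1 (this ▸ hdk2)
  have ht13 : t1 ≠ t3 := by
    intro h
    have htc : t1 ≠ c := fun h' => hcm (h' ▸ ht1m)
    have : k1 = k3 := line_unique hL hk1 hk3 htc ht1k hck1 (h ▸ ht3k) hck3
    exact hdk1 (this ▸ hdk3)
  have ht23 : t2 ≠ t3 := by
    intro h
    have htd : t2 ≠ d := fun h' => hdm (h' ▸ ht2m)
    have : k2 = k3 := line_unique hL hk2 hk3 htd ht2k hdk2 (h ▸ ht3k) hdk3
    exact hck2 (this ▸ hck3)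
  have hM : ((m.erase a) \ {t1, t2, t3}).card = 1 := by
    have hsub : ({t1, t2, t3} : Finset α) ⊆ m.erase a := by
      intro w hw
      simp only [Finset.mem_insert, Finset.mem_singleton] at hw
      rcases hw with rfl | rfl | rfl
      · exact Finset.mem_erase.mpr ⟨ht1a, ht1m⟩
      · exact Finset.mem_erase.mpr ⟨ht2a, ht2m⟩
      · exact Finset.mem_erase.mpr ⟨ht3a, ht3m⟩
    rw [Finset.card_sdiff_of_subset hsub, Finset.card_erase_of_mem ham, hL.1 m hm,
      Finset.card_eq_three.mpr ⟨t1, t2, t3, ht12, ht13, ht23, rfl⟩]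
  obtain ⟨t, ht⟩ := Finset.card_eq_one.mp hM
  have htmem : t ∈ (m.erase a) \ {t1, t2, t3} := by rw [ht]; exact Finset.mem_singleton_self t
  rw [Finset.mem_sdiff, Finset.mem_erase] at htmem
  obtain ⟨⟨hta, htm⟩, htn⟩ := htmem
  simp only [Finset.mem_insert, Finset.mem_singleton, not_or] at htn
  have key : ∀ u ∈ m, u ≠ a → ∀ l ∈ L, ∀ x ∈ S, ∀ y ∈ S, x ≠ y → x ∈ l → y ∈ l → u ∈ l →
      u = t1 ∨ u = t2 ∨ u = t3 := by
    intro u hum hua l hl x hx y hy hxy hxl hyl hul
    have hal : a ∉ l := by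
      intro hal
      have : l = m := line_unique hL hl hm hua hul hal hum ham
      exact hxy ((hfree x hx (this ▸ hxl)).trans (hfree y hy (this ▸ hyl)).symm)
    have hxa : x ≠ a := fun h => hal (h ▸ hxl)
    have hya : y ≠ a := fun h => hal (h ▸ hyl)
    have hl123 : l = k1 ∨ l = k2 ∨ l = k3 := by
      rcases hSmem x hx with h | hxb | hxc | hxd
      · exact absurd h hxa
      · rcases hSmem y hy with h | hyb | hyc | hyd
        · exact absurd h hya
        · exact absurd (hxb.trans hyb.symm) hxy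
        · exact Or.inl (line_unique hL hl hk1 hbc (hxb ▸ hxl) (hyc ▸ hyl) hbk1 hck1)
        · exact Or.inr (Or.inl (line_unique hL hl hk2 hbd (hxb ▸ hxl) (hyd ▸ hyl) hbk2 hdk2))
      · rcases hSmem y hy with h | hyb | hyc | hyd
        · exact absurd h hya
        · exact Or.inl (line_unique hL hl hk1 hbc (hyb ▸ hyl) (hxc ▸ hxl) hbk1 hck1)
        · exact absurd (hxc.trans hyc.symm) hxy
        · exact Or.inr (Or.inr (line_unique hL hl hk3 hcd (hxc ▸ hxl) (hyd ▸ hyl) hck3 hdk3))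
      · rcases hSmem y hy with h | hyb | hyc | hyd
        · exact absurd h hya
        · exact Or.inr (Or.inl (line_unique hL hl hk2 hbd (hyb ▸ hyl) (hxd ▸ hxl) hbk2 hdk2))
        · exact Or.inr (Or.inr (line_unique hL hl hk3 hcd (hyc ▸ hyl) (hxd ▸ hxl) hck3 hdk3))
        · exact absurd (hxd.trans hyd.symm) hxy
    rcases hl123 with h | h | h
    · left
      by_contra hne
      exact hk1m (line_unique hL hk1 hm hne (h ▸ hul) ht1k hum ht1m)
    · right; left
      by_contra hne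
      exact hk2m (line_unique hL hk2 hm hne (h ▸ hul) ht2k hum ht2m)
    · right; right
      by_contra hne
      exact hk3m (line_unique hL hk3 hm hne (h ▸ hul) ht3k hum ht3m)
  refine ⟨t, htm, ?_, ?_⟩
  · intro l hl x hx y hy hxy hxl hyl htl
    rcases key t htm hta l hl x hx y hy hxy hxl hyl htl with h | h | h
    · exact htn.1 h
    · exact htn.2.1 h
    · exact htn.2.2 h
  · intro u hum hu
    have hua : u ≠ a := by
      intro h
      obtain ⟨k, hk, hak, hbk⟩ := exists_line hL (Ne.symm hb.1)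
      exact hu k hk a ha b hb.2 (Ne.symm hb.1) hak hbk (h ▸ hak)
    have hu1 : u ≠ t1 := fun h => hu k1 hk1 b hb.2 c hc.2 hbc hbk1 hck1 (h ▸ ht1k)
    have hu2 : u ≠ t2 := fun h => hu k2 hk2 b hb.2 d hd.2 hbd hbk2 hdk2 (h ▸ ht2k)
    have hu3 : u ≠ t3 := fun h => hu k3 hk3 c hc.2 d hd.2 hcd hck3 hdk3 (h ▸ ht3k)
    have : u ∈ (m.erase a) \ {t1, t2, t3} := by
      rw [Finset.mem_sdiff, Finset.mem_erase]
      refine ⟨⟨hua, hum⟩, ?_⟩
      simp only [Finset.mem_insert, Finset.mem_singleton, not_or]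
      exact ⟨hu1, hu2, hu3⟩
    rw [ht] at this
    exact Finset.mem_singleton.mp this

/-- The pencil of a vertex of a quadrangle: two free lines, each with one point off the six
lines, and these are all the points off the six lines. -/
theorem pencil {L : Set (Finset α)} (hα : Fintype.card α = 21) (hL : IsSteinerSystem 2 5 L)
    {S : Finset α} (hS4 : S.card = 4) (hS : ∀ l ∈ L, (l ∩ S).card ≤ 2) {a : α} (ha : a ∈ S) :
    ∃ m1 ∈ L, ∃ m2 ∈ L, ∃ e f : α, a ∈ m1 ∧ a ∈ m2 ∧ m1 ≠ m2 ∧ e ∈ m1 ∧ f ∈ m2 ∧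
      Off L S e ∧ Off L S f ∧ ∀ u, Off L S u → u = e ∨ u = f := by
  classical
  have h3 : (S.erase a).card = 3 := by rw [Finset.card_erase_of_mem ha, hS4]
  obtain ⟨b, c, d, hbc, hbd, hcd, hS'⟩ := Finset.card_eq_three.mp h3
  have hb := Finset.mem_erase.mp (show b ∈ S.erase a by rw [hS']; simp)
  have hc := Finset.mem_erase.mp (show c ∈ S.erase a by rw [hS']; simp)
  have hd := Finset.mem_erase.mp (show d ∈ S.erase a by rw [hS']; simp)
  have hSmem : ∀ x ∈ S, x = a ∨ x = b ∨ x = c ∨ x = d := by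
    intro x hx
    by_cases hxa : x = a
    · exact Or.inl hxa
    · have : x ∈ S.erase a := Finset.mem_erase.mpr ⟨hxa, hx⟩
      rw [hS'] at this
      simp only [Finset.mem_insert, Finset.mem_singleton] at this
      exact Or.inr this
  have hab : a ≠ b := Ne.symm hb.1
  have hac : a ≠ c := Ne.symm hc.1
  have had : a ≠ d := Ne.symm hd.1
  obtain ⟨kb, hkb, hakb, hbkb⟩ := exists_line hL hab
  obtain ⟨kc, hkc, hakc, hckc⟩ := exists_line hL hac
  obtain ⟨kd, hkd, hakd, hdkd⟩ := exists_line hL had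
  have hckb : c ∉ kb := ind_third hS hkb ha hb.2 hc.2 hab hac hbc hakb hbkb
  have hdkb : d ∉ kb := ind_third hS hkb ha hb.2 hd.2 hab had hbd hakb hbkb
  have hdkc : d ∉ kc := ind_third hS hkc ha hc.2 hd.2 hac had hcd hakc hckc
  have hkbc : kb ≠ kc := fun h => hckb (h ▸ hckc)
  have hkbd : kb ≠ kd := fun h => hdkb (h ▸ hdkd)
  have hkcd : kc ≠ kd := fun h => hdkc (h ▸ hdkd)
  let La : Finset (Finset α) := Finset.univ.filter (fun k => k ∈ L ∧ a ∈ k)
  have hLa : ∀ k, k ∈ La ↔ k ∈ L ∧ a ∈ k := by intro k; simp [La]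
  have h5 := card_pencil hα hL a La hLa
  have hsub : ({kb, kc, kd} : Finset (Finset α)) ⊆ La := by
    intro w hw
    simp only [Finset.mem_insert, Finset.mem_singleton] at hw
    rcases hw with rfl | rfl | rfl
    · exact (hLa _).mpr ⟨hkb, hakb⟩
    · exact (hLa _).mpr ⟨hkc, hakc⟩
    · exact (hLa _).mpr ⟨hkd, hakd⟩
  have h2 : (La \ {kb, kc, kd}).card = 2 := by
    rw [Finset.card_sdiff_of_subset hsub, h5,
      Finset.card_eq_three.mpr ⟨kb, kc, kd, hkbc, hkbd, hkcd, rfl⟩]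
  obtain ⟨m1, m2, hm12, hm⟩ := Finset.card_eq_two.mp h2
  have hmem : ∀ m, m ∈ La \ {kb, kc, kd} → (m ∈ L ∧ a ∈ m) ∧ ∀ x ∈ S, x ∈ m → x = a := by
    intro m hmm
    rw [Finset.mem_sdiff] at hmm
    have hmL := (hLa m).mp hmm.1
    have hn := hmm.2
    simp only [Finset.mem_insert, Finset.mem_singleton, not_or] at hn
    refine ⟨hmL, ?_⟩
    intro x hx hxm
    rcases hSmem x hx with h | h | h | h
    · exact h
    · exact absurd (line_unique hL hmL.1 hkb hab hmL.2 (h ▸ hxm) hakb hbkb) hn.1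
    · exact absurd (line_unique hL hmL.1 hkc hac hmL.2 (h ▸ hxm) hakc hckc) hn.2.1
    · exact absurd (line_unique hL hmL.1 hkd had hmL.2 (h ▸ hxm) hakd hdkd) hn.2.2
  obtain ⟨⟨hm1L, ham1⟩, hfree1⟩ := hmem m1 (by rw [hm]; simp)
  obtain ⟨⟨hm2L, ham2⟩, hfree2⟩ := hmem m2 (by rw [hm]; simp)
  obtain ⟨e, hem, hoe, hue⟩ := free_line hα hL hS4 hS ha hm1L ham1 hfree1
  obtain ⟨f, hfm, hof, huf⟩ := free_line hα hL hS4 hS ha hm2L ham2 hfree2
  refine ⟨m1, hm1L, m2, hm2L, e, f, ham1, ham2, hm12, hem, hfm, hoe, hof, ?_⟩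
  intro u hu
  have hua : a ≠ u := by
    intro h
    exact hu kb hkb a ha b hb.2 hab hakb hbkb (h ▸ hakb)
  obtain ⟨k, hk, hak, huk⟩ := exists_line hL hua
  have hkmem : k ∈ La \ {kb, kc, kd} := by
    rw [Finset.mem_sdiff]
    refine ⟨(hLa k).mpr ⟨hk, hak⟩, ?_⟩
    simp only [Finset.mem_insert, Finset.mem_singleton, not_or]
    exact ⟨fun h => hu kb hkb a ha b hb.2 hab hakb hbkb (h ▸ huk),
      fun h => hu kc hkc a ha c hc.2 hac hakc hckc (h ▸ huk),
      fun h => hu kd hkd a ha d hd.2 had hakd hdkd (h ▸ huk)⟩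
  rw [hm] at hkmem
  rcases Finset.mem_insert.mp hkmem with h | h
  · left; exact hue u (h ▸ huk) hu
  · right; exact huf u ((Finset.mem_singleton.mp h) ▸ huk) hu

/-- Every quadrangle lies in exactly one hyperoval. -/
theorem hyperoval_unique {L : Set (Finset α)} (hα : Fintype.card α = 21)
    (hL : IsSteinerSystem 2 5 L) (S : Finset α)
    (hS : S.card = 4 ∧ ∀ l ∈ L, (l ∩ S).card ≤ 2) :
    ∃! H : Finset α, (H.card = 6 ∧ ∀ l ∈ L, (l ∩ H).card ≤ 2) ∧ S ⊆ H := by
  classical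
  obtain ⟨hS4, hSI⟩ := hS
  obtain ⟨a, ha⟩ : S.Nonempty := Finset.card_pos.mp (by omega)
  obtain ⟨m1, hm1, m2, hm2, e, f, ham1, ham2, hm12, hem, hfm, hoe, hof, hall⟩ :=
    pencil hα hL hS4 hSI ha
  have heS : e ∉ S := off_not_mem hL (by omega) hoe
  have hfS : f ∉ S := off_not_mem hL (by omega) hof
  have hef : e ≠ f := by
    intro h
    have hea : e ≠ a := fun h' => heS (h' ▸ ha)
    exact hm12 (line_unique hL hm1 hm2 hea hem ham1 (h ▸ hfm) ham2)
  have hcor : ∀ v ∈ S, ∀ l ∈ L, v ∈ l → e ∈ l → f ∈ l → False := by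
    intro v hv l hl hvl hel hfl
    obtain ⟨n1, hn1, n2, hn2, e', f', hvn1, hvn2, hn12, he'n, hf'n, hoe', hof', _⟩ :=
      pencil hα hL hS4 hSI hv
    have he'v : e' ≠ v := fun h => off_not_mem hL (by omega) hoe' (h ▸ hv)
    have hf'v : f' ≠ v := fun h => off_not_mem hL (by omega) hof' (h ▸ hv)
    have he'l : e' ∈ l := by
      rcases hall e' hoe' with h | h
      · rw [h]; exact hel
      · rw [h]; exact hfl
    have hf'l : f' ∈ l := by
      rcases hall f' hof' with h | h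
      · rw [h]; exact hel
      · rw [h]; exact hfl
    have h1 : l = n1 := line_unique hL hl hn1 he'v he'l hvl he'n hvn1
    have h2 : l = n2 := line_unique hL hl hn2 hf'v hf'l hvl hf'n hvn2
    exact hn12 (h1.symm.trans h2)
  have hInd : ∀ l ∈ L, (l ∩ (S ∪ {e, f})).card ≤ 2 := by
    intro l hl
    by_contra hgt
    rw [not_le] at hgt
    obtain ⟨x, hx, y, hy, z, hz, hxy, hxz, hyz⟩ := Finset.two_lt_card.mp hgt
    rw [Finset.mem_inter, Finset.mem_union] at hx hy hz
    have hbad : ∀ p q r, p ∈ l → q ∈ l → r ∈ l → p ≠ q → p ≠ r → q ≠ r → p ∈ S → q ∈ S →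
        (r ∈ S ∨ r ∈ ({e, f} : Finset α)) → False := by
      intro p q r hp hq hr hpq hpr hqr hpS hqS hrm
      rcases hrm with hrS | hr'
      · exact ind_third hSI hl hpS hqS hrS hpq hpr hqr hp hq hr
      · rcases Finset.mem_insert.mp hr' with h | h
        · exact hoe l hl p hpS q hqS hpq hp hq (h ▸ hr)
        · exact hof l hl p hpS q hqS hpq hp hq ((Finset.mem_singleton.mp h) ▸ hr)
    have hefl : ∀ p q, p ≠ q → p ∈ ({e, f} : Finset α) → q ∈ ({e, f} : Finset α) → p ∈ l →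
        q ∈ l → e ∈ l ∧ f ∈ l := by
      intro p q hpq hp hq hpl hql
      simp only [Finset.mem_insert, Finset.mem_singleton] at hp hq
      rcases hp with hp | hp <;> rcases hq with hq | hq
      · exact absurd (hp.trans hq.symm) hpq
      · exact ⟨hp ▸ hpl, hq ▸ hql⟩
      · exact ⟨hq ▸ hql, hp ▸ hpl⟩
      · exact absurd (hp.trans hq.symm) hpq
    rcases hx.2 with hxS | hxE
    · rcases hy.2 with hyS | hyE
      · exact hbad x y z hx.1 hy.1 hz.1 hxy hxz hyz hxS hyS hz.2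
      · rcases hz.2 with hzS | hzE
        · exact hbad x z y hx.1 hz.1 hy.1 hxz hxy (Ne.symm hyz) hxS hzS (Or.inr hyE)
        · obtain ⟨h1, h2⟩ := hefl y z hyz hyE hzE hy.1 hz.1
          exact hcor x hxS l hl hx.1 h1 h2
    · rcases hy.2 with hyS | hyE
      · rcases hz.2 with hzS | hzE
        · exact hbad y z x hy.1 hz.1 hx.1 hyz (Ne.symm hxy) (Ne.symm hxz) hyS hzS (Or.inr hxE)
        · obtain ⟨h1, h2⟩ := hefl x z hxz hxE hzE hx.1 hz.1
          exact hcor y hyS l hl hy.1 h1 h2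
      · obtain ⟨h1, h2⟩ := hefl x y hxy hxE hyE hx.1 hy.1
        rcases hz.2 with hzS | hzE
        · exact hcor z hzS l hl hz.1 h1 h2
        · simp only [Finset.mem_insert, Finset.mem_singleton] at hxE hyE hzE
          rcases hxE with hxe | hxf <;> rcases hyE with hye | hyf <;> rcases hzE with hze | hzf
          · exact hxy (hxe.trans hye.symm)
          · exact hxy (hxe.trans hye.symm)
          · exact hxz (hxe.trans hze.symm)
          · exact hyz (hyf.trans hzf.symm)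
          · exact hyz (hye.trans hze.symm)
          · exact hxz (hxf.trans hzf.symm)
          · exact hxy (hxf.trans hyf.symm)
          · exact hxy (hxf.trans hyf.symm)
  have hdisj : Disjoint S ({e, f} : Finset α) := by
    rw [Finset.disjoint_right]
    intro x hx hxS
    rcases Finset.mem_insert.mp hx with h | h
    · exact heS (h ▸ hxS)
    · exact hfS ((Finset.mem_singleton.mp h) ▸ hxS)
  refine ⟨S ∪ {e, f}, ⟨⟨?_, hInd⟩, Finset.subset_union_left⟩, ?_⟩
  · rw [Finset.card_union_of_disjoint hdisj, hS4, Finset.card_pair hef]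
  · rintro H ⟨⟨hH6, hHI⟩, hSH⟩
    have hsub : H \ S ⊆ {e, f} := by
      intro u hu
      rw [Finset.mem_sdiff] at hu
      have hou : Off L S u := by
        intro l hl x hx y hy hxy hxl hyl hul
        have hux : x ≠ u := fun h => hu.2 (h ▸ hx)
        have huy : y ≠ u := fun h => hu.2 (h ▸ hy)
        have hs3 : ({x, y, u} : Finset α) ⊆ l ∩ H := by
          intro w hw
          simp only [Finset.mem_insert, Finset.mem_singleton] at hw
          rcases hw with rfl | rfl | rfl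
          · exact Finset.mem_inter.mpr ⟨hxl, hSH hx⟩
          · exact Finset.mem_inter.mpr ⟨hyl, hSH hy⟩
          · exact Finset.mem_inter.mpr ⟨hul, hu.1⟩
        have h3 : ({x, y, u} : Finset α).card = 3 :=
          Finset.card_eq_three.mpr ⟨x, y, u, hxy, hux, huy, rfl⟩
        have h1 := Finset.card_le_card hs3
        have h2 := hHI l hl
        omega
      rcases hall u hou with h | h <;> simp [h]
    have hcard : (H \ S).card = 2 := by rw [Finset.card_sdiff_of_subset hSH, hH6, hS4]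
    have heq : H \ S = {e, f} :=
      Finset.eq_of_subset_of_card_le hsub (by rw [hcard, Finset.card_pair hef])
    rw [← heq, Finset.union_sdiff_of_subset hSH]


/-- From the number of quadrangles to the number of hyperovals. -/
theorem hyperoval_count (L : Set (Finset α))
    (h4 : {S : Finset α | S.card = 4 ∧ ∀ l ∈ L, (l ∩ S).card ≤ 2}.ncard = 2520)
    (hC : ∀ S : Finset α, (S.card = 4 ∧ ∀ l ∈ L, (l ∩ S).card ≤ 2) →
      ∃! H : Finset α, (H.card = 6 ∧ ∀ l ∈ L, (l ∩ H).card ≤ 2) ∧ S ⊆ H) :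
    {H : Finset α | H.card = 6 ∧ ∀ l ∈ L, (l ∩ H).card ≤ 2}.ncard = 168 := by
  classical
  let I4 : Finset (Finset α) :=
    Finset.univ.filter (fun S => S.card = 4 ∧ ∀ l ∈ L, (l ∩ S).card ≤ 2)
  let I6 : Finset (Finset α) :=
    Finset.univ.filter (fun H => H.card = 6 ∧ ∀ l ∈ L, (l ∩ H).card ≤ 2)
  have m4 : ∀ S, S ∈ I4 ↔ (S.card = 4 ∧ ∀ l ∈ L, (l ∩ S).card ≤ 2) := by intro S; simp [I4]
  have m6 : ∀ H, H ∈ I6 ↔ (H.card = 6 ∧ ∀ l ∈ L, (l ∩ H).card ≤ 2) := by intro H; simp [I6]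
  have e4 : {S : Finset α | S.card = 4 ∧ ∀ l ∈ L, (l ∩ S).card ≤ 2} = ↑I4 := by
    ext S; exact (m4 S).symm
  have e6 : {H : Finset α | H.card = 6 ∧ ∀ l ∈ L, (l ∩ H).card ≤ 2} = ↑I6 := by
    ext H; exact (m6 H).symm
  rw [e4, Set.ncard_coe_finset] at h4
  rw [e6, Set.ncard_coe_finset]
  have hsubI : ∀ H, (H.card = 6 ∧ ∀ l ∈ L, (l ∩ H).card ≤ 2) → ∀ S, S ⊆ H → S.card = 4 →
      (S.card = 4 ∧ ∀ l ∈ L, (l ∩ S).card ≤ 2) := by
    intro H hH S hSH hS4
    exact ⟨hS4, fun l hl => le_trans (Finset.card_le_card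
      (Finset.inter_subset_inter (Finset.Subset.refl l) hSH)) (hH.2 l hl)⟩
  have hU : I4 = I6.biUnion (fun H => H.powersetCard 4) := by
    ext S
    rw [Finset.mem_biUnion]
    constructor
    · intro hS
      have hS' := (m4 S).mp hS
      obtain ⟨H, ⟨hH, hSH⟩, _⟩ := hC S hS'
      exact ⟨H, (m6 H).mpr hH, Finset.mem_powersetCard.mpr ⟨hSH, hS'.1⟩⟩
    · rintro ⟨H, hH, hS⟩
      rw [Finset.mem_powersetCard] at hS
      exact (m4 S).mpr (hsubI H ((m6 H).mp hH) S hS.1 hS.2)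
  have hdisj : ∀ H ∈ I6, ∀ H' ∈ I6, H ≠ H' →
      Disjoint (H.powersetCard 4) (H'.powersetCard 4) := by
    intro H hH H' hH' hne
    rw [Finset.disjoint_left]
    intro S hS hS'
    rw [Finset.mem_powersetCard] at hS hS'
    have hH1 := (m6 H).mp hH
    have hH2 := (m6 H').mp hH'
    exact hne ((hC S (hsubI H hH1 S hS.1 hS.2)).unique ⟨hH1, hS.1⟩ ⟨hH2, hS'.1⟩)
  have hc := congrArg Finset.card hU
  rw [Finset.card_biUnion hdisj, h4] at hc
  have h15 : ∀ H ∈ I6, (H.powersetCard 4).card = 15 := by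
    intro H hH
    rw [Finset.card_powersetCard, ((m6 H).mp hH).1]
    rfl
  rw [Finset.sum_congr rfl h15, Finset.sum_const, smul_eq_mul] at hc
  omega


theorem insert_ind_iff {L : Set (Finset α)} {T : Finset α} (hT : ∀ l ∈ L, (l ∩ T).card ≤ 2)
    {r : α} (hr : r ∉ T) : (∀ l ∈ L, (l ∩ insert r T).card ≤ 2) ↔ Off L T r := by
  constructor
  · intro h l hl x hx y hy hxy hxl hyl hrl
    have hsub : ({x, y, r} : Finset α) ⊆ l ∩ insert r T := by
      intro w hw
      simp only [Finset.mem_insert, Finset.mem_singleton] at hw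
      rcases hw with rfl | rfl | rfl
      · exact Finset.mem_inter.mpr ⟨hxl, Finset.mem_insert_of_mem hx⟩
      · exact Finset.mem_inter.mpr ⟨hyl, Finset.mem_insert_of_mem hy⟩
      · exact Finset.mem_inter.mpr ⟨hrl, Finset.mem_insert_self _ _⟩
    have h3 : ({x, y, r} : Finset α).card = 3 :=
      Finset.card_eq_three.mpr ⟨x, y, r, hxy, fun h => hr (h ▸ hx), fun h => hr (h ▸ hy), rfl⟩
    have h1 := Finset.card_le_card hsub
    have h2 := h l hl
    omega
  · intro hoff l hl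
    by_contra hgt
    rw [not_le] at hgt
    obtain ⟨x, hx, y, hy, z, hz, hxy, hxz, hyz⟩ := Finset.two_lt_card.mp hgt
    rw [Finset.mem_inter, Finset.mem_insert] at hx hy hz
    have hbad : ∀ p q w, p ∈ l → q ∈ l → w ∈ l → p ≠ q → p ≠ w → q ≠ w → p ∈ T → q ∈ T →
        (w = r ∨ w ∈ T) → False := by
      intro p q w hp hq hw hpq hpw hqw hpT hqT hwm
      rcases hwm with h | h
      · exact hoff l hl p hpT q hqT hpq hp hq (h ▸ hw)
      · exact ind_third hT hl hpT hqT h hpq hpw hqw hp hq hw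
    rcases hx.2 with hxr | hxT
    · rcases hy.2 with hyr | hyT
      · exact hxy (hxr.trans hyr.symm)
      · rcases hz.2 with hzr | hzT
        · exact hxz (hxr.trans hzr.symm)
        · exact hbad y z x hy.1 hz.1 hx.1 hyz (Ne.symm hxy) (Ne.symm hxz) hyT hzT (Or.inl hxr)
    · rcases hy.2 with hyr | hyT
      · rcases hz.2 with hzr | hzT
        · exact hyz (hyr.trans hzr.symm)
        · exact hbad x z y hx.1 hz.1 hy.1 hxz hxy (Ne.symm hyz) hxT hzT (Or.inl hyr)
      · exact hbad x y z hx.1 hy.1 hz.1 hxy hxz hyz hxT hyT hz.2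

/-- Nine points lie off the three sides of a triangle. -/
theorem card_off_triple {L : Set (Finset α)} (hα : Fintype.card α = 21)
    (hL : IsSteinerSystem 2 5 L) {T : Finset α} (hT3 : T.card = 3)
    (hT : ∀ l ∈ L, (l ∩ T).card ≤ 2) (R : Finset α) (hR : ∀ r, r ∈ R ↔ Off L T r) :
    R.card = 9 := by
  classical
  obtain ⟨a, b, c, hab, hac, hbc, rfl⟩ := Finset.card_eq_three.mp hT3
  have haT : a ∈ ({a, b, c} : Finset α) := by simp
  have hbT : b ∈ ({a, b, c} : Finset α) := by simp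
  have hcT : c ∈ ({a, b, c} : Finset α) := by simp
  obtain ⟨l1, hl1, hal1, hbl1⟩ := exists_line hL hab
  obtain ⟨l2, hl2, hal2, hcl2⟩ := exists_line hL hac
  obtain ⟨l3, hl3, hbl3, hcl3⟩ := exists_line hL hbc
  have hcl1 : c ∉ l1 := ind_third hT hl1 haT hbT hcT hab hac hbc hal1 hbl1
  have hal3 : a ∉ l3 := ind_third hT hl3 hbT hcT haT hbc (Ne.symm hab) (Ne.symm hac) hbl3 hcl3
  have hReq : R = Finset.univ \ (l1 ∪ l2 ∪ l3) := by
    ext r
    rw [hR, Finset.mem_sdiff, Finset.mem_union, Finset.mem_union]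
    constructor
    · intro ho
      refine ⟨Finset.mem_univ _, ?_⟩
      rintro ((h | h) | h)
      · exact ho l1 hl1 a haT b hbT hab hal1 hbl1 h
      · exact ho l2 hl2 a haT c hcT hac hal2 hcl2 h
      · exact ho l3 hl3 b hbT c hcT hbc hbl3 hcl3 h
    · rintro ⟨_, hn⟩ l hl x hx y hy hxy hxl hyl hrl
      simp only [Finset.mem_insert, Finset.mem_singleton] at hx hy
      have : l = l1 ∨ l = l2 ∨ l = l3 := by
        rcases hx with hx | hx | hx <;> rcases hy with hy | hy | hy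
        · exact absurd (hx.trans hy.symm) hxy
        · exact Or.inl (line_unique hL hl hl1 hab (hx ▸ hxl) (hy ▸ hyl) hal1 hbl1)
        · exact Or.inr (Or.inl (line_unique hL hl hl2 hac (hx ▸ hxl) (hy ▸ hyl) hal2 hcl2))
        · exact Or.inl (line_unique hL hl hl1 hab (hy ▸ hyl) (hx ▸ hxl) hal1 hbl1)
        · exact absurd (hx.trans hy.symm) hxy
        · exact Or.inr (Or.inr (line_unique hL hl hl3 hbc (hx ▸ hxl) (hy ▸ hyl) hbl3 hcl3))
        · exact Or.inr (Or.inl (line_unique hL hl hl2 hac (hy ▸ hyl) (hx ▸ hxl) hal2 hcl2))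
        · exact Or.inr (Or.inr (line_unique hL hl hl3 hbc (hy ▸ hyl) (hx ▸ hxl) hbl3 hcl3))
        · exact absurd (hx.trans hy.symm) hxy
      rcases this with h | h | h
      · exact hn (Or.inl (Or.inl (h ▸ hrl)))
      · exact hn (Or.inl (Or.inr (h ▸ hrl)))
      · exact hn (Or.inr (h ▸ hrl))
  have h12 : l1 ∩ l2 = {a} := by
    ext x
    rw [Finset.mem_inter, Finset.mem_singleton]
    constructor
    · rintro ⟨h1, h2⟩
      by_contra hxa
      exact hcl1 ((line_unique hL hl1 hl2 hxa h1 hal1 h2 hal2) ▸ hcl2)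
    · rintro rfl; exact ⟨hal1, hal2⟩
  have h123 : (l1 ∪ l2) ∩ l3 = {b, c} := by
    ext x
    rw [Finset.mem_inter, Finset.mem_union, Finset.mem_insert, Finset.mem_singleton]
    constructor
    · rintro ⟨h1 | h2, h3⟩
      · left
        by_contra hxb
        exact hal3 ((line_unique hL hl1 hl3 hxb h1 hbl1 h3 hbl3) ▸ hal1)
      · right
        by_contra hxc
        exact hal3 ((line_unique hL hl2 hl3 hxc h2 hcl2 h3 hcl3) ▸ hal2)
    · rintro (rfl | rfl)
      · exact ⟨Or.inl hbl1, hbl3⟩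
      · exact ⟨Or.inr hcl2, hcl3⟩
  have c12 := Finset.card_union_add_card_inter l1 l2
  rw [h12, Finset.card_singleton, hL.1 l1 hl1, hL.1 l2 hl2] at c12
  have c123 := Finset.card_union_add_card_inter (l1 ∪ l2) l3
  rw [h123, Finset.card_pair hbc, hL.1 l3 hl3] at c123
  rw [hReq, Finset.card_sdiff_of_subset (Finset.subset_univ _), Finset.card_univ, hα]
  omega

/-- From the number of triangles to the number of quadrangles. -/
theorem ind4_count {L : Set (Finset α)} (hα : Fintype.card α = 21) (hL : IsSteinerSystem 2 5 L)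
    (h3 : {T : Finset α | T.card = 3 ∧ ∀ l ∈ L, (l ∩ T).card ≤ 2}.ncard = 1120) :
    {S : Finset α | S.card = 4 ∧ ∀ l ∈ L, (l ∩ S).card ≤ 2}.ncard = 2520 := by
  classical
  let I3 : Finset (Finset α) :=
    Finset.univ.filter (fun T => T.card = 3 ∧ ∀ l ∈ L, (l ∩ T).card ≤ 2)
  let I4 : Finset (Finset α) :=
    Finset.univ.filter (fun S => S.card = 4 ∧ ∀ l ∈ L, (l ∩ S).card ≤ 2)
  have m3 : ∀ T, T ∈ I3 ↔ (T.card = 3 ∧ ∀ l ∈ L, (l ∩ T).card ≤ 2) := by intro T; simp [I3]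
  have m4 : ∀ S, S ∈ I4 ↔ (S.card = 4 ∧ ∀ l ∈ L, (l ∩ S).card ≤ 2) := by intro S; simp [I4]
  have e3 : {T : Finset α | T.card = 3 ∧ ∀ l ∈ L, (l ∩ T).card ≤ 2} = ↑I3 := by
    ext T; exact (m3 T).symm
  have e4 : {S : Finset α | S.card = 4 ∧ ∀ l ∈ L, (l ∩ S).card ≤ 2} = ↑I4 := by
    ext S; exact (m4 S).symm
  rw [e3, Set.ncard_coe_finset] at h3
  rw [e4, Set.ncard_coe_finset]
  have hdc := Finset.sum_card_bipartiteAbove_eq_sum_card_bipartiteBelow (s := I3) (t := I4)
    (fun T S => T ⊆ S)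
  have hleft : ∀ T ∈ I3, (I4.bipartiteAbove (fun T S => T ⊆ S) T).card = 9 := by
    intro T hT
    have hT' := (m3 T).mp hT
    let R : Finset α := Finset.univ.filter (fun r => Off L T r)
    have hRm : ∀ r, r ∈ R ↔ Off L T r := by intro r; simp [R]
    have h9 := card_off_triple hα hL hT'.1 hT'.2 R hRm
    rw [← h9]
    symm
    apply Finset.card_bij (fun r _ => insert r T)
    · intro r hr
      have hoff := (hRm r).mp hr
      have hrT : r ∉ T := off_not_mem hL (by omega) hoff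
      rw [Finset.mem_bipartiteAbove]
      exact ⟨(m4 _).mpr ⟨by rw [Finset.card_insert_of_notMem hrT, hT'.1],
        (insert_ind_iff hT'.2 hrT).mpr hoff⟩, Finset.subset_insert _ _⟩
    · intro r1 hr1 r2 hr2 heq
      have hr1T : r1 ∉ T := off_not_mem hL (by omega) ((hRm r1).mp hr1)
      have : r1 ∈ insert r2 T := heq ▸ Finset.mem_insert_self r1 T
      rcases Finset.mem_insert.mp this with h | h
      · exact h
      · exact absurd h hr1T
    · intro S hS
      rw [Finset.mem_bipartiteAbove] at hS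
      have hS' := (m4 S).mp hS.1
      have hc1 : (S \ T).card = 1 := by rw [Finset.card_sdiff_of_subset hS.2, hS'.1, hT'.1]
      obtain ⟨r, hr⟩ := Finset.card_eq_one.mp hc1
      have hrm : r ∈ S \ T := by rw [hr]; exact Finset.mem_singleton_self r
      rw [Finset.mem_sdiff] at hrm
      have hSeq : insert r T = S := by
        rw [Finset.insert_eq, ← hr, Finset.union_comm, Finset.union_sdiff_of_subset hS.2]
      exact ⟨r, (hRm r).mpr ((insert_ind_iff hT'.2 hrm.2).mp (hSeq ▸ hS'.2)), hSeq⟩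
  have hright : ∀ S ∈ I4, (I3.bipartiteBelow (fun T S => T ⊆ S) S).card = 4 := by
    intro S hS
    have hS' := (m4 S).mp hS
    have : I3.bipartiteBelow (fun T S => T ⊆ S) S = S.powersetCard 3 := by
      ext T
      rw [Finset.mem_bipartiteBelow, Finset.mem_powersetCard, m3]
      constructor
      · rintro ⟨⟨h1, _⟩, h2⟩; exact ⟨h2, h1⟩
      · rintro ⟨h2, h1⟩
        exact ⟨⟨h1, fun l hl => le_trans (Finset.card_le_card
          (Finset.inter_subset_inter (Finset.Subset.refl l) h2)) (hS'.2 l hl)⟩, h2⟩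
    rw [this, Finset.card_powersetCard, hS'.1]; rfl
  rw [Finset.sum_congr rfl hleft, Finset.sum_congr rfl hright, Finset.sum_const,
    Finset.sum_const, smul_eq_mul, smul_eq_mul, h3] at hdc
  omega

end Cfsg.Agent.Lib.helper28.Plane4
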