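import Cfsg.Agent.Lib.helper28.Plane4
import Cfsg.Agent.S5627

set_option autoImplicit false
set_option linter.unusedSectionVars false
set_option linter.unusedVariables false

namespace Cfsg.Agent.Lib.helper28.Plane4

open Cfsg

section
variable {α : Type*} [Fintype α] [DecidableEq α]

/-- A hyperoval has no tangent lines. -/
theorem no_tangent {L : Set (Finset α)} (hα : Fintype.card α = 21) (hL : IsSteinerSystem 2 5 L)
    {H : Finset α} (hH6 : H.card = 6) (hHI : ∀ l ∈ L, (l ∩ H).card ≤ 2) {l : Finset α}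
    (hl : l ∈ L) {x : α} (hx : x ∈ H) (hxl : x ∈ l) : ∃ y ∈ H, y ≠ x ∧ y ∈ l := by
  classical
  let Lx : Finset (Finset α) := Finset.univ.filter (fun k => k ∈ L ∧ x ∈ k)
  have hLx : ∀ k, k ∈ Lx ↔ k ∈ L ∧ x ∈ k := by intro k; simp [Lx]
  have h5 := card_pencil hα hL x Lx hLx
  by_contra hno
  have hsub : H.erase x ⊆ (Lx.erase l).biUnion (fun k => (H.erase x) ∩ k) := by
    intro y hy
    have hy' := Finset.mem_erase.mp hy
    obtain ⟨k, hk, hxk, hyk⟩ := exists_line hL (Ne.symm hy'.1)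
    rw [Finset.mem_biUnion]
    refine ⟨k, Finset.mem_erase.mpr ⟨?_, (hLx k).mpr ⟨hk, hxk⟩⟩, Finset.mem_inter.mpr ⟨hy, hyk⟩⟩
    intro hkl
    exact hno ⟨y, hy'.2, hy'.1, hkl ▸ hyk⟩
  have h1 : ∀ k ∈ Lx.erase l, ((H.erase x) ∩ k).card ≤ 1 := by
    intro k hk
    have hk' := (hLx k).mp (Finset.mem_of_mem_erase hk)
    by_contra hgt
    rw [not_le] at hgt
    obtain ⟨y, hy, z, hz, hyz⟩ := Finset.one_lt_card.mp hgt
    rw [Finset.mem_inter, Finset.mem_erase] at hy hz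
    exact ind_third hHI hk'.1 hx hy.1.2 hz.1.2 (Ne.symm hy.1.1) (Ne.symm hz.1.1) hyz hk'.2 hy.2
      hz.2
  have hcard : ((Lx.erase l).biUnion (fun k => (H.erase x) ∩ k)).card ≤ 4 := by
    refine le_trans Finset.card_biUnion_le ?_
    refine le_trans (Finset.sum_le_card_nsmul _ _ 1 h1) ?_
    rw [Finset.card_erase_of_mem ((hLx l).mpr ⟨hl, hxl⟩), h5]
    simp
  have h6 := Finset.card_le_card hsub
  rw [Finset.card_erase_of_mem hx, hH6] at h6
  omega

/-- `p` lies on the secant through `x, y ∈ H`. -/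
def Sec (L : Set (Finset α)) (H : Finset α) (p x y : α) : Prop :=
  x ∈ H ∧ y ∈ H ∧ x ≠ y ∧ ∃ l ∈ L, p ∈ l ∧ x ∈ l ∧ y ∈ l

theorem sec_exists {L : Set (Finset α)} (hα : Fintype.card α = 21) (hL : IsSteinerSystem 2 5 L)
    {H : Finset α} (hH6 : H.card = 6) (hHI : ∀ l ∈ L, (l ∩ H).card ≤ 2) {p x : α} (hp : p ∉ H)
    (hx : x ∈ H) : ∃ y, Sec L H p x y := by
  have hpx : p ≠ x := fun h => hp (h ▸ hx)
  obtain ⟨l, hl, hpl, hxl⟩ := exists_line hL hpx
  obtain ⟨y, hy, hyx, hyl⟩ := no_tangent hα hL hH6 hHI hl hx hxl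
  exact ⟨y, hx, hy, Ne.symm hyx, l, hl, hpl, hxl, hyl⟩

theorem sec_unique {L : Set (Finset α)} (hL : IsSteinerSystem 2 5 L) {H : Finset α}
    (hHI : ∀ l ∈ L, (l ∩ H).card ≤ 2) {p x y y' : α} (hp : p ∉ H) (h : Sec L H p x y)
    (h' : Sec L H p x y') : y = y' := by
  obtain ⟨hx, hy, hxy, l, hl, hpl, hxl, hyl⟩ := h
  obtain ⟨_, hy', hxy', l', hl', hpl', hxl', hyl'⟩ := h'
  have hpx : p ≠ x := fun h => hp (h ▸ hx)
  have hll : l = l' := line_unique hL hl hl' hpx hpl hxl hpl' hxl'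
  by_contra hne
  exact ind_third hHI hl hx hy hy' hxy hxy' hne hxl hyl (hll ▸ hyl')

theorem sec_symm {L : Set (Finset α)} {H : Finset α} {p x y : α} (h : Sec L H p x y) :
    Sec L H p y x := by
  obtain ⟨hx, hy, hxy, l, hl, hpl, hxl, hyl⟩ := h
  exact ⟨hy, hx, Ne.symm hxy, l, hl, hpl, hyl, hxl⟩

theorem sec_inj {L : Set (Finset α)} (hα : Fintype.card α = 21) (hL : IsSteinerSystem 2 5 L)
    {H : Finset α} (hH6 : H.card = 6) (hHI : ∀ l ∈ L, (l ∩ H).card ≤ 2) {p q : α} (hp : p ∉ H)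
    (hq : q ∉ H) (h : ∀ x y, Sec L H p x y → Sec L H q x y) : p = q := by
  obtain ⟨x, hx⟩ : H.Nonempty := Finset.card_pos.mp (by omega)
  obtain ⟨y, hS1⟩ := sec_exists hα hL hH6 hHI hp hx
  have hy := hS1.2.1
  have hc : 0 < ((H.erase x).erase y).card := by
    rw [Finset.card_erase_of_mem (Finset.mem_erase.mpr ⟨Ne.symm hS1.2.2.1, hy⟩),
      Finset.card_erase_of_mem hx, hH6]
    norm_num
  obtain ⟨x', hx'⟩ := Finset.card_pos.mp hc
  rw [Finset.mem_erase, Finset.mem_erase] at hx'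
  obtain ⟨hx'y, hx'x, hx'H⟩ := hx'
  obtain ⟨y', hS2⟩ := sec_exists hα hL hH6 hHI hp hx'H
  have hS1q := h x y hS1
  have hS2q := h x' y' hS2
  obtain ⟨_, _, hne1, l1, hl1, hpl1, hxl1, hyl1⟩ := hS1
  obtain ⟨_, _, hne2, l2, hl2, hpl2, hx'l2, hy'l2⟩ := hS2
  obtain ⟨_, _, _, k1, hk1, hqk1, hxk1, hyk1⟩ := hS1q
  obtain ⟨_, _, _, k2, hk2, hqk2, hx'k2, hy'k2⟩ := hS2q
  have hl12 : l1 ≠ l2 := by
    intro h12
    exact ind_third hHI hl1 hx hy hx'H hne1 (Ne.symm hx'x) (Ne.symm hx'y) hxl1 hyl1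
      (h12 ▸ hx'l2)
  have e1 : k1 = l1 := line_unique hL hk1 hl1 hne1 hxk1 hyk1 hxl1 hyl1
  have e2 : k2 = l2 := line_unique hL hk2 hl2 hne2 hx'k2 hy'k2 hx'l2 hy'l2
  by_contra hpq
  exact hl12 (line_unique hL hl1 hl2 hpq hpl1 (e1 ▸ hqk1) hpl2 (e2 ▸ hqk2))

theorem six_rest {H : Finset α} (h6 : H.card = 6) {a b c d e y z : α} (ha : a ∈ H) (hb : b ∈ H)
    (hc : c ∈ H) (hd : d ∈ H) (he : e ∈ H) (hab : a ≠ b) (hac : a ≠ c) (had : a ≠ d)
    (hae : a ≠ e) (hbc : b ≠ c) (hbd : b ≠ d) (hbe : b ≠ e) (hcd : c ≠ d) (hce : c ≠ e)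
    (hde : d ≠ e) (hy : y ∈ H) (hz : z ∈ H)
    (hy' : y ≠ a ∧ y ≠ b ∧ y ≠ c ∧ y ≠ d ∧ y ≠ e)
    (hz' : z ≠ a ∧ z ≠ b ∧ z ≠ c ∧ z ≠ d ∧ z ≠ e) : y = z := by
  have hT : ({a, b, c, d, e} : Finset α).card = 5 := by
    rw [Finset.card_insert_of_notMem, Finset.card_insert_of_notMem, Finset.card_insert_of_notMem,
      Finset.card_insert_of_notMem, Finset.card_singleton]
    · simp [hde]
    · simp [hcd, hce]
    · simp [hbc, hbd, hbe]
    · simp [hab, hac, had, hae]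
  have hsub : ({a, b, c, d, e} : Finset α) ⊆ H := by
    intro w hw
    simp only [Finset.mem_insert, Finset.mem_singleton] at hw
    rcases hw with rfl | rfl | rfl | rfl | rfl <;> assumption
  have h1 : (H \ {a, b, c, d, e}).card = 1 := by
    rw [Finset.card_sdiff_of_subset hsub, h6, hT]
  have hym : y ∈ H \ {a, b, c, d, e} := by
    rw [Finset.mem_sdiff]
    refine ⟨hy, ?_⟩
    simp only [Finset.mem_insert, Finset.mem_singleton, not_or]
    exact hy'
  have hzm : z ∈ H \ {a, b, c, d, e} := by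
    rw [Finset.mem_sdiff]
    refine ⟨hz, ?_⟩
    simp only [Finset.mem_insert, Finset.mem_singleton, not_or]
    exact hz'
  exact Finset.card_le_one.mp (le_of_eq h1) y hym z hzm

end


/-- A bijection between hyperovals of two planes of order 4 extends to an isomorphism of the
planes (given the collinearity lemma `hcol` for the second plane). -/
theorem ext_core {α β : Type*} [Fintype α] [DecidableEq α] [Fintype β] [DecidableEq β]
    (hα : Fintype.card α = 21) (hβ : Fintype.card β = 21)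
    {L : Set (Finset α)} {L' : Set (Finset β)} (hL : IsSteinerSystem 2 5 L)
    (hL' : IsSteinerSystem 2 5 L')
    {H : Finset α} (hH6 : H.card = 6) (hHI : ∀ l ∈ L, (l ∩ H).card ≤ 2)
    {H' : Finset β} (hH'6 : H'.card = 6) (hH'I : ∀ l ∈ L', (l ∩ H').card ≤ 2)
    (hcol : ∀ X : Finset β, X.card = 5 → (∀ u ∈ X, u ∉ H') →
      (∀ u ∈ X, ∀ v ∈ X, u ≠ v → ∀ l ∈ L', u ∈ l → v ∈ l → ∀ x ∈ H', x ∉ l) → X ∈ L')
    (f : α → β) (hfH : ∀ x ∈ H, f x ∈ H') (hfinj : ∀ x ∈ H, ∀ y ∈ H, f x = f y → x = y) :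
    ∃ e : α ≃ β, (∀ x ∈ H, e x = f x) ∧ (fun b : Finset α => b.image e) '' L = L' := by
  classical
  have hsurj : ∀ a' ∈ H', ∃ a ∈ H, f a = a' := by
    have himg : H.image f = H' := by
      apply Finset.eq_of_subset_of_card_le
      · intro b hb
        obtain ⟨a, ha, rfl⟩ := Finset.mem_image.mp hb
        exact hfH a ha
      · rw [Finset.card_image_of_injOn (fun x hx y hy h => hfinj x hx y hy h), hH6, hH'6]
    intro a' ha'
    rw [← himg] at ha'
    obtain ⟨a, ha, rfl⟩ := Finset.mem_image.mp ha'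
    exact ⟨a, ha, rfl⟩
  have hex : ∀ p, p ∉ H → ∃ q, q ∉ H' ∧ ∀ x y, Sec L H p x y → Sec L' H' q (f x) (f y) := by
    intro p hp
    obtain ⟨x0, hx0⟩ : H.Nonempty := Finset.card_pos.mp (by omega)
    obtain ⟨y0, hS0⟩ := sec_exists hα hL hH6 hHI hp hx0
    have hy0 := hS0.2.1
    have hxy0 := hS0.2.2.1
    have hc : 0 < ((H.erase x0).erase y0).card := by
      rw [Finset.card_erase_of_mem (Finset.mem_erase.mpr ⟨Ne.symm hxy0, hy0⟩),
        Finset.card_erase_of_mem hx0, hH6]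
      norm_num
    obtain ⟨x1, hx1⟩ := Finset.card_pos.mp hc
    rw [Finset.mem_erase, Finset.mem_erase] at hx1
    obtain ⟨hx1y0, hx1x0, hx1H⟩ := hx1
    obtain ⟨y1, hS1⟩ := sec_exists hα hL hH6 hHI hp hx1H
    have hy1 := hS1.2.1
    have hxy1 := hS1.2.2.1
    have hy1x0 : y1 ≠ x0 := by
      intro h
      exact hx1y0 (sec_unique hL hHI hp (sec_symm (h ▸ hS1)) hS0)
    have hy1y0 : y1 ≠ y0 := by
      intro h
      exact hx1x0 (sec_unique hL hHI hp (sec_symm (h ▸ hS1)) (sec_symm hS0))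
    have ha := hfH x0 hx0
    have hb := hfH y0 hy0
    have hc' := hfH x1 hx1H
    have hd := hfH y1 hy1
    have hab : f x0 ≠ f y0 := fun h => hxy0 (hfinj x0 hx0 y0 hy0 h)
    have hcd : f x1 ≠ f y1 := fun h => hxy1 (hfinj x1 hx1H y1 hy1 h)
    have hac : f x0 ≠ f x1 := fun h => hx1x0 (hfinj x0 hx0 x1 hx1H h).symm
    have had : f x0 ≠ f y1 := fun h => hy1x0 (hfinj x0 hx0 y1 hy1 h).symm
    have hbc : f y0 ≠ f x1 := fun h => hx1y0 (hfinj y0 hy0 x1 hx1H h).symm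
    have hbd : f y0 ≠ f y1 := fun h => hy1y0 (hfinj y0 hy0 y1 hy1 h).symm
    obtain ⟨k1, hk1, hak1, hbk1⟩ := exists_line hL' hab
    obtain ⟨k2, hk2, hck2, hdk2⟩ := exists_line hL' hcd
    obtain ⟨q, hqk1, hqk2⟩ := exists_common hβ hL' hk1 hk2
    have hqH : q ∉ H' := by
      intro hq
      have h1 : q = f x0 ∨ q = f y0 := by
        by_contra hno
        rw [not_or] at hno
        exact ind_third hH'I hk1 ha hb hq hab (Ne.symm hno.1) (Ne.symm hno.2) hak1 hbk1 hqk1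
      have h2 : q = f x1 ∨ q = f y1 := by
        by_contra hno
        rw [not_or] at hno
        exact ind_third hH'I hk2 hc' hd hq hcd (Ne.symm hno.1) (Ne.symm hno.2) hck2 hdk2 hqk2
      rcases h1 with h1 | h1 <;> rcases h2 with h2 | h2
      · exact hac (h1.symm.trans h2)
      · exact had (h1.symm.trans h2)
      · exact hbc (h1.symm.trans h2)
      · exact hbd (h1.symm.trans h2)
    have hQ0 : Sec L' H' q (f x0) (f y0) := ⟨ha, hb, hab, k1, hk1, hqk1, hak1, hbk1⟩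
    have hQ1 : Sec L' H' q (f x1) (f y1) := ⟨hc', hd, hcd, k2, hk2, hqk2, hck2, hdk2⟩
    refine ⟨q, hqH, ?_⟩
    intro x y hS
    have hx := hS.1
    have hy := hS.2.1
    have hxy := hS.2.2.1
    by_cases e0 : x = x0
    · have : y = y0 := sec_unique hL hHI hp (e0 ▸ hS) hS0
      rw [e0, this]; exact hQ0
    by_cases e1 : x = y0
    · have : y = x0 := sec_unique hL hHI hp (e1 ▸ hS) (sec_symm hS0)
      rw [e1, this]; exact sec_symm hQ0
    by_cases e2 : x = x1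
    · have : y = y1 := sec_unique hL hHI hp (e2 ▸ hS) hS1
      rw [e2, this]; exact hQ1
    by_cases e3 : x = y1
    · have : y = x1 := sec_unique hL hHI hp (e3 ▸ hS) (sec_symm hS1)
      rw [e3, this]; exact sec_symm hQ1
    have f0 : y ≠ x0 := fun h => e1 (sec_unique hL hHI hp (sec_symm (h ▸ hS)) hS0)
    have f1 : y ≠ y0 := fun h => e0 (sec_unique hL hHI hp (sec_symm (h ▸ hS)) (sec_symm hS0))
    have f2 : y ≠ x1 := fun h => e3 (sec_unique hL hHI hp (sec_symm (h ▸ hS)) hS1)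
    have f3 : y ≠ y1 := fun h => e2 (sec_unique hL hHI hp (sec_symm (h ▸ hS)) (sec_symm hS1))
    obtain ⟨z', hZ⟩ := sec_exists hβ hL' hH'6 hH'I hqH (hfH x hx)
    have hz' := hZ.2.1
    have hz'x : f x ≠ z' := hZ.2.2.1
    have g0 : z' ≠ f x0 := by
      intro h
      exact e1 (hfinj x hx y0 hy0 (sec_unique hL' hH'I hqH (sec_symm (h ▸ hZ)) hQ0))
    have g1 : z' ≠ f y0 := by
      intro h
      exact e0 (hfinj x hx x0 hx0 (sec_unique hL' hH'I hqH (sec_symm (h ▸ hZ)) (sec_symm hQ0)))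
    have g2 : z' ≠ f x1 := by
      intro h
      exact e3 (hfinj x hx y1 hy1 (sec_unique hL' hH'I hqH (sec_symm (h ▸ hZ)) hQ1))
    have g3 : z' ≠ f y1 := by
      intro h
      exact e2 (hfinj x hx x1 hx1H (sec_unique hL' hH'I hqH (sec_symm (h ▸ hZ)) (sec_symm hQ1)))
    obtain ⟨z, hz, hfz⟩ := hsurj z' hz'
    have hzy : y = z := by
      refine six_rest hH6 hx0 hy0 hx1H hy1 hx hxy0 (Ne.symm hx1x0) (Ne.symm hy1x0) (Ne.symm e0)
        (Ne.symm hx1y0) (Ne.symm hy1y0) (Ne.symm e1) hxy1 (Ne.symm e2) (Ne.symm e3) hy hz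
        ⟨f0, f1, f2, f3, Ne.symm hxy⟩ ⟨?_, ?_, ?_, ?_, ?_⟩
      · intro h; exact g0 (hfz ▸ h ▸ rfl)
      · intro h; exact g1 (hfz ▸ h ▸ rfl)
      · intro h; exact g2 (hfz ▸ h ▸ rfl)
      · intro h; exact g3 (hfz ▸ h ▸ rfl)
      · intro h; exact hz'x (hfz ▸ h ▸ rfl)
    rw [hzy, hfz]
    exact hZ
  have huniq : ∀ p, p ∉ H → ∀ q q', (q ∉ H' ∧ ∀ x y, Sec L H p x y → Sec L' H' q (f x) (f y)) →
      (q' ∉ H' ∧ ∀ x y, Sec L H p x y → Sec L' H' q' (f x) (f y)) → q = q' := by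
    intro p hp q q' hq hq'
    refine sec_inj hβ hL' hH'6 hH'I hq.1 hq'.1 ?_
    intro a b hab
    obtain ⟨x, hx, hfx⟩ := hsurj a hab.1
    obtain ⟨y, hS⟩ := sec_exists hα hL hH6 hHI hp hx
    have h1 := hq.2 x y hS
    have h2 := hq'.2 x y hS
    rw [hfx] at h1 h2
    have : b = f y := sec_unique hL' hH'I hq.1 hab h1
    rw [this]; exact h2
  have hinj' : ∀ p p', p ∉ H → p' ∉ H → ∀ q,
      (q ∉ H' ∧ ∀ x y, Sec L H p x y → Sec L' H' q (f x) (f y)) →
      (q ∉ H' ∧ ∀ x y, Sec L H p' x y → Sec L' H' q (f x) (f y)) → p = p' := by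
    intro p p' hp hp' q hq hq'
    refine sec_inj hα hL hH6 hHI hp hp' ?_
    intro x y hS
    obtain ⟨z, hS'⟩ := sec_exists hα hL hH6 hHI hp' hS.1
    have h1 := hq.2 x y hS
    have h2 := hq'.2 x z hS'
    have hfe : f y = f z := sec_unique hL' hH'I hq.1 h1 h2
    have : y = z := hfinj y hS.2.1 z hS'.2.1 hfe
    rw [this]; exact hS'
  let e0 : α → β := fun p => if hp : p ∈ H then f p else Classical.choose (hex p hp)
  have he0H : ∀ p, p ∈ H → e0 p = f p := fun p hp => dif_pos hp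
  have he0N : ∀ p, (hp : p ∉ H) → e0 p ∉ H' ∧ ∀ x y, Sec L H p x y → Sec L' H' (e0 p) (f x) (f y) := by
    intro p hp
    have : e0 p = Classical.choose (hex p hp) := dif_neg hp
    rw [this]
    exact Classical.choose_spec (hex p hp)
  have he0inj : Function.Injective e0 := by
    intro p p' h
    by_cases hp : p ∈ H <;> by_cases hp' : p' ∈ H
    · rw [he0H p hp, he0H p' hp'] at h
      exact hfinj p hp p' hp' h
    · exfalso
      have h1 := (he0N p' hp').1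
      rw [← h, he0H p hp] at h1
      exact h1 (hfH p hp)
    · exfalso
      have h1 := (he0N p hp).1
      rw [h, he0H p' hp'] at h1
      exact h1 (hfH p' hp')
    · have h1 := he0N p hp
      have h2 := he0N p' hp'
      rw [← h] at h2
      exact hinj' p p' hp hp' (e0 p) h1 h2
  have he0bij : Function.Bijective e0 :=
    (Fintype.bijective_iff_injective_and_card e0).mpr ⟨he0inj, by rw [hα, hβ]⟩
  have hlines : ∀ l ∈ L, l.image e0 ∈ L' := by
    intro l hl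
    have hl5 := hL.1 l hl
    have himg5 : (l.image e0).card = 5 := by
      rw [Finset.card_image_of_injective l he0inj, hl5]
    by_cases hsec : ∃ x ∈ H, x ∈ l
    · obtain ⟨x, hx, hxl⟩ := hsec
      obtain ⟨y, hy, hyx, hyl⟩ := no_tangent hα hL hH6 hHI hl hx hxl
      have hfxy : f x ≠ f y := fun h => hyx (hfinj x hx y hy h).symm
      obtain ⟨l', hl', hxl', hyl'⟩ := exists_line hL' hfxy
      have hsub : l.image e0 ⊆ l' := by
        intro w hw
        obtain ⟨p, hpl, rfl⟩ := Finset.mem_image.mp hw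
        by_cases hp : p ∈ H
        · rw [he0H p hp]
          by_cases hpx : p = x
          · rw [hpx]; exact hxl'
          · by_cases hpy : p = y
            · rw [hpy]; exact hyl'
            · exact absurd hpl (ind_third hHI hl hx hy hp (Ne.symm hyx) (Ne.symm hpx)
                (Ne.symm hpy) hxl hyl)
        · have hS : Sec L H p x y := ⟨hx, hy, Ne.symm hyx, l, hl, hpl, hxl, hyl⟩
          obtain ⟨_, _, _, l'', hl'', hpl'', hxl'', hyl''⟩ := (he0N p hp).2 x y hS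
          have : l'' = l' := line_unique hL' hl'' hl' hfxy hxl'' hyl'' hxl' hyl'
          exact this ▸ hpl''
      have := Finset.eq_of_subset_of_card_le hsub (by rw [himg5, hL'.1 l' hl'])
      rw [this]; exact hl'
    · have hext : ∀ x ∈ H, x ∉ l := fun x hx hxl => hsec ⟨x, hx, hxl⟩
      apply hcol _ himg5
      · intro u hu
        obtain ⟨p, hpl, rfl⟩ := Finset.mem_image.mp hu
        exact (he0N p (fun hp => hext p hp hpl)).1
      · intro u hu v hv huv l'' hl'' hul'' hvl'' a' ha' ha'l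
        obtain ⟨p, hpl, rfl⟩ := Finset.mem_image.mp hu
        obtain ⟨p', hp'l, rfl⟩ := Finset.mem_image.mp hv
        have hp : p ∉ H := fun hp => hext p hp hpl
        have hp' : p' ∉ H := fun hp => hext p' hp hp'l
        have hpp' : p ≠ p' := fun h => huv (h ▸ rfl)
        obtain ⟨b', hb', hb'a', hb'l⟩ := no_tangent hβ hL' hH'6 hH'I hl'' ha' ha'l
        have hSu : Sec L' H' (e0 p) a' b' := ⟨ha', hb', Ne.symm hb'a', l'', hl'', hul'', ha'l, hb'l⟩
        have hSv : Sec L' H' (e0 p') a' b' := ⟨ha', hb', Ne.symm hb'a', l'', hl'', hvl'', ha'l, hb'l⟩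
        obtain ⟨a, ha, hfa⟩ := hsurj a' ha'
        obtain ⟨z, hSz⟩ := sec_exists hα hL hH6 hHI hp ha
        obtain ⟨z', hSz'⟩ := sec_exists hα hL hH6 hHI hp' ha
        have h1 := (he0N p hp).2 a z hSz
        have h2 := (he0N p' hp').2 a z' hSz'
        rw [hfa] at h1 h2
        have hz1 : f z = b' := sec_unique hL' hH'I (he0N p hp).1 h1 hSu
        have hz2 : f z' = b' := sec_unique hL' hH'I (he0N p' hp').1 h2 hSv
        have hzz : z = z' := hfinj z hSz.2.1 z' hSz'.2.1 (hz1.trans hz2.symm)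
        obtain ⟨_, _, haz, l1, hl1, hpl1, hal1, hzl1⟩ := hSz
        obtain ⟨_, _, _, l2, hl2, hp'l2, hal2, hz'l2⟩ := hSz'
        have e12 : l1 = l2 := line_unique hL hl1 hl2 haz hal1 hzl1 hal2 (hzz ▸ hz'l2)
        have e1l : l1 = l := line_unique hL hl1 hl hpp' hpl1 (e12 ▸ hp'l2) hpl hp'l
        exact hext a ha (e1l ▸ hal1)
  refine ⟨Equiv.ofBijective e0 he0bij, fun x hx => he0H x hx, ?_⟩
  apply Set.eq_of_subset_of_subset
  · rintro _ ⟨l, hl, rfl⟩
    exact hlines l hl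
  · intro l' hl'
    have hl'5 := hL'.1 l' hl'
    obtain ⟨q1, hq1, q2, hq2, hq12⟩ := Finset.one_lt_card.mp (by omega : 1 < l'.card)
    obtain ⟨p1, rfl⟩ := he0bij.2 q1
    obtain ⟨p2, rfl⟩ := he0bij.2 q2
    have hp12 : p1 ≠ p2 := fun h => hq12 (h ▸ rfl)
    obtain ⟨l, hl, hp1l, hp2l⟩ := exists_line hL hp12
    refine ⟨l, hl, ?_⟩
    exact line_unique hL' (hlines l hl) hl' hq12 (Finset.mem_image_of_mem e0 hp1l)
      (Finset.mem_image_of_mem e0 hp2l) hq1 hq2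


/-- Exactly two lines through a point off a hyperoval miss the hyperoval. -/
theorem ext_lines_card {α : Type*} [Fintype α] [DecidableEq α] {L : Set (Finset α)}
    (hα : Fintype.card α = 21) (hL : IsSteinerSystem 2 5 L) {H : Finset α} (hH6 : H.card = 6)
    (hHI : ∀ l ∈ L, (l ∩ H).card ≤ 2) {u : α} (hu : u ∉ H) (Eu : Finset (Finset α))
    (hEu : ∀ k, k ∈ Eu ↔ (k ∈ L ∧ u ∈ k) ∧ ∀ x ∈ H, x ∉ k) : Eu.card = 2 := by
  classical
  let Lu : Finset (Finset α) := Finset.univ.filter (fun k => k ∈ L ∧ u ∈ k)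
  have hLu : ∀ k, k ∈ Lu ↔ k ∈ L ∧ u ∈ k := by intro k; simp [Lu]
  have h5 := card_pencil hα hL u Lu hLu
  let Su : Finset (Finset α) := Lu.filter (fun k => ∃ x ∈ H, x ∈ k)
  have hSu : ∀ k, k ∈ Su ↔ (k ∈ L ∧ u ∈ k) ∧ ∃ x ∈ H, x ∈ k := by
    intro k
    rw [Finset.mem_filter, hLu]
  have hHU : H = Su.biUnion (fun k => k ∩ H) := by
    ext x
    rw [Finset.mem_biUnion]
    constructor
    · intro hx
      have hux : u ≠ x := fun h => hu (h ▸ hx)
      obtain ⟨k, hk, huk, hxk⟩ := exists_line hL hux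
      exact ⟨k, (hSu k).mpr ⟨⟨hk, huk⟩, x, hx, hxk⟩, Finset.mem_inter.mpr ⟨hxk, hx⟩⟩
    · rintro ⟨k, _, hx⟩
      exact (Finset.mem_inter.mp hx).2
  have hdisj : ∀ k ∈ Su, ∀ k' ∈ Su, k ≠ k' → Disjoint (k ∩ H) (k' ∩ H) := by
    intro k hk k' hk' hne
    rw [Finset.disjoint_left]
    intro x hx hx'
    rw [Finset.mem_inter] at hx hx'
    have hux : u ≠ x := fun h => hu (h ▸ hx.2)
    exact hne (line_unique hL ((hSu k).mp hk).1.1 ((hSu k').mp hk').1.1 hux ((hSu k).mp hk).1.2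
      hx.1 ((hSu k').mp hk').1.2 hx'.1)
  have h2 : ∀ k ∈ Su, (k ∩ H).card = 2 := by
    intro k hk
    obtain ⟨⟨hkL, huk⟩, x, hx, hxk⟩ := (hSu k).mp hk
    obtain ⟨y, hy, hyx, hyk⟩ := no_tangent hα hL hH6 hHI hkL hx hxk
    have hle := hHI k hkL
    have hge : 2 ≤ (k ∩ H).card := by
      have hs : ({x, y} : Finset α) ⊆ k ∩ H := by
        intro w hw
        simp only [Finset.mem_insert, Finset.mem_singleton] at hw
        rcases hw with rfl | rfl
        · exact Finset.mem_inter.mpr ⟨hxk, hx⟩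
        · exact Finset.mem_inter.mpr ⟨hyk, hy⟩
      have h := Finset.card_le_card hs
      rw [Finset.card_pair (Ne.symm hyx)] at h
      exact h
    omega
  have hc := congrArg Finset.card hHU
  rw [Finset.card_biUnion hdisj, Finset.sum_congr rfl h2, Finset.sum_const, smul_eq_mul, hH6] at hc
  have hEq : Eu = Lu \ Su := by
    ext k
    rw [hEu, Finset.mem_sdiff, hLu, hSu]
    constructor
    · rintro ⟨h1, h2⟩
      exact ⟨h1, fun ⟨_, x, hx, hxk⟩ => h2 x hx hxk⟩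
    · rintro ⟨h1, h2⟩
      exact ⟨h1, fun x hx hxk => h2 ⟨h1, x, hx, hxk⟩⟩
  have hsub : Su ⊆ Lu := Finset.filter_subset _ _
  rw [hEq, Finset.card_sdiff_of_subset hsub, h5]
  omega

/-- Five points off a hyperoval, pairwise joined by lines missing the hyperoval, form a line. -/
theorem ext_collinear {α : Type*} [Fintype α] [DecidableEq α] (hα : Fintype.card α = 21)
    (L : Set (Finset α)) (hL : Cfsg.IsSteinerSystem 2 5 L) (H : Finset α)
    (hH : H.card = 6 ∧ ∀ l ∈ L, (l ∩ H).card ≤ 2) (X : Finset α) (hX5 : X.card = 5)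
    (hXH : ∀ u ∈ X, u ∉ H)
    (hX : ∀ u ∈ X, ∀ v ∈ X, u ≠ v → ∀ l ∈ L, u ∈ l → v ∈ l → ∀ x ∈ H, x ∉ l) : X ∈ L := by
  classical
  obtain ⟨hH6, hHI⟩ := hH
  have three : ∀ (E : Finset (Finset α)), E.card = 2 → ∀ a ∈ E, ∀ b ∈ E, ∀ c ∈ E, a ≠ b →
      c = a ∨ c = b := by
    intro E hE a ha b hb c hc hab
    by_contra hno
    rw [not_or] at hno
    have hs : ({a, b, c} : Finset (Finset α)) ⊆ E := by
      intro w hw
      simp only [Finset.mem_insert, Finset.mem_singleton] at hw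
      rcases hw with rfl | rfl | rfl <;> assumption
    have h3 : ({a, b, c} : Finset (Finset α)).card = 3 :=
      Finset.card_eq_three.mpr ⟨a, b, c, hab, Ne.symm hno.1, Ne.symm hno.2, rfl⟩
    have := Finset.card_le_card hs
    omega
  have hE : ∀ u, u ∈ X → ∃ Eu : Finset (Finset α), Eu.card = 2 ∧
      ∀ k, k ∈ Eu ↔ (k ∈ L ∧ u ∈ k) ∧ ∀ x ∈ H, x ∉ k := by
    intro u hu
    refine ⟨Finset.univ.filter (fun k => (k ∈ L ∧ u ∈ k) ∧ ∀ x ∈ H, x ∉ k), ?_, ?_⟩
    · exact ext_lines_card hα hL hH6 hHI (hXH u hu) _ (by intro k; simp)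
    · intro k; simp
  obtain ⟨q1, hq1⟩ : X.Nonempty := Finset.card_pos.mp (by omega)
  have hP : ∀ (n n' : Finset α), n ∈ L → n' ∈ L → q1 ∈ n → q1 ∈ n' → n ≠ n' → ∀ a b c, a ∈ X →
      b ∈ X → c ∈ X → a ≠ q1 → b ≠ q1 → c ≠ q1 → a ≠ b → a ∈ n → b ∈ n → c ∈ n' → False := by
    intro n n' hn hn' hqn hqn' hnn' a b c ha hb hc haq hbq hcq hab han hbn hcn'
    have hcn : c ∉ n := fun h => hnn' (line_unique hL hn hn' hcq h hqn hcn' hqn')
    have han' : a ∉ n' := fun h => hnn' (line_unique hL hn hn' haq han hqn h hqn')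
    have hbn' : b ∉ n' := fun h => hnn' (line_unique hL hn hn' hbq hbn hqn h hqn')
    have hca : c ≠ a := fun h => hcn (h ▸ han)
    have hcb : c ≠ b := fun h => hcn (h ▸ hbn)
    obtain ⟨na, hna, hcna, hana⟩ := exists_line hL hca
    obtain ⟨nb, hnb, hcnb, hbnb⟩ := exists_line hL hcb
    obtain ⟨Ec, hEc2, hEc⟩ := hE c hc
    have m1 : n' ∈ Ec := (hEc n').mpr ⟨⟨hn', hcn'⟩, hX c hc q1 hq1 hcq n' hn' hcn' hqn'⟩
    have m2 : na ∈ Ec := (hEc na).mpr ⟨⟨hna, hcna⟩, hX c hc a ha hca na hna hcna hana⟩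
    have m3 : nb ∈ Ec := (hEc nb).mpr ⟨⟨hnb, hcnb⟩, hX c hc b hb hcb nb hnb hcnb hbnb⟩
    have hna' : na ≠ n' := fun h => han' (h ▸ hana)
    have hnb' : nb ≠ n' := fun h => hbn' (h ▸ hbnb)
    have hab' : nb = na := by
      rcases three Ec hEc2 n' m1 na m2 nb m3 (Ne.symm hna') with h | h
      · exact absurd h hnb'
      · exact h
    have : na = n := line_unique hL hna hn hab hana (hab' ▸ hbnb) han hbn
    exact hcn (this ▸ hcna)
  have hc4 : (X.erase q1).card = 4 := by rw [Finset.card_erase_of_mem hq1, hX5]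
  obtain ⟨v0, hv0⟩ : (X.erase q1).Nonempty := Finset.card_pos.mp (by omega)
  have hv0' := Finset.mem_erase.mp hv0
  obtain ⟨m, hm, hq1m, hv0m⟩ := exists_line hL (Ne.symm hv0'.1)
  have hsub : X ⊆ m := by
    intro v hv
    by_contra hvm
    have hvq1 : v ≠ q1 := fun h => hvm (h ▸ hq1m)
    have hvv0 : v ≠ v0 := fun h => hvm (h ▸ hv0m)
    obtain ⟨m', hm', hq1m', hvm'⟩ := exists_line hL (Ne.symm hvq1)
    have hmm' : m ≠ m' := fun h => hvm (h ▸ hvm')
    have hsub3 : ({q1, v0, v} : Finset α) ⊆ X := by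
      intro w hw
      simp only [Finset.mem_insert, Finset.mem_singleton] at hw
      rcases hw with rfl | rfl | rfl
      · exact hq1
      · exact hv0'.2
      · exact hv
    have hc2 : 0 < (X \ {q1, v0, v}).card := by
      rw [Finset.card_sdiff_of_subset hsub3, hX5,
        Finset.card_eq_three.mpr ⟨q1, v0, v, Ne.symm hv0'.1, Ne.symm hvq1, Ne.symm hvv0, rfl⟩]
      norm_num
    obtain ⟨w, hw⟩ := Finset.card_pos.mp hc2
    rw [Finset.mem_sdiff] at hw
    have hwn := hw.2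
    simp only [Finset.mem_insert, Finset.mem_singleton, not_or] at hwn
    obtain ⟨hwq1, hwv0, hwv⟩ := hwn
    obtain ⟨nw, hnw, hq1nw, hwnw⟩ := exists_line hL (Ne.symm hwq1)
    obtain ⟨Eq, hEq2, hEq⟩ := hE q1 hq1
    have m1 : m ∈ Eq := (hEq m).mpr ⟨⟨hm, hq1m⟩, hX q1 hq1 v0 hv0'.2 (Ne.symm hv0'.1) m hm hq1m hv0m⟩
    have m2 : m' ∈ Eq := (hEq m').mpr ⟨⟨hm', hq1m'⟩, hX q1 hq1 v hv (Ne.symm hvq1) m' hm' hq1m' hvm'⟩
    have m3 : nw ∈ Eq := (hEq nw).mpr ⟨⟨hnw, hq1nw⟩, hX q1 hq1 w hw.1 (Ne.symm hwq1) nw hnw hq1nw hwnw⟩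
    rcases three Eq hEq2 m m1 m' m2 nw m3 hmm' with h | h
    · exact hP m m' hm hm' hq1m hq1m' hmm' v0 w v hv0'.2 hw.1 hv hv0'.1 hwq1 hvq1 (Ne.symm hwv0)
        hv0m (h ▸ hwnw) hvm'
    · exact hP m' m hm' hm hq1m' hq1m (Ne.symm hmm') v w v0 hv hw.1 hv0'.2 hvq1 hwq1 hv0'.1
        (Ne.symm hwv) hvm' (h ▸ hwnw) hv0m
  have := Finset.eq_of_subset_of_card_le hsub (by rw [hL.1 m hm, hX5])
  rw [this]; exact hm


open scoped Pointwise in
/-- An automorphism of a plane of order 4 fixing a hyperoval pointwise is trivial. -/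
theorem fix_hyperoval_eq_one {α : Type*} [Fintype α] [DecidableEq α]
    (hα : Fintype.card α = 21) (L : Set (Finset α)) (hL : Cfsg.IsSteinerSystem 2 5 L)
    (H : Finset α) (hH : H.card = 6 ∧ ∀ l ∈ L, (l ∩ H).card ≤ 2) (g : Equiv.Perm α)
    (hg : g ∈ Cfsg.setSystemAut L) (hfix : ∀ p ∈ H, g p = p) : g = 1 := by
  classical
  obtain ⟨hH6, hHI⟩ := hH
  have hlines : ∀ l ∈ L, l.image g ∈ L := by
    intro l hl
    have h1 : g • l ∈ g • L := Set.smul_mem_smul_set hl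
    rw [MulAction.mem_stabilizer_iff.mp hg] at h1
    exact h1
  apply Equiv.ext
  intro p
  show g p = p
  by_cases hp : p ∈ H
  · exact hfix p hp
  obtain ⟨a, ha⟩ : H.Nonempty := Finset.card_pos.mp (by omega)
  obtain ⟨b, hS1⟩ := sec_exists hα hL hH6 hHI hp ha
  have hb := hS1.2.1
  have hc0 : 0 < ((H.erase a).erase b).card := by
    rw [Finset.card_erase_of_mem (Finset.mem_erase.mpr ⟨Ne.symm hS1.2.2.1, hb⟩),
      Finset.card_erase_of_mem ha, hH6]
    norm_num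
  obtain ⟨c, hc⟩ := Finset.card_pos.mp hc0
  rw [Finset.mem_erase, Finset.mem_erase] at hc
  obtain ⟨hcb, hca, hcH⟩ := hc
  obtain ⟨d, hS2⟩ := sec_exists hα hL hH6 hHI hp hcH
  obtain ⟨_, _, hab, l1, hl1, hpl1, hal1, hbl1⟩ := hS1
  obtain ⟨_, hd, hcd, l2, hl2, hpl2, hcl2, hdl2⟩ := hS2
  have hl12 : l1 ≠ l2 := by
    intro h12
    exact ind_third hHI hl1 ha hb hcH hab (Ne.symm hca) (Ne.symm hcb) hal1 hbl1 (h12 ▸ hcl2)
  have e1 : l1.image g = l1 := by
    refine line_unique hL (hlines l1 hl1) hl1 hab ?_ ?_ hal1 hbl1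
    · rw [← hfix a ha]; exact Finset.mem_image_of_mem g hal1
    · rw [← hfix b hb]; exact Finset.mem_image_of_mem g hbl1
  have e2 : l2.image g = l2 := by
    refine line_unique hL (hlines l2 hl2) hl2 hcd ?_ ?_ hcl2 hdl2
    · rw [← hfix c hcH]; exact Finset.mem_image_of_mem g hcl2
    · rw [← hfix d hd]; exact Finset.mem_image_of_mem g hdl2
  have g1 : g p ∈ l1 := by rw [← e1]; exact Finset.mem_image_of_mem g hpl1
  have g2 : g p ∈ l2 := by rw [← e2]; exact Finset.mem_image_of_mem g hpl2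
  by_contra hne
  exact hl12 (line_unique hL hl1 hl2 hne g1 hpl1 g2 hpl2)

/-- Uniqueness of the projective plane of order 4. -/
theorem plane_unique {α β : Type*} [Fintype α] [DecidableEq α] [Fintype β] [DecidableEq β]
    (hα : Fintype.card α = 21) (hβ : Fintype.card β = 21) {L : Set (Finset α)}
    {L' : Set (Finset β)} (hL : Cfsg.IsSteinerSystem 2 5 L) (hL' : Cfsg.IsSteinerSystem 2 5 L') :
    Cfsg.SetSystemIso L L' := by
  classical
  have h1 := (Cfsg.Agent.S5627.result hα L hL).2.1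
  have h2 := (Cfsg.Agent.S5627.result hβ L' hL').2.1
  obtain ⟨H, hH⟩ : {H : Finset α | (H.card = 6 ∧ ∀ l ∈ L, (l ∩ H).card ≤ 2)}.Nonempty :=
    Set.nonempty_of_ncard_ne_zero (by rw [h1]; norm_num)
  obtain ⟨H', hH'⟩ : {H : Finset β | (H.card = 6 ∧ ∀ l ∈ L', (l ∩ H).card ≤ 2)}.Nonempty :=
    Set.nonempty_of_ncard_ne_zero (by rw [h2]; norm_num)
  have hcard : H.card = H'.card := by rw [hH.1, hH'.1]
  obtain ⟨b0, hb0⟩ : H'.Nonempty := Finset.card_pos.mp (by rw [hH'.1]; norm_num)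
  let φ : ↥H ≃ ↥H' := Finset.equivOfCardEq hcard
  let f : α → β := fun x => if hx : x ∈ H then (φ ⟨x, hx⟩ : β) else b0
  have hfH : ∀ x ∈ H, f x ∈ H' := by
    intro x hx
    have : f x = (φ ⟨x, hx⟩ : β) := dif_pos hx
    rw [this]; exact (φ ⟨x, hx⟩).2
  have hfinj : ∀ x ∈ H, ∀ y ∈ H, f x = f y → x = y := by
    intro x hx y hy h
    have ex : f x = (φ ⟨x, hx⟩ : β) := dif_pos hx
    have ey : f y = (φ ⟨y, hy⟩ : β) := dif_pos hy
    rw [ex, ey] at h
    have := φ.injective (Subtype.ext h)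
    exact congrArg Subtype.val this
  obtain ⟨e, _, he⟩ := ext_core hα hβ hL hL' hH.1 hH.2 hH'.1 hH'.2
    (ext_collinear hβ L' hL' H' hH') f hfH hfinj
  exact ⟨e, he⟩

open scoped Pointwise in
/-- Every permutation of a hyperoval extends to a unique automorphism of the plane. -/
theorem hyperoval_perm_extends {α : Type*} [Fintype α] [DecidableEq α]
    (hα : Fintype.card α = 21) (L : Set (Finset α)) (hL : Cfsg.IsSteinerSystem 2 5 L)
    (H : Finset α) (hH : (H.card = 6 ∧ ∀ l ∈ L, (l ∩ H).card ≤ 2)) (σ : Equiv.Perm ↥H) :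
    ∃! g : Equiv.Perm α, g ∈ Cfsg.setSystemAut L ∧ ∀ p : ↥H, g p = σ p := by
  classical
  let f : α → α := fun x => if hx : x ∈ H then (σ ⟨x, hx⟩ : α) else x
  have hf : ∀ x (hx : x ∈ H), f x = (σ ⟨x, hx⟩ : α) := fun x hx => dif_pos hx
  have hfH : ∀ x ∈ H, f x ∈ H := by
    intro x hx
    rw [hf x hx]; exact (σ ⟨x, hx⟩).2
  have hfinj : ∀ x ∈ H, ∀ y ∈ H, f x = f y → x = y := by
    intro x hx y hy h
    rw [hf x hx, hf y hy] at h
    have := σ.injective (Subtype.ext h)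
    exact congrArg Subtype.val this
  obtain ⟨e, heH, he⟩ := ext_core hα hα hL hL hH.1 hH.2 hH.1 hH.2
    (ext_collinear hα L hL H hH) f hfH hfinj
  have hemem : e ∈ Cfsg.setSystemAut L := by
    rw [MulAction.mem_stabilizer_iff]
    rw [← Set.image_smul]
    exact he
  have heval : ∀ p : ↥H, e p = σ p := by
    intro p
    rw [heH p.1 p.2, hf p.1 p.2]
  refine ⟨e, ⟨hemem, heval⟩, ?_⟩
  rintro g ⟨hg, hgv⟩
  have h1 : e⁻¹ * g = 1 := by
    refine fix_hyperoval_eq_one hα L hL H hH (e⁻¹ * g)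
      ((Cfsg.setSystemAut L).mul_mem ((Cfsg.setSystemAut L).inv_mem hemem) hg) ?_
    intro p hp
    show e⁻¹ (g p) = p
    have h2 : g p = e p := by
      rw [hgv ⟨p, hp⟩, ← heval ⟨p, hp⟩]
    rw [h2]
    exact e.symm_apply_apply p
  exact inv_mul_eq_one.mp h1 |>.symm

end Cfsg.Agent.Lib.helper28.Plane4
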