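import Cfsg.Agent.Lib.helper28.Steiner22

set_option autoImplicit false
set_option linter.unusedSectionVars false

namespace Cfsg.Agent.Lib.helper28.SRG

open Cfsg Finset

theorem adj1 {α : Type*} (B : Set (Finset α)) (u : α) :
    (pointBlockGraph B).Adj none (some (Sum.inl u)) := by
  simp [pointBlockGraph, pointBlockRel]

theorem adj2 {α : Type*} (B : Set (Finset α)) (b : B) :
    ¬ (pointBlockGraph B).Adj none (some (Sum.inr b)) := by
  simp [pointBlockGraph, pointBlockRel]

theorem adj3 {α : Type*} (B : Set (Finset α)) (u u' : α) :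
    ¬ (pointBlockGraph B).Adj (some (Sum.inl u)) (some (Sum.inl u')) := by
  simp [pointBlockGraph, pointBlockRel]

theorem adj4 {α : Type*} (B : Set (Finset α)) (u : α) (b : B) :
    (pointBlockGraph B).Adj (some (Sum.inl u)) (some (Sum.inr b)) ↔ u ∈ b.1 := by
  simp [pointBlockGraph, pointBlockRel]

theorem adj5 {α : Type*} (B : Set (Finset α)) (b b' : B) :
    (pointBlockGraph B).Adj (some (Sum.inr b)) (some (Sum.inr b')) ↔
      b ≠ b' ∧ Disjoint b.1 b'.1 := by
  simp [pointBlockGraph, pointBlockRel, disjoint_comm]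

theorem pbg_iso {α β : Type*} [DecidableEq α] [DecidableEq β] {B : Set (Finset α)}
    {B' : Set (Finset β)} (e : α ≃ β) (h : (fun b => b.image e) '' B = B') :
    Nonempty (pointBlockGraph B ≃g pointBlockGraph B') := by
  subst h
  have hmem : ∀ b ∈ B, b.image e ∈ (fun b : Finset α => b.image e) '' B :=
    fun b hb => ⟨b, hb, rfl⟩
  let F : Option (α ⊕ B) → Option (β ⊕ ((fun b : Finset α => b.image e) '' B)) :=
    Option.map (Sum.map e (fun b => ⟨b.1.image e, hmem b.1 b.2⟩))
  have hFinj : Function.Injective F := by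
    apply Option.map_injective
    apply Function.Injective.sumMap e.injective
    intro b b' hbb
    exact Subtype.ext (Finset.image_injective e.injective (congrArg Subtype.val hbb))
  have hFsurj : Function.Surjective F := by
    intro y
    rcases y with _ | v | c
    · exact ⟨none, rfl⟩
    · refine ⟨some (Sum.inl (e.symm v)), ?_⟩
      show some (Sum.inl (e (e.symm v))) = _
      rw [e.apply_symm_apply]
    · obtain ⟨b, hb, hbc⟩ := c.2
      refine ⟨some (Sum.inr ⟨b, hb⟩), ?_⟩
      show some (Sum.inr (⟨b.image e, hmem b hb⟩ : ((fun b : Finset α => b.image e) '' B))) =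
        some (Sum.inr c)
      congr 2
      exact Subtype.ext hbc
  have k12 : ∀ (u : α) (b : B), (pointBlockGraph ((fun b : Finset α => b.image e) '' B)).Adj
      (F (some (Sum.inl u))) (F (some (Sum.inr b))) ↔
      (pointBlockGraph B).Adj (some (Sum.inl u)) (some (Sum.inr b)) := by
    intro u b
    show (pointBlockGraph ((fun b : Finset α => b.image e) '' B)).Adj (some (Sum.inl (e u)))
      (some (Sum.inr ⟨b.1.image e, hmem b.1 b.2⟩)) ↔ _
    rw [adj4, adj4]
    exact e.injective.mem_finset_image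
  refine ⟨{ toEquiv := Equiv.ofBijective F ⟨hFinj, hFsurj⟩, map_rel_iff' := ?_ }⟩
  intro a a'
  show (pointBlockGraph ((fun b : Finset α => b.image e) '' B)).Adj (F a) (F a') ↔
    (pointBlockGraph B).Adj a a'
  rcases a with _ | u | b <;> rcases a' with _ | u' | b'
  · exact iff_of_false (SimpleGraph.irrefl _) (SimpleGraph.irrefl _)
  · exact iff_of_true (adj1 _ (e u')) (adj1 B u')
  · exact iff_of_false (adj2 _ ⟨b'.1.image e, hmem b'.1 b'.2⟩) (adj2 B b')
  · exact iff_of_true (adj1 _ (e u)).symm (adj1 B u).symm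
  · exact iff_of_false (adj3 _ (e u) (e u')) (adj3 B u u')
  · exact k12 u b'
  · exact iff_of_false (fun hh => adj2 _ ⟨b.1.image e, hmem b.1 b.2⟩ hh.symm)
      (fun hh => adj2 B b hh.symm)
  · rw [SimpleGraph.adj_comm, SimpleGraph.adj_comm _ (some (Sum.inr b))]
    exact k12 u' b
  · show (pointBlockGraph ((fun b : Finset α => b.image e) '' B)).Adj
      (some (Sum.inr ⟨b.1.image e, hmem b.1 b.2⟩))
      (some (Sum.inr ⟨b'.1.image e, hmem b'.1 b'.2⟩)) ↔ _
    rw [adj5, adj5]
    refine and_congr (not_congr ⟨fun hh => ?_, fun hh => ?_⟩) (Finset.disjoint_image e.injective)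
    · exact Subtype.ext (Finset.image_injective e.injective (congrArg Subtype.val hh))
    · rw [hh]

theorem dc {α β : Type*} (s : Finset α) (t : Finset β) (r : α → β → Prop)
    [∀ a b, Decidable (r a b)] :
    ∑ a ∈ s, (t.filter (fun b => r a b)).card = ∑ b ∈ t, (s.filter (fun a => r a b)).card := by
  simp only [Finset.card_filter]
  exact Finset.sum_comm

theorem card_filter_erase {α : Type*} [DecidableEq α] (M : Finset α) (b : α) (hb : b ∈ M)
    (f : α → Prop) [DecidablePred f] (hf : f b) :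
    ((M.erase b).filter f).card + 1 = (M.filter f).card := by
  have h1 : M.filter f = insert b ((M.erase b).filter f) := by
    ext x
    rw [mem_insert, mem_filter, mem_filter, mem_erase]
    constructor
    · rintro ⟨hx, hfx⟩
      by_cases hxb : x = b
      · exact Or.inl hxb
      · exact Or.inr ⟨⟨hxb, hx⟩, hfx⟩
    · rintro (rfl | ⟨⟨_, hx⟩, hfx⟩)
      · exact ⟨hb, hf⟩
      · exact ⟨hx, hfx⟩
  rw [h1, card_insert_of_notMem]
  rw [mem_filter, mem_erase]
  exact fun h => h.1.1 rfl

theorem srg_steiner {V : Type*} [Fintype V] (G : SimpleGraph V) [DecidableRel G.Adj]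
    (hG : G.IsSRGWith 100 22 0 6) (v0 : V) :
    Fintype.card {x : V // G.Adj v0 x} = 22 ∧
    ∃ B : Set (Finset {x : V // G.Adj v0 x}), IsSteinerSystem 3 6 B ∧
      Nonempty (G ≃g pointBlockGraph B) := by
  classical
  obtain ⟨A, hA⟩ : ∃ A : V → Finset V, ∀ v x, x ∈ A v ↔ G.Adj v x :=
    ⟨fun v => univ.filter (G.Adj v), fun v x => by
      rw [mem_filter]; exact ⟨fun h => h.2, fun h => ⟨mem_univ _, h⟩⟩⟩
  have hAcard : ∀ v, (A v).card = 22 := by
    intro v
    have h1 := hG.regular v
    rw [← h1]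
    unfold SimpleGraph.degree
    congr 1
    ext x
    rw [hA, SimpleGraph.mem_neighborFinset]
  have hlam : ∀ v w x, G.Adj v w → G.Adj v x → G.Adj w x → False := by
    intro v w x hvw hvx hwx
    have h1 := hG.of_adj v w hvw
    rw [Fintype.card_eq_zero_iff] at h1
    exact h1.elim ⟨x, (SimpleGraph.mem_commonNeighbors G).mpr ⟨hvx, hwx⟩⟩
  have hmu : ∀ v w, v ≠ w → ¬G.Adj v w → (A v ∩ A w).card = 6 := by
    intro v w hvw hna
    have h1 := hG.of_not_adj hvw hna
    rw [← Nat.card_eq_fintype_card, Nat.card_coe_set_eq] at h1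
    rw [← h1, ← Set.ncard_coe_finset]
    congr 1
    ext x
    rw [Finset.mem_coe, Finset.mem_inter, hA, hA, SimpleGraph.mem_commonNeighbors]
  obtain ⟨M, hM⟩ : ∃ M : Finset V, ∀ x, x ∈ M ↔ (x ≠ v0 ∧ ¬G.Adj v0 x) :=
    ⟨univ.filter (fun x => x ≠ v0 ∧ ¬G.Adj v0 x), fun x => by
      rw [mem_filter]; exact ⟨fun h => h.2, fun h => ⟨mem_univ _, h⟩⟩⟩
  have hMcard : M.card = 77 := by
    have h1 : (univ : Finset V) = insert v0 (A v0 ∪ M) := by
      ext x
      simp only [mem_univ, mem_insert, mem_union, hA, hM, true_iff]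
      by_cases h : x = v0
      · exact Or.inl h
      · by_cases h' : G.Adj v0 x
        · exact Or.inr (Or.inl h')
        · exact Or.inr (Or.inr ⟨h, h'⟩)
    have h2 : Disjoint (A v0) M := by
      rw [Finset.disjoint_left]
      intro x hx hx'
      exact ((hM x).mp hx').2 ((hA v0 x).mp hx)
    have h3 : v0 ∉ A v0 ∪ M := by
      rw [mem_union, hA, hM]
      rintro (h | h)
      · exact G.irrefl h
      · exact h.1 rfl
    have h4 := congrArg Finset.card h1
    rw [card_insert_of_notMem h3, card_union_of_disjoint h2, hAcard, Finset.card_univ,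
      hG.card] at h4
    omega
  obtain ⟨pt, hpt⟩ : ∃ pt : V → Finset V, ∀ b p, p ∈ pt b ↔ (G.Adj v0 p ∧ G.Adj b p) :=
    ⟨fun b => A v0 ∩ A b, fun b p => by rw [mem_inter, hA, hA]⟩
  have hpt6 : ∀ b ∈ M, (pt b).card = 6 := by
    intro b hb
    have h1 : pt b = A v0 ∩ A b := by
      ext p; rw [hpt, mem_inter, hA, hA]
    rw [h1]
    exact hmu v0 b (fun h => ((hM b).mp hb).1 h.symm) ((hM b).mp hb).2
  have hC3 : ∀ p, G.Adj v0 p → (M.filter (fun b => G.Adj b p)).card = 21 := by
    intro p hp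
    have h1 : M.filter (fun b => G.Adj b p) = (A p).erase v0 := by
      ext x
      rw [mem_filter, mem_erase, hM, hA]
      constructor
      · rintro ⟨⟨h1, _⟩, h3⟩
        exact ⟨h1, h3.symm⟩
      · rintro ⟨h1, h2⟩
        exact ⟨⟨h1, fun h => hlam v0 p x hp h h2⟩, h2.symm⟩
    rw [h1, card_erase_of_mem ((hA p v0).mpr hp.symm), hAcard]
  have hC2 : ∀ p p', G.Adj v0 p → G.Adj v0 p' → p ≠ p' →
      (M.filter (fun b => G.Adj b p ∧ G.Adj b p')).card = 5 := by
    intro p p' hp hp' hne
    have hna : ¬G.Adj p p' := fun h => hlam v0 p p' hp hp' h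
    have h1 : M.filter (fun b => G.Adj b p ∧ G.Adj b p') = (A p ∩ A p').erase v0 := by
      ext x
      rw [mem_filter, mem_erase, mem_inter, hM, hA, hA]
      constructor
      · rintro ⟨⟨h1, _⟩, h3, h4⟩
        exact ⟨h1, h3.symm, h4.symm⟩
      · rintro ⟨h1, h2, h3⟩
        exact ⟨⟨h1, fun h => hlam v0 p x hp h h2⟩, h2.symm, h3.symm⟩
    rw [h1, card_erase_of_mem (by rw [mem_inter, hA, hA]; exact ⟨hp.symm, hp'.symm⟩),
      hmu p p' hne hna]
  have hvar : ∀ b ∈ M, ∀ b' ∈ M, b' ≠ b → ¬G.Adj b b' →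
      ((pt b).filter (fun p => G.Adj b' p)).card = 2 := by
    intro b hb
    have hTcard : (M.erase b).card = 76 := by rw [card_erase_of_mem hb, hMcard]
    obtain ⟨I, hI⟩ : ∃ I : V → ℕ, ∀ b', I b' = ((pt b).filter (fun p => G.Adj b' p)).card :=
      ⟨_, fun _ => rfl⟩
    have hI6 : ∀ b', I b' ≤ 6 := fun b' => by
      rw [hI]; exact (card_filter_le _ _).trans (le_of_eq (hpt6 b hb))
    have hT20 : ∀ p ∈ pt b, ((M.erase b).filter (fun b' => G.Adj b' p)).card = 20 := by
      intro p hp
      have h1 := card_filter_erase M b hb (fun b' => G.Adj b' p) ((hpt b p).mp hp).2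
      have h2 := hC3 p ((hpt b p).mp hp).1
      omega
    have hS1 : ∑ b' ∈ M.erase b, I b' = 120 := by
      have h1 := dc (M.erase b) (pt b) (fun b' p => G.Adj b' p)
      simp only [← hI] at h1
      rw [h1, Finset.sum_congr rfl hT20, sum_const, hpt6 b hb, smul_eq_mul]
    have hT4 : ∀ p ∈ pt b, ∀ p' ∈ pt b, p ≠ p' →
        ((M.erase b).filter (fun b' => G.Adj b' p ∧ G.Adj b' p')).card = 4 := by
      intro p hp p' hp' hne
      have h1 := card_filter_erase M b hb (fun b' => G.Adj b' p ∧ G.Adj b' p')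
        ⟨((hpt b p).mp hp).2, ((hpt b p').mp hp').2⟩
      have h2 := hC2 p p' ((hpt b p).mp hp).1 ((hpt b p').mp hp').1 hne
      omega
    have hT20' : ∀ p ∈ pt b,
        ((M.erase b).filter (fun b' => G.Adj b' p ∧ G.Adj b' p)).card = 20 := by
      intro p hp
      rw [← hT20 p hp]
      congr 1
      apply Finset.filter_congr
      intro x _
      exact and_self_iff
    have hS2 : ∑ b' ∈ M.erase b, I b' ^ 2 = 240 := by
      have h1 := dc (M.erase b) (pt b ×ˢ pt b) (fun b' q => G.Adj b' q.1 ∧ G.Adj b' q.2)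
      have h2 : ∀ b' ∈ M.erase b,
          ((pt b ×ˢ pt b).filter (fun q => G.Adj b' q.1 ∧ G.Adj b' q.2)).card = I b' ^ 2 := by
        intro b' _
        rw [Finset.filter_product, card_product, hI, sq]
      rw [Finset.sum_congr rfl h2] at h1
      rw [h1, Finset.sum_product]
      have h3 : ∀ p ∈ pt b, ∑ p' ∈ pt b,
          ((M.erase b).filter (fun b' => G.Adj b' p ∧ G.Adj b' p')).card = 40 := by
        intro p hp
        rw [← Finset.add_sum_erase _ _ hp, hT20' p hp]
        have h4 : ∀ p' ∈ (pt b).erase p,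
            ((M.erase b).filter (fun b' => G.Adj b' p ∧ G.Adj b' p')).card = 4 := by
          intro p' hp'
          exact hT4 p hp p' (mem_of_mem_erase hp') (ne_of_mem_erase hp').symm
        rw [Finset.sum_congr rfl h4, sum_const, card_erase_of_mem hp, hpt6 b hb, smul_eq_mul]
      rw [Finset.sum_congr rfl h3, sum_const, hpt6 b hb, smul_eq_mul]
    have hTadj : ((M.erase b).filter (fun b' => G.Adj b b')).card = 16 := by
      have h1 : (M.erase b).filter (fun b' => G.Adj b b') = A b \ A v0 := by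
        ext x
        rw [mem_filter, mem_erase, hM, mem_sdiff, hA, hA]
        constructor
        · rintro ⟨⟨_, _, h3⟩, h4⟩
          exact ⟨h4, h3⟩
        · rintro ⟨h1, h2⟩
          refine ⟨⟨?_, ?_, h2⟩, h1⟩
          · intro hxb
            rw [hxb] at h1
            exact G.irrefl h1
          · intro hxv
            rw [hxv] at h1
            exact ((hM b).mp hb).2 h1.symm
      have h2 := card_sdiff_add_card_inter (A b) (A v0)
      have h3 := hmu b v0 ((hM b).mp hb).1 (fun h => ((hM b).mp hb).2 h.symm)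
      rw [h1]
      rw [h3, hAcard] at h2
      omega
    have hTnadj : ((M.erase b).filter (fun b' => ¬G.Adj b b')).card = 60 := by
      have h1 := Finset.card_filter_add_card_filter_not (s := M.erase b)
        (fun b' => G.Adj b b')
      rw [hTadj, hTcard] at h1
      omega
    have hS3 : ∑ b' ∈ M.erase b, (if G.Adj b b' then 0 else 4) = 240 := by
      rw [Finset.sum_ite, sum_const_zero, zero_add, sum_const, hTnadj, smul_eq_mul]
    have hadj0 : ∀ b', G.Adj b b' → I b' = 0 := by
      intro b' hbb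
      rw [hI, card_eq_zero, filter_eq_empty_iff]
      intro p hp hb'p
      exact hlam b b' p hbb ((hpt b p).mp hp).2 hb'p
    have hle : ∀ b' ∈ M.erase b, 4 * I b' ≤ I b' ^ 2 + (if G.Adj b b' then 0 else 4) := by
      intro b' _
      by_cases hbb : G.Adj b b'
      · simp [hbb, hadj0 b' hbb]
      · rw [if_neg hbb]
        have h6 := hI6 b'
        generalize I b' = i at h6 ⊢
        interval_cases i <;> norm_num
    have hsum : ∑ b' ∈ M.erase b, 4 * I b' =
        ∑ b' ∈ M.erase b, (I b' ^ 2 + (if G.Adj b b' then 0 else 4)) := by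
      rw [← Finset.mul_sum, hS1, Finset.sum_add_distrib, hS2, hS3]
      norm_num
    have heq := (Finset.sum_eq_sum_iff_of_le hle).mp hsum
    intro b' hb' hne hna
    have h1 := heq b' (mem_erase.mpr ⟨hne, hb'⟩)
    rw [if_neg hna] at h1
    have h6 := hI6 b'
    rw [← hI]
    generalize I b' = i at h1 h6 ⊢
    interval_cases i <;> first | rfl | (exfalso; norm_num at h1)
  have hcommon : ∀ b ∈ M, ∀ b' ∈ M, b ≠ b' →
      ((pt b).filter (fun p => G.Adj b' p)).card ≤ 2 := by
    intro b hb b' hb' hne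
    by_cases hadj : G.Adj b b'
    · have h0 : (pt b).filter (fun p => G.Adj b' p) = ∅ := by
        rw [filter_eq_empty_iff]
        intro p hp hb'p
        exact hlam b b' p hadj ((hpt b p).mp hp).2 hb'p
      rw [h0]; simp
    · exact le_of_eq (hvar b hb b' hb' (Ne.symm hne) hadj)
  have hU : ∀ b ∈ M, ∀ b' ∈ M, ∀ s : Finset V, s.card = 3 → s ⊆ pt b → s ⊆ pt b' → b = b' := by
    intro b hb b' hb' s hs hsb hsb'
    by_contra hne
    have h1 : s ⊆ (pt b).filter (fun p => G.Adj b' p) := by
      intro p hp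
      rw [mem_filter]
      exact ⟨hsb hp, ((hpt b' p).mp (hsb' hp)).2⟩
    have h2 := card_le_card h1
    have h3 := hcommon b hb b' hb' hne
    omega
  have hE : ∀ s : Finset V, s ⊆ A v0 → s.card = 3 → ∃ b ∈ M, s ⊆ pt b := by
    have hptA : ∀ b, pt b ⊆ A v0 := fun b p hp => (hA v0 p).mpr ((hpt b p).mp hp).1
    have hsub : M.biUnion (fun b => (pt b).powersetCard 3) ⊆ (A v0).powersetCard 3 := by
      intro s hs
      rw [mem_biUnion] at hs
      obtain ⟨b, _, hsb⟩ := hs
      rw [mem_powersetCard] at hsb ⊢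
      exact ⟨hsb.1.trans (hptA b), hsb.2⟩
    have hcard : (M.biUnion (fun b => (pt b).powersetCard 3)).card = 1540 := by
      rw [card_biUnion]
      · have h1 : ∀ b ∈ M, ((pt b).powersetCard 3).card = 20 := by
          intro b hb
          rw [card_powersetCard, hpt6 b hb]; rfl
        rw [Finset.sum_congr rfl h1, sum_const, hMcard, smul_eq_mul]
      · intro b hb b' hb' hne
        show Disjoint ((pt b).powersetCard 3) ((pt b').powersetCard 3)
        rw [Finset.disjoint_left]
        intro s hs hs'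
        rw [mem_powersetCard] at hs hs'
        exact hne (hU b (Finset.mem_coe.mp hb) b' (Finset.mem_coe.mp hb') s hs.2 hs.1 hs'.1)
    have heq : M.biUnion (fun b => (pt b).powersetCard 3) = (A v0).powersetCard 3 := by
      apply eq_of_subset_of_card_le hsub
      rw [hcard, card_powersetCard, hAcard]
      decide
    intro s hs hs3
    have h1 : s ∈ (A v0).powersetCard 3 := mem_powersetCard.mpr ⟨hs, hs3⟩
    rw [← heq, mem_biUnion] at h1
    obtain ⟨b, hb, hsb⟩ := h1
    exact ⟨b, hb, (mem_powersetCard.mp hsb).1⟩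
  have hcardα : Fintype.card {x : V // G.Adj v0 x} = 22 := by
    rw [Fintype.card_subtype, ← hAcard v0]
    congr 1
    ext x
    rw [mem_filter, hA]
    exact ⟨fun h => h.2, fun h => ⟨mem_univ _, h⟩⟩
  refine ⟨hcardα, ?_⟩
  obtain ⟨blk, hblk⟩ : ∃ blk : V → Finset {x : V // G.Adj v0 x},
      ∀ b p, p ∈ blk b ↔ G.Adj b p.1 :=
    ⟨fun b => univ.filter (fun p => G.Adj b p.1), fun b p => by
      rw [mem_filter]; exact ⟨fun h => h.2, fun h => ⟨mem_univ _, h⟩⟩⟩
  have himg : ∀ b, (blk b).image Subtype.val = pt b := by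
    intro b
    ext x
    rw [mem_image, hpt]
    constructor
    · rintro ⟨p, hp, rfl⟩
      exact ⟨p.2, (hblk b p).mp hp⟩
    · rintro ⟨h1, h2⟩
      exact ⟨⟨x, h1⟩, (hblk b _).mpr h2, rfl⟩
  have hblk6 : ∀ b ∈ M, (blk b).card = 6 := by
    intro b hb
    rw [← hpt6 b hb, ← himg b, card_image_of_injective _ Subtype.val_injective]
  have hsubiff : ∀ (s : Finset {x : V // G.Adj v0 x}) (b : V),
      s ⊆ blk b ↔ s.image Subtype.val ⊆ pt b := by
    intro s b
    constructor
    · intro h x hx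
      rw [mem_image] at hx
      obtain ⟨p, hp, rfl⟩ := hx
      rw [hpt]
      exact ⟨p.2, (hblk b p).mp (h hp)⟩
    · intro h p hp
      rw [hblk]
      exact ((hpt b p.1).mp (h (mem_image_of_mem _ hp))).2
  have hblkinj : ∀ b ∈ M, ∀ b' ∈ M, blk b = blk b' → b = b' := by
    intro b hb b' hb' heq
    obtain ⟨s, hs, hs3⟩ := Finset.exists_subset_card_eq
      (show 3 ≤ (blk b).card by rw [hblk6 b hb]; norm_num)
    have h1 : (s.image Subtype.val).card = 3 := by
      rw [card_image_of_injective _ Subtype.val_injective, hs3]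
    have hs' : s ⊆ blk b' := by rw [← heq]; exact hs
    exact hU b hb b' hb' _ h1 ((hsubiff s b).mp hs) ((hsubiff s b').mp hs')
  obtain ⟨B, hBdef⟩ : ∃ B : Set (Finset {x : V // G.Adj v0 x}),
      ∀ t, t ∈ B ↔ ∃ b ∈ M, t = blk b := ⟨{t | ∃ b ∈ M, t = blk b}, fun t => Iff.rfl⟩
  have hBmem : ∀ b (_ : b ∈ M), blk b ∈ B := fun b hb => (hBdef _).mpr ⟨b, hb, rfl⟩
  have hB : IsSteinerSystem 3 6 B := by
    refine ⟨?_, ?_⟩
    · intro t ht
      obtain ⟨b, hb, rfl⟩ := (hBdef t).mp ht
      exact hblk6 b hb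
    · intro s hs
      have h1 : (s.image Subtype.val).card = 3 := by
        rw [card_image_of_injective _ Subtype.val_injective, hs]
      have h2 : s.image Subtype.val ⊆ A v0 := by
        intro x hx
        rw [mem_image] at hx
        obtain ⟨p, _, rfl⟩ := hx
        exact (hA v0 p.1).mpr p.2
      obtain ⟨b, hb, hsb⟩ := hE _ h2 h1
      refine ⟨blk b, ⟨hBmem b hb, (hsubiff s b).mpr hsb⟩, ?_⟩
      rintro t ⟨ht, hst⟩
      obtain ⟨b', hb', rfl⟩ := (hBdef t).mp ht
      rw [hU b' hb' b hb _ h1 ((hsubiff s b').mp hst) hsb]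
  refine ⟨B, hB, ?_⟩
  have hv0 : ∀ x, G.Adj v0 x → x ≠ v0 := by
    intro x hx hxv
    rw [hxv] at hx
    exact G.irrefl hx
  obtain ⟨f, hf0, hf1, hf2⟩ : ∃ f : V → Option ({x : V // G.Adj v0 x} ⊕ B), f v0 = none ∧
      (∀ p : {x : V // G.Adj v0 x}, f p.1 = some (Sum.inl p)) ∧
      (∀ b (hb : b ∈ M), f b = some (Sum.inr ⟨blk b, hBmem b hb⟩)) := by
    refine ⟨fun x => if h0 : x = v0 then none else if h : G.Adj v0 x then some (Sum.inl ⟨x, h⟩)
      else some (Sum.inr ⟨blk x, hBmem x ((hM x).mpr ⟨h0, h⟩)⟩), ?_, ?_, ?_⟩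
    · dsimp only
      rw [dif_pos rfl]
    · intro p
      dsimp only
      rw [dif_neg (hv0 p.1 p.2), dif_pos p.2]
    · intro b hb
      dsimp only
      rw [dif_neg ((hM b).mp hb).1, dif_neg ((hM b).mp hb).2]
  have hcases : ∀ x : V, x = v0 ∨ (∃ p : {x : V // G.Adj v0 x}, x = p.1) ∨ x ∈ M := by
    intro x
    by_cases h0 : x = v0
    · exact Or.inl h0
    · by_cases h : G.Adj v0 x
      · exact Or.inr (Or.inl ⟨⟨x, h⟩, rfl⟩)
      · exact Or.inr (Or.inr ((hM x).mpr ⟨h0, h⟩))
  have hfinj : Function.Injective f := by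
    intro x y hxy
    rcases hcases x with hx | ⟨p, hx⟩ | hx <;> rcases hcases y with hy | ⟨q, hy⟩ | hy
    · rw [hx, hy]
    · rw [hx, hy, hf0, hf1] at hxy; exact absurd hxy (by simp)
    · rw [hx, hf0, hf2 y hy] at hxy; exact absurd hxy (by simp)
    · rw [hx, hy, hf0, hf1] at hxy; exact absurd hxy (by simp)
    · rw [hx, hy, hf1, hf1] at hxy
      rw [hx, hy, Sum.inl.inj (Option.some.inj hxy)]
    · rw [hx, hf1, hf2 y hy] at hxy; exact absurd hxy (by simp)
    · rw [hy, hf0, hf2 x hx] at hxy; exact absurd hxy (by simp)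
    · rw [hy, hf1, hf2 x hx] at hxy; exact absurd hxy (by simp)
    · rw [hf2 x hx, hf2 y hy] at hxy
      have h1 := congrArg Subtype.val (Sum.inr.inj (Option.some.inj hxy))
      exact hblkinj x hx y hy h1
  have hfsurj : Function.Surjective f := by
    intro z
    rcases z with _ | p | c
    · exact ⟨v0, hf0⟩
    · exact ⟨p.1, hf1 p⟩
    · obtain ⟨b, hb, hcb⟩ := (hBdef c.1).mp c.2
      refine ⟨b, ?_⟩
      rw [hf2 b hb]
      congr 2
      exact Subtype.ext hcb.symm
  have hAdj : ∀ x y, (pointBlockGraph B).Adj (f x) (f y) ↔ G.Adj x y := by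
    have c12 : ∀ (p : {x : V // G.Adj v0 x}) (b : V) (_ : b ∈ M),
        (pointBlockGraph B).Adj (f p.1) (f b) ↔ G.Adj p.1 b := by
      intro p b hb
      rw [hf1, hf2 b hb, adj4]
      show p ∈ blk b ↔ _
      rw [hblk]
      exact ⟨fun h => h.symm, fun h => h.symm⟩
    intro x y
    rcases hcases x with hx | ⟨p, hx⟩ | hx <;> rcases hcases y with hy | ⟨q, hy⟩ | hy
    · rw [hx, hy]
      exact iff_of_false (SimpleGraph.irrefl _) (SimpleGraph.irrefl _)
    · rw [hx, hy, hf0, hf1]
      exact iff_of_true (adj1 B q) q.2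
    · rw [hx, hf0, hf2 y hy]
      exact iff_of_false (adj2 B _) ((hM y).mp hy).2
    · rw [hx, hy, hf0, hf1]
      exact iff_of_true (adj1 B p).symm p.2.symm
    · rw [hx, hy, hf1, hf1]
      exact iff_of_false (adj3 B p q) (fun h => hlam v0 p.1 q.1 p.2 q.2 h)
    · rw [hx]
      exact c12 p y hy
    · rw [hy, hf0, hf2 x hx]
      exact iff_of_false (fun h => adj2 B _ h.symm) (fun h => ((hM x).mp hx).2 h.symm)
    · rw [hy, SimpleGraph.adj_comm (pointBlockGraph B), SimpleGraph.adj_comm G]
      exact c12 q x hx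
    · rw [hf2 x hx, hf2 y hy, adj5]
      constructor
      · rintro ⟨hne, hd⟩
        by_contra hna
        have hyx : y ≠ x := by
          intro hyx
          apply hne
          apply Subtype.ext
          show blk x = blk y
          rw [hyx]
        have h2 := hvar x hx y hy hyx hna
        have h3 : ((pt x).filter (fun p => G.Adj y p)).Nonempty := by
          rw [← card_pos, h2]; norm_num
        obtain ⟨p, hp⟩ := h3
        rw [mem_filter, hpt] at hp
        exact Finset.disjoint_left.mp hd ((hblk x ⟨p, hp.1.1⟩).mpr hp.1.2)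
          ((hblk y ⟨p, hp.1.1⟩).mpr hp.2)
      · intro hxy
        constructor
        · intro h
          have h1 := congrArg Subtype.val h
          have h2 : x = y := hblkinj x hx y hy h1
          rw [h2] at hxy
          exact G.irrefl hxy
        · rw [Finset.disjoint_left]
          intro p hp hp'
          exact hlam x y p.1 hxy ((hblk x p).mp hp) ((hblk y p).mp hp')
  exact ⟨{ toEquiv := Equiv.ofBijective f ⟨hfinj, hfsurj⟩
           map_rel_iff' := fun {a b} => hAdj a b }⟩

theorem srg_unique {V W : Type*} [Fintype V] [Fintype W] {G : SimpleGraph V} {H : SimpleGraph W}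
    [DecidableRel G.Adj] [DecidableRel H.Adj] (hG : G.IsSRGWith 100 22 0 6)
    (hH : H.IsSRGWith 100 22 0 6) : Nonempty (G ≃g H) := by
  classical
  have hV : Nonempty V := by
    apply Fintype.card_pos_iff.mp
    rw [hG.card]; norm_num
  have hW : Nonempty W := by
    apply Fintype.card_pos_iff.mp
    rw [hH.card]; norm_num
  obtain ⟨v0⟩ := hV
  obtain ⟨w0⟩ := hW
  obtain ⟨hc, B, hB, ⟨φ⟩⟩ := srg_steiner G hG v0
  obtain ⟨hc', B', hB', ⟨ψ⟩⟩ := srg_steiner H hH w0
  obtain ⟨e, he⟩ := S22.steiner22_unique hc hc' hB hB'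
  obtain ⟨χ⟩ := pbg_iso e he
  exact ⟨(φ.trans χ).trans ψ.symm⟩

end Cfsg.Agent.Lib.helper28.SRG
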