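import Mathlib

set_option autoImplicit false

namespace Cfsg.Agent.Lib.helper28.Crit

open scoped Pointwise

/-- A finite group with a core-free subgroup of prime index which is a simple group of
non-prime order is simple. -/
theorem simple_of_prime_index {G : Type*} [Group G] [Finite G] (S : Subgroup G) (p : ℕ)
    (hp : p.Prime) (hidx : S.index = p) (hcore : S.normalCore = ⊥) [hS : IsSimpleGroup ↥S]
    (hnp : ¬ (Nat.card S).Prime) : IsSimpleGroup G := by
  obtain ⟨x0, y0, hxy0⟩ := hS.toNontrivial.exists_pair_ne
  haveI : Nontrivial G := ⟨⟨x0.1, y0.1, fun h => hxy0 (Subtype.ext h)⟩⟩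
  refine ⟨fun K hK => ?_⟩
  by_cases hKS : K ≤ S
  · left
    have : K ≤ S.normalCore := Subgroup.normal_le_normalCore.mpr hKS
    rw [hcore] at this
    exact le_bot_iff.mp this
  · right
    have hsup : K ⊔ S = ⊤ := by
      have h1 : (K ⊔ S).index ∣ p := hidx ▸ Subgroup.index_dvd_of_le le_sup_right
      rcases (Nat.dvd_prime hp).mp h1 with h | h
      · exact Subgroup.index_eq_one.mp h
      · exfalso
        have h2 := Subgroup.relIndex_mul_index (le_sup_right : S ≤ K ⊔ S)
        rw [h, hidx] at h2
        have h3 : S.relIndex (K ⊔ S) = 1 :=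
          Nat.eq_of_mul_eq_mul_right hp.pos (by rw [h2, one_mul])
        exact hKS (le_sup_left.trans (Subgroup.relIndex_eq_one.mp h3))
    rcases hS.eq_bot_or_eq_top_of_normal (K.subgroupOf S) (hK.subgroupOf S) with h | h
    · exfalso
      have hdisj : Disjoint K S := Subgroup.subgroupOf_eq_bot.mp h
      have hmul : (K : Set G) * (S : Set G) = Set.univ := by
        rw [← Subgroup.normal_mul, hsup]; rfl
      have hcompl := Subgroup.isComplement'_of_disjoint_and_mul_eq_univ hdisj hmul
      have hcard := hcompl.card_mul_card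
      have hKp : Nat.card K = p := by
        have h2 := Subgroup.card_mul_index S
        rw [hidx, ← hcard] at h2
        have hpos : 0 < Nat.card S := Nat.card_pos
        have : Nat.card S * p = Nat.card S * Nat.card K := by rw [h2, mul_comm]
        exact (Nat.eq_of_mul_eq_mul_left hpos this).symm
      haveI : Fact p.Prime := ⟨hp⟩
      haveI : IsCyclic ↥K := isCyclic_of_prime_card hKp
      have hcommAut : ∀ a b : MulAut ↥K, a * b = b * a := by
        intro a b
        apply (IsCyclic.mulAutMulEquiv ↥K).injective
        rw [map_mul, map_mul, mul_comm]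
      rcases hS.eq_bot_or_eq_top_of_normal
        ((MulAut.conjNormal (H := K)).comp S.subtype).ker (MonoidHom.normal_ker _) with h' | h'
      · have hinj := (MonoidHom.ker_eq_bot_iff _).mp h'
        letI : CommGroup ↥S :=
          { (inferInstance : Group ↥S) with
            mul_comm := fun a b => hinj (by rw [map_mul, map_mul, hcommAut]) }
        exact hnp (@IsSimpleGroup.prime_card ↥S _ _)
      · have hcen : ∀ s ∈ S, ∀ k ∈ K, s * k * s⁻¹ = k := by
          intro s hs k hk
          have h1 : (⟨s, hs⟩ : ↥S) ∈ ((MulAut.conjNormal (H := K)).comp S.subtype).ker := by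
            rw [h']; exact Subgroup.mem_top _
          rw [MonoidHom.mem_ker] at h1
          have h2 := congrArg (fun e : MulAut ↥K => ((e ⟨k, hk⟩ : ↥K) : G)) h1
          simp only [MonoidHom.comp_apply, Subgroup.coe_subtype, MulAut.conjNormal_apply] at h2
          exact h2
        have hnormal : S.Normal := by
          refine ⟨fun n hn g => ?_⟩
          have hg : g ∈ (K : Set G) * (S : Set G) := by rw [hmul]; exact Set.mem_univ _
          obtain ⟨k, hk, s, hs, rfl⟩ := Set.mem_mul.mp hg
          have h1 : s * n * s⁻¹ ∈ S := S.mul_mem (S.mul_mem hs hn) (S.inv_mem hs)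
          have h2 := hcen _ h1 k hk
          have h3 : k * s * n * (k * s)⁻¹ = s * n * s⁻¹ := by
            have : k * s * n * (k * s)⁻¹ = k * (s * n * s⁻¹) * k⁻¹ := by group
            rw [this]
            calc k * (s * n * s⁻¹) * k⁻¹
                = (s * n * s⁻¹ * k * (s * n * s⁻¹)⁻¹)⁻¹⁻¹ * (s * n * s⁻¹) * k⁻¹ := by rw [h2, inv_inv]
              _ = s * n * s⁻¹ := by group
          rw [h3]; exact h1
        have := Subgroup.normalCore_eq_self S
        rw [hcore] at this
        apply hxy0
        have hx : x0.1 ∈ (⊥ : Subgroup G) := this ▸ x0.2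
        have hy : y0.1 ∈ (⊥ : Subgroup G) := this ▸ y0.2
        rw [Subgroup.mem_bot] at hx hy
        exact Subtype.ext (hx.trans hy.symm)
    · have hSK : S ≤ K := Subgroup.subgroupOf_eq_top.mp h
      rw [← hsup]
      exact (sup_eq_left.mpr hSK).symm

end Cfsg.Agent.Lib.helper28.Crit
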