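import Cfsg.Agent.Lib.helper28.GolayCount
import Cfsg.Agent.Lib.helper28.GolayTrans
import Cfsg.Agent.Lib.helper28.Plane4Ext

set_option autoImplicit false
set_option linter.unusedSectionVars false

namespace Cfsg.Agent.Lib.helper28.S22

open Cfsg
open scoped Pointwise

/-- Derived design of a Steiner system at a set of `k` points. -/
theorem derived_steiner {γ : Type*} [DecidableEq γ] (t n k : ℕ) (K : Finset γ) (hK : K.card = k)
    {B : Set (Finset γ)} (hB : IsSteinerSystem (t + k) (n + k) B) :
    IsSteinerSystem t n {l : Finset {p : γ // p ∉ K} | K ∪ l.image Subtype.val ∈ B} := by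
  classical
  have hdisj : ∀ l : Finset {p : γ // p ∉ K}, Disjoint K (l.image Subtype.val) := by
    intro l
    rw [Finset.disjoint_left]
    intro a ha ha'
    rw [Finset.mem_image] at ha'
    obtain ⟨u, _, rfl⟩ := ha'
    exact u.2 ha
  have hcard : ∀ l : Finset {p : γ // p ∉ K}, (K ∪ l.image Subtype.val).card = l.card + k := by
    intro l
    rw [Finset.card_union_of_disjoint (hdisj l),
      Finset.card_image_of_injective _ Subtype.val_injective, hK, add_comm]
  refine ⟨fun l hl => ?_, fun s hs => ?_⟩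
  · have h1 := hB.1 _ hl
    rw [hcard] at h1
    omega
  · obtain ⟨b, ⟨hb, hsb⟩, huniq⟩ := hB.2 (K ∪ s.image Subtype.val) (by rw [hcard, hs])
    have hKb : K ⊆ b := Finset.union_subset_left hsb
    have hb' : K ∪ (b.subtype (· ∉ K)).image Subtype.val = b := by
      ext a
      rw [Finset.mem_union, Finset.mem_image]
      constructor
      · rintro (h | ⟨u, hu, rfl⟩)
        · exact hKb h
        · exact Finset.mem_subtype.mp hu
      · intro h
        by_cases haK : a ∈ K
        · exact Or.inl haK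
        · exact Or.inr ⟨⟨a, haK⟩, Finset.mem_subtype.mpr h, rfl⟩
    refine ⟨b.subtype (· ∉ K), ⟨?_, ?_⟩, ?_⟩
    · show K ∪ (b.subtype (· ∉ K)).image Subtype.val ∈ B
      rw [hb']; exact hb
    · intro u hu
      rw [Finset.mem_subtype]
      exact hsb (Finset.mem_union_right _ (Finset.mem_image_of_mem _ hu))
    · rintro l ⟨hl, hsl⟩
      have h2 : K ∪ l.image Subtype.val = b :=
        huniq _ ⟨hl, Finset.union_subset_union_right (Finset.image_subset_image hsl)⟩
      ext u
      rw [Finset.mem_subtype, ← h2, Finset.mem_union]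
      constructor
      · intro hu; exact Or.inr (Finset.mem_image_of_mem _ hu)
      · rintro (h | h)
        · exact absurd h u.2
        · rw [Finset.mem_image] at h
          obtain ⟨v, hv, hvu⟩ := h
          rwa [← Subtype.val_injective hvu]

/-- The three points removed to obtain the model plane. -/
def K3 : Finset GolayPt := setOf 7

theorem card_K3 : K3.card = 3 := by
  unfold K3
  rw [card_eq_pc, maskS_setOf (by norm_num)]
  decide

theorem card_M21 : Fintype.card {p : GolayPt // p ∉ K3} = 21 := by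
  rw [Fintype.card_subtype_compl, Fintype.card_coe, card_K3, Fintype.card_option, ZMod.card]

theorem Lm_steiner :
    IsSteinerSystem 2 5 {l : Finset {p : GolayPt // p ∉ K3} | K3 ∪ l.image Subtype.val ∈ octads} :=
  derived_steiner 2 5 3 K3 card_K3 octads_isSteinerSystem

theorem plane_embed {α : Type*} [Fintype α] [DecidableEq α] (hα : Fintype.card α = 21)
    {L : Set (Finset α)} (hL : IsSteinerSystem 2 5 L) :
    ∃ e : α → GolayPt, Function.Injective e ∧ (∀ u, e u ∉ K3) ∧ (∀ p, p ∉ K3 → ∃ u, e u = p) ∧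
      ∀ l : Finset α, l ∈ L ↔ K3 ∪ l.image e ∈ octads := by
  classical
  obtain ⟨E, hE⟩ := Plane4.plane_unique hα card_M21 hL Lm_steiner
  refine ⟨fun u => (E u).1, fun u v h => E.injective (Subtype.ext h), fun u => (E u).2,
    fun p hp => ⟨E.symm ⟨p, hp⟩, by simp⟩, fun l => ?_⟩
  have h1 : K3 ∪ l.image (fun u => (E u).1) = K3 ∪ (l.image E).image Subtype.val := by
    rw [Finset.image_image]; rfl
  rw [h1]
  constructor
  · intro hl
    have : l.image E ∈ {l : Finset {p : GolayPt // p ∉ K3} | K3 ∪ l.image Subtype.val ∈ octads} := by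
      rw [← hE]; exact ⟨l, hl, rfl⟩
    exact this
  · intro h
    have : l.image E ∈ {l : Finset {p : GolayPt // p ∉ K3} | K3 ∪ l.image Subtype.val ∈ octads} := h
    rw [← hE] at this
    obtain ⟨l0, hl0, h0⟩ := this
    have : l0 = l := Finset.image_injective E.injective h0
    rw [← this]; exact hl0

theorem count_oct_K3 : countLt (fun n => Nat.beq (pcF (cwF n)) 8 &&
    Nat.beq (pcF (Nat.land (cwF n) 7)) 2) 4096 = 168 := by decide +kernel

theorem ncard_octK : {O : Finset GolayPt | O ∈ octads ∧ (O ∩ K3).card = 2}.ncard = 168 := by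
  have h := ncard_weight_inter 8 2 7 (by norm_num)
  rw [count_oct_K3] at h
  exact h


theorem hyp_octad {α : Type*} [Fintype α] [DecidableEq α] (hα : Fintype.card α = 21)
    {L : Set (Finset α)} (hL : IsSteinerSystem 2 5 L) (e : α → GolayPt)
    (he : Function.Injective e) (heK : ∀ u, e u ∉ K3) (hsurj : ∀ p, p ∉ K3 → ∃ u, e u = p)
    (hLe : ∀ l : Finset α, l ∈ L ↔ K3 ∪ l.image e ∈ octads)
    (H : Finset α) (hH : H.card = 6 ∧ ∀ l ∈ L, (l ∩ H).card ≤ 2) :
    ∃ O ∈ octads, (O ∩ K3).card = 2 ∧ H.image e = O \ K3 := by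
  classical
  let φ : Finset GolayPt → Finset α := fun O => Finset.univ.filter (fun u => e u ∈ O)
  have hφm : ∀ (O : Finset GolayPt) (u : α), u ∈ φ O ↔ e u ∈ O := by
    intro O u
    simp [φ]
  have hφ : ∀ O : Finset GolayPt, (φ O).image e = O \ K3 := by
    intro O
    ext p
    rw [Finset.mem_image, Finset.mem_sdiff]
    constructor
    · rintro ⟨u, hu, rfl⟩
      exact ⟨(hφm O u).mp hu, heK u⟩
    · rintro ⟨hp, hpK⟩
      obtain ⟨u, rfl⟩ := hsurj p hpK
      exact ⟨u, (hφm O u).mpr hp, rfl⟩
  have h6 : ∀ O ∈ octads, (O ∩ K3).card = 2 → (O \ K3).card = 6 := by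
    intro O hO h2
    have := Finset.card_sdiff_add_card_inter O K3
    rw [card_of_mem_octads hO, h2] at this
    omega
  have hinj : ∀ O ∈ octads, ∀ O' ∈ octads, (O ∩ K3).card = 2 → O \ K3 = O' \ K3 → O = O' := by
    intro O hO O' hO' h2 h
    by_contra hne
    have h4 := card_inter_le_of_octads hO hO' hne
    have h6' := h6 O hO h2
    have hsub : O \ K3 ⊆ O ∩ O' := by
      intro p hp
      rw [Finset.mem_inter]
      exact ⟨(Finset.mem_sdiff.mp hp).1, (Finset.mem_sdiff.mp (h ▸ hp)).1⟩
    have := Finset.card_le_card hsub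
    omega
  have hmap : φ '' {O : Finset GolayPt | O ∈ octads ∧ (O ∩ K3).card = 2} ⊆
      {H : Finset α | H.card = 6 ∧ ∀ l ∈ L, (l ∩ H).card ≤ 2} := by
    rintro _ ⟨O, ⟨hO, h2⟩, rfl⟩
    have h6' := h6 O hO h2
    refine ⟨?_, fun l hl => ?_⟩
    · rw [← Finset.card_image_of_injective _ he, hφ, h6']
    · by_contra hcon
      rw [not_le] at hcon
      have hO' := (hLe l).mp hl
      have hne : O ≠ K3 ∪ l.image e := by
        intro heq
        have h3 : O ∩ K3 = K3 := by
          rw [heq]; exact Finset.inter_eq_right.mpr Finset.subset_union_left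
        rw [h3, card_K3] at h2
        omega
      have h4 := card_inter_le_of_octads hO hO' hne
      have hsub : (O ∩ K3) ∪ (l ∩ φ O).image e ⊆ O ∩ (K3 ∪ l.image e) := by
        intro p hp
        rw [Finset.mem_union] at hp
        rw [Finset.mem_inter, Finset.mem_union]
        rcases hp with hp | hp
        · exact ⟨(Finset.mem_inter.mp hp).1, Or.inl (Finset.mem_inter.mp hp).2⟩
        · rw [Finset.mem_image] at hp
          obtain ⟨u, hu, rfl⟩ := hp
          rw [Finset.mem_inter] at hu
          exact ⟨(hφm O u).mp hu.2, Or.inr (Finset.mem_image_of_mem _ hu.1)⟩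
      have hdis : Disjoint (O ∩ K3) ((l ∩ φ O).image e) := by
        rw [Finset.disjoint_left]
        intro p hp hp'
        rw [Finset.mem_image] at hp'
        obtain ⟨u, _, rfl⟩ := hp'
        exact heK u (Finset.mem_inter.mp hp).2
      have h5 := Finset.card_le_card hsub
      rw [Finset.card_union_of_disjoint hdis, Finset.card_image_of_injective _ he, h2] at h5
      omega
  have hinjOn : Set.InjOn φ {O : Finset GolayPt | O ∈ octads ∧ (O ∩ K3).card = 2} := by
    rintro O ⟨hO, h2⟩ O' ⟨hO', _⟩ h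
    have h' : O \ K3 = O' \ K3 := by
      rw [← hφ O, ← hφ O']
      exact congrArg (fun s : Finset α => s.image e) h
    exact hinj O hO O' hO' h2 h'
  have hcard : (φ '' {O : Finset GolayPt | O ∈ octads ∧ (O ∩ K3).card = 2}).ncard = 168 := by
    rw [Set.InjOn.ncard_image hinjOn, ncard_octK]
  have h168 := (Cfsg.Agent.S5627.result hα L hL).2.1
  have heq := Set.eq_of_subset_of_ncard_le hmap (by rw [hcard, h168]) (Set.toFinite _)
  have hHmem : H ∈ φ '' {O : Finset GolayPt | O ∈ octads ∧ (O ∩ K3).card = 2} := by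
    rw [heq]; exact hH
  obtain ⟨O, ⟨hO, h2⟩, rfl⟩ := hHmem
  exact ⟨O, hO, h2, hφ O⟩

theorem block_unique {α : Type*} [DecidableEq α] {B : Set (Finset α)}
    (hB : IsSteinerSystem 3 6 B) {b c : Finset α} (hb : b ∈ B) (hc : c ∈ B)
    (h : 3 ≤ (b ∩ c).card) : b = c := by
  obtain ⟨s, hs, hs3⟩ := Finset.exists_subset_card_eq h
  obtain ⟨d, _, hd⟩ := hB.2 s hs3
  rw [hd b ⟨hb, hs.trans Finset.inter_subset_left⟩, hd c ⟨hc, hs.trans Finset.inter_subset_right⟩]

theorem exists_block_not_mem {α : Type*} [Fintype α] [DecidableEq α] (hα : Fintype.card α = 22)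
    {B : Set (Finset α)} (hB : IsSteinerSystem 3 6 B) (w : α) : ∃ b ∈ B, w ∉ b := by
  classical
  have hS : ((Finset.univ : Finset α).erase w).card = 21 := by
    rw [Finset.card_erase_of_mem (Finset.mem_univ w), Finset.card_univ, hα]
  obtain ⟨t, ht, ht2⟩ := Finset.exists_subset_card_eq (s := (Finset.univ : Finset α).erase w)
    (n := 2) (by omega)
  have hwt : w ∉ t := fun h => (Finset.mem_erase.mp (ht h)).1 rfl
  obtain ⟨c, ⟨hc, hsc⟩, _⟩ := hB.2 (insert w t) (by rw [Finset.card_insert_of_notMem hwt, ht2])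
  have hc6 := hB.1 c hc
  obtain ⟨u, _, huc⟩ := Finset.exists_mem_notMem_of_card_lt_card
    (s := c) (t := (Finset.univ : Finset α)) (by rw [hc6, Finset.card_univ, hα]; norm_num)
  have htc : t ⊆ c := (Finset.subset_insert w t).trans hsc
  have hut : u ∉ t := fun h => huc (htc h)
  obtain ⟨b, ⟨hb, hsb⟩, _⟩ := hB.2 (insert u t) (by rw [Finset.card_insert_of_notMem hut, ht2])
  refine ⟨b, hb, fun hwb => ?_⟩
  have hsub : insert w t ⊆ b ∩ c := by
    intro p hp
    rw [Finset.mem_inter]
    refine ⟨?_, hsc hp⟩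
    rw [Finset.mem_insert] at hp
    rcases hp with rfl | hp
    · exact hwb
    · exact hsb (Finset.mem_insert_of_mem hp)
  have h3 := Finset.card_le_card hsub
  rw [Finset.card_insert_of_notMem hwt, ht2] at h3
  have := block_unique hB hb hc h3
  exact huc (this ▸ hsb (Finset.mem_insert_self u t))

theorem derived_embed {α : Type*} [Fintype α] [DecidableEq α] (hα : Fintype.card α = 22)
    {B : Set (Finset α)} (hB : IsSteinerSystem 3 6 B) (w : α) :
    ∃ e0 : α → GolayPt, (∀ u v, u ≠ w → v ≠ w → e0 u = e0 v → u = v) ∧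
      (∀ u, u ≠ w → e0 u ∉ K3) ∧ (∀ p, p ∉ K3 → ∃ u, u ≠ w ∧ e0 u = p) ∧
      (∀ c ∈ B, w ∈ c → K3 ∪ (c.erase w).image e0 ∈ octads) ∧
      (∀ b ∈ B, w ∉ b → ∃ O ∈ octads, (O ∩ K3).card = 2 ∧ b.image e0 = O \ K3) := by
  classical
  let K : Finset α := {w}
  have hK : K.card = 1 := Finset.card_singleton w
  have hL : IsSteinerSystem 2 5 {l : Finset {p : α // p ∉ K} | K ∪ l.image Subtype.val ∈ B} :=
    derived_steiner 2 5 1 K hK hB
  have hα' : Fintype.card {p : α // p ∉ K} = 21 := by
    rw [Fintype.card_subtype_compl, Fintype.card_coe, hK, hα]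
  obtain ⟨e1, he1, he1K, he1s, he1L⟩ := plane_embed hα' hL
  let e0 : α → GolayPt := fun u => if h : u ∈ K then pt 0 else e1 ⟨u, h⟩
  have he0 : ∀ (u : α) (h : u ∉ K), e0 u = e1 ⟨u, h⟩ := fun u h => dif_neg h
  have hmemK : ∀ u, u ∈ K ↔ u = w := fun u => Finset.mem_singleton
  have himg : ∀ s : Finset α, w ∉ s → (s.subtype (· ∉ K)).image e1 = s.image e0 := by
    intro s hws
    ext p
    rw [Finset.mem_image, Finset.mem_image]
    constructor
    · rintro ⟨u, hu, rfl⟩
      exact ⟨u.1, Finset.mem_subtype.mp hu, he0 u.1 u.2⟩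
    · rintro ⟨u, hu, rfl⟩
      have huK : u ∉ K := fun h => hws ((hmemK u).mp h ▸ hu)
      exact ⟨⟨u, huK⟩, Finset.mem_subtype.mpr hu, (he0 u huK).symm⟩
  have hval : ∀ s : Finset α, w ∉ s → (s.subtype (· ∉ K)).image Subtype.val = s := by
    intro s hws
    ext p
    rw [Finset.mem_image]
    constructor
    · rintro ⟨u, hu, rfl⟩; exact Finset.mem_subtype.mp hu
    · intro hp
      have hpK : p ∉ K := fun h => hws ((hmemK p).mp h ▸ hp)
      exact ⟨⟨p, hpK⟩, Finset.mem_subtype.mpr hp, rfl⟩
  refine ⟨e0, ?_, ?_, ?_, ?_, ?_⟩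
  · intro u v hu hv h
    have huK : u ∉ K := fun h => hu ((hmemK u).mp h)
    have hvK : v ∉ K := fun h => hv ((hmemK v).mp h)
    rw [he0 u huK, he0 v hvK] at h
    exact congrArg Subtype.val (he1 h)
  · intro u hu
    have huK : u ∉ K := fun h => hu ((hmemK u).mp h)
    rw [he0 u huK]; exact he1K _
  · intro p hp
    obtain ⟨u, rfl⟩ := he1s p hp
    exact ⟨u.1, fun h => u.2 ((hmemK _).mpr h), he0 u.1 u.2⟩
  · intro c hc hwc
    have hw' : w ∉ c.erase w := Finset.notMem_erase w c
    rw [← himg _ hw']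
    apply (he1L _).mp
    show K ∪ ((c.erase w).subtype (· ∉ K)).image Subtype.val ∈ B
    rw [hval _ hw']
    have h1 : K ∪ c.erase w = c := by
      show {w} ∪ c.erase w = c
      rw [← Finset.insert_eq, Finset.insert_erase hwc]
    rw [h1]; exact hc
  · intro b hb hwb
    have hyp : ((b.subtype (· ∉ K)).card = 6 ∧
        ∀ l ∈ {l : Finset {p : α // p ∉ K} | K ∪ l.image Subtype.val ∈ B},
          (l ∩ b.subtype (· ∉ K)).card ≤ 2) := by
      constructor
      · rw [← Finset.card_image_of_injective _ Subtype.val_injective, hval b hwb]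
        exact hB.1 b hb
      · intro l hl
        by_contra hcon
        rw [not_le] at hcon
        have hsub : (l ∩ b.subtype (· ∉ K)).image Subtype.val ⊆
            (K ∪ l.image Subtype.val) ∩ b := by
          intro p hp
          rw [Finset.mem_image] at hp
          obtain ⟨u, hu, rfl⟩ := hp
          rw [Finset.mem_inter] at hu
          rw [Finset.mem_inter]
          exact ⟨Finset.mem_union_right _ (Finset.mem_image_of_mem _ hu.1),
            Finset.mem_subtype.mp hu.2⟩
        have h3 := Finset.card_le_card hsub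
        rw [Finset.card_image_of_injective _ Subtype.val_injective] at h3
        have hcb := block_unique hB hl hb (by omega)
        apply hwb
        rw [← hcb]
        exact Finset.mem_union_left _ (Finset.mem_singleton_self w)
    obtain ⟨O, hO, h2, hOH⟩ := hyp_octad hα' hL e1 he1 he1K he1s he1L _ hyp
    exact ⟨O, hO, h2, by rw [← himg b hwb]; exact hOH⟩


theorem pair_inter {P P' K : Finset GolayPt} (hK : K.card = 3) (hP : P ⊆ K) (hP' : P' ⊆ K)
    (h2 : P.card = 2) (h2' : P'.card = 2) :
    1 ≤ (P ∩ P').card ∧ ((P ∩ P').card = 2 → P = P') := by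
  constructor
  · have h1 := Finset.card_union_add_card_inter P P'
    have h3 := Finset.card_le_card (Finset.union_subset hP hP')
    omega
  · intro h
    have e1 : P ∩ P' = P := Finset.eq_of_subset_of_card_le Finset.inter_subset_left (by omega)
    have e2 : P ∩ P' = P' := Finset.eq_of_subset_of_card_le Finset.inter_subset_right (by omega)
    exact e1.symm.trans e2

theorem oct_inter_card {α : Type*} [DecidableEq α] {w : α} {e0 : α → GolayPt}
    (hinj0 : ∀ u v, u ≠ w → v ≠ w → e0 u = e0 v → u = v)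
    {b b' : Finset α} (hwb : w ∉ b) (hwb' : w ∉ b') {O O' : Finset GolayPt}
    (hO : b.image e0 = O \ K3) (hO' : b'.image e0 = O' \ K3) :
    (O ∩ O').card = ((O ∩ K3) ∩ (O' ∩ K3)).card + (b ∩ b').card := by
  have h1 : O ∩ O' = ((O ∩ K3) ∩ (O' ∩ K3)) ∪ (b ∩ b').image e0 := by
    ext p
    rw [Finset.mem_union, Finset.mem_image]
    constructor
    · intro hp
      rw [Finset.mem_inter] at hp
      by_cases hpK : p ∈ K3
      · left
        rw [Finset.mem_inter, Finset.mem_inter, Finset.mem_inter]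
        exact ⟨⟨hp.1, hpK⟩, hp.2, hpK⟩
      · right
        have h1 : p ∈ b.image e0 := by rw [hO, Finset.mem_sdiff]; exact ⟨hp.1, hpK⟩
        have h2 : p ∈ b'.image e0 := by rw [hO', Finset.mem_sdiff]; exact ⟨hp.2, hpK⟩
        rw [Finset.mem_image] at h1 h2
        obtain ⟨u, hu, rfl⟩ := h1
        obtain ⟨v, hv, hvu⟩ := h2
        have huw : u ≠ w := fun h => hwb (h ▸ hu)
        have hvw : v ≠ w := fun h => hwb' (h ▸ hv)
        have huv := hinj0 v u hvw huw hvu
        subst huv
        exact ⟨v, Finset.mem_inter.mpr ⟨hu, hv⟩, rfl⟩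
    · rintro (hp | ⟨u, hu, rfl⟩)
      · rw [Finset.mem_inter, Finset.mem_inter, Finset.mem_inter] at hp
        exact Finset.mem_inter.mpr ⟨hp.1.1, hp.2.1⟩
      · rw [Finset.mem_inter] at hu
        have h1 : e0 u ∈ O \ K3 := hO ▸ Finset.mem_image_of_mem _ hu.1
        have h2 : e0 u ∈ O' \ K3 := hO' ▸ Finset.mem_image_of_mem _ hu.2
        exact Finset.mem_inter.mpr ⟨(Finset.mem_sdiff.mp h1).1, (Finset.mem_sdiff.mp h2).1⟩
  have hdis : Disjoint ((O ∩ K3) ∩ (O' ∩ K3)) ((b ∩ b').image e0) := by
    rw [Finset.disjoint_left]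
    intro p hp hp'
    rw [Finset.mem_image] at hp'
    obtain ⟨u, hu, rfl⟩ := hp'
    have h1 : e0 u ∈ O \ K3 := hO ▸ Finset.mem_image_of_mem _ (Finset.mem_inter.mp hu).1
    exact (Finset.mem_sdiff.mp h1).2 (Finset.mem_inter.mp (Finset.mem_inter.mp hp).1).2
  rw [h1, Finset.card_union_of_disjoint hdis, Finset.card_image_of_injOn]
  intro u hu v hv h
  have hu' := Finset.mem_inter.mp (Finset.mem_coe.mp hu)
  have hv' := Finset.mem_inter.mp (Finset.mem_coe.mp hv)
  exact hinj0 u v (fun h => hwb (h ▸ hu'.1)) (fun h => hwb (h ▸ hv'.1)) h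

theorem pair_eq_of_two {α : Type*} [DecidableEq α] {w : α} {e0 : α → GolayPt}
    (hinj0 : ∀ u v, u ≠ w → v ≠ w → e0 u = e0 v → u = v)
    {b b' : Finset α} (hwb : w ∉ b) (hwb' : w ∉ b') {O O' : Finset GolayPt}
    (hOo : O ∈ octads) (hOo' : O' ∈ octads) (h2 : (O ∩ K3).card = 2)
    (h2' : (O' ∩ K3).card = 2) (hO : b.image e0 = O \ K3) (hO' : b'.image e0 = O' \ K3)
    (hbb : (b ∩ b').card = 2) : O ∩ K3 = O' ∩ K3 := by
  have hc := oct_inter_card hinj0 hwb hwb' hO hO'
  have hev := even_card_inter_of_mem_supports (octads_subset_supports hOo)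
    (octads_subset_supports hOo')
  have hp := pair_inter card_K3 (Finset.inter_subset_right (s₁ := O))
    (Finset.inter_subset_right (s₁ := O')) h2 h2'
  have hle : ((O ∩ K3) ∩ (O' ∩ K3)).card ≤ 2 := by
    have := Finset.card_le_card (Finset.inter_subset_left (s₁ := O ∩ K3) (s₂ := O' ∩ K3))
    omega
  rw [hc, hbb, Nat.even_iff] at hev
  exact hp.2 (by omega)

theorem pair_same {α : Type*} [Fintype α] [DecidableEq α] {B : Set (Finset α)}
    (hB : IsSteinerSystem 3 6 B) {w : α} {e0 : α → GolayPt}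
    (hinj0 : ∀ u v, u ≠ w → v ≠ w → e0 u = e0 v → u = v)
    (hhex : ∀ b ∈ B, w ∉ b → ∃ O ∈ octads, (O ∩ K3).card = 2 ∧ b.image e0 = O \ K3)
    {b b' : Finset α} (hb : b ∈ B) (hb' : b' ∈ B) (hwb : w ∉ b) (hwb' : w ∉ b')
    {O O' : Finset GolayPt} (hOo : O ∈ octads) (hOo' : O' ∈ octads)
    (h2 : (O ∩ K3).card = 2) (h2' : (O' ∩ K3).card = 2) (hO : b.image e0 = O \ K3)
    (hO' : b'.image e0 = O' \ K3) : O ∩ K3 = O' ∩ K3 := by
  classical
  by_contra hne
  have hc := oct_inter_card hinj0 hwb hwb' hO hO'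
  have hev := even_card_inter_of_mem_supports (octads_subset_supports hOo)
    (octads_subset_supports hOo')
  have hp := pair_inter card_K3 (Finset.inter_subset_right (s₁ := O))
    (Finset.inter_subset_right (s₁ := O')) h2 h2'
  have hle : ((O ∩ K3) ∩ (O' ∩ K3)).card ≤ 2 := by
    have := Finset.card_le_card (Finset.inter_subset_left (s₁ := O ∩ K3) (s₂ := O' ∩ K3))
    omega
  have h1 : ((O ∩ K3) ∩ (O' ∩ K3)).card = 1 := by
    by_contra h
    exact hne (hp.2 (by omega))
  rw [hc, h1, Nat.even_iff] at hev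
  have hb6 := hB.1 b hb
  have hb6' := hB.1 b' hb'
  have hbne : b ≠ b' := by
    intro h
    rw [← h, Finset.inter_self, hb6] at hev
    omega
  have hle2 : (b ∩ b').card ≤ 2 := by
    by_contra h
    rw [not_le] at h
    exact hbne (block_unique hB hb hb' (by omega))
  have hone : (b ∩ b').card = 1 := by omega
  obtain ⟨p, hp1⟩ := Finset.card_eq_one.mp hone
  have hpbb : p ∈ b ∩ b' := by rw [hp1]; exact Finset.mem_singleton_self p
  have hpb : p ∈ b := (Finset.mem_inter.mp hpbb).1
  have hpb' : p ∈ b' := (Finset.mem_inter.mp hpbb).2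
  have honly : ∀ u, u ∈ b → u ∈ b' → u = p := by
    intro u hu hu'
    have : u ∈ b ∩ b' := Finset.mem_inter.mpr ⟨hu, hu'⟩
    rw [hp1] at this
    exact Finset.mem_singleton.mp this
  obtain ⟨q, hq⟩ : (b.erase p).Nonempty :=
    Finset.card_pos.mp (by rw [Finset.card_erase_of_mem hpb, hb6]; norm_num)
  have hqp : q ≠ p := (Finset.mem_erase.mp hq).1
  have hqb : q ∈ b := (Finset.mem_erase.mp hq).2
  have hwp : w ≠ p := fun h => hwb (h ▸ hpb)
  have hwq : w ≠ q := fun h => hwb (h ▸ hqb)
  have hc3 : ({w, p, q} : Finset α).card = 3 :=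
    Finset.card_eq_three.mpr ⟨w, p, q, hwp, hwq, Ne.symm hqp, rfl⟩
  obtain ⟨c, ⟨hc, hsc⟩, _⟩ := hB.2 _ hc3
  have hwc : w ∈ c := hsc (by simp)
  have hpc : p ∈ c := hsc (by simp)
  have hqc : q ∈ c := hsc (by simp)
  have hcb' : b' ≠ c := fun h => hwb' (h ▸ hwc)
  have hcb'2 : (b' ∩ c).card ≤ 2 := by
    by_contra h
    rw [not_le] at h
    exact hcb' (block_unique hB hb' hc (by omega))
  obtain ⟨q', hq'⟩ : (b' \ c).Nonempty := Finset.card_pos.mp (by
    have := Finset.card_sdiff_add_card_inter b' c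
    omega)
  have hq'b' : q' ∈ b' := (Finset.mem_sdiff.mp hq').1
  have hq'c : q' ∉ c := (Finset.mem_sdiff.mp hq').2
  have hq'p : q' ≠ p := fun h => hq'c (h ▸ hpc)
  have hq'q : q' ≠ q := fun h => hq'c (h ▸ hqc)
  have hd3 : ({p, q, q'} : Finset α).card = 3 :=
    Finset.card_eq_three.mpr ⟨p, q, q', Ne.symm hqp, Ne.symm hq'p, Ne.symm hq'q, rfl⟩
  obtain ⟨d, ⟨hd, hsd⟩, _⟩ := hB.2 _ hd3
  have hpd : p ∈ d := hsd (by simp)
  have hqd : q ∈ d := hsd (by simp)
  have hq'd : q' ∈ d := hsd (by simp)
  have hwd : w ∉ d := by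
    intro hwd
    have hsub : ({w, p, q} : Finset α) ⊆ d ∩ c := by
      intro u hu
      rw [Finset.mem_insert, Finset.mem_insert, Finset.mem_singleton] at hu
      rw [Finset.mem_inter]
      rcases hu with rfl | rfl | rfl
      · exact ⟨hwd, hwc⟩
      · exact ⟨hpd, hpc⟩
      · exact ⟨hqd, hqc⟩
    have h3 := Finset.card_le_card hsub
    rw [hc3] at h3
    have hdc := block_unique hB hd hc h3
    rw [hdc] at hq'd
    exact hq'c hq'd
  have hq'b : q' ∉ b := fun h => hq'p (honly q' h hq'b')
  have hqb' : q ∉ b' := fun h => hqp (honly q hqb h)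
  have hbd : (b ∩ d).card = 2 := by
    have hge : 2 ≤ (b ∩ d).card := by
      have hsub : ({p, q} : Finset α) ⊆ b ∩ d := by
        intro u hu
        rw [Finset.mem_insert, Finset.mem_singleton] at hu
        rw [Finset.mem_inter]
        rcases hu with rfl | rfl
        · exact ⟨hpb, hpd⟩
        · exact ⟨hqb, hqd⟩
      have := Finset.card_le_card hsub
      rwa [Finset.card_pair (Ne.symm hqp)] at this
    have hle : (b ∩ d).card ≤ 2 := by
      by_contra h
      rw [not_le] at h
      have hbd' := block_unique hB hb hd (by omega)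
      rw [← hbd'] at hq'd
      exact hq'b hq'd
    omega
  have hb'd : (b' ∩ d).card = 2 := by
    have hge : 2 ≤ (b' ∩ d).card := by
      have hsub : ({p, q'} : Finset α) ⊆ b' ∩ d := by
        intro u hu
        rw [Finset.mem_insert, Finset.mem_singleton] at hu
        rw [Finset.mem_inter]
        rcases hu with rfl | rfl
        · exact ⟨hpb', hpd⟩
        · exact ⟨hq'b', hq'd⟩
      have := Finset.card_le_card hsub
      rwa [Finset.card_pair (Ne.symm hq'p)] at this
    have hle : (b' ∩ d).card ≤ 2 := by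
      by_contra h
      rw [not_le] at h
      have hbd' := block_unique hB hb' hd (by omega)
      rw [← hbd'] at hqd
      exact hqb' hqd
    omega
  obtain ⟨O'', hOo'', h2'', hO''⟩ := hhex d hd hwd
  have e1 := pair_eq_of_two hinj0 hwb hwd hOo hOo'' h2 h2'' hO hO'' hbd
  have e2 := pair_eq_of_two hinj0 hwb' hwd hOo' hOo'' h2' h2'' hO' hO'' hb'd
  exact hne (e1.trans e2.symm)

theorem embed22 {α : Type*} [Fintype α] [DecidableEq α] (hα : Fintype.card α = 22)
    {B : Set (Finset α)} (hB : IsSteinerSystem 3 6 B) :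
    ∃ (x y : GolayPt) (e : α → GolayPt), x ≠ y ∧ Function.Injective e ∧
      (∀ u, e u ≠ x ∧ e u ≠ y) ∧ (∀ p, p ≠ x → p ≠ y → ∃ u, e u = p) ∧
      ∀ s : Finset α, s ∈ B ↔ {x, y} ∪ s.image e ∈ octads := by
  classical
  have hne : Nonempty α := Fintype.card_pos_iff.mp (by omega)
  obtain ⟨w⟩ := hne
  obtain ⟨e0, hinj0, hK0, hsurj0, hline, hhex⟩ := derived_embed hα hB w
  obtain ⟨b0, hb0, hwb0⟩ := exists_block_not_mem hα hB w
  obtain ⟨O0, hO0, h20, hOb0⟩ := hhex b0 hb0 hwb0
  obtain ⟨x, y, hxy, hP⟩ := Finset.card_eq_two.mp h20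
  have hz1 : (K3 \ (O0 ∩ K3)).card = 1 := by
    rw [Finset.card_sdiff_of_subset Finset.inter_subset_right, card_K3, h20]
  obtain ⟨z, hz⟩ := Finset.card_eq_one.mp hz1
  have hzm : z ∈ K3 \ (O0 ∩ K3) := by rw [hz]; exact Finset.mem_singleton_self z
  have hzK : z ∈ K3 := (Finset.mem_sdiff.mp hzm).1
  have hzP : z ∉ O0 ∩ K3 := (Finset.mem_sdiff.mp hzm).2
  have hxP : x ∈ O0 ∩ K3 := by rw [hP]; exact Finset.mem_insert_self x {y}
  have hyP : y ∈ O0 ∩ K3 := by
    rw [hP]; exact Finset.mem_insert_of_mem (Finset.mem_singleton_self y)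
  have hxK : x ∈ K3 := (Finset.mem_inter.mp hxP).2
  have hyK : y ∈ K3 := (Finset.mem_inter.mp hyP).2
  have hzx : z ≠ x := fun h => hzP (h ▸ hxP)
  have hzy : z ≠ y := fun h => hzP (h ▸ hyP)
  have hK3 : ∀ p, p ∈ K3 ↔ p = x ∨ p = y ∨ p = z := by
    intro p
    constructor
    · intro hp
      by_cases hpP : p ∈ O0 ∩ K3
      · rw [hP, Finset.mem_insert, Finset.mem_singleton] at hpP
        rcases hpP with h | h
        · exact Or.inl h
        · exact Or.inr (Or.inl h)
      · have : p ∈ K3 \ (O0 ∩ K3) := Finset.mem_sdiff.mpr ⟨hp, hpP⟩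
        rw [hz, Finset.mem_singleton] at this
        exact Or.inr (Or.inr this)
    · rintro (rfl | rfl | rfl)
      · exact hxK
      · exact hyK
      · exact hzK
  let e : α → GolayPt := fun u => if u = w then z else e0 u
  have hew : e w = z := if_pos rfl
  have heu : ∀ u, u ≠ w → e u = e0 u := fun u hu => if_neg hu
  have hinj : Function.Injective e := by
    intro u v h
    by_cases hu : u = w
    · by_cases hv : v = w
      · rw [hu, hv]
      · rw [hu, hew, heu v hv] at h
        exact absurd (h ▸ hzK) (hK0 v hv)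
    · by_cases hv : v = w
      · rw [hv, hew, heu u hu] at h
        exact absurd (h.symm ▸ hzK) (hK0 u hu)
      · rw [heu u hu, heu v hv] at h
        exact hinj0 u v hu hv h
  have havoid : ∀ u, e u ≠ x ∧ e u ≠ y := by
    intro u
    by_cases hu : u = w
    · rw [hu, hew]; exact ⟨hzx, hzy⟩
    · rw [heu u hu]
      exact ⟨fun h => hK0 u hu (h.symm ▸ hxK), fun h => hK0 u hu (h.symm ▸ hyK)⟩
  have hsurj : ∀ p, p ≠ x → p ≠ y → ∃ u, e u = p := by
    intro p hpx hpy
    by_cases hpK : p ∈ K3
    · rcases (hK3 p).mp hpK with h | h | h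
      · exact absurd h hpx
      · exact absurd h hpy
      · exact ⟨w, by rw [hew, h]⟩
    · obtain ⟨u, hu, rfl⟩ := hsurj0 p hpK
      exact ⟨u, heu u hu⟩
  have himg : ∀ s : Finset α, w ∉ s → s.image e = s.image e0 := by
    intro s hws
    apply Finset.image_congr
    intro u hu
    exact heu u (fun h => hws (h ▸ hu))
  have hfwd : ∀ s : Finset α, s ∈ B → {x, y} ∪ s.image e ∈ octads := by
    intro s hs
    by_cases hws : w ∈ s
    · have h1 := hline s hs hws
      have h2 : ({x, y} : Finset GolayPt) ∪ s.image e = K3 ∪ (s.erase w).image e0 := by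
        rw [← himg _ (Finset.notMem_erase w s)]
        conv_lhs => rw [← Finset.insert_erase hws, Finset.image_insert, hew]
        ext p
        simp only [Finset.mem_union, Finset.mem_insert, Finset.mem_singleton, hK3]
        tauto
      rw [h2]; exact h1
    · obtain ⟨O, hO, h2, hOb⟩ := hhex s hs hws
      have hsame := pair_same hB hinj0 hhex hs hb0 hws hwb0 hO hO0 h2 h20 hOb hOb0
      have h3 : ({x, y} : Finset GolayPt) ∪ s.image e = O := by
        rw [himg s hws, hOb, ← hP, ← hsame, Finset.union_comm]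
        exact Finset.sdiff_union_inter O K3
      rw [h3]; exact hO
  refine ⟨x, y, e, hxy, hinj, havoid, hsurj, fun s => ⟨hfwd s, fun hs => ?_⟩⟩
  have hdis : ∀ T : Finset α, Disjoint ({x, y} : Finset GolayPt) (T.image e) := by
    intro T
    rw [Finset.disjoint_left]
    intro p hp hp'
    rw [Finset.mem_image] at hp'
    obtain ⟨u, _, rfl⟩ := hp'
    rw [Finset.mem_insert, Finset.mem_singleton] at hp
    rcases hp with h | h
    · exact (havoid u).1 h
    · exact (havoid u).2 h
  have hs6 : s.card = 6 := by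
    have := card_of_mem_octads hs
    rw [Finset.card_union_of_disjoint (hdis s), Finset.card_pair hxy,
      Finset.card_image_of_injective _ hinj] at this
    omega
  obtain ⟨s0, hs0, hs03⟩ := Finset.exists_subset_card_eq (s := s) (n := 3) (by omega)
  obtain ⟨b, ⟨hb, hs0b⟩, _⟩ := hB.2 s0 hs03
  have hOb := hfwd b hb
  have heq : ({x, y} : Finset GolayPt) ∪ s.image e = {x, y} ∪ b.image e := by
    by_contra hne
    have h4 := card_inter_le_of_octads hs hOb hne
    have hsub : ({x, y} : Finset GolayPt) ∪ s0.image e ⊆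
        ({x, y} ∪ s.image e) ∩ ({x, y} ∪ b.image e) := by
      intro p hp
      rw [Finset.mem_union] at hp
      rw [Finset.mem_inter]
      rcases hp with hp | hp
      · exact ⟨Finset.mem_union_left _ hp, Finset.mem_union_left _ hp⟩
      · exact ⟨Finset.mem_union_right _ (Finset.image_subset_image hs0 hp),
          Finset.mem_union_right _ (Finset.image_subset_image hs0b hp)⟩
    have h5 := Finset.card_le_card hsub
    rw [Finset.card_union_of_disjoint (hdis s0), Finset.card_pair hxy,
      Finset.card_image_of_injective _ hinj, hs03] at h5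
    omega
  have himeq : s.image e = b.image e := by
    ext p
    constructor
    · intro hp
      have hp2 : p ∈ ({x, y} : Finset GolayPt) ∪ b.image e := by
        rw [← heq]; exact Finset.mem_union_right _ hp
      rcases Finset.mem_union.mp hp2 with h | h
      · exact absurd hp (Finset.disjoint_left.mp (hdis s) h)
      · exact h
    · intro hp
      have hp2 : p ∈ ({x, y} : Finset GolayPt) ∪ s.image e := by
        rw [heq]; exact Finset.mem_union_right _ hp
      rcases Finset.mem_union.mp hp2 with h | h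
      · exact absurd hp (Finset.disjoint_left.mp (hdis b) h)
      · exact h
  have hsb : s = b := Finset.image_injective hinj himeq
  rw [hsb]; exact hb

/-- Uniqueness of the Steiner system S(3, 6, 22). -/
theorem steiner22_unique {α β : Type*} [Fintype α] [DecidableEq α] [Fintype β] [DecidableEq β]
    (hα : Fintype.card α = 22) (hβ : Fintype.card β = 22) {B : Set (Finset α)}
    {B' : Set (Finset β)} (hB : IsSteinerSystem 3 6 B) (hB' : IsSteinerSystem 3 6 B') :
    SetSystemIso B B' := by
  classical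
  obtain ⟨x, y, e, hxy, hinj, havoid, hsurj, hiff⟩ := embed22 hα hB
  obtain ⟨x', y', e', hxy', hinj', havoid', hsurj', hiff'⟩ := embed22 hβ hB'
  obtain ⟨g, hg, hgx, hgy⟩ := exists_mem_M24_apply₂ hxy hxy'
  have hex : ∀ u : α, ∃ v : β, e' v = g (e u) := by
    intro u
    apply hsurj'
    · rw [← hgx]; exact fun h => (havoid u).1 (g.injective h)
    · rw [← hgy]; exact fun h => (havoid u).2 (g.injective h)
  choose f hf using hex
  have hfinj : Function.Injective f := by
    intro u v h
    have h1 : g (e u) = g (e v) := by rw [← hf u, ← hf v, h]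
    exact hinj (g.injective h1)
  have hfbij : Function.Bijective f :=
    (Fintype.bijective_iff_injective_and_card f).mpr ⟨hfinj, by rw [hα, hβ]⟩
  let E : α ≃ β := Equiv.ofBijective f hfbij
  have hsm : ∀ S : Finset GolayPt, g • S = S.image g := fun S => rfl
  have hkey : ∀ s : Finset α, s ∈ B ↔ s.image E ∈ B' := by
    intro s
    rw [hiff, hiff', ← smul_mem_octads_iff hg]
    have h1 : g • (({x, y} : Finset GolayPt) ∪ s.image e) =
        {x', y'} ∪ (s.image E).image e' := by
      rw [hsm, Finset.image_union, Finset.image_insert, Finset.image_singleton, hgx, hgy,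
        Finset.image_image, Finset.image_image]
      congr 1
      apply Finset.image_congr
      intro u _
      exact (hf u).symm
    rw [h1]
  refine ⟨E, ?_⟩
  ext t
  constructor
  · rintro ⟨s, hs, rfl⟩
    exact (hkey s).mp hs
  · intro ht
    have h2 : (t.image E.symm).image E = t := by
      rw [Finset.image_image]
      have : (E ∘ E.symm) = id := by
        funext v; exact E.apply_symm_apply v
      rw [this, Finset.image_id]
    refine ⟨t.image E.symm, ?_, h2⟩
    rw [hkey, h2]; exact ht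

end Cfsg.Agent.Lib.helper28.S22
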