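import Cfsg.Agent.Lib.helper28.Steiner23Aut

set_option autoImplicit false
set_option linter.unusedSectionVars false

namespace Cfsg.Agent.Lib.helper28.S22

open Cfsg
open scoped Pointwise
open Cfsg.Agent.Lib.helper28.S23 Cfsg.Agent.Lib.helper28.S24

def swapTab01 : List ℕ :=
  [1, 0, 2, 3, 4, 5, 6, 7, 8, 9, 10, 11, 12, 13, 14, 15, 16, 17, 18, 19, 20, 21, 22, 23]

theorem swap01_not_mem : Equiv.swap (pt 0) (pt 1) ∉ M24 := by
  intro h
  have hl : IsTable (Equiv.swap (pt 0) (pt 1)) swapTab01 := by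
    intro p
    revert p
    decide
  have := tabOK_of_mem_M24 h hl
  exact absurd this (by decide +kernel)

/-- A permutation mapping every octad through `a` to an octad preserves all octads. -/
theorem claimT (g' : Equiv.Perm GolayPt) (a b : GolayPt) (hab : g' a = b)
    (h : ∀ O ∈ octads, a ∈ O → O.image g' ∈ octads) : g' ∈ M24 := by
  obtain ⟨g, hg, hgab⟩ := exists_mem_M24_apply a b
  have hsm : ∀ S : Finset GolayPt, g • S = S.image g := fun S => rfl
  have hcnt : {O : Finset GolayPt | O ∈ octads ∧ b ∈ O}.ncard =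
      {O : Finset GolayPt | O ∈ octads ∧ a ∈ O}.ncard :=
    ncard_smul_transport g (fun O : Finset GolayPt => O ∈ octads ∧ a ∈ O)
      (fun O : Finset GolayPt => O ∈ octads ∧ b ∈ O) (by
        intro o
        show g • o ∈ octads ∧ b ∈ g • o ↔ o ∈ octads ∧ a ∈ o
        rw [smul_mem_octads_iff hg, hsm, ← hgab, g.injective.mem_finset_image])
  have hinjI : Function.Injective (fun O : Finset GolayPt => O.image g') :=
    Finset.image_injective g'.injective
  have hmapsub : (fun O : Finset GolayPt => O.image g') ''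
      {O : Finset GolayPt | O ∈ octads ∧ a ∈ O} ⊆ {O : Finset GolayPt | O ∈ octads ∧ b ∈ O} := by
    rintro _ ⟨O, ⟨hO, haO⟩, rfl⟩
    exact ⟨h O hO haO, by rw [← hab]; exact Finset.mem_image_of_mem _ haO⟩
  have heq := Set.eq_of_subset_of_ncard_le hmapsub
    (by rw [Set.ncard_image_of_injective _ hinjI, hcnt]) (Set.toFinite _)
  have hiff0 : ∀ s : Finset GolayPt, a ∉ s →
      (insert a s ∈ octads ↔ {b} ∪ s.image g' ∈ octads) := by
    intro s has
    have himg : (insert a s).image g' = {b} ∪ s.image g' := by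
      rw [Finset.image_insert, hab, Finset.insert_eq]
    rw [← himg]
    constructor
    · intro hO
      exact h _ hO (Finset.mem_insert_self a s)
    · intro hO
      have hmem : (insert a s).image g' ∈ {O : Finset GolayPt | O ∈ octads ∧ b ∈ O} :=
        ⟨hO, by rw [himg]; exact Finset.mem_union_left _ (Finset.mem_singleton_self b)⟩
      rw [← heq] at hmem
      obtain ⟨O', ⟨hO', _⟩, hOO'⟩ := hmem
      have hO'eq : O' = insert a s := hinjI hOO'
      rw [← hO'eq]; exact hO'
  rw [M24_eq_setSystemAut_octads]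
  apply mem_aut_of_forall
  intro t ht
  by_cases hat : a ∈ t
  · exact h t ht hat
  · exact octad_type (by rw [Fintype.card_option, ZMod.card]) octads_isSteinerSystem
      (w := a) (x := b) (e0 := g')
      (fun u v _ _ huv => g'.injective huv)
      (fun u hu huv => hu (g'.injective (huv.trans hab.symm)))
      (fun p hp => ⟨g'.symm p,
        fun hc => hp (by rw [← hab, ← hc, Equiv.apply_symm_apply]),
        Equiv.apply_symm_apply _ p⟩)
      hiff0 ht hat

theorem embed22_pt {α : Type*} [Fintype α] [DecidableEq α] (hα : Fintype.card α = 22)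
    {B : Set (Finset α)} (hB : IsSteinerSystem 3 6 B) :
    ∃ e : α → GolayPt, Function.Injective e ∧ (∀ u, e u ≠ pt 0 ∧ e u ≠ pt 1) ∧
      (∀ p, p ≠ pt 0 → p ≠ pt 1 → ∃ u, e u = p) ∧
      ∀ s : Finset α, s ∈ B ↔ {pt 0, pt 1} ∪ s.image e ∈ octads := by
  classical
  obtain ⟨x, y, e, hxy, hinj, havoid, hsurj, hiff⟩ := embed22 hα hB
  have h01 : pt 0 ≠ pt 1 := by decide
  obtain ⟨g, hg, hgx, hgy⟩ := exists_mem_M24_apply₂ hxy h01
  have hsm : ∀ S : Finset GolayPt, g • S = S.image g := fun S => rfl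
  refine ⟨fun u => g (e u), fun u v h => hinj (g.injective h), ?_, ?_, ?_⟩
  · intro u
    constructor
    · intro h
      rw [← hgx] at h
      exact (havoid u).1 (g.injective h)
    · intro h
      rw [← hgy] at h
      exact (havoid u).2 (g.injective h)
  · intro p hp0 hp1
    have h1 : g.symm p ≠ x := by
      intro h
      apply hp0
      rw [← hgx, ← h, Equiv.apply_symm_apply]
    have h2 : g.symm p ≠ y := by
      intro h
      apply hp1
      rw [← hgy, ← h, Equiv.apply_symm_apply]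
    obtain ⟨u, hu⟩ := hsurj _ h1 h2
    exact ⟨u, by show g (e u) = p; rw [hu, Equiv.apply_symm_apply]⟩
  · intro s
    rw [hiff, ← smul_mem_octads_iff hg]
    have h1 : g • (({x, y} : Finset GolayPt) ∪ s.image e) =
        {pt 0, pt 1} ∪ s.image (fun u => g (e u)) := by
      rw [hsm, Finset.image_union, Finset.image_insert, Finset.image_singleton, hgx, hgy]
      congr 1
      exact Finset.image_image
    rw [h1]


theorem aut22 {α : Type*} [Fintype α] [DecidableEq α] (hα : Fintype.card α = 22)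
    {B : Set (Finset α)} (hB : IsSteinerSystem 3 6 B) :
    Nat.card (setSystemAut B) = 887040 ∧
      MulAction.IsMultiplyPretransitive (setSystemAut B) α 3 ∧
      ∃ H : Subgroup (setSystemAut B), H.index = 2 ∧ IsM22 H := by
  classical
  obtain ⟨e, hinj, havoid, hsurj, hiff⟩ := embed22_pt hα hB
  have h01 : pt 0 ≠ pt 1 := by decide
  let Ex : α ≃ {p : GolayPt // p ≠ pt 0 ∧ p ≠ pt 1} :=
    Equiv.ofBijective (fun u => ⟨e u, havoid u⟩)
      ⟨fun u v h => hinj (congrArg Subtype.val h), fun p => by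
        obtain ⟨u, hu⟩ := hsurj p.1 p.2.1 p.2.2
        exact ⟨u, Subtype.ext hu⟩⟩
  let ψ : Equiv.Perm α →* Equiv.Perm GolayPt :=
    (Equiv.Perm.ofSubtype).comp (Ex.permCongrHom.toMonoidHom)
  have hψ0 : ∀ h : Equiv.Perm α, ψ h (pt 0) = pt 0 := by
    intro h
    exact Equiv.Perm.ofSubtype_apply_of_not_mem (p := fun q : GolayPt => q ≠ pt 0 ∧ q ≠ pt 1)
      (Ex.permCongrHom h) (fun hc => hc.1 rfl)
  have hψ1 : ∀ h : Equiv.Perm α, ψ h (pt 1) = pt 1 := by
    intro h
    exact Equiv.Perm.ofSubtype_apply_of_not_mem (p := fun q : GolayPt => q ≠ pt 0 ∧ q ≠ pt 1)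
      (Ex.permCongrHom h) (fun hc => hc.2 rfl)
  have hψe : ∀ (h : Equiv.Perm α) (u : α), ψ h (e u) = e (h u) := by
    intro h u
    have h1 : ψ h (e u) = (Ex.permCongrHom h) ⟨e u, havoid u⟩ :=
      Equiv.Perm.ofSubtype_apply_of_mem (p := fun q : GolayPt => q ≠ pt 0 ∧ q ≠ pt 1)
        (Ex.permCongrHom h) (havoid u)
    rw [h1]
    have h2 : Ex.permCongrHom h ⟨e u, havoid u⟩ = Ex (h (Ex.symm ⟨e u, havoid u⟩)) := rfl
    have h3 : Ex.symm ⟨e u, havoid u⟩ = u := Ex.symm_apply_apply u
    rw [h2, h3]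
    rfl
  have hψinj : Function.Injective ψ := by
    intro h1 h2 h12
    apply Equiv.ext
    intro u
    apply hinj
    rw [← hψe, ← hψe, h12]
  have hcases : ∀ p : GolayPt, p = pt 0 ∨ p = pt 1 ∨ ∃ u, e u = p := by
    intro p
    by_cases hp0 : p = pt 0
    · exact Or.inl hp0
    · by_cases hp1 : p = pt 1
      · exact Or.inr (Or.inl hp1)
      · exact Or.inr (Or.inr (hsurj p hp0 hp1))
  have hψne : ∀ (h : Equiv.Perm α) (p : GolayPt), p ≠ pt 0 → p ≠ pt 1 →
      ψ h p ≠ pt 0 ∧ ψ h p ≠ pt 1 := by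
    intro h p hp0 hp1
    exact ⟨fun hc => hp0 ((ψ h).injective (hc.trans (hψ0 h).symm)),
      fun hc => hp1 ((ψ h).injective (hc.trans (hψ1 h).symm))⟩
  let τ : Equiv.Perm GolayPt := Equiv.swap (pt 0) (pt 1)
  have hτ0 : τ (pt 0) = pt 1 := Equiv.swap_apply_left _ _
  have hτ1 : τ (pt 1) = pt 0 := Equiv.swap_apply_right _ _
  have hτp : ∀ p, p ≠ pt 0 → p ≠ pt 1 → τ p = p :=
    fun p h0 h1 => Equiv.swap_apply_of_ne_of_ne h0 h1
  have hτM : τ ∉ M24 := swap01_not_mem
  have hcomm : ∀ h : Equiv.Perm α, ψ h * τ = τ * ψ h := by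
    intro h
    apply Equiv.ext
    intro p
    show ψ h (τ p) = τ (ψ h p)
    by_cases hp0 : p = pt 0
    · rw [hp0, hτ0, hψ1, hψ0, hτ0]
    · by_cases hp1 : p = pt 1
      · rw [hp1, hτ1, hψ0, hψ1, hτ1]
      · rw [hτp p hp0 hp1, hτp _ (hψne h p hp0 hp1).1 (hψne h p hp0 hp1).2]
  have hτset : ∀ T : Finset GolayPt, pt 0 ∈ T → pt 1 ∈ T → T.image τ = T := by
    intro T h0 h1
    ext q
    rw [Finset.mem_image]
    constructor
    · rintro ⟨p, hp, rfl⟩
      by_cases hp0 : p = pt 0
      · rw [hp0, hτ0]; exact h1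
      · by_cases hp1 : p = pt 1
        · rw [hp1, hτ1]; exact h0
        · rw [hτp p hp0 hp1]; exact hp
    · intro hq
      by_cases hq0 : q = pt 0
      · exact ⟨pt 1, h1, by rw [hτ1, hq0]⟩
      · by_cases hq1 : q = pt 1
        · exact ⟨pt 0, h0, by rw [hτ0, hq1]⟩
        · exact ⟨q, hq, hτp q hq0 hq1⟩
  have hP : ∀ h : Equiv.Perm α, h ∈ setSystemAut B → ∀ S : Finset GolayPt, pt 0 ∉ S →
      pt 1 ∉ S → ({pt 0, pt 1} ∪ S ∈ octads ↔ {pt 0, pt 1} ∪ S.image (ψ h) ∈ octads) := by
    intro h hh S hS0 hS1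
    have hhiff := (mem_aut_iff B h).mp hh
    obtain ⟨s0, hs0⟩ : ∃ s0 : Finset α, s0.image e = S := by
      refine ⟨Finset.univ.filter (fun u => e u ∈ S), ?_⟩
      ext p
      rw [Finset.mem_image]
      constructor
      · rintro ⟨u, hu, rfl⟩
        exact (Finset.mem_filter.mp hu).2
      · intro hp
        obtain ⟨u, rfl⟩ := hsurj p (fun hc => hS0 (hc ▸ hp)) (fun hc => hS1 (hc ▸ hp))
        exact ⟨u, Finset.mem_filter.mpr ⟨Finset.mem_univ _, hp⟩, rfl⟩
    have h1 : S.image (ψ h) = (s0.image h).image e := by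
      rw [← hs0, Finset.image_image, Finset.image_image]
      apply Finset.image_congr
      intro u _
      exact hψe h u
    rw [h1, ← hiff, ← hhiff, hiff, hs0]
  have hOct2 : ∀ h : Equiv.Perm α, h ∈ setSystemAut B → ∀ O ∈ octads, pt 0 ∈ O → pt 1 ∈ O →
      O.image (ψ h) ∈ octads := by
    intro h hh O hO h0 h1
    have hS0 : pt 0 ∉ (O.erase (pt 0)).erase (pt 1) := fun hc =>
      (Finset.mem_erase.mp (Finset.mem_of_mem_erase hc)).1 rfl
    have hS1 : pt 1 ∉ (O.erase (pt 0)).erase (pt 1) := Finset.notMem_erase _ _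
    have hOS : ({pt 0, pt 1} : Finset GolayPt) ∪ (O.erase (pt 0)).erase (pt 1) = O := by
      ext q
      simp only [Finset.mem_union, Finset.mem_insert, Finset.mem_singleton, Finset.mem_erase]
      constructor
      · rintro ((hq | hq) | ⟨_, _, hq⟩)
        · rw [hq]; exact h0
        · rw [hq]; exact h1
        · exact hq
      · intro hq
        by_cases hq0 : q = pt 0
        · exact Or.inl (Or.inl hq0)
        · by_cases hq1 : q = pt 1
          · exact Or.inl (Or.inr hq1)
          · exact Or.inr ⟨hq1, hq0, hq⟩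
    have h2 := (hP h hh _ hS0 hS1).mp (by rw [hOS]; exact hO)
    have h3 : O.image (ψ h) =
        {pt 0, pt 1} ∪ ((O.erase (pt 0)).erase (pt 1)).image (ψ h) := by
      conv_lhs => rw [← hOS, Finset.image_union, Finset.image_insert, Finset.image_singleton,
        hψ0, hψ1]
    rw [h3]; exact h2
  have hC1 : ∀ h : Equiv.Perm α, h ∈ setSystemAut B → ψ h ∈ M24 ∨ τ * ψ h ∈ M24 := by
    intro h hh
    let K1 : Finset GolayPt := {pt 0}
    have hK1 : K1.card = 1 := Finset.card_singleton _
    have hK1m : ∀ q, q ∈ K1 ↔ q = pt 0 := fun q => Finset.mem_singleton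
    have hB' : IsSteinerSystem 4 7 {l : Finset {p : GolayPt // p ∉ K1} | K1 ∪ l.image Subtype.val ∈ octads} :=
      derived_steiner 4 7 1 K1 hK1 octads_isSteinerSystem
    have hα' : Fintype.card {p : GolayPt // p ∉ K1} = 23 := by
      rw [Fintype.card_subtype_compl, Fintype.card_coe, hK1, Fintype.card_option, ZMod.card]
    let w : {p : GolayPt // p ∉ K1} := ⟨pt 1, fun hc => h01 ((hK1m _).mp hc).symm⟩
    let e0 : {p : GolayPt // p ∉ K1} → GolayPt := fun p => ψ h p.1
    have hp0 : ∀ p : {p : GolayPt // p ∉ K1}, p.1 ≠ pt 0 := fun p hc => p.2 ((hK1m _).mpr hc)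
    have hpw : ∀ p : {p : GolayPt // p ∉ K1}, p ≠ w → p.1 ≠ pt 1 :=
      fun p hp hc => hp (Subtype.ext hc)
    have hinj0 : ∀ u v : {p : GolayPt // p ∉ K1}, u ≠ w → v ≠ w → e0 u = e0 v → u = v :=
      fun u v _ _ huv => Subtype.ext ((ψ h).injective huv)
    have havoid0 : ∀ u : {p : GolayPt // p ∉ K1}, u ≠ w → e0 u ≠ pt 0 ∧ e0 u ≠ pt 1 :=
      fun u hu => hψne h u.1 (hp0 u) (hpw u hu)
    have hsurj0 : ∀ p, p ≠ pt 0 → p ≠ pt 1 →
        ∃ u : {p : GolayPt // p ∉ K1}, u ≠ w ∧ e0 u = p := by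
      intro p hp0' hp1'
      have hq0 : (ψ h).symm p ≠ pt 0 := by
        intro hc
        apply hp0'
        rw [← hψ0 h, ← hc, Equiv.apply_symm_apply]
      have hq1 : (ψ h).symm p ≠ pt 1 := by
        intro hc
        apply hp1'
        rw [← hψ1 h, ← hc, Equiv.apply_symm_apply]
      exact ⟨⟨(ψ h).symm p, fun hc => hq0 ((hK1m _).mp hc)⟩,
        fun hc => hq1 (congrArg Subtype.val hc), Equiv.apply_symm_apply _ p⟩
    have hiff0 : ∀ s : Finset {p : GolayPt // p ∉ K1}, w ∉ s →
        (insert w s ∈ {l : Finset {p : GolayPt // p ∉ K1} | K1 ∪ l.image Subtype.val ∈ octads} ↔ {pt 0, pt 1} ∪ s.image e0 ∈ octads) := by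
      intro s hws
      have hS0 : pt 0 ∉ s.image Subtype.val := by
        intro hc
        rw [Finset.mem_image] at hc
        obtain ⟨p, _, hp⟩ := hc
        exact hp0 p hp
      have hS1 : pt 1 ∉ s.image Subtype.val := by
        intro hc
        rw [Finset.mem_image] at hc
        obtain ⟨p, hps, hp⟩ := hc
        have hpw' : p = w := Subtype.ext hp
        exact hws (hpw' ▸ hps)
      have h1 : K1 ∪ (insert w s).image Subtype.val = {pt 0, pt 1} ∪ s.image Subtype.val := by
        rw [Finset.image_insert]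
        show ({pt 0} : Finset GolayPt) ∪ insert (pt 1) (s.image Subtype.val) =
          {pt 0, pt 1} ∪ s.image Subtype.val
        ext q
        simp only [Finset.mem_union, Finset.mem_insert, Finset.mem_singleton]
        tauto
      have h2 : (s.image Subtype.val).image (ψ h) = s.image e0 := Finset.image_image
      show K1 ∪ (insert w s).image Subtype.val ∈ octads ↔ _
      rw [h1, hP h hh _ hS0 hS1, h2]
    have htype : ∀ b ∈ {l : Finset {p : GolayPt // p ∉ K1} | K1 ∪ l.image Subtype.val ∈ octads}, w ∉ b →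
        ({pt 0} ∪ b.image e0 ∈ octads ∨ {pt 1} ∪ b.image e0 ∈ octads) :=
      fun b hb hwb => heptad_type hα' hB' h01 hinj0 havoid0 hsurj0 hiff0 hb hwb
    have hbO : ∀ O ∈ octads, pt 0 ∈ O → pt 1 ∉ O →
        ∃ b ∈ {l : Finset {p : GolayPt // p ∉ K1} | K1 ∪ l.image Subtype.val ∈ octads}, w ∉ b ∧ b.image e0 = (O.erase (pt 0)).image (ψ h) := by
      intro O hO h0O h1O
      have hval : ((O.erase (pt 0)).subtype (· ∉ K1)).image Subtype.val = O.erase (pt 0) := by
        ext q
        rw [Finset.mem_image]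
        constructor
        · rintro ⟨p, hp, rfl⟩; exact Finset.mem_subtype.mp hp
        · intro hq
          exact ⟨⟨q, fun hc => (Finset.mem_erase.mp hq).1 ((hK1m _).mp hc)⟩,
            Finset.mem_subtype.mpr hq, rfl⟩
      refine ⟨(O.erase (pt 0)).subtype (· ∉ K1), ?_, ?_, ?_⟩
      · show K1 ∪ ((O.erase (pt 0)).subtype (· ∉ K1)).image Subtype.val ∈ octads
        rw [hval]
        have h3 : K1 ∪ O.erase (pt 0) = O := by
          show {pt 0} ∪ O.erase (pt 0) = O
          rw [← Finset.insert_eq, Finset.insert_erase h0O]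
        rw [h3]; exact hO
      · intro hc
        exact h1O (Finset.mem_of_mem_erase (Finset.mem_subtype.mp hc))
      · have h5 : (((O.erase (pt 0)).subtype (· ∉ K1)).image Subtype.val).image (ψ h) =
            ((O.erase (pt 0)).subtype (· ∉ K1)).image e0 := Finset.image_image
        rw [hval] at h5
        exact h5.symm
    have himgO : ∀ O : Finset GolayPt, pt 0 ∈ O →
        O.image (ψ h) = {pt 0} ∪ (O.erase (pt 0)).image (ψ h) := by
      intro O h0O
      conv_lhs => rw [← Finset.insert_erase h0O, Finset.image_insert, hψ0]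
      rw [Finset.insert_eq]
    by_cases hex : ∃ b ∈ {l : Finset {p : GolayPt // p ∉ K1} | K1 ∪ l.image Subtype.val ∈ octads}, w ∉ b ∧ {pt 0} ∪ b.image e0 ∈ octads
    · left
      obtain ⟨b0, hb0, hwb0, hx0⟩ := hex
      have hall : ∀ b ∈ {l : Finset {p : GolayPt // p ∉ K1} | K1 ∪ l.image Subtype.val ∈ octads}, w ∉ b → {pt 0} ∪ b.image e0 ∈ octads := by
        intro b hb hwb
        rcases htype b hb hwb with h' | h'
        · exact h'
        · exact (no_mixed hB' h01 hinj0 havoid0 htype hb0 hb hwb0 hwb hx0 h').elim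
      apply claimT (ψ h) (pt 0) (pt 0) (hψ0 h)
      intro O hO h0O
      by_cases h1O : pt 1 ∈ O
      · exact hOct2 h hh O hO h0O h1O
      · obtain ⟨b, hb, hwb, himg⟩ := hbO O hO h0O h1O
        have h4 := hall b hb hwb
        rw [himg] at h4
        rw [himgO O h0O]; exact h4
    · right
      have hall : ∀ b ∈ {l : Finset {p : GolayPt // p ∉ K1} | K1 ∪ l.image Subtype.val ∈ octads}, w ∉ b → {pt 1} ∪ b.image e0 ∈ octads := by
        intro b hb hwb
        rcases htype b hb hwb with h' | h'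
        · exact absurd ⟨b, hb, hwb, h'⟩ hex
        · exact h'
      apply claimT (τ * ψ h) (pt 0) (pt 1) (by show τ (ψ h (pt 0)) = pt 1; rw [hψ0, hτ0])
      intro O hO h0O
      have hmul : O.image (τ * ψ h) = (O.image (ψ h)).image τ :=
        (Finset.image_image (f := ⇑(ψ h)) (g := ⇑τ) (s := O)).symm
      by_cases h1O : pt 1 ∈ O
      · have h5 := hOct2 h hh O hO h0O h1O
        rw [hmul, hτset]
        · exact h5
        · rw [← hψ0 h]; exact Finset.mem_image_of_mem _ h0O
        · rw [← hψ1 h]; exact Finset.mem_image_of_mem _ h1O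
      · obtain ⟨b, hb, hwb, himg⟩ := hbO O hO h0O h1O
        have h4 := hall b hb hwb
        rw [himg] at h4
        have h6 : O.image (τ * ψ h) = {pt 1} ∪ (O.erase (pt 0)).image (ψ h) := by
          rw [hmul, himgO O h0O, Finset.image_union, Finset.image_singleton, hτ0]
          congr 1
          rw [Finset.image_image]
          apply Finset.image_congr
          intro p hp
          have hp' := Finset.mem_coe.mp hp
          have hp0' : p ≠ pt 0 := (Finset.mem_erase.mp hp').1
          have hp1' : p ≠ pt 1 := fun hc => h1O (hc ▸ Finset.mem_of_mem_erase hp')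
          exact hτp _ (hψne h p hp0' hp1').1 (hψne h p hp0' hp1').2
        rw [h6]; exact h4
  have hC2 : ∀ g : Equiv.Perm GolayPt, g ∈ M24 →
      ({g (pt 0), g (pt 1)} : Finset GolayPt) = {pt 0, pt 1} →
      ∃ h : Equiv.Perm α, h ∈ setSystemAut B ∧ ∀ u, e (h u) = g (e u) := by
    intro g hg hpair
    have hg01 : ∀ q, g q = pt 0 ∨ g q = pt 1 → q = pt 0 ∨ q = pt 1 := by
      intro q hq
      have hmem : g q ∈ ({g (pt 0), g (pt 1)} : Finset GolayPt) := by
        rw [hpair, Finset.mem_insert, Finset.mem_singleton]; exact hq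
      rw [Finset.mem_insert, Finset.mem_singleton] at hmem
      rcases hmem with h | h
      · exact Or.inl (g.injective h)
      · exact Or.inr (g.injective h)
    have hex : ∀ u : α, ∃ v : α, e v = g (e u) := by
      intro u
      apply hsurj
      · intro hc
        rcases hg01 _ (Or.inl hc) with h | h
        · exact (havoid u).1 h
        · exact (havoid u).2 h
      · intro hc
        rcases hg01 _ (Or.inr hc) with h | h
        · exact (havoid u).1 h
        · exact (havoid u).2 h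
    choose f hf using hex
    have hfinj : Function.Injective f := by
      intro u v h
      have h1 : g (e u) = g (e v) := by rw [← hf u, ← hf v, h]
      exact hinj (g.injective h1)
    have hfbij : Function.Bijective f := Finite.injective_iff_bijective.mp hfinj
    let h : Equiv.Perm α := Equiv.ofBijective f hfbij
    have hsm : ∀ S : Finset GolayPt, g • S = S.image g := fun S => rfl
    have hmem : h ∈ setSystemAut B := by
      rw [mem_aut_iff]
      intro s
      rw [hiff, hiff (s.image h), ← smul_mem_octads_iff hg]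
      have h1 : g • (({pt 0, pt 1} : Finset GolayPt) ∪ s.image e) =
          {pt 0, pt 1} ∪ (s.image h).image e := by
        rw [hsm, Finset.image_union, Finset.image_insert, Finset.image_singleton, hpair,
          Finset.image_image, Finset.image_image]
        congr 1
        apply Finset.image_congr
        intro u _
        exact (hf u).symm
      rw [h1]
    exact ⟨h, hmem, hf⟩
  have hψlift : ∀ (h : Equiv.Perm α) (g : Equiv.Perm GolayPt), (∀ u, e (h u) = g (e u)) →
      g (pt 0) = pt 0 → g (pt 1) = pt 1 → ψ h = g := by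
    intro h g hl hg0 hg1
    apply Equiv.ext
    intro p
    rcases hcases p with hp | hp | ⟨u, hu⟩
    · rw [hp, hψ0, hg0]
    · rw [hp, hψ1, hg1]
    · rw [← hu, hψe, hl u]
  have hstab : ∀ g : Equiv.Perm GolayPt,
      g ∈ stabM [2 ^ 1, 2 ^ 0] ↔ (g ∈ M24 ∧ g (pt 0) = pt 0) ∧ g (pt 1) = pt 1 := by
    intro g
    rw [mem_stabM_cons_pt (by norm_num), mem_stabM_cons_pt (by norm_num), stabM_nil]
  let Kc : Subgroup (Equiv.Perm α) := (stabM [2 ^ 1, 2 ^ 0]).comap ψ
  have hKc : ∀ h : Equiv.Perm α, h ∈ Kc ↔ ψ h ∈ M24 := by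
    intro h
    show ψ h ∈ stabM [2 ^ 1, 2 ^ 0] ↔ _
    rw [hstab]
    exact ⟨fun hh => hh.1.1, fun hh => ⟨⟨hh, hψ0 h⟩, hψ1 h⟩⟩
  have hKc_le : Kc ≤ setSystemAut B := by
    intro h hh
    have hM := (hKc h).mp hh
    obtain ⟨h', hh', hl⟩ := hC2 (ψ h) hM (by rw [hψ0, hψ1])
    have hh'eq : h' = h := by
      apply Equiv.ext
      intro u
      apply hinj
      rw [hl u, hψe]
    rw [← hh'eq]; exact hh'
  have hmapK : Kc.map ψ = stabM [2 ^ 1, 2 ^ 0] := by
    ext g
    constructor
    · rintro ⟨h, hh, rfl⟩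
      exact hh
    · intro hg
      have hg' := (hstab g).mp hg
      obtain ⟨h, hh, hl⟩ := hC2 g hg'.1.1 (by rw [hg'.1.2, hg'.2])
      have hψh : ψ h = g := hψlift h g hl hg'.1.2 hg'.2
      exact ⟨h, by show ψ h ∈ stabM [2 ^ 1, 2 ^ 0]; rw [hψh]; exact hg, hψh⟩
  let ΦK : Kc ≃* stabM [2 ^ 1, 2 ^ 0] :=
    (Kc.equivMapOfInjective ψ hψinj).trans (MulEquiv.subgroupCongr hmapK)
  let H : Subgroup (setSystemAut B) := Kc.subgroupOf (setSystemAut B)
  let ΦH : H ≃* stabM [2 ^ 1, 2 ^ 0] := (Subgroup.subgroupOfEquivOfLe hKc_le).trans ΦK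
  have hHsimple : IsSimpleGroup H := (MulEquiv.isSimpleGroup_congr ΦH).mpr m22_simple
  have hHcard : Nat.card H = 443520 := by rw [Nat.card_congr ΦH.toEquiv, card_stabM_two]
  have hHmem : ∀ b : setSystemAut B, b ∈ H ↔ ψ b.1 ∈ M24 := by
    intro b
    rw [← hKc]
    exact Subgroup.mem_subgroupOf
  obtain ⟨g1, hg1, hg10, hg11⟩ := exists_mem_M24_apply₂ h01 h01.symm
  obtain ⟨h1, hh1, hl1⟩ := hC2 g1 hg1 (by rw [hg10, hg11, Finset.pair_comm])
  have hψh1 : ψ h1 = τ * g1 := by
    apply Equiv.ext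
    intro p
    show ψ h1 p = τ (g1 p)
    rcases hcases p with hp | hp | ⟨u, hu⟩
    · rw [hp, hψ0, hg10, hτ1]
    · rw [hp, hψ1, hg11, hτ0]
    · have hne := hψne h1 (e u) (havoid u).1 (havoid u).2
      rw [hψe, hl1 u] at hne
      rw [← hu, hψe, hl1 u]
      exact (hτp _ hne.1 hne.2).symm
  have hindex : H.index = 2 := by
    rw [Subgroup.index_eq_two_iff]
    refine ⟨⟨h1, hh1⟩, fun b => ?_⟩
    have hba : (b * ⟨h1, hh1⟩ ∈ H) ↔ ψ b.1 * τ * g1 ∈ M24 := by
      rw [hHmem]
      show ψ (b.1 * h1) ∈ M24 ↔ _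
      rw [map_mul, hψh1, mul_assoc]
    rcases hC1 b.1 b.2 with hb | hb
    · right
      refine ⟨(hHmem b).mpr hb, fun hc => ?_⟩
      have h2 := hba.mp hc
      apply hτM
      have h3 : τ = (ψ b.1)⁻¹ * (ψ b.1 * τ * g1) * g1⁻¹ := by group
      rw [h3]
      exact M24.mul_mem (M24.mul_mem (M24.inv_mem hb) h2) (M24.inv_mem hg1)
    · left
      refine ⟨hba.mpr ?_, fun hc => ?_⟩
      · rw [hcomm]
        exact M24.mul_mem hb hg1
      · apply hτM
        have h3 : τ = (τ * ψ b.1) * (ψ b.1)⁻¹ := by group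
        rw [h3]
        exact M24.mul_mem hb (M24.inv_mem ((hHmem b).mp hc))
  have hcardA : Nat.card (setSystemAut B) = 887040 := by
    have hci := Subgroup.card_mul_index H
    rw [hHcard, hindex] at hci
    omega
  have htrans : MulAction.IsMultiplyPretransitive (setSystemAut B) α 3 := by
    rw [MulAction.isMultiplyPretransitive_iff]
    intro x y
    have hnd : ∀ z : Fin 3 ↪ α, (pt 0 :: pt 1 :: List.ofFn (fun i => e (z i))).Nodup := by
      intro z
      rw [List.nodup_cons, List.nodup_cons]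
      refine ⟨?_, ?_, ?_⟩
      · intro hc
        rw [List.mem_cons, List.mem_ofFn] at hc
        rcases hc with hc | ⟨i, hi⟩
        · exact h01 hc
        · exact (havoid _).1 hi
      · intro hc
        rw [List.mem_ofFn] at hc
        obtain ⟨i, hi⟩ := hc
        exact (havoid _).2 hi
      · rw [List.nodup_ofFn]
        exact fun i j h => z.injective (hinj h)
    obtain ⟨g, hg, hmapg⟩ := map_list5 _ _ (hnd x) (hnd y) (by simp) (by simp)
    rw [List.map_cons, List.map_cons, List.map_ofFn] at hmapg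
    have hg0 := (List.cons.inj hmapg).1
    have hg1' := (List.cons.inj (List.cons.inj hmapg).2).1
    have h2 := List.ofFn_injective (List.cons.inj (List.cons.inj hmapg).2).2
    obtain ⟨h, hh, hl⟩ := hC2 g hg (by rw [hg0, hg1'])
    refine ⟨⟨h, hh⟩, ?_⟩
    apply Function.Embedding.ext
    intro i
    rw [Function.Embedding.smul_apply]
    show h (x i) = y i
    apply hinj
    rw [hl]
    exact congrFun h2 i
  exact ⟨hcardA, htrans, H, hindex, hHsimple, hHcard⟩

end Cfsg.Agent.Lib.helper28.S22
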