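import Cfsg.Agent.Lib.helper28.Steiner22Aut
import Cfsg.Agent.Lib.helper28.LeechSimpleHS

set_option autoImplicit false
set_option linter.unusedSectionVars false

namespace Cfsg.Agent.Lib.helper28.S22

open Cfsg
open Cfsg.Agent.Lib.helper28
open Cfsg.Agent.Lib.helper27
open Cfsg.Agent.Lib.helper28.LC
open Cfsg.Agent.Lib.helper28.SC
open Cfsg.Agent.Lib.helper28.XI
open scoped Pointwise

theorem dot_pat_pat (o o' : Finset GolayPt) :
    dotInt (pat 2 o) (pat 2 o') = 4 * ((o ∩ o').card : ℤ) := by
  unfold dotInt pat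
  have h : ∀ j : GolayPt, (if j ∈ o then (2 : ℤ) else 0) * (if j ∈ o' then 2 else 0) =
      if j ∈ o ∩ o' then 4 else 0 := by
    intro j
    by_cases h1 : j ∈ o <;> by_cases h2 : j ∈ o' <;> simp [h1, h2]
  rw [Finset.sum_congr rfl (fun j _ => h j), sum_ite_mem_const]
  ring

theorem dot_pt1_pat (k : GolayPt) (o : Finset GolayPt) :
    dotInt (pt1 (-3) {k}) (pat 2 o) = 2 * (o.card : ℤ) - 8 * (if k ∈ o then 1 else 0) := by
  unfold dotInt pt1 pat
  have h : ∀ j : GolayPt, (if j ∈ ({k} : Finset GolayPt) then (-3 : ℤ) else 1) *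
      (if j ∈ o then 2 else 0) =
      (if j ∈ o then 2 else 0) + (if j ∈ ({k} : Finset GolayPt) ∩ o then -8 else 0) := by
    intro j
    by_cases h1 : j ∈ ({k} : Finset GolayPt) <;> by_cases h2 : j ∈ o <;>
      simp [h1, h2, Finset.mem_inter]
  rw [Finset.sum_congr rfl (fun j _ => h j), Finset.sum_add_distrib, sum_ite_mem_const,
    sum_ite_mem_const]
  by_cases hk : k ∈ o
  · rw [if_pos hk, Finset.singleton_inter_of_mem hk, Finset.card_singleton]
    push_cast; ring
  · rw [if_neg hk, Finset.singleton_inter_of_notMem hk, Finset.card_empty]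
    push_cast; ring

theorem dot_pt1_pt1 (k k' : GolayPt) :
    dotInt (pt1 (-3) {k}) (pt1 (-3) {k'}) = 16 + 16 * (if k = k' then 1 else 0) := by
  unfold dotInt pt1
  have h : ∀ j : GolayPt, (if j ∈ ({k} : Finset GolayPt) then (-3 : ℤ) else 1) *
      (if j ∈ ({k'} : Finset GolayPt) then -3 else 1) =
      (if j ∈ ({k} : Finset GolayPt) then -3 else 1) +
        (if j ∈ ({k'} : Finset GolayPt) then -4 else 0) +
        (if j ∈ ({k} : Finset GolayPt) ∩ {k'} then 16 else 0) := by
    intro j
    by_cases h1 : j ∈ ({k} : Finset GolayPt) <;> by_cases h2 : j ∈ ({k'} : Finset GolayPt) <;>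
      simp [h1, h2, Finset.mem_inter]
  rw [Finset.sum_congr rfl (fun j _ => h j), Finset.sum_add_distrib, Finset.sum_add_distrib,
    sum_ite_mem_const, sum_ite_mem_const, sum_ite_mem_const]
  by_cases hk : k = k'
  · subst hk
    rw [if_pos rfl, Finset.inter_self]
    simp only [Finset.card_singleton]
    norm_num
  · rw [if_neg hk, Finset.singleton_inter_of_notMem (by rw [Finset.mem_singleton]; exact hk)]
    simp only [Finset.card_singleton, Finset.card_empty]
    norm_num

theorem pbg_adj1 {α : Type*} (B : Set (Finset α)) (u : α) :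
    (pointBlockGraph B).Adj none (some (Sum.inl u)) := by
  simp [pointBlockGraph, pointBlockRel]

theorem pbg_adj2 {α : Type*} (B : Set (Finset α)) (b : B) :
    ¬ (pointBlockGraph B).Adj none (some (Sum.inr b)) := by
  simp [pointBlockGraph, pointBlockRel]

theorem pbg_adj3 {α : Type*} (B : Set (Finset α)) (u u' : α) :
    ¬ (pointBlockGraph B).Adj (some (Sum.inl u)) (some (Sum.inl u')) := by
  simp [pointBlockGraph, pointBlockRel]

theorem pbg_adj4 {α : Type*} (B : Set (Finset α)) (u : α) (b : B) :
    (pointBlockGraph B).Adj (some (Sum.inl u)) (some (Sum.inr b)) ↔ u ∈ b.1 := by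
  simp [pointBlockGraph, pointBlockRel]

theorem pbg_adj5 {α : Type*} (B : Set (Finset α)) (b b' : B) :
    (pointBlockGraph B).Adj (some (Sum.inr b)) (some (Sum.inr b')) ↔
      b ≠ b' ∧ Disjoint b.1 b'.1 := by
  simp [pointBlockGraph, pointBlockRel, disjoint_comm]

theorem embed22_n0 {α : Type*} [Fintype α] [DecidableEq α] (hα : Fintype.card α = 22)
    {B : Set (Finset α)} (hB : IsSteinerSystem 3 6 B) :
    ∃ e : α → GolayPt, Function.Injective e ∧ (∀ u, e u ≠ none ∧ e u ≠ pt 0) ∧
      (∀ p, p ≠ none → p ≠ pt 0 → ∃ u, e u = p) ∧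
      ∀ s : Finset α, s ∈ B ↔ {none, pt 0} ∪ s.image e ∈ octads := by
  classical
  obtain ⟨x, y, e, hxy, hinj, havoid, hsurj, hiff⟩ := embed22 hα hB
  have h01 : (none : GolayPt) ≠ pt 0 := by decide
  obtain ⟨g, hg, hgx, hgy⟩ := exists_mem_M24_apply₂ hxy h01
  have hsm : ∀ S : Finset GolayPt, g • S = S.image g := fun S => rfl
  refine ⟨fun u => g (e u), fun u v h => hinj (g.injective h), ?_, ?_, ?_⟩
  · intro u
    constructor
    · intro h
      rw [← hgx] at h
      exact (havoid u).1 (g.injective h)
    · intro h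
      rw [← hgy] at h
      exact (havoid u).2 (g.injective h)
  · intro p hp0 hp1
    have h1 : g.symm p ≠ x := by
      intro h
      apply hp0
      rw [← hgx, ← h, Equiv.apply_symm_apply]
    have h2 : g.symm p ≠ y := by
      intro h
      apply hp1
      rw [← hgy, ← h, Equiv.apply_symm_apply]
    obtain ⟨u, hu⟩ := hsurj _ h1 h2
    exact ⟨u, by show g (e u) = p; rw [hu, Equiv.apply_symm_apply]⟩
  · intro s
    rw [hiff, ← smul_mem_octads_iff hg]
    have h1 : g • (({x, y} : Finset GolayPt) ∪ s.image e) =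
        {none, pt 0} ∪ s.image (fun u => g (e u)) := by
      rw [hsm, Finset.image_union, Finset.image_insert, Finset.image_singleton, hgx, hgy]
      congr 1
      exact Finset.image_image
    rw [h1]


theorem hs_in_aut {α : Type*} [Fintype α] (hα : Fintype.card α = 22) {B : Set (Finset α)}
    (hB : IsSteinerSystem 3 6 B) :
    ∃ H : Subgroup (pointBlockGraph B ≃g pointBlockGraph B), IsHS H := by
  classical
  obtain ⟨e, hinj, havoid, hsurj, hiff⟩ := embed22_n0 hα hB
  have hn0 : (none : GolayPt) ≠ pt 0 := by decide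
  have hdis : ∀ b : Finset α, Disjoint ({none, pt 0} : Finset GolayPt) (b.image e) := by
    intro b
    rw [Finset.disjoint_left]
    intro p hp hp'
    rw [Finset.mem_image] at hp'
    obtain ⟨u, _, rfl⟩ := hp'
    rw [Finset.mem_insert, Finset.mem_singleton] at hp
    rcases hp with h | h
    · exact (havoid u).1 h
    · exact (havoid u).2 h
  have hocI0 : ∀ b ∈ B, ({none, pt 0} : Finset GolayPt) ∪ b.image e ∈ octI0 := by
    intro b hb
    rw [mem_octI0]
    exact ⟨(hiff b).mp hb, Finset.mem_union_left _ (Finset.mem_insert_self _ _),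
      Finset.mem_union_left _ (Finset.mem_insert_of_mem (Finset.mem_singleton_self _))⟩
  have hoccap : ∀ b b' : Finset α, ((({none, pt 0} : Finset GolayPt) ∪ b.image e) ∩
      ({none, pt 0} ∪ b'.image e)).card = 2 + (b ∩ b').card := by
    intro b b'
    rw [← Finset.union_inter_distrib_left, ← Finset.image_inter _ _ hinj,
      Finset.card_union_of_disjoint (hdis _), Finset.card_pair hn0,
      Finset.card_image_of_injective _ hinj]
  have hmemoc : ∀ (u : α) (b : Finset α),
      e u ∈ ({none, pt 0} : Finset GolayPt) ∪ b.image e ↔ u ∈ b := by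
    intro u b
    rw [Finset.mem_union, Finset.mem_insert, Finset.mem_singleton]
    constructor
    · rintro ((h | h) | h)
      · exact absurd h (havoid u).1
      · exact absurd h (havoid u).2
      · exact (hinj.mem_finset_image).mp h
    · intro h
      exact Or.inr (Finset.mem_image_of_mem _ h)
  have hocinj : ∀ b b' : Finset α, ({none, pt 0} : Finset GolayPt) ∪ b.image e =
      {none, pt 0} ∪ b'.image e → b = b' := by
    intro b b' h
    ext u
    rw [← hmemoc u b, ← hmemoc u b', h]
  let V : Option (α ⊕ B) → GolayPt → ℤ := fun a =>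
    match a with
    | none => x0
    | some (Sum.inl u) => pt1 (-3) {e u}
    | some (Sum.inr b) => pat 2 (({none, pt 0} : Finset GolayPt) ∪ b.1.image e)
  have hV : ∀ a, V a ∈ XH := by
    intro a
    rcases a with _ | u | b
    · exact x0_mem_XH
    · exact pC_mem_XH (havoid u).1 (havoid u).2
    · have h1 : pat 2 (({none, pt 0} : Finset GolayPt) ∪ b.1.image e) ∈ KHB :=
        Finset.mem_image_of_mem _ (hocI0 b.1 b.2)
      rw [← hfibB] at h1
      exact (Finset.mem_filter.mp h1).1
  have hVn0 : V none none = 4 := x0_props.2.2.2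
  have hVn1 : ∀ u, V (some (Sum.inl u)) none = 1 := by
    intro u
    show pt1 (-3) {e u} none = 1
    unfold pt1
    rw [if_neg]
    rw [Finset.mem_singleton]
    exact fun h => (havoid u).1 h.symm
  have hVn2 : ∀ b : B, V (some (Sum.inr b)) none = 2 := by
    intro b
    show pat 2 (({none, pt 0} : Finset GolayPt) ∪ b.1.image e) none = 2
    unfold pat
    rw [if_pos]
    exact Finset.mem_union_left _ (Finset.mem_insert_self _ _)
  have hVinj : ∀ a a', V a = V a' → a = a' := by
    intro a a' h
    have hn := congrFun h none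
    rcases a with _ | u | b <;> rcases a' with _ | u' | b'
    · rfl
    · rw [hVn0, hVn1] at hn; omega
    · rw [hVn0, hVn2] at hn; omega
    · rw [hVn1, hVn0] at hn; omega
    · have h' : pt1 (-3) {e u} = pt1 (-3) {e u'} := h
      have h2 : e u = e u' := pt1_inj h'
      rw [hinj h2]
    · rw [hVn1, hVn2] at hn; omega
    · rw [hVn2, hVn0] at hn; omega
    · rw [hVn2, hVn1] at hn; omega
    · have h' : pat 2 (({none, pt 0} : Finset GolayPt) ∪ b.1.image e) = pat 2 (({none, pt 0} : Finset GolayPt) ∪ b'.1.image e) := h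
      have h1 := pat_inj (v := 2) (by norm_num) h'
      have h2 := hocinj _ _ h1
      have h3 : b = b' := Subtype.ext h2
      rw [h3]
  have hVsurj : ∀ y : GolayPt → ℤ, y ∈ XH → ∃ a, V a = y := by
    intro y hy
    rcases XH_vals hy with h | h | h
    · exact ⟨none, ((XH_eq_x0_iff hy).mpr h).symm⟩
    · have h1 : y ∈ KHB := by rw [← hfibB]; exact Finset.mem_filter.mpr ⟨hy, h⟩
      unfold KHB at h1
      rw [Finset.mem_image] at h1
      obtain ⟨o, ho, hoy⟩ := h1
      rw [mem_octI0] at ho
      have hbo : ({none, pt 0} : Finset GolayPt) ∪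
          (Finset.univ.filter (fun u => e u ∈ o)).image e = o := by
        ext q
        rw [Finset.mem_union, Finset.mem_insert, Finset.mem_singleton, Finset.mem_image]
        constructor
        · rintro ((hq | hq) | ⟨u, hu, rfl⟩)
          · rw [hq]; exact ho.2.1
          · rw [hq]; exact ho.2.2
          · exact (Finset.mem_filter.mp hu).2
        · intro hq
          by_cases hq0 : q = none
          · exact Or.inl (Or.inl hq0)
          · by_cases hq1 : q = pt 0
            · exact Or.inl (Or.inr hq1)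
            · obtain ⟨u, rfl⟩ := hsurj q hq0 hq1
              exact Or.inr ⟨u, Finset.mem_filter.mpr ⟨Finset.mem_univ _, hq⟩, rfl⟩
      have hbB : Finset.univ.filter (fun u => e u ∈ o) ∈ B :=
        (hiff _).mpr (by rw [hbo]; exact ho.1)
      refine ⟨some (Sum.inr ⟨_, hbB⟩), ?_⟩
      show pat 2 (({none, pt 0} : Finset GolayPt) ∪
          (Finset.univ.filter (fun u => e u ∈ o)).image e) = y
      rw [hbo]; exact hoy
    · have h1 : y ∈ KHC := by rw [← hfibC]; exact Finset.mem_filter.mpr ⟨hy, h⟩
      unfold KHC at h1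
      rw [Finset.mem_image] at h1
      obtain ⟨k, hk, hky⟩ := h1
      rw [mem_pts22] at hk
      obtain ⟨u, hu⟩ := hsurj k hk.1 hk.2
      refine ⟨some (Sum.inl u), ?_⟩
      show pt1 (-3) {e u} = y
      rw [hu]; exact hky
  have hb6 : ∀ b : B, b.1.card = 6 := fun b => hB.1 b.1 b.2
  have hsym : ∀ a a', ((pointBlockGraph B).Adj a a' ↔ dotInt (V a) (V a') = 8) →
      ((pointBlockGraph B).Adj a' a ↔ dotInt (V a') (V a) = 8) := by
    intro a a' h
    rw [SimpleGraph.adj_comm, dot_comm]; exact h
  have c00 : (pointBlockGraph B).Adj none none ↔ dotInt (V none) (V none) = 8 := by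
    constructor
    · intro h; exact absurd h (SimpleGraph.irrefl _)
    · intro h
      have h1 : dotInt x0 x0 = 8 * x0 none := XH_dot_x0 x0_mem_XH
      rw [x0_props.2.2.2] at h1
      have h2 : dotInt x0 x0 = 8 := h
      omega
  have c01 : ∀ u : α, (pointBlockGraph B).Adj none (some (Sum.inl u)) ↔
      dotInt (V none) (V (some (Sum.inl u))) = 8 := by
    intro u
    have h1 : dotInt x0 (V (some (Sum.inl u))) = 8 * V (some (Sum.inl u)) none :=
      XH_dot_x0 (hV (some (Sum.inl u)))
    rw [hVn1] at h1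
    exact ⟨fun _ => h1.trans (by norm_num), fun _ => pbg_adj1 B u⟩
  have c02 : ∀ b : B, (pointBlockGraph B).Adj none (some (Sum.inr b)) ↔
      dotInt (V none) (V (some (Sum.inr b))) = 8 := by
    intro b
    have h1 : dotInt x0 (V (some (Sum.inr b))) = 8 * V (some (Sum.inr b)) none :=
      XH_dot_x0 (hV (some (Sum.inr b)))
    rw [hVn2] at h1
    constructor
    · intro h; exact absurd h (pbg_adj2 B b)
    · intro h
      have h2 : dotInt x0 (V (some (Sum.inr b))) = 8 := h
      omega
  have c11 : ∀ u u' : α, (pointBlockGraph B).Adj (some (Sum.inl u)) (some (Sum.inl u')) ↔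
      dotInt (V (some (Sum.inl u))) (V (some (Sum.inl u'))) = 8 := by
    intro u u'
    constructor
    · intro h; exact absurd h (pbg_adj3 B u u')
    · intro h
      have h1 := dot_pt1_pt1 (e u) (e u')
      have h2 : dotInt (pt1 (-3) {e u}) (pt1 (-3) {e u'}) = 8 := h
      rw [h1] at h2
      split_ifs at h2 <;> omega
  have c12 : ∀ (u : α) (b : B), (pointBlockGraph B).Adj (some (Sum.inl u)) (some (Sum.inr b)) ↔
      dotInt (V (some (Sum.inl u))) (V (some (Sum.inr b))) = 8 := by
    intro u b
    rw [pbg_adj4]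
    have h1 := dot_pt1_pat (e u) (({none, pt 0} : Finset GolayPt) ∪ b.1.image e)
    rw [card_of_mem_octads ((hiff b.1).mp b.2)] at h1
    constructor
    · intro hub
      show dotInt (pt1 (-3) {e u}) (pat 2 (({none, pt 0} : Finset GolayPt) ∪ b.1.image e)) = 8
      rw [h1, if_pos ((hmemoc u b.1).mpr hub)]
      norm_num
    · intro h
      by_contra hub
      have h2 : dotInt (pt1 (-3) {e u}) (pat 2 (({none, pt 0} : Finset GolayPt) ∪ b.1.image e)) = 8 := h
      rw [h1, if_neg (fun hc => hub ((hmemoc u b.1).mp hc))] at h2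
      norm_num at h2
  have c22 : ∀ b b' : B, (pointBlockGraph B).Adj (some (Sum.inr b)) (some (Sum.inr b')) ↔
      dotInt (V (some (Sum.inr b))) (V (some (Sum.inr b'))) = 8 := by
    intro b b'
    rw [pbg_adj5]
    have h1 := dot_pat_pat (({none, pt 0} : Finset GolayPt) ∪ b.1.image e) (({none, pt 0} : Finset GolayPt) ∪ b'.1.image e)
    rw [hoccap] at h1
    constructor
    · rintro ⟨_, hd⟩
      have h0 : (b.1 ∩ b'.1).card = 0 := by
        rw [Finset.card_eq_zero]; exact Finset.disjoint_iff_inter_eq_empty.mp hd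
      show dotInt (pat 2 (({none, pt 0} : Finset GolayPt) ∪ b.1.image e)) (pat 2 (({none, pt 0} : Finset GolayPt) ∪ b'.1.image e)) = 8
      rw [h1, h0]
      norm_num
    · intro h
      have h2 : dotInt (pat 2 (({none, pt 0} : Finset GolayPt) ∪ b.1.image e)) (pat 2 (({none, pt 0} : Finset GolayPt) ∪ b'.1.image e)) = 8 := h
      rw [h1] at h2
      have h3 : (b.1 ∩ b'.1).card = 0 := by
        push_cast at h2
        omega
      have hd : Disjoint b.1 b'.1 :=
        Finset.disjoint_iff_inter_eq_empty.mpr (Finset.card_eq_zero.mp h3)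
      refine ⟨?_, hd⟩
      intro hbb
      rw [hbb, Finset.inter_self, hb6] at h3
      omega
  have hAdj : ∀ a a', (pointBlockGraph B).Adj a a' ↔ dotInt (V a) (V a') = 8 := by
    intro a a'
    rcases a with _ | u | b <;> rcases a' with _ | u' | b'
    · exact c00
    · exact c01 u'
    · exact c02 b'
    · exact hsym _ _ (c01 u)
    · exact c11 u u'
    · exact c12 u b'
    · exact hsym _ _ (c02 b)
    · exact hsym _ _ (c12 u' b)
    · exact c22 b b'
  have hsmul : ∀ (g : ↥HS0) (y : ↥leechLattice), (y : GolayPt → ℤ) ∈ XH →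
      ((g • y : ↥leechLattice) : GolayPt → ℤ) ∈ XH := by
    intro g y hy
    have h1 : y ∈ MulAction.orbit ↥HS0 X0 := by rw [orbit_X0, Set.mem_ofPred_eq]; exact hy
    obtain ⟨g0, rfl⟩ := h1
    have h2 : g • g0 • X0 ∈ MulAction.orbit ↥HS0 X0 := ⟨g * g0, mul_smul g g0 X0⟩
    rw [orbit_X0, Set.mem_ofPred_eq] at h2
    exact h2
  let VE : Option (α ⊕ B) ≃ {y : ↥leechLattice // (y : GolayPt → ℤ) ∈ XH} :=
    Equiv.ofBijective (fun a => ⟨⟨V a, XH_mem_lattice _ (hV a)⟩, hV a⟩)
      ⟨fun a a' h => hVinj a a' (congrArg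
          (fun w : {y : ↥leechLattice // (y : GolayPt → ℤ) ∈ XH} => (w.1 : GolayPt → ℤ)) h),
        fun w => by
          obtain ⟨a, ha⟩ := hVsurj _ w.2
          exact ⟨a, Subtype.ext (Subtype.ext ha)⟩⟩
  have hVE : ∀ a, ((VE a).1 : GolayPt → ℤ) = V a := fun a => rfl
  let σ : ↥HS0 → Equiv.Perm {y : ↥leechLattice // (y : GolayPt → ℤ) ∈ XH} := fun g =>
    { toFun := fun y => ⟨g • y.1, hsmul g y.1 y.2⟩
      invFun := fun y => ⟨g⁻¹ • y.1, hsmul g⁻¹ y.1 y.2⟩
      left_inv := fun y => Subtype.ext (inv_smul_smul g y.1)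
      right_inv := fun y => Subtype.ext (smul_inv_smul g y.1) }
  let π : ↥HS0 → Equiv.Perm (Option (α ⊕ B)) := fun g => (VE.trans (σ g)).trans VE.symm
  have hπ : ∀ g a, VE (π g a) = σ g (VE a) := by
    intro g a
    show VE (VE.symm (σ g (VE a))) = σ g (VE a)
    rw [Equiv.apply_symm_apply]
  have hπV : ∀ g a, V (π g a) = ((g • (VE a).1 : ↥leechLattice) : GolayPt → ℤ) := by
    intro g a
    rw [← hVE, hπ]
    rfl
  have hdotg : ∀ (g : ↥HS0) (a a' : Option (α ⊕ B)),
      dotInt (V (π g a)) (V (π g a')) = dotInt (V a) (V a') := by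
    intro g a a'
    rw [hπV, hπV]
    exact co0_dot g.1 (VE a).1 (VE a').1
  let Pm : ↥HS0 →* (pointBlockGraph B ≃g pointBlockGraph B) :=
    { toFun := fun g =>
        { toEquiv := π g
          map_rel_iff' := by
            intro a a'
            show (pointBlockGraph B).Adj (π g a) (π g a') ↔ (pointBlockGraph B).Adj a a'
            rw [hAdj, hAdj, hdotg] }
      map_one' := by
        apply RelIso.ext
        intro a
        show π 1 a = a
        apply VE.injective
        rw [hπ]
        exact Subtype.ext (one_smul _ _)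
      map_mul' := by
        intro g h
        apply RelIso.ext
        intro a
        show π (g * h) a = π g (π h a)
        apply VE.injective
        rw [hπ, hπ, hπ]
        exact Subtype.ext (mul_smul g h _) }
  have hPminj : Function.Injective Pm := by
    rw [injective_iff_map_eq_one]
    intro g hg
    apply hs0_faith
    intro y hy
    rw [orbit_X0, Set.mem_ofPred_eq] at hy
    have h1 : ∀ a, π g a = a := fun a =>
      congrArg (fun φ : pointBlockGraph B ≃g pointBlockGraph B => φ a) hg
    obtain ⟨a, ha⟩ := VE.surjective ⟨y, hy⟩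
    have h2 : σ g (VE a) = VE a := (hπ g a).symm.trans (congrArg VE (h1 a))
    rw [ha] at h2
    exact congrArg Subtype.val h2
  refine ⟨Pm.range, ?_, ?_⟩
  · exact (MulEquiv.isSimpleGroup_congr (MonoidHom.ofInjective hPminj)).mp hs0_simple
  · have hc := Nat.card_congr (MonoidHom.ofInjective hPminj).toEquiv
    exact hc.symm.trans card_HS0

end Cfsg.Agent.Lib.helper28.S22
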