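import Cfsg.Agent.Lib.helper28.Steiner22HS

set_option autoImplicit false
set_option linter.unusedSectionVars false

namespace Cfsg.Agent.Lib.helper28.S22

open Cfsg
open Cfsg.Agent.Lib.helper28
open Cfsg.Agent.Lib.helper27
open Cfsg.Agent.Lib.helper28.LC
open Cfsg.Agent.Lib.helper28.SC
open Cfsg.Agent.Lib.helper28.XI
open scoped Pointwise

/-- Auxiliary: the forward map on vertices induced by a permutation preserving the blocks. -/
def vmap {α : Type*} [DecidableEq α] (B : Set (Finset α)) (σ : Equiv.Perm α)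
    (h : ∀ s ∈ B, s.image σ ∈ B) : Option (α ⊕ B) → Option (α ⊕ B) :=
  Option.map (Sum.map σ (fun b => ⟨b.1.image σ, h b.1 b.2⟩))

theorem vmap_inj {α : Type*} [DecidableEq α] (B : Set (Finset α)) (σ : Equiv.Perm α)
    (h : ∀ s ∈ B, s.image σ ∈ B) : Function.Injective (vmap B σ h) := by
  apply Option.map_injective
  apply Function.Injective.sumMap σ.injective
  intro b b' hbb
  exact Subtype.ext (Finset.image_injective σ.injective (congrArg Subtype.val hbb))

theorem vmap_adj {α : Type*} [DecidableEq α] (B : Set (Finset α)) (σ : Equiv.Perm α)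
    (h : ∀ s ∈ B, s.image σ ∈ B) (a a' : Option (α ⊕ B)) :
    (pointBlockGraph B).Adj (vmap B σ h a) (vmap B σ h a') ↔ (pointBlockGraph B).Adj a a' := by
  have k12 : ∀ (u : α) (b : B), (pointBlockGraph B).Adj (vmap B σ h (some (Sum.inl u)))
      (vmap B σ h (some (Sum.inr b))) ↔ (pointBlockGraph B).Adj (some (Sum.inl u)) (some (Sum.inr b)) := by
    intro u b
    show (pointBlockGraph B).Adj (some (Sum.inl (σ u)))
      (some (Sum.inr ⟨b.1.image σ, h b.1 b.2⟩)) ↔ _
    rw [pbg_adj4, pbg_adj4]
    exact σ.injective.mem_finset_image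
  rcases a with _ | u | b <;> rcases a' with _ | u' | b'
  · exact iff_of_false (SimpleGraph.irrefl _) (SimpleGraph.irrefl _)
  · exact iff_of_true (pbg_adj1 B (σ u')) (pbg_adj1 B u')
  · exact iff_of_false (pbg_adj2 B ⟨b'.1.image σ, h b'.1 b'.2⟩) (pbg_adj2 B b')
  · exact iff_of_true (pbg_adj1 B (σ u)).symm (pbg_adj1 B u).symm
  · exact iff_of_false (pbg_adj3 B (σ u) (σ u')) (pbg_adj3 B u u')
  · exact k12 u b'
  · exact iff_of_false (fun hh => pbg_adj2 B ⟨b.1.image σ, h b.1 b.2⟩ hh.symm)
      (fun hh => pbg_adj2 B b hh.symm)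
  · rw [SimpleGraph.adj_comm, SimpleGraph.adj_comm _ (some (Sum.inr b))]
    exact k12 u' b
  · show (pointBlockGraph B).Adj (some (Sum.inr ⟨b.1.image σ, h b.1 b.2⟩))
      (some (Sum.inr ⟨b'.1.image σ, h b'.1 b'.2⟩)) ↔ _
    rw [pbg_adj5, pbg_adj5]
    refine and_congr (not_congr ⟨fun hh => ?_, fun hh => ?_⟩) (Finset.disjoint_image σ.injective)
    · exact Subtype.ext (Finset.image_injective σ.injective (congrArg Subtype.val hh))
    · rw [hh]

/-- The graph automorphism induced by a permutation preserving the blocks. -/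
noncomputable def autOf {α : Type*} [Fintype α] [DecidableEq α] (B : Set (Finset α))
    (σ : Equiv.Perm α) (h : ∀ s ∈ B, s.image σ ∈ B) :
    pointBlockGraph B ≃g pointBlockGraph B :=
  { toEquiv := Equiv.ofBijective (vmap B σ h)
      ⟨vmap_inj B σ h, Finite.injective_iff_surjective.mp (vmap_inj B σ h)⟩
    map_rel_iff' := by
      intro a a'
      exact vmap_adj B σ h a a' }

theorem autOf_apply {α : Type*} [Fintype α] [DecidableEq α] (B : Set (Finset α))
    (σ : Equiv.Perm α) (h : ∀ s ∈ B, s.image σ ∈ B) (a : Option (α ⊕ B)) :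
    autOf B σ h a = vmap B σ h a := rfl

theorem card_stab_none {α : Type*} [Fintype α] [DecidableEq α] (B : Set (Finset α)) :
    Nat.card {f : pointBlockGraph B ≃g pointBlockGraph B // f none = none} =
      Nat.card (setSystemAut B) := by
  symm
  have hfw : ∀ σ : setSystemAut B, ∀ s ∈ B, s.image σ.1 ∈ B := fun σ s hs =>
    ((S24.mem_aut_iff B σ.1).mp σ.2 s).mp hs
  apply Nat.card_eq_of_bijective
    (fun σ : setSystemAut B => (⟨autOf B σ.1 (hfw σ), rfl⟩ :
      {f : pointBlockGraph B ≃g pointBlockGraph B // f none = none}))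
  constructor
  · intro σ σ' hh
    apply Subtype.ext
    apply Equiv.ext
    intro u
    have h1 := congrArg (fun s : {f : pointBlockGraph B ≃g pointBlockGraph B // f none = none} =>
      s.1 (some (Sum.inl u))) hh
    have h2 : (some (Sum.inl (σ.1 u)) : Option (α ⊕ B)) = some (Sum.inl (σ'.1 u)) := h1
    exact Sum.inl.inj (Option.some.inj h2)
  · rintro ⟨f, hf⟩
    have hi : ∀ u : α, ∃ u' : α, f (some (Sum.inl u)) = some (Sum.inl u') := by
      intro u
      have h1 : (pointBlockGraph B).Adj (f none) (f (some (Sum.inl u))) :=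
        f.map_rel_iff.mpr (pbg_adj1 B u)
      rw [hf] at h1
      rcases hfu : f (some (Sum.inl u)) with _ | u' | b'
      · rw [hfu] at h1; exact absurd h1 (SimpleGraph.irrefl _)
      · exact ⟨u', rfl⟩
      · rw [hfu] at h1; exact absurd h1 (pbg_adj2 B b')
    have hii : ∀ b : B, ∃ b' : B, f (some (Sum.inr b)) = some (Sum.inr b') := by
      intro b
      have h1 : ¬ (pointBlockGraph B).Adj (f none) (f (some (Sum.inr b))) := fun hh =>
        pbg_adj2 B b (f.map_rel_iff.mp hh)
      rw [hf] at h1
      rcases hfb : f (some (Sum.inr b)) with _ | u' | b'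
      · have h2 : f (some (Sum.inr b)) = f none := hfb.trans hf.symm
        exact absurd (f.injective h2) (by simp)
      · rw [hfb] at h1; exact absurd (pbg_adj1 B u') h1
      · exact ⟨b', rfl⟩
    choose p hp using hi
    choose q hq using hii
    have pinj : Function.Injective p := by
      intro u u' hh
      have h1 : f (some (Sum.inl u)) = f (some (Sum.inl u')) := by rw [hp, hp, hh]
      exact Sum.inl.inj (Option.some.inj (f.injective h1))
    have psurj : Function.Surjective p := Finite.injective_iff_surjective.mp pinj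
    let σ : Equiv.Perm α := Equiv.ofBijective p ⟨pinj, psurj⟩
    have hσ : ∀ u, σ u = p u := fun u => rfl
    have hq' : ∀ b : B, (q b).1 = b.1.image σ := by
      intro b
      ext v
      obtain ⟨u, rfl⟩ := psurj v
      rw [← hσ, σ.injective.mem_finset_image, ← pbg_adj4 B u b, ← pbg_adj4 B (σ u) (q b),
        hσ, ← hp, ← hq]
      exact f.map_rel_iff
    have hσB : ∀ s ∈ B, s.image σ ∈ B := by
      intro s hs
      have h1 := hq' ⟨s, hs⟩
      rw [← h1]
      exact (q ⟨s, hs⟩).2
    refine ⟨⟨σ, S23.mem_aut_of_forall B σ hσB⟩, ?_⟩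
    apply Subtype.ext
    apply RelIso.ext
    intro v
    show vmap B σ hσB v = f v
    rcases v with _ | u | b
    · exact hf.symm
    · rw [hp]; rfl
    · rw [hq]
      show (some (Sum.inr ⟨b.1.image σ, hσB b.1 b.2⟩) : Option (α ⊕ B)) = some (Sum.inr (q b))
      congr 2
      exact Subtype.ext (hq' b).symm

theorem card_aut_of_trans {α : Type*} [Fintype α] [DecidableEq α] (B : Set (Finset α))
    (htr : ∀ a : Option (α ⊕ B), ∃ f : pointBlockGraph B ≃g pointBlockGraph B, f none = a) :
    Nat.card (pointBlockGraph B ≃g pointBlockGraph B) =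
      Nat.card (Option (α ⊕ B)) * Nat.card (setSystemAut B) := by
  choose t ht using htr
  have hinv : ∀ (τ : pointBlockGraph B ≃g pointBlockGraph B) (b : Option (α ⊕ B)),
      τ none = b → τ⁻¹ b = none := by
    intro τ b hb
    rw [← hb]
    exact RelIso.inv_apply_self τ none
  let E : (pointBlockGraph B ≃g pointBlockGraph B) ≃
      Option (α ⊕ B) × {f : pointBlockGraph B ≃g pointBlockGraph B // f none = none} :=
    { toFun := fun f => (f none, ⟨(t (f none))⁻¹ * f, hinv _ _ (ht (f none))⟩)
      invFun := fun p => t p.1 * p.2.1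
      left_inv := fun f => mul_inv_cancel_left _ _
      right_inv := by
        rintro ⟨a, s, hs⟩
        have h : (t a * s) none = a := by
          show t a (s none) = a
          rw [hs, ht]
        apply Prod.ext
        · exact h
        · apply Subtype.ext
          show (t ((t a * s) none))⁻¹ * (t a * s) = s
          rw [h, inv_mul_cancel_left] }
  rw [Nat.card_congr E, Nat.card_prod, card_stab_none]

theorem hs_graph_trans {α : Type*} [Fintype α] (hα : Fintype.card α = 22) {B : Set (Finset α)}
    (hB : IsSteinerSystem 3 6 B) :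
    (∀ a : Option (α ⊕ B), ∃ f : pointBlockGraph B ≃g pointBlockGraph B, f none = a) ∧
      Nat.card (Option (α ⊕ B)) = 100 := by
  classical
  obtain ⟨e, hinj, havoid, hsurj, hiff⟩ := embed22_n0 hα hB
  have hn0 : (none : GolayPt) ≠ pt 0 := by decide
  have hdis : ∀ b : Finset α, Disjoint ({none, pt 0} : Finset GolayPt) (b.image e) := by
    intro b
    rw [Finset.disjoint_left]
    intro p hp hp'
    rw [Finset.mem_image] at hp'
    obtain ⟨u, _, rfl⟩ := hp'
    rw [Finset.mem_insert, Finset.mem_singleton] at hp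
    rcases hp with h | h
    · exact (havoid u).1 h
    · exact (havoid u).2 h
  have hocI0 : ∀ b ∈ B, ({none, pt 0} : Finset GolayPt) ∪ b.image e ∈ octI0 := by
    intro b hb
    rw [mem_octI0]
    exact ⟨(hiff b).mp hb, Finset.mem_union_left _ (Finset.mem_insert_self _ _),
      Finset.mem_union_left _ (Finset.mem_insert_of_mem (Finset.mem_singleton_self _))⟩
  have hoccap : ∀ b b' : Finset α, ((({none, pt 0} : Finset GolayPt) ∪ b.image e) ∩
      ({none, pt 0} ∪ b'.image e)).card = 2 + (b ∩ b').card := by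
    intro b b'
    rw [← Finset.union_inter_distrib_left, ← Finset.image_inter _ _ hinj,
      Finset.card_union_of_disjoint (hdis _), Finset.card_pair hn0,
      Finset.card_image_of_injective _ hinj]
  have hmemoc : ∀ (u : α) (b : Finset α),
      e u ∈ ({none, pt 0} : Finset GolayPt) ∪ b.image e ↔ u ∈ b := by
    intro u b
    rw [Finset.mem_union, Finset.mem_insert, Finset.mem_singleton]
    constructor
    · rintro ((h | h) | h)
      · exact absurd h (havoid u).1
      · exact absurd h (havoid u).2
      · exact (hinj.mem_finset_image).mp h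
    · intro h
      exact Or.inr (Finset.mem_image_of_mem _ h)
  have hocinj : ∀ b b' : Finset α, ({none, pt 0} : Finset GolayPt) ∪ b.image e =
      {none, pt 0} ∪ b'.image e → b = b' := by
    intro b b' h
    ext u
    rw [← hmemoc u b, ← hmemoc u b', h]
  let V : Option (α ⊕ B) → GolayPt → ℤ := fun a =>
    match a with
    | none => x0
    | some (Sum.inl u) => pt1 (-3) {e u}
    | some (Sum.inr b) => pat 2 (({none, pt 0} : Finset GolayPt) ∪ b.1.image e)
  have hV : ∀ a, V a ∈ XH := by
    intro a
    rcases a with _ | u | b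
    · exact x0_mem_XH
    · exact pC_mem_XH (havoid u).1 (havoid u).2
    · have h1 : pat 2 (({none, pt 0} : Finset GolayPt) ∪ b.1.image e) ∈ KHB :=
        Finset.mem_image_of_mem _ (hocI0 b.1 b.2)
      rw [← hfibB] at h1
      exact (Finset.mem_filter.mp h1).1
  have hVn0 : V none none = 4 := x0_props.2.2.2
  have hVn1 : ∀ u, V (some (Sum.inl u)) none = 1 := by
    intro u
    show pt1 (-3) {e u} none = 1
    unfold pt1
    rw [if_neg]
    rw [Finset.mem_singleton]
    exact fun h => (havoid u).1 h.symm
  have hVn2 : ∀ b : B, V (some (Sum.inr b)) none = 2 := by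
    intro b
    show pat 2 (({none, pt 0} : Finset GolayPt) ∪ b.1.image e) none = 2
    unfold pat
    rw [if_pos]
    exact Finset.mem_union_left _ (Finset.mem_insert_self _ _)
  have hVinj : ∀ a a', V a = V a' → a = a' := by
    intro a a' h
    have hn := congrFun h none
    rcases a with _ | u | b <;> rcases a' with _ | u' | b'
    · rfl
    · rw [hVn0, hVn1] at hn; omega
    · rw [hVn0, hVn2] at hn; omega
    · rw [hVn1, hVn0] at hn; omega
    · have h' : pt1 (-3) {e u} = pt1 (-3) {e u'} := h
      have h2 : e u = e u' := pt1_inj h'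
      rw [hinj h2]
    · rw [hVn1, hVn2] at hn; omega
    · rw [hVn2, hVn0] at hn; omega
    · rw [hVn2, hVn1] at hn; omega
    · have h' : pat 2 (({none, pt 0} : Finset GolayPt) ∪ b.1.image e) = pat 2 (({none, pt 0} : Finset GolayPt) ∪ b'.1.image e) := h
      have h1 := pat_inj (v := 2) (by norm_num) h'
      have h2 := hocinj _ _ h1
      have h3 : b = b' := Subtype.ext h2
      rw [h3]
  have hVsurj : ∀ y : GolayPt → ℤ, y ∈ XH → ∃ a, V a = y := by
    intro y hy
    rcases XH_vals hy with h | h | h
    · exact ⟨none, ((XH_eq_x0_iff hy).mpr h).symm⟩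
    · have h1 : y ∈ KHB := by rw [← hfibB]; exact Finset.mem_filter.mpr ⟨hy, h⟩
      unfold KHB at h1
      rw [Finset.mem_image] at h1
      obtain ⟨o, ho, hoy⟩ := h1
      rw [mem_octI0] at ho
      have hbo : ({none, pt 0} : Finset GolayPt) ∪
          (Finset.univ.filter (fun u => e u ∈ o)).image e = o := by
        ext q
        rw [Finset.mem_union, Finset.mem_insert, Finset.mem_singleton, Finset.mem_image]
        constructor
        · rintro ((hq | hq) | ⟨u, hu, rfl⟩)
          · rw [hq]; exact ho.2.1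
          · rw [hq]; exact ho.2.2
          · exact (Finset.mem_filter.mp hu).2
        · intro hq
          by_cases hq0 : q = none
          · exact Or.inl (Or.inl hq0)
          · by_cases hq1 : q = pt 0
            · exact Or.inl (Or.inr hq1)
            · obtain ⟨u, rfl⟩ := hsurj q hq0 hq1
              exact Or.inr ⟨u, Finset.mem_filter.mpr ⟨Finset.mem_univ _, hq⟩, rfl⟩
      have hbB : Finset.univ.filter (fun u => e u ∈ o) ∈ B :=
        (hiff _).mpr (by rw [hbo]; exact ho.1)
      refine ⟨some (Sum.inr ⟨_, hbB⟩), ?_⟩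
      show pat 2 (({none, pt 0} : Finset GolayPt) ∪
          (Finset.univ.filter (fun u => e u ∈ o)).image e) = y
      rw [hbo]; exact hoy
    · have h1 : y ∈ KHC := by rw [← hfibC]; exact Finset.mem_filter.mpr ⟨hy, h⟩
      unfold KHC at h1
      rw [Finset.mem_image] at h1
      obtain ⟨k, hk, hky⟩ := h1
      rw [mem_pts22] at hk
      obtain ⟨u, hu⟩ := hsurj k hk.1 hk.2
      refine ⟨some (Sum.inl u), ?_⟩
      show pt1 (-3) {e u} = y
      rw [hu]; exact hky
  have hb6 : ∀ b : B, b.1.card = 6 := fun b => hB.1 b.1 b.2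
  have hsym : ∀ a a', ((pointBlockGraph B).Adj a a' ↔ dotInt (V a) (V a') = 8) →
      ((pointBlockGraph B).Adj a' a ↔ dotInt (V a') (V a) = 8) := by
    intro a a' h
    rw [SimpleGraph.adj_comm, dot_comm]; exact h
  have c00 : (pointBlockGraph B).Adj none none ↔ dotInt (V none) (V none) = 8 := by
    constructor
    · intro h; exact absurd h (SimpleGraph.irrefl _)
    · intro h
      have h1 : dotInt x0 x0 = 8 * x0 none := XH_dot_x0 x0_mem_XH
      rw [x0_props.2.2.2] at h1
      have h2 : dotInt x0 x0 = 8 := h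
      omega
  have c01 : ∀ u : α, (pointBlockGraph B).Adj none (some (Sum.inl u)) ↔
      dotInt (V none) (V (some (Sum.inl u))) = 8 := by
    intro u
    have h1 : dotInt x0 (V (some (Sum.inl u))) = 8 * V (some (Sum.inl u)) none :=
      XH_dot_x0 (hV (some (Sum.inl u)))
    rw [hVn1] at h1
    exact ⟨fun _ => h1.trans (by norm_num), fun _ => pbg_adj1 B u⟩
  have c02 : ∀ b : B, (pointBlockGraph B).Adj none (some (Sum.inr b)) ↔
      dotInt (V none) (V (some (Sum.inr b))) = 8 := by
    intro b
    have h1 : dotInt x0 (V (some (Sum.inr b))) = 8 * V (some (Sum.inr b)) none :=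
      XH_dot_x0 (hV (some (Sum.inr b)))
    rw [hVn2] at h1
    constructor
    · intro h; exact absurd h (pbg_adj2 B b)
    · intro h
      have h2 : dotInt x0 (V (some (Sum.inr b))) = 8 := h
      omega
  have c11 : ∀ u u' : α, (pointBlockGraph B).Adj (some (Sum.inl u)) (some (Sum.inl u')) ↔
      dotInt (V (some (Sum.inl u))) (V (some (Sum.inl u'))) = 8 := by
    intro u u'
    constructor
    · intro h; exact absurd h (pbg_adj3 B u u')
    · intro h
      have h1 := dot_pt1_pt1 (e u) (e u')
      have h2 : dotInt (pt1 (-3) {e u}) (pt1 (-3) {e u'}) = 8 := h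
      rw [h1] at h2
      split_ifs at h2 <;> omega
  have c12 : ∀ (u : α) (b : B), (pointBlockGraph B).Adj (some (Sum.inl u)) (some (Sum.inr b)) ↔
      dotInt (V (some (Sum.inl u))) (V (some (Sum.inr b))) = 8 := by
    intro u b
    rw [pbg_adj4]
    have h1 := dot_pt1_pat (e u) (({none, pt 0} : Finset GolayPt) ∪ b.1.image e)
    rw [card_of_mem_octads ((hiff b.1).mp b.2)] at h1
    constructor
    · intro hub
      show dotInt (pt1 (-3) {e u}) (pat 2 (({none, pt 0} : Finset GolayPt) ∪ b.1.image e)) = 8
      rw [h1, if_pos ((hmemoc u b.1).mpr hub)]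
      norm_num
    · intro h
      by_contra hub
      have h2 : dotInt (pt1 (-3) {e u}) (pat 2 (({none, pt 0} : Finset GolayPt) ∪ b.1.image e)) = 8 := h
      rw [h1, if_neg (fun hc => hub ((hmemoc u b.1).mp hc))] at h2
      norm_num at h2
  have c22 : ∀ b b' : B, (pointBlockGraph B).Adj (some (Sum.inr b)) (some (Sum.inr b')) ↔
      dotInt (V (some (Sum.inr b))) (V (some (Sum.inr b'))) = 8 := by
    intro b b'
    rw [pbg_adj5]
    have h1 := dot_pat_pat (({none, pt 0} : Finset GolayPt) ∪ b.1.image e) (({none, pt 0} : Finset GolayPt) ∪ b'.1.image e)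
    rw [hoccap] at h1
    constructor
    · rintro ⟨_, hd⟩
      have h0 : (b.1 ∩ b'.1).card = 0 := by
        rw [Finset.card_eq_zero]; exact Finset.disjoint_iff_inter_eq_empty.mp hd
      show dotInt (pat 2 (({none, pt 0} : Finset GolayPt) ∪ b.1.image e)) (pat 2 (({none, pt 0} : Finset GolayPt) ∪ b'.1.image e)) = 8
      rw [h1, h0]
      norm_num
    · intro h
      have h2 : dotInt (pat 2 (({none, pt 0} : Finset GolayPt) ∪ b.1.image e)) (pat 2 (({none, pt 0} : Finset GolayPt) ∪ b'.1.image e)) = 8 := h
      rw [h1] at h2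
      have h3 : (b.1 ∩ b'.1).card = 0 := by
        push_cast at h2
        omega
      have hd : Disjoint b.1 b'.1 :=
        Finset.disjoint_iff_inter_eq_empty.mpr (Finset.card_eq_zero.mp h3)
      refine ⟨?_, hd⟩
      intro hbb
      rw [hbb, Finset.inter_self, hb6] at h3
      omega
  have hAdj : ∀ a a', (pointBlockGraph B).Adj a a' ↔ dotInt (V a) (V a') = 8 := by
    intro a a'
    rcases a with _ | u | b <;> rcases a' with _ | u' | b'
    · exact c00
    · exact c01 u'
    · exact c02 b'
    · exact hsym _ _ (c01 u)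
    · exact c11 u u'
    · exact c12 u b'
    · exact hsym _ _ (c02 b)
    · exact hsym _ _ (c12 u' b)
    · exact c22 b b'
  have hsmul : ∀ (g : ↥HS0) (y : ↥leechLattice), (y : GolayPt → ℤ) ∈ XH →
      ((g • y : ↥leechLattice) : GolayPt → ℤ) ∈ XH := by
    intro g y hy
    have h1 : y ∈ MulAction.orbit ↥HS0 X0 := by rw [orbit_X0, Set.mem_ofPred_eq]; exact hy
    obtain ⟨g0, rfl⟩ := h1
    have h2 : g • g0 • X0 ∈ MulAction.orbit ↥HS0 X0 := ⟨g * g0, mul_smul g g0 X0⟩
    rw [orbit_X0, Set.mem_ofPred_eq] at h2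
    exact h2
  let VE : Option (α ⊕ B) ≃ {y : ↥leechLattice // (y : GolayPt → ℤ) ∈ XH} :=
    Equiv.ofBijective (fun a => ⟨⟨V a, XH_mem_lattice _ (hV a)⟩, hV a⟩)
      ⟨fun a a' h => hVinj a a' (congrArg
          (fun w : {y : ↥leechLattice // (y : GolayPt → ℤ) ∈ XH} => (w.1 : GolayPt → ℤ)) h),
        fun w => by
          obtain ⟨a, ha⟩ := hVsurj _ w.2
          exact ⟨a, Subtype.ext (Subtype.ext ha)⟩⟩
  have hVE : ∀ a, ((VE a).1 : GolayPt → ℤ) = V a := fun a => rfl
  let σ : ↥HS0 → Equiv.Perm {y : ↥leechLattice // (y : GolayPt → ℤ) ∈ XH} := fun g =>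
    { toFun := fun y => ⟨g • y.1, hsmul g y.1 y.2⟩
      invFun := fun y => ⟨g⁻¹ • y.1, hsmul g⁻¹ y.1 y.2⟩
      left_inv := fun y => Subtype.ext (inv_smul_smul g y.1)
      right_inv := fun y => Subtype.ext (smul_inv_smul g y.1) }
  let π : ↥HS0 → Equiv.Perm (Option (α ⊕ B)) := fun g => (VE.trans (σ g)).trans VE.symm
  have hπ : ∀ g a, VE (π g a) = σ g (VE a) := by
    intro g a
    show VE (VE.symm (σ g (VE a))) = σ g (VE a)
    rw [Equiv.apply_symm_apply]
  have hπV : ∀ g a, V (π g a) = ((g • (VE a).1 : ↥leechLattice) : GolayPt → ℤ) := by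
    intro g a
    rw [← hVE, hπ]
    rfl
  have hdotg : ∀ (g : ↥HS0) (a a' : Option (α ⊕ B)),
      dotInt (V (π g a)) (V (π g a')) = dotInt (V a) (V a') := by
    intro g a a'
    rw [hπV, hπV]
    exact co0_dot g.1 (VE a).1 (VE a').1
  let Pm : ↥HS0 →* (pointBlockGraph B ≃g pointBlockGraph B) :=
    { toFun := fun g =>
        { toEquiv := π g
          map_rel_iff' := by
            intro a a'
            show (pointBlockGraph B).Adj (π g a) (π g a') ↔ (pointBlockGraph B).Adj a a'
            rw [hAdj, hAdj, hdotg] }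
      map_one' := by
        apply RelIso.ext
        intro a
        show π 1 a = a
        apply VE.injective
        rw [hπ]
        exact Subtype.ext (one_smul _ _)
      map_mul' := by
        intro g h
        apply RelIso.ext
        intro a
        show π (g * h) a = π g (π h a)
        apply VE.injective
        rw [hπ, hπ, hπ]
        exact Subtype.ext (mul_smul g h _) }
  constructor
  · intro a
    have h1 : (VE a).1 ∈ MulAction.orbit ↥HS0 X0 := by
      rw [orbit_X0, Set.mem_ofPred_eq]; exact (VE a).2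
    obtain ⟨g, hg⟩ := h1
    refine ⟨Pm g, ?_⟩
    show π g none = a
    apply VE.injective
    rw [hπ]
    apply Subtype.ext
    show g • (VE none).1 = (VE a).1
    have h2 : (VE none).1 = X0 := Subtype.ext rfl
    rw [h2]; exact hg
  · have h1 := ncard_orbit_X0
    rw [orbit_X0, ← Nat.card_coe_set_eq] at h1
    rw [Nat.card_congr VE, ← h1]
    exact Nat.card_congr (Equiv.subtypeEquivRight (fun y => by rw [Set.mem_ofPred_eq]))

theorem card_hs_graph_aut {α : Type*} [Fintype α] [DecidableEq α] (hα : Fintype.card α = 22)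
    {B : Set (Finset α)} (hB : IsSteinerSystem 3 6 B) :
    Nat.card (pointBlockGraph B ≃g pointBlockGraph B) = 88704000 := by
  obtain ⟨htr, hc⟩ := hs_graph_trans hα hB
  rw [card_aut_of_trans B htr, hc, (aut22 hα hB).1]

end Cfsg.Agent.Lib.helper28.S22
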