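import Cfsg.Agent.Lib.helper28.Steiner22

set_option autoImplicit false
set_option linter.unusedSectionVars false

namespace Cfsg.Agent.Lib.helper28.S23

open Cfsg
open scoped Pointwise
open Cfsg.Agent.Lib.helper28.S22

theorem map_list5 (xs ys : List GolayPt) (hx : xs.Nodup) (hy : ys.Nodup)
    (hlen : xs.length = ys.length) (h5 : xs.length ≤ 5) : ∃ g ∈ M24, xs.map g = ys := by
  have := M24_fiveTransitive
  have hn : MulAction.IsMultiplyPretransitive M24 GolayPt xs.length :=
    MulAction.isMultiplyPretransitive_of_le (n := 5) h5 (by rw [card_GolayPt]; norm_num)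
  rw [MulAction.isMultiplyPretransitive_iff] at hn
  obtain ⟨g, hg⟩ := hn ⟨xs.get, List.nodup_iff_injective_get.mp hx⟩
    ⟨fun i => ys.get (Fin.cast hlen i), fun i j h => by
      have := List.nodup_iff_injective_get.mp hy h
      exact Fin.cast_injective hlen this⟩
  refine ⟨g, g.2, ?_⟩
  apply List.ext_get
  · rw [List.length_map, hlen]
  · intro n h1 h2
    rw [List.length_map] at h1
    have := congrArg (fun f : Fin xs.length ↪ GolayPt => f ⟨n, h1⟩) hg
    rw [List.get_eq_getElem, List.get_eq_getElem, List.getElem_map]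
    exact this

theorem exists_M24_smul_K3 (K : Finset GolayPt) (hK : K.card = 3) : ∃ g ∈ M24, g • K = K3 := by
  obtain ⟨a, b, c, hab, hac, hbc, rfl⟩ := Finset.card_eq_three.mp hK
  obtain ⟨a', b', c', hab', hac', hbc', hK3⟩ := Finset.card_eq_three.mp card_K3
  obtain ⟨g, hg, hmap⟩ := map_list5 [a, b, c] [a', b', c'] (by simp [hab, hac, hbc])
    (by simp [hab', hac', hbc']) rfl (by norm_num)
  refine ⟨g, hg, ?_⟩
  simp only [List.map_cons, List.map_nil, List.cons.injEq, and_true] at hmap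
  obtain ⟨h1, h2, h3⟩ := hmap
  rw [hK3]
  show ({a, b, c} : Finset GolayPt).image g = {a', b', c'}
  rw [Finset.image_insert, Finset.image_insert, Finset.image_singleton, h1, h2, h3]

theorem ncard_octK_gen (K : Finset GolayPt) (hK : K.card = 3) :
    {O : Finset GolayPt | O ∈ octads ∧ (O ∩ K).card = 2}.ncard = 168 := by
  obtain ⟨g, hg, hgK⟩ := exists_M24_smul_K3 K hK
  have h := ncard_smul_transport g (fun O : Finset GolayPt => O ∈ octads ∧ (O ∩ K).card = 2)
    (fun O : Finset GolayPt => O ∈ octads ∧ (O ∩ K3).card = 2) (by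
      intro o
      show g • o ∈ octads ∧ (g • o ∩ K3).card = 2 ↔ o ∈ octads ∧ (o ∩ K).card = 2
      rw [smul_mem_octads_iff hg, ← hgK, card_smul_inter])
  exact h.symm.trans ncard_octK

theorem hyp_octad_gen (K : Finset GolayPt) (hK : K.card = 3)
    {α : Type*} [Fintype α] [DecidableEq α] (hα : Fintype.card α = 21)
    {L : Set (Finset α)} (hL : IsSteinerSystem 2 5 L) (e : α → GolayPt)
    (he : Function.Injective e) (heK : ∀ u, e u ∉ K) (hsurj : ∀ p, p ∉ K → ∃ u, e u = p)
    (hLe : ∀ l : Finset α, l ∈ L ↔ K ∪ l.image e ∈ octads)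
    (H : Finset α) (hH : H.card = 6 ∧ ∀ l ∈ L, (l ∩ H).card ≤ 2) :
    ∃ O ∈ octads, (O ∩ K).card = 2 ∧ H.image e = O \ K := by
  classical
  let φ : Finset GolayPt → Finset α := fun O => Finset.univ.filter (fun u => e u ∈ O)
  have hφm : ∀ (O : Finset GolayPt) (u : α), u ∈ φ O ↔ e u ∈ O := by
    intro O u
    simp [φ]
  have hφ : ∀ O : Finset GolayPt, (φ O).image e = O \ K := by
    intro O
    ext p
    rw [Finset.mem_image, Finset.mem_sdiff]
    constructor
    · rintro ⟨u, hu, rfl⟩
      exact ⟨(hφm O u).mp hu, heK u⟩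
    · rintro ⟨hp, hpK⟩
      obtain ⟨u, rfl⟩ := hsurj p hpK
      exact ⟨u, (hφm O u).mpr hp, rfl⟩
  have h6 : ∀ O ∈ octads, (O ∩ K).card = 2 → (O \ K).card = 6 := by
    intro O hO h2
    have := Finset.card_sdiff_add_card_inter O K
    rw [card_of_mem_octads hO, h2] at this
    omega
  have hinj : ∀ O ∈ octads, ∀ O' ∈ octads, (O ∩ K).card = 2 → O \ K = O' \ K → O = O' := by
    intro O hO O' hO' h2 h
    by_contra hne
    have h4 := card_inter_le_of_octads hO hO' hne
    have h6' := h6 O hO h2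
    have hsub : O \ K ⊆ O ∩ O' := by
      intro p hp
      rw [Finset.mem_inter]
      exact ⟨(Finset.mem_sdiff.mp hp).1, (Finset.mem_sdiff.mp (h ▸ hp)).1⟩
    have := Finset.card_le_card hsub
    omega
  have hmap : φ '' {O : Finset GolayPt | O ∈ octads ∧ (O ∩ K).card = 2} ⊆
      {H : Finset α | H.card = 6 ∧ ∀ l ∈ L, (l ∩ H).card ≤ 2} := by
    rintro _ ⟨O, ⟨hO, h2⟩, rfl⟩
    have h6' := h6 O hO h2
    refine ⟨?_, fun l hl => ?_⟩
    · rw [← Finset.card_image_of_injective _ he, hφ, h6']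
    · by_contra hcon
      rw [not_le] at hcon
      have hO' := (hLe l).mp hl
      have hne : O ≠ K ∪ l.image e := by
        intro heq
        have h3 : O ∩ K = K := by
          rw [heq]; exact Finset.inter_eq_right.mpr Finset.subset_union_left
        rw [h3, hK] at h2
        omega
      have h4 := card_inter_le_of_octads hO hO' hne
      have hsub : (O ∩ K) ∪ (l ∩ φ O).image e ⊆ O ∩ (K ∪ l.image e) := by
        intro p hp
        rw [Finset.mem_union] at hp
        rw [Finset.mem_inter, Finset.mem_union]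
        rcases hp with hp | hp
        · exact ⟨(Finset.mem_inter.mp hp).1, Or.inl (Finset.mem_inter.mp hp).2⟩
        · rw [Finset.mem_image] at hp
          obtain ⟨u, hu, rfl⟩ := hp
          rw [Finset.mem_inter] at hu
          exact ⟨(hφm O u).mp hu.2, Or.inr (Finset.mem_image_of_mem _ hu.1)⟩
      have hdis : Disjoint (O ∩ K) ((l ∩ φ O).image e) := by
        rw [Finset.disjoint_left]
        intro p hp hp'
        rw [Finset.mem_image] at hp'
        obtain ⟨u, _, rfl⟩ := hp'
        exact heK u (Finset.mem_inter.mp hp).2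
      have h5 := Finset.card_le_card hsub
      rw [Finset.card_union_of_disjoint hdis, Finset.card_image_of_injective _ he, h2] at h5
      omega
  have hinjOn : Set.InjOn φ {O : Finset GolayPt | O ∈ octads ∧ (O ∩ K).card = 2} := by
    rintro O ⟨hO, h2⟩ O' ⟨hO', _⟩ h
    have h' : O \ K = O' \ K := by
      rw [← hφ O, ← hφ O']
      exact congrArg (fun s : Finset α => s.image e) h
    exact hinj O hO O' hO' h2 h'
  have hcard : (φ '' {O : Finset GolayPt | O ∈ octads ∧ (O ∩ K).card = 2}).ncard = 168 := by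
    rw [Set.InjOn.ncard_image hinjOn, ncard_octK_gen K hK]
  have h168 := (Cfsg.Agent.S5627.result hα L hL).2.1
  have heq := Set.eq_of_subset_of_ncard_le hmap (by rw [hcard, h168]) (Set.toFinite _)
  have hHmem : H ∈ φ '' {O : Finset GolayPt | O ∈ octads ∧ (O ∩ K).card = 2} := by
    rw [heq]; exact hH
  obtain ⟨O, ⟨hO, h2⟩, rfl⟩ := hHmem
  exact ⟨O, hO, h2, hφ O⟩

theorem block_unique4 {α : Type*} [DecidableEq α] {B : Set (Finset α)}
    (hB : IsSteinerSystem 4 7 B) {b c : Finset α} (hb : b ∈ B) (hc : c ∈ B)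
    (h : 4 ≤ (b ∩ c).card) : b = c := by
  obtain ⟨s, hs, hs4⟩ := Finset.exists_subset_card_eq h
  obtain ⟨d, _, hd⟩ := hB.2 s hs4
  rw [hd b ⟨hb, hs.trans Finset.inter_subset_left⟩, hd c ⟨hc, hs.trans Finset.inter_subset_right⟩]

theorem two_of_three {O : Finset GolayPt} {x y z : GolayPt} (hxy : x ≠ y) (hxz : x ≠ z)
    (hyz : y ≠ z) (h : (O ∩ {x, y, z}).card = 2) :
    (x ∈ O ∧ y ∈ O ∧ z ∉ O) ∨ (x ∈ O ∧ z ∈ O ∧ y ∉ O) ∨ (y ∈ O ∧ z ∈ O ∧ x ∉ O) := by
  have key : ∀ a : GolayPt, (∀ p, p ∈ O → (p = x ∨ p = y ∨ p = z) → p = a) → False := by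
    intro a ha
    have hsub : O ∩ {x, y, z} ⊆ {a} := by
      intro p hp
      rw [Finset.mem_inter, Finset.mem_insert, Finset.mem_insert, Finset.mem_singleton] at hp
      exact Finset.mem_singleton.mpr (ha p hp.1 hp.2)
    have := Finset.card_le_card hsub
    rw [h, Finset.card_singleton] at this
    omega
  by_cases hx : x ∈ O <;> by_cases hy : y ∈ O <;> by_cases hz : z ∈ O
  · exfalso
    have h3 : ({x, y, z} : Finset GolayPt).card = 3 :=
      Finset.card_eq_three.mpr ⟨x, y, z, hxy, hxz, hyz, rfl⟩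
    have h4 : O ∩ {x, y, z} = {x, y, z} := by
      apply Finset.inter_eq_right.mpr
      intro p hp
      rw [Finset.mem_insert, Finset.mem_insert, Finset.mem_singleton] at hp
      rcases hp with rfl | rfl | rfl
      · exact hx
      · exact hy
      · exact hz
    rw [h4, h3] at h
    omega
  · exact Or.inl ⟨hx, hy, hz⟩
  · exact Or.inr (Or.inl ⟨hx, hz, hy⟩)
  · exact (key x (fun p hp h => by
      rcases h with rfl | rfl | rfl
      · rfl
      · exact absurd hp hy
      · exact absurd hp hz)).elim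
  · exact Or.inr (Or.inr ⟨hy, hz, hx⟩)
  · exact (key y (fun p hp h => by
      rcases h with rfl | rfl | rfl
      · exact absurd hp hx
      · rfl
      · exact absurd hp hz)).elim
  · exact (key z (fun p hp h => by
      rcases h with rfl | rfl | rfl
      · exact absurd hp hx
      · exact absurd hp hy
      · rfl)).elim
  · exact (key x (fun p hp h => by
      rcases h with rfl | rfl | rfl
      · exact absurd hp hx
      · exact absurd hp hy
      · exact absurd hp hz)).elim

theorem oct_eq {O K S : Finset GolayPt} {a c d : GolayPt}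
    (hK : ∀ p, p ∈ K ↔ p = a ∨ p = c ∨ p = d) (ha : a ∈ O) (hc : c ∈ O) (hd : d ∉ O)
    (hS : S = O \ K) : O = {a, c} ∪ S := by
  subst hS
  ext p
  rw [Finset.mem_union, Finset.mem_insert, Finset.mem_singleton, Finset.mem_sdiff]
  constructor
  · intro hp
    by_cases hpK : p ∈ K
    · rcases (hK p).mp hpK with h | h | h
      · exact Or.inl (Or.inl h)
      · exact Or.inl (Or.inr h)
      · exact absurd (h ▸ hp) hd
    · exact Or.inr ⟨hp, hpK⟩
  · rintro ((h | h) | ⟨h, _⟩)
    · rw [h]; exact ha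
    · rw [h]; exact hc
    · exact h


theorem derived_embed23 {α : Type*} [Fintype α] [DecidableEq α] (hα : Fintype.card α = 23)
    {B : Set (Finset α)} (hB : IsSteinerSystem 4 7 B) (w : α) :
    ∃ (x y : GolayPt) (e0 : α → GolayPt), x ≠ y ∧
      (∀ u v, u ≠ w → v ≠ w → e0 u = e0 v → u = v) ∧
      (∀ u, u ≠ w → e0 u ≠ x ∧ e0 u ≠ y) ∧
      (∀ p, p ≠ x → p ≠ y → ∃ u, u ≠ w ∧ e0 u = p) ∧
      (∀ s : Finset α, w ∉ s → (insert w s ∈ B ↔ {x, y} ∪ s.image e0 ∈ octads)) := by
  classical
  let K : Finset α := {w}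
  have hK : K.card = 1 := Finset.card_singleton w
  have hD : IsSteinerSystem 3 6 {l : Finset {p : α // p ∉ K} | K ∪ l.image Subtype.val ∈ B} :=
    derived_steiner 3 6 1 K hK hB
  have hα' : Fintype.card {p : α // p ∉ K} = 22 := by
    rw [Fintype.card_subtype_compl, Fintype.card_coe, hK, hα]
  obtain ⟨x, y, e1, hxy, he1, he1a, he1s, he1D⟩ := embed22 hα' hD
  let e0 : α → GolayPt := fun u => if h : u ∈ K then pt 0 else e1 ⟨u, h⟩
  have he0 : ∀ (u : α) (h : u ∉ K), e0 u = e1 ⟨u, h⟩ := fun u h => dif_neg h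
  have hmemK : ∀ u, u ∈ K ↔ u = w := fun u => Finset.mem_singleton
  have himg : ∀ s : Finset α, w ∉ s → (s.subtype (· ∉ K)).image e1 = s.image e0 := by
    intro s hws
    ext p
    rw [Finset.mem_image, Finset.mem_image]
    constructor
    · rintro ⟨u, hu, rfl⟩
      exact ⟨u.1, Finset.mem_subtype.mp hu, he0 u.1 u.2⟩
    · rintro ⟨u, hu, rfl⟩
      have huK : u ∉ K := fun h => hws ((hmemK u).mp h ▸ hu)
      exact ⟨⟨u, huK⟩, Finset.mem_subtype.mpr hu, (he0 u huK).symm⟩
  have hval : ∀ s : Finset α, w ∉ s → (s.subtype (· ∉ K)).image Subtype.val = s := by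
    intro s hws
    ext p
    rw [Finset.mem_image]
    constructor
    · rintro ⟨u, hu, rfl⟩; exact Finset.mem_subtype.mp hu
    · intro hp
      have hpK : p ∉ K := fun h => hws ((hmemK p).mp h ▸ hp)
      exact ⟨⟨p, hpK⟩, Finset.mem_subtype.mpr hp, rfl⟩
  refine ⟨x, y, e0, hxy, ?_, ?_, ?_, ?_⟩
  · intro u v hu hv h
    have huK : u ∉ K := fun h => hu ((hmemK u).mp h)
    have hvK : v ∉ K := fun h => hv ((hmemK v).mp h)
    rw [he0 u huK, he0 v hvK] at h
    exact congrArg Subtype.val (he1 h)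
  · intro u hu
    have huK : u ∉ K := fun h => hu ((hmemK u).mp h)
    rw [he0 u huK]; exact he1a _
  · intro p hpx hpy
    obtain ⟨u, rfl⟩ := he1s p hpx hpy
    exact ⟨u.1, fun h => u.2 ((hmemK _).mpr h), he0 u.1 u.2⟩
  · intro s hws
    rw [← himg s hws, ← he1D]
    show insert w s ∈ B ↔ K ∪ (s.subtype (· ∉ K)).image Subtype.val ∈ B
    rw [hval s hws]
    have h1 : K ∪ s = insert w s := by
      show {w} ∪ s = insert w s
      rw [← Finset.insert_eq]
    rw [h1]

theorem heptad_type {α : Type*} [Fintype α] [DecidableEq α] (hα : Fintype.card α = 23)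
    {B : Set (Finset α)} (hB : IsSteinerSystem 4 7 B) {w : α} {x y : GolayPt}
    {e0 : α → GolayPt} (hxy : x ≠ y)
    (hinj0 : ∀ u v, u ≠ w → v ≠ w → e0 u = e0 v → u = v)
    (havoid0 : ∀ u, u ≠ w → e0 u ≠ x ∧ e0 u ≠ y)
    (hsurj0 : ∀ p, p ≠ x → p ≠ y → ∃ u, u ≠ w ∧ e0 u = p)
    (hiff0 : ∀ s : Finset α, w ∉ s → (insert w s ∈ B ↔ {x, y} ∪ s.image e0 ∈ octads))
    {b : Finset α} (hb : b ∈ B) (hwb : w ∉ b) :
    {x} ∪ b.image e0 ∈ octads ∨ {y} ∪ b.image e0 ∈ octads := by
  classical
  have hb7 := hB.1 b hb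
  obtain ⟨u, hu⟩ : b.Nonempty := Finset.card_pos.mp (by omega)
  have huw : u ≠ w := fun h => hwb (h ▸ hu)
  have hzx : e0 u ≠ x := (havoid0 u huw).1
  have hzy : e0 u ≠ y := (havoid0 u huw).2
  let K : Finset GolayPt := {x, y, e0 u}
  have hKc : K.card = 3 :=
    Finset.card_eq_three.mpr ⟨x, y, e0 u, hxy, Ne.symm hzx, Ne.symm hzy, rfl⟩
  have hKm : ∀ p, p ∈ K ↔ p = x ∨ p = y ∨ p = e0 u := by
    intro p
    show p ∈ ({x, y, e0 u} : Finset GolayPt) ↔ _
    rw [Finset.mem_insert, Finset.mem_insert, Finset.mem_singleton]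
  let K2 : Finset α := {w, u}
  have hK2c : K2.card = 2 := Finset.card_pair (Ne.symm huw)
  have hK2m : ∀ v, v ∈ K2 ↔ v = w ∨ v = u := by
    intro v
    show v ∈ ({w, u} : Finset α) ↔ _
    rw [Finset.mem_insert, Finset.mem_singleton]
  have hL : IsSteinerSystem 2 5
      {l : Finset {p : α // p ∉ K2} | K2 ∪ l.image Subtype.val ∈ B} :=
    derived_steiner 2 5 2 K2 hK2c hB
  have hα' : Fintype.card {p : α // p ∉ K2} = 21 := by
    rw [Fintype.card_subtype_compl, Fintype.card_coe, hK2c, hα]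
  let e2 : {p : α // p ∉ K2} → GolayPt := fun p => e0 p.1
  have hpw : ∀ p : {p : α // p ∉ K2}, p.1 ≠ w := fun p h => p.2 ((hK2m _).mpr (Or.inl h))
  have hpu : ∀ p : {p : α // p ∉ K2}, p.1 ≠ u := fun p h => p.2 ((hK2m _).mpr (Or.inr h))
  have hnotK2 : ∀ v, v ≠ w → v ≠ u → v ∉ K2 := by
    intro v hvw hvu h
    rcases (hK2m v).mp h with h | h
    · exact hvw h
    · exact hvu h
  have he2inj : Function.Injective e2 :=
    fun p q h => Subtype.ext (hinj0 p.1 q.1 (hpw p) (hpw q) h)
  have he2K : ∀ p, e2 p ∉ K := by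
    intro p hp
    rcases (hKm _).mp hp with h | h | h
    · exact (havoid0 p.1 (hpw p)).1 h
    · exact (havoid0 p.1 (hpw p)).2 h
    · exact hpu p (hinj0 p.1 u (hpw p) huw h)
  have he2s : ∀ q, q ∉ K → ∃ p, e2 p = q := by
    intro q hq
    have hqx : q ≠ x := fun h => hq ((hKm q).mpr (Or.inl h))
    have hqy : q ≠ y := fun h => hq ((hKm q).mpr (Or.inr (Or.inl h)))
    have hqz : q ≠ e0 u := fun h => hq ((hKm q).mpr (Or.inr (Or.inr h)))
    obtain ⟨v, hvw, hv⟩ := hsurj0 q hqx hqy
    have hvu : v ≠ u := fun h => hqz (by rw [← hv, h])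
    exact ⟨⟨v, hnotK2 v hvw hvu⟩, hv⟩
  have hline : ∀ l : Finset {p : α // p ∉ K2},
      l ∈ {l : Finset {p : α // p ∉ K2} | K2 ∪ l.image Subtype.val ∈ B} ↔
        K ∪ l.image e2 ∈ octads := by
    intro l
    have hwl : w ∉ insert u (l.image Subtype.val) := by
      intro h
      rw [Finset.mem_insert, Finset.mem_image] at h
      rcases h with h | ⟨p, _, hp⟩
      · exact huw h.symm
      · exact hpw p hp
    have h1 : K2 ∪ l.image Subtype.val = insert w (insert u (l.image Subtype.val)) := by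
      ext v
      rw [Finset.mem_union, hK2m, Finset.mem_insert, Finset.mem_insert, or_assoc]
    have h2 : K ∪ l.image e2 = {x, y} ∪ (insert u (l.image Subtype.val)).image e0 := by
      rw [Finset.image_insert, Finset.image_image]
      show ({x, y, e0 u} : Finset GolayPt) ∪ l.image e2 = {x, y} ∪ insert (e0 u) (l.image e2)
      ext q
      simp only [Finset.mem_union, Finset.mem_insert, Finset.mem_singleton]
      tauto
    show K2 ∪ l.image Subtype.val ∈ B ↔ _
    rw [h1, h2]
    exact hiff0 _ hwl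
  let Hb : Finset {p : α // p ∉ K2} := (b.erase u).subtype (· ∉ K2)
  have hHbval : Hb.image Subtype.val = b.erase u := by
    ext v
    rw [Finset.mem_image]
    constructor
    · rintro ⟨p, hp, rfl⟩; exact Finset.mem_subtype.mp hp
    · intro hv
      have hvb := Finset.mem_of_mem_erase hv
      have hvu : v ≠ u := Finset.ne_of_mem_erase hv
      have hvw : v ≠ w := fun h => hwb (h ▸ hvb)
      exact ⟨⟨v, hnotK2 v hvw hvu⟩, Finset.mem_subtype.mpr hv, rfl⟩
  have hHb6 : Hb.card = 6 := by
    rw [← Finset.card_image_of_injective _ Subtype.val_injective, hHbval,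
      Finset.card_erase_of_mem hu, hb7]
  have hHbI : ∀ l ∈ {l : Finset {p : α // p ∉ K2} | K2 ∪ l.image Subtype.val ∈ B},
      (l ∩ Hb).card ≤ 2 := by
    intro l hl
    by_contra hcon
    rw [not_le] at hcon
    have hub : u ∈ (K2 ∪ l.image Subtype.val) ∩ b :=
      Finset.mem_inter.mpr ⟨Finset.mem_union_left _ ((hK2m u).mpr (Or.inr rfl)), hu⟩
    have hsub : insert u ((l ∩ Hb).image Subtype.val) ⊆ (K2 ∪ l.image Subtype.val) ∩ b := by
      intro v hv
      rw [Finset.mem_insert] at hv
      rcases hv with rfl | hv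
      · exact hub
      · rw [Finset.mem_image] at hv
        obtain ⟨p, hp, rfl⟩ := hv
        rw [Finset.mem_inter] at hp
        exact Finset.mem_inter.mpr ⟨Finset.mem_union_right _ (Finset.mem_image_of_mem _ hp.1),
          Finset.mem_of_mem_erase (Finset.mem_subtype.mp hp.2)⟩
    have hnot : u ∉ (l ∩ Hb).image Subtype.val := by
      intro h
      rw [Finset.mem_image] at h
      obtain ⟨p, _, hp⟩ := h
      exact hpu p hp
    have h4 := Finset.card_le_card hsub
    rw [Finset.card_insert_of_notMem hnot,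
      Finset.card_image_of_injective _ Subtype.val_injective] at h4
    have hcb := block_unique4 hB hl hb (by omega)
    apply hwb
    rw [← hcb]
    exact Finset.mem_union_left _ ((hK2m w).mpr (Or.inl rfl))
  obtain ⟨O, hO, h2, hOH⟩ :=
    hyp_octad_gen K hKc hα' hL e2 he2inj he2K he2s hline Hb ⟨hHb6, hHbI⟩
  have hOH' : (b.erase u).image e0 = O \ K := by
    have h5 : (Hb.image Subtype.val).image e0 = Hb.image e2 := Finset.image_image
    rw [hHbval] at h5
    rw [h5]; exact hOH
  have hbimg : b.image e0 = insert (e0 u) ((b.erase u).image e0) := by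
    conv_lhs => rw [← Finset.insert_erase hu, Finset.image_insert]
  rcases two_of_three hxy (Ne.symm hzx) (Ne.symm hzy) h2 with
    ⟨hx, hy, hz⟩ | ⟨hx, hz, hy⟩ | ⟨hy, hz, hx⟩
  · exfalso
    have hOeq : O = {x, y} ∪ (b.erase u).image e0 := oct_eq hKm hx hy hz hOH'
    have hw' : w ∉ b.erase u := fun h => hwb (Finset.mem_of_mem_erase h)
    have hin : insert w (b.erase u) ∈ B := (hiff0 _ hw').mpr (by rw [← hOeq]; exact hO)
    have hsub : b.erase u ⊆ insert w (b.erase u) ∩ b := fun v hv =>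
      Finset.mem_inter.mpr ⟨Finset.mem_insert_of_mem hv, Finset.mem_of_mem_erase hv⟩
    have h6 := Finset.card_le_card hsub
    rw [Finset.card_erase_of_mem hu, hb7] at h6
    have hbb := block_unique4 hB hin hb (by omega)
    exact hwb (hbb ▸ Finset.mem_insert_self w _)
  · left
    have hOeq : O = {x, e0 u} ∪ (b.erase u).image e0 :=
      oct_eq (K := K) (by intro p; rw [hKm]; tauto) hx hz hy hOH'
    have h3 : ({x} : Finset GolayPt) ∪ b.image e0 = O := by
      rw [hOeq, hbimg]
      ext q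
      simp only [Finset.mem_union, Finset.mem_insert, Finset.mem_singleton]
      tauto
    rw [h3]; exact hO
  · right
    have hOeq : O = {y, e0 u} ∪ (b.erase u).image e0 :=
      oct_eq (K := K) (by intro p; rw [hKm]; tauto) hy hz hx hOH'
    have h3 : ({y} : Finset GolayPt) ∪ b.image e0 = O := by
      rw [hOeq, hbimg]
      ext q
      simp only [Finset.mem_union, Finset.mem_insert, Finset.mem_singleton]
      tauto
    rw [h3]; exact hO

theorem type_even {α : Type*} [DecidableEq α] {w : α} {x y : GolayPt} {e0 : α → GolayPt}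
    (hxy : x ≠ y) (hinj0 : ∀ u v, u ≠ w → v ≠ w → e0 u = e0 v → u = v)
    (havoid0 : ∀ u, u ≠ w → e0 u ≠ x ∧ e0 u ≠ y)
    {b1 b2 : Finset α} (hw1 : w ∉ b1) (hw2 : w ∉ b2)
    (h1 : {x} ∪ b1.image e0 ∈ octads) (h2 : {y} ∪ b2.image e0 ∈ octads) :
    (b1 ∩ b2).card % 2 = 0 := by
  have hev := even_card_inter_of_mem_supports (octads_subset_supports h1)
    (octads_subset_supports h2)
  have heq : ({x} ∪ b1.image e0) ∩ ({y} ∪ b2.image e0) = (b1 ∩ b2).image e0 := by
    ext p
    rw [Finset.mem_inter, Finset.mem_union, Finset.mem_union, Finset.mem_singleton,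
      Finset.mem_singleton, Finset.mem_image, Finset.mem_image, Finset.mem_image]
    constructor
    · rintro ⟨hp1 | ⟨u, hu, rfl⟩, hp2 | ⟨v, hv, hvu⟩⟩
      · exact absurd (hp1.symm.trans hp2) hxy
      · exfalso
        exact (havoid0 v (fun h => hw2 (h ▸ hv))).1 (hvu.trans hp1)
      · exfalso
        exact (havoid0 u (fun h => hw1 (h ▸ hu))).2 hp2
      · have huv := hinj0 v u (fun h => hw2 (h ▸ hv)) (fun h => hw1 (h ▸ hu)) hvu
        subst huv
        exact ⟨v, Finset.mem_inter.mpr ⟨hu, hv⟩, rfl⟩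
    · rintro ⟨u, hu, rfl⟩
      rw [Finset.mem_inter] at hu
      exact ⟨Or.inr ⟨u, hu.1, rfl⟩, Or.inr ⟨u, hu.2, rfl⟩⟩
  rw [heq, Finset.card_image_of_injOn, Nat.even_iff] at hev
  · exact hev
  · intro u hu v hv h
    have hu' := Finset.mem_inter.mp (Finset.mem_coe.mp hu)
    have hv' := Finset.mem_inter.mp (Finset.mem_coe.mp hv)
    exact hinj0 u v (fun h => hw1 (h ▸ hu'.1)) (fun h => hw1 (h ▸ hv'.1)) h

theorem no_mixed_two {α : Type*} [Fintype α] [DecidableEq α] {B : Set (Finset α)}
    (hB : IsSteinerSystem 4 7 B) {w : α} {x y : GolayPt} {e0 : α → GolayPt} (hxy : x ≠ y)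
    (hinj0 : ∀ u v, u ≠ w → v ≠ w → e0 u = e0 v → u = v)
    (havoid0 : ∀ u, u ≠ w → e0 u ≠ x ∧ e0 u ≠ y)
    (htype : ∀ b ∈ B, w ∉ b → ({x} ∪ b.image e0 ∈ octads ∨ {y} ∪ b.image e0 ∈ octads))
    {b1 b2 : Finset α} (hb1 : b1 ∈ B) (hb2 : b2 ∈ B) (hw1 : w ∉ b1) (hw2 : w ∉ b2)
    (h1 : {x} ∪ b1.image e0 ∈ octads) (h2 : {y} ∪ b2.image e0 ∈ octads)
    (hc2 : (b1 ∩ b2).card = 2) : False := by
  classical
  obtain ⟨p, q, hpq, hpq'⟩ := Finset.card_eq_two.mp hc2
  have hp12 : p ∈ b1 ∩ b2 := by rw [hpq']; exact Finset.mem_insert_self p {q}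
  have hq12 : q ∈ b1 ∩ b2 := by
    rw [hpq']; exact Finset.mem_insert_of_mem (Finset.mem_singleton_self q)
  have hp1 := (Finset.mem_inter.mp hp12).1
  have hp2 := (Finset.mem_inter.mp hp12).2
  have hq1 := (Finset.mem_inter.mp hq12).1
  have hq2 := (Finset.mem_inter.mp hq12).2
  have honly : ∀ v, v ∈ b1 → v ∈ b2 → v = p ∨ v = q := by
    intro v hv1 hv2
    have hv : v ∈ b1 ∩ b2 := Finset.mem_inter.mpr ⟨hv1, hv2⟩
    rw [hpq', Finset.mem_insert, Finset.mem_singleton] at hv
    exact hv
  have hb17 := hB.1 b1 hb1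
  have hb27 := hB.1 b2 hb2
  obtain ⟨r, hr⟩ : ((b1.erase p).erase q).Nonempty := Finset.card_pos.mp (by
    rw [Finset.card_erase_of_mem (Finset.mem_erase.mpr ⟨Ne.symm hpq, hq1⟩),
      Finset.card_erase_of_mem hp1, hb17]
    norm_num)
  have hrq : r ≠ q := (Finset.mem_erase.mp hr).1
  have hrp : r ≠ p := (Finset.mem_erase.mp (Finset.mem_erase.mp hr).2).1
  have hr1 : r ∈ b1 := (Finset.mem_erase.mp (Finset.mem_erase.mp hr).2).2
  have hr2 : r ∉ b2 := by
    intro h
    rcases honly r hr1 h with h | h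
    · exact hrp h
    · exact hrq h
  have hwp : w ≠ p := fun h => hw1 (h ▸ hp1)
  have hwq : w ≠ q := fun h => hw1 (h ▸ hq1)
  have hwr : w ≠ r := fun h => hw1 (h ▸ hr1)
  have hc4 : ({w, p, q, r} : Finset α).card = 4 := by
    rw [Finset.card_insert_of_notMem, Finset.card_insert_of_notMem,
      Finset.card_pair (Ne.symm hrq)]
    · rw [Finset.mem_insert, Finset.mem_singleton]
      rintro (h | h)
      · exact hpq h
      · exact hrp h.symm
    · rw [Finset.mem_insert, Finset.mem_insert, Finset.mem_singleton]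
      rintro (h | h | h)
      · exact hwp h
      · exact hwq h
      · exact hwr h
  obtain ⟨c, ⟨hc, hsc⟩, _⟩ := hB.2 _ hc4
  have hwc : w ∈ c := hsc (by simp)
  have hpc : p ∈ c := hsc (by simp)
  have hqc : q ∈ c := hsc (by simp)
  have hrc : r ∈ c := hsc (by simp)
  have hcb2 : b2 ≠ c := fun h => hw2 (h ▸ hwc)
  have hcb2' : (b2 ∩ c).card ≤ 3 := by
    by_contra h
    rw [not_le] at h
    exact hcb2 (block_unique4 hB hb2 hc (by omega))
  obtain ⟨r', hr'⟩ : (b2 \ c).Nonempty := Finset.card_pos.mp (by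
    have := Finset.card_sdiff_add_card_inter b2 c
    omega)
  have hr'2 : r' ∈ b2 := (Finset.mem_sdiff.mp hr').1
  have hr'c : r' ∉ c := (Finset.mem_sdiff.mp hr').2
  have hr'p : r' ≠ p := fun h => hr'c (h ▸ hpc)
  have hr'q : r' ≠ q := fun h => hr'c (h ▸ hqc)
  have hr'r : r' ≠ r := fun h => hr'c (h ▸ hrc)
  have hr'1 : r' ∉ b1 := by
    intro h
    rcases honly r' h hr'2 with h | h
    · exact hr'p h
    · exact hr'q h
  have hd4 : ({p, q, r, r'} : Finset α).card = 4 := by
    rw [Finset.card_insert_of_notMem, Finset.card_insert_of_notMem,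
      Finset.card_pair (Ne.symm hr'r)]
    · rw [Finset.mem_insert, Finset.mem_singleton]
      rintro (h | h)
      · exact hrq h.symm
      · exact hr'q h.symm
    · rw [Finset.mem_insert, Finset.mem_insert, Finset.mem_singleton]
      rintro (h | h | h)
      · exact hpq h
      · exact hrp h.symm
      · exact hr'p h.symm
  obtain ⟨d, ⟨hd, hsd⟩, _⟩ := hB.2 _ hd4
  have hpd : p ∈ d := hsd (by simp)
  have hqd : q ∈ d := hsd (by simp)
  have hrd : r ∈ d := hsd (by simp)
  have hr'd : r' ∈ d := hsd (by simp)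
  have hwd : w ∉ d := by
    intro hwd
    have hsub : ({w, p, q, r} : Finset α) ⊆ d ∩ c := by
      intro v hv
      rw [Finset.mem_insert, Finset.mem_insert, Finset.mem_insert, Finset.mem_singleton] at hv
      rw [Finset.mem_inter]
      rcases hv with rfl | rfl | rfl | rfl
      · exact ⟨hwd, hwc⟩
      · exact ⟨hpd, hpc⟩
      · exact ⟨hqd, hqc⟩
      · exact ⟨hrd, hrc⟩
    have h4 := Finset.card_le_card hsub
    rw [hc4] at h4
    have hdc := block_unique4 hB hd hc h4
    rw [hdc] at hr'd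
    exact hr'c hr'd
  have h1d : (b1 ∩ d).card = 3 := by
    have hge : 3 ≤ (b1 ∩ d).card := by
      have hsub : ({p, q, r} : Finset α) ⊆ b1 ∩ d := by
        intro v hv
        rw [Finset.mem_insert, Finset.mem_insert, Finset.mem_singleton] at hv
        rw [Finset.mem_inter]
        rcases hv with rfl | rfl | rfl
        · exact ⟨hp1, hpd⟩
        · exact ⟨hq1, hqd⟩
        · exact ⟨hr1, hrd⟩
      have h3 := Finset.card_le_card hsub
      rwa [Finset.card_eq_three.mpr ⟨p, q, r, hpq, Ne.symm hrp, Ne.symm hrq, rfl⟩] at h3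
    have hle : (b1 ∩ d).card ≤ 3 := by
      by_contra h
      rw [not_le] at h
      have hbd := block_unique4 hB hb1 hd (by omega)
      rw [← hbd] at hr'd
      exact hr'1 hr'd
    omega
  have h2d : (d ∩ b2).card = 3 := by
    have hge : 3 ≤ (d ∩ b2).card := by
      have hsub : ({p, q, r'} : Finset α) ⊆ d ∩ b2 := by
        intro v hv
        rw [Finset.mem_insert, Finset.mem_insert, Finset.mem_singleton] at hv
        rw [Finset.mem_inter]
        rcases hv with rfl | rfl | rfl
        · exact ⟨hpd, hp2⟩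
        · exact ⟨hqd, hq2⟩
        · exact ⟨hr'd, hr'2⟩
      have h3 := Finset.card_le_card hsub
      rwa [Finset.card_eq_three.mpr ⟨p, q, r', hpq, Ne.symm hr'p, Ne.symm hr'q, rfl⟩] at h3
    have hle : (d ∩ b2).card ≤ 3 := by
      by_contra h
      rw [not_le] at h
      have hbd := block_unique4 hB hd hb2 (by omega)
      rw [hbd] at hrd
      exact hr2 hrd
    omega
  rcases htype d hd hwd with hdx | hdy
  · have hev := type_even hxy hinj0 havoid0 hwd hw2 hdx h2
    omega
  · have hev := type_even hxy hinj0 havoid0 hw1 hwd h1 hdy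
    omega

theorem no_mixed {α : Type*} [Fintype α] [DecidableEq α] {B : Set (Finset α)}
    (hB : IsSteinerSystem 4 7 B) {w : α} {x y : GolayPt} {e0 : α → GolayPt} (hxy : x ≠ y)
    (hinj0 : ∀ u v, u ≠ w → v ≠ w → e0 u = e0 v → u = v)
    (havoid0 : ∀ u, u ≠ w → e0 u ≠ x ∧ e0 u ≠ y)
    (htype : ∀ b ∈ B, w ∉ b → ({x} ∪ b.image e0 ∈ octads ∨ {y} ∪ b.image e0 ∈ octads))
    {b1 b2 : Finset α} (hb1 : b1 ∈ B) (hb2 : b2 ∈ B) (hw1 : w ∉ b1) (hw2 : w ∉ b2)
    (h1 : {x} ∪ b1.image e0 ∈ octads) (h2 : {y} ∪ b2.image e0 ∈ octads) : False := by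
  classical
  have hev := type_even hxy hinj0 havoid0 hw1 hw2 h1 h2
  have hb17 := hB.1 b1 hb1
  have hb27 := hB.1 b2 hb2
  have hne : b1 ≠ b2 := by
    intro h
    rw [← h, Finset.inter_self, hb17] at hev
    omega
  have hle : (b1 ∩ b2).card ≤ 3 := by
    by_contra h
    rw [not_le] at h
    exact hne (block_unique4 hB hb1 hb2 (by omega))
  have h02 : (b1 ∩ b2).card = 2 ∨ (b1 ∩ b2).card = 0 := by omega
  rcases h02 with h | h
  · exact no_mixed_two hB hxy hinj0 havoid0 htype hb1 hb2 hw1 hw2 h1 h2 h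
  · have hdisj : ∀ v, v ∈ b1 → v ∉ b2 := by
      intro v hv1 hv2
      have hv : v ∈ b1 ∩ b2 := Finset.mem_inter.mpr ⟨hv1, hv2⟩
      rw [Finset.card_eq_zero.mp h] at hv
      exact absurd hv (Finset.notMem_empty v)
    obtain ⟨t, ht, ht3⟩ := Finset.exists_subset_card_eq (s := b1) (n := 3) (by omega)
    have hwt : w ∉ t := fun h => hw1 (ht h)
    obtain ⟨c, ⟨hc, hsc⟩, _⟩ :=
      hB.2 (insert w t) (by rw [Finset.card_insert_of_notMem hwt, ht3])
    have hwc : w ∈ c := hsc (Finset.mem_insert_self w t)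
    have htc : t ⊆ c := (Finset.subset_insert w t).trans hsc
    have hcb2 : b2 ≠ c := fun h => hw2 (h ▸ hwc)
    have hcb2' : (b2 ∩ c).card ≤ 3 := by
      by_contra h
      rw [not_le] at h
      exact hcb2 (block_unique4 hB hb2 hc (by omega))
    obtain ⟨r', hr'⟩ : (b2 \ c).Nonempty := Finset.card_pos.mp (by
      have := Finset.card_sdiff_add_card_inter b2 c
      omega)
    have hr'2 : r' ∈ b2 := (Finset.mem_sdiff.mp hr').1
    have hr'c : r' ∉ c := (Finset.mem_sdiff.mp hr').2
    have hr't : r' ∉ t := fun h => hr'c (htc h)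
    obtain ⟨d, ⟨hd, hsd⟩, _⟩ :=
      hB.2 (insert r' t) (by rw [Finset.card_insert_of_notMem hr't, ht3])
    have hr'd : r' ∈ d := hsd (Finset.mem_insert_self r' t)
    have htd : t ⊆ d := (Finset.subset_insert r' t).trans hsd
    have hwd : w ∉ d := by
      intro hwd
      have hsub : insert w t ⊆ d ∩ c := by
        intro v hv
        rw [Finset.mem_insert] at hv
        rw [Finset.mem_inter]
        rcases hv with rfl | hv
        · exact ⟨hwd, hwc⟩
        · exact ⟨htd hv, htc hv⟩
      have h4 := Finset.card_le_card hsub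
      rw [Finset.card_insert_of_notMem hwt, ht3] at h4
      have hdc := block_unique4 hB hd hc h4
      rw [hdc] at hr'd
      exact hr'c hr'd
    have hr'1 : r' ∉ b1 := fun h => hdisj r' h hr'2
    have h1d : (b1 ∩ d).card = 3 := by
      have hge : 3 ≤ (b1 ∩ d).card := by
        have h3 := Finset.card_le_card (Finset.subset_inter ht htd)
        rwa [ht3] at h3
      have hle : (b1 ∩ d).card ≤ 3 := by
        by_contra h
        rw [not_le] at h
        have hbd := block_unique4 hB hb1 hd (by omega)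
        rw [← hbd] at hr'd
        exact hr'1 hr'd
      omega
    rcases htype d hd hwd with hdx | hdy
    · have hev2 := type_even hxy hinj0 havoid0 hwd hw2 hdx h2
      have hpos : 0 < (d ∩ b2).card :=
        Finset.card_pos.mpr ⟨r', Finset.mem_inter.mpr ⟨hr'd, hr'2⟩⟩
      have hne2 : d ≠ b2 := by
        intro h
        rw [h, Finset.inter_self, hb27] at hev2
        omega
      have hle2 : (d ∩ b2).card ≤ 3 := by
        by_contra h'
        rw [not_le] at h'
        exact hne2 (block_unique4 hB hd hb2 (by omega))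
      exact no_mixed_two hB hxy hinj0 havoid0 htype hd hb2 hwd hw2 hdx h2 (by omega)
    · have hev2 := type_even hxy hinj0 havoid0 hw1 hwd h1 hdy
      omega

theorem embed23_aux {α : Type*} [Fintype α] [DecidableEq α] {B : Set (Finset α)}
    (hB : IsSteinerSystem 4 7 B) {w : α} {x y : GolayPt} {e0 : α → GolayPt} (hxy : x ≠ y)
    (hinj0 : ∀ u v, u ≠ w → v ≠ w → e0 u = e0 v → u = v)
    (havoid0 : ∀ u, u ≠ w → e0 u ≠ x ∧ e0 u ≠ y)
    (hsurj0 : ∀ p, p ≠ x → p ≠ y → ∃ u, u ≠ w ∧ e0 u = p)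
    (hiff0 : ∀ s : Finset α, w ∉ s → (insert w s ∈ B ↔ {x, y} ∪ s.image e0 ∈ octads))
    (hall : ∀ b ∈ B, w ∉ b → {x} ∪ b.image e0 ∈ octads) :
    ∃ e : α → GolayPt, Function.Injective e ∧ (∀ u, e u ≠ x) ∧
      (∀ p, p ≠ x → ∃ u, e u = p) ∧ ∀ s : Finset α, s ∈ B ↔ {x} ∪ s.image e ∈ octads := by
  classical
  let e : α → GolayPt := fun u => if u = w then y else e0 u
  have hew : e w = y := if_pos rfl
  have heu : ∀ u, u ≠ w → e u = e0 u := fun u hu => if_neg hu
  have hinj : Function.Injective e := by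
    intro u v h
    by_cases hu : u = w
    · by_cases hv : v = w
      · rw [hu, hv]
      · rw [hu, hew, heu v hv] at h
        exact absurd h.symm (havoid0 v hv).2
    · by_cases hv : v = w
      · rw [hv, hew, heu u hu] at h
        exact absurd h (havoid0 u hu).2
      · rw [heu u hu, heu v hv] at h
        exact hinj0 u v hu hv h
  have havoid : ∀ u, e u ≠ x := by
    intro u
    by_cases hu : u = w
    · rw [hu, hew]; exact Ne.symm hxy
    · rw [heu u hu]; exact (havoid0 u hu).1
  have hsurj : ∀ p, p ≠ x → ∃ u, e u = p := by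
    intro p hpx
    by_cases hpy : p = y
    · exact ⟨w, by rw [hew, hpy]⟩
    · obtain ⟨u, hu, rfl⟩ := hsurj0 p hpx hpy
      exact ⟨u, heu u hu⟩
  have himg : ∀ s : Finset α, w ∉ s → s.image e = s.image e0 := by
    intro s hws
    apply Finset.image_congr
    intro u hu
    exact heu u (fun h => hws (h ▸ hu))
  have hfwd : ∀ s : Finset α, s ∈ B → {x} ∪ s.image e ∈ octads := by
    intro s hs
    by_cases hws : w ∈ s
    · have hw' : w ∉ s.erase w := Finset.notMem_erase w s
      have h1 : insert w (s.erase w) ∈ B := by rw [Finset.insert_erase hws]; exact hs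
      have h2 := (hiff0 _ hw').mp h1
      have h3 : ({x} : Finset GolayPt) ∪ s.image e = {x, y} ∪ (s.erase w).image e0 := by
        rw [← himg _ hw']
        conv_lhs => rw [← Finset.insert_erase hws, Finset.image_insert, hew]
        ext p
        simp only [Finset.mem_union, Finset.mem_insert, Finset.mem_singleton]
        tauto
      rw [h3]; exact h2
    · rw [himg s hws]; exact hall s hs hws
  refine ⟨e, hinj, havoid, hsurj, fun s => ⟨hfwd s, fun hs => ?_⟩⟩
  have hdis : ∀ T : Finset α, Disjoint ({x} : Finset GolayPt) (T.image e) := by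
    intro T
    rw [Finset.disjoint_left]
    intro p hp hp'
    rw [Finset.mem_image] at hp'
    obtain ⟨u, _, rfl⟩ := hp'
    exact havoid u (Finset.mem_singleton.mp hp)
  have hs7 : s.card = 7 := by
    have h8 := card_of_mem_octads hs
    rw [Finset.card_union_of_disjoint (hdis s), Finset.card_singleton,
      Finset.card_image_of_injective _ hinj] at h8
    omega
  obtain ⟨s0, hs0, hs04⟩ := Finset.exists_subset_card_eq (s := s) (n := 4) (by omega)
  obtain ⟨b, ⟨hb, hs0b⟩, _⟩ := hB.2 s0 hs04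
  have hOb := hfwd b hb
  have heq : ({x} : Finset GolayPt) ∪ s.image e = {x} ∪ b.image e := by
    by_contra hne
    have h4 := card_inter_le_of_octads hs hOb hne
    have hsub : ({x} : Finset GolayPt) ∪ s0.image e ⊆
        ({x} ∪ s.image e) ∩ ({x} ∪ b.image e) := by
      intro p hp
      rw [Finset.mem_union] at hp
      rw [Finset.mem_inter]
      rcases hp with hp | hp
      · exact ⟨Finset.mem_union_left _ hp, Finset.mem_union_left _ hp⟩
      · exact ⟨Finset.mem_union_right _ (Finset.image_subset_image hs0 hp),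
          Finset.mem_union_right _ (Finset.image_subset_image hs0b hp)⟩
    have h5 := Finset.card_le_card hsub
    rw [Finset.card_union_of_disjoint (hdis s0), Finset.card_singleton,
      Finset.card_image_of_injective _ hinj, hs04] at h5
    omega
  have himeq : s.image e = b.image e := by
    ext p
    constructor
    · intro hp
      have hp2 : p ∈ ({x} : Finset GolayPt) ∪ b.image e := by
        rw [← heq]; exact Finset.mem_union_right _ hp
      rcases Finset.mem_union.mp hp2 with h | h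
      · exact absurd hp (Finset.disjoint_left.mp (hdis s) h)
      · exact h
    · intro hp
      have hp2 : p ∈ ({x} : Finset GolayPt) ∪ s.image e := by
        rw [heq]; exact Finset.mem_union_right _ hp
      rcases Finset.mem_union.mp hp2 with h | h
      · exact absurd hp (Finset.disjoint_left.mp (hdis b) h)
      · exact h
  have hsb : s = b := Finset.image_injective hinj himeq
  rw [hsb]; exact hb

theorem embed23 {α : Type*} [Fintype α] [DecidableEq α] (hα : Fintype.card α = 23)
    {B : Set (Finset α)} (hB : IsSteinerSystem 4 7 B) :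
    ∃ (x : GolayPt) (e : α → GolayPt), Function.Injective e ∧ (∀ u, e u ≠ x) ∧
      (∀ p, p ≠ x → ∃ u, e u = p) ∧ ∀ s : Finset α, s ∈ B ↔ {x} ∪ s.image e ∈ octads := by
  classical
  have hne : Nonempty α := Fintype.card_pos_iff.mp (by omega)
  obtain ⟨w⟩ := hne
  obtain ⟨x, y, e0, hxy, hinj0, havoid0, hsurj0, hiff0⟩ := derived_embed23 hα hB w
  have htype : ∀ b ∈ B, w ∉ b →
      ({x} ∪ b.image e0 ∈ octads ∨ {y} ∪ b.image e0 ∈ octads) :=
    fun b hb hwb => heptad_type hα hB hxy hinj0 havoid0 hsurj0 hiff0 hb hwb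
  by_cases hex : ∃ b ∈ B, w ∉ b ∧ {x} ∪ b.image e0 ∈ octads
  · obtain ⟨b0, hb0, hwb0, hx0⟩ := hex
    have hall : ∀ b ∈ B, w ∉ b → {x} ∪ b.image e0 ∈ octads := by
      intro b hb hwb
      rcases htype b hb hwb with h | h
      · exact h
      · exact (no_mixed hB hxy hinj0 havoid0 htype hb0 hb hwb0 hwb hx0 h).elim
    obtain ⟨e, h⟩ := embed23_aux hB hxy hinj0 havoid0 hsurj0 hiff0 hall
    exact ⟨x, e, h⟩
  · have hall : ∀ b ∈ B, w ∉ b → {y} ∪ b.image e0 ∈ octads := by
      intro b hb hwb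
      rcases htype b hb hwb with h | h
      · exact absurd ⟨b, hb, hwb, h⟩ hex
      · exact h
    obtain ⟨e, h⟩ := embed23_aux hB hxy.symm hinj0
      (fun u hu => ⟨(havoid0 u hu).2, (havoid0 u hu).1⟩)
      (fun p hpy hpx => hsurj0 p hpx hpy)
      (fun s hs => by rw [Finset.pair_comm]; exact hiff0 s hs) hall
    exact ⟨y, e, h⟩

/-- Uniqueness of the Steiner system S(4, 7, 23). -/
theorem steiner23_unique {α β : Type*} [Fintype α] [DecidableEq α] [Fintype β] [DecidableEq β]
    (hα : Fintype.card α = 23) (hβ : Fintype.card β = 23) {B : Set (Finset α)}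
    {B' : Set (Finset β)} (hB : IsSteinerSystem 4 7 B) (hB' : IsSteinerSystem 4 7 B') :
    SetSystemIso B B' := by
  classical
  obtain ⟨x, e, hinj, havoid, hsurj, hiff⟩ := embed23 hα hB
  obtain ⟨x', e', hinj', havoid', hsurj', hiff'⟩ := embed23 hβ hB'
  obtain ⟨g, hg, hgx⟩ := exists_mem_M24_apply x x'
  have hex : ∀ u : α, ∃ v : β, e' v = g (e u) := by
    intro u
    apply hsurj'
    rw [← hgx]
    exact fun h => havoid u (g.injective h)
  choose f hf using hex
  have hfinj : Function.Injective f := by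
    intro u v h
    have h1 : g (e u) = g (e v) := by rw [← hf u, ← hf v, h]
    exact hinj (g.injective h1)
  have hfbij : Function.Bijective f :=
    (Fintype.bijective_iff_injective_and_card f).mpr ⟨hfinj, by rw [hα, hβ]⟩
  let E : α ≃ β := Equiv.ofBijective f hfbij
  have hsm : ∀ S : Finset GolayPt, g • S = S.image g := fun S => rfl
  have hkey : ∀ s : Finset α, s ∈ B ↔ s.image E ∈ B' := by
    intro s
    rw [hiff, hiff', ← smul_mem_octads_iff hg]
    have h1 : g • (({x} : Finset GolayPt) ∪ s.image e) = {x'} ∪ (s.image E).image e' := by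
      rw [hsm, Finset.image_union, Finset.image_singleton, hgx,
        Finset.image_image, Finset.image_image]
      congr 1
      apply Finset.image_congr
      intro u _
      exact (hf u).symm
    rw [h1]
  refine ⟨E, ?_⟩
  ext t
  constructor
  · rintro ⟨s, hs, rfl⟩
    exact (hkey s).mp hs
  · intro ht
    have h2 : (t.image E.symm).image E = t := by
      rw [Finset.image_image]
      have h3 : (E ∘ E.symm) = id := by
        funext v; exact E.apply_symm_apply v
      rw [h3, Finset.image_id]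
    refine ⟨t.image E.symm, ?_, h2⟩
    rw [hkey, h2]; exact ht

end Cfsg.Agent.Lib.helper28.S23
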