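import Cfsg.Agent.Lib.helper28.Steiner24Aut

set_option autoImplicit false
set_option linter.unusedSectionVars false

namespace Cfsg.Agent.Lib.helper28.S23

open Cfsg
open scoped Pointwise
open Cfsg.Agent.Lib.helper28.S22 Cfsg.Agent.Lib.helper28.S24

theorem mem_aut_of_forall {α : Type*} [Fintype α] [DecidableEq α] (B : Set (Finset α))
    (g : Equiv.Perm α) (h : ∀ s ∈ B, s.image g ∈ B) : g ∈ setSystemAut B := by
  rw [MulAction.mem_stabilizer_iff]
  have hsub : g • B ⊆ B := by
    rintro _ ⟨s, hs, rfl⟩
    exact h s hs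
  apply Set.eq_of_subset_of_ncard_le hsub _ (Set.toFinite _)
  rw [← Set.image_smul, Set.ncard_image_of_injective _ (MulAction.injective g)]

theorem embed23_pt {α : Type*} [Fintype α] [DecidableEq α] (hα : Fintype.card α = 23)
    {B : Set (Finset α)} (hB : IsSteinerSystem 4 7 B) :
    ∃ e : α → GolayPt, Function.Injective e ∧ (∀ u, e u ≠ pt 23) ∧
      (∀ p, p ≠ pt 23 → ∃ u, e u = p) ∧
      ∀ s : Finset α, s ∈ B ↔ {pt 23} ∪ s.image e ∈ octads := by
  classical
  obtain ⟨x, e, hinj, havoid, hsurj, hiff⟩ := embed23 hα hB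
  obtain ⟨g, hg, hgx⟩ := exists_mem_M24_apply x (pt 23)
  have hsm : ∀ S : Finset GolayPt, g • S = S.image g := fun S => rfl
  refine ⟨fun u => g (e u), fun u v h => hinj (g.injective h), ?_, ?_, ?_⟩
  · intro u h
    rw [← hgx] at h
    exact havoid u (g.injective h)
  · intro p hp
    have h1 : g.symm p ≠ x := by
      intro h
      apply hp
      rw [← hgx, ← h, Equiv.apply_symm_apply]
    obtain ⟨u, hu⟩ := hsurj _ h1
    exact ⟨u, by show g (e u) = p; rw [hu, Equiv.apply_symm_apply]⟩
  · intro s
    rw [hiff, ← smul_mem_octads_iff hg]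
    have h1 : g • (({x} : Finset GolayPt) ∪ s.image e) =
        {pt 23} ∪ s.image (fun u => g (e u)) := by
      rw [hsm, Finset.image_union, Finset.image_singleton, hgx]
      congr 1
      exact Finset.image_image
    rw [h1]

theorem aut23 {α : Type*} [Fintype α] [DecidableEq α] (hα : Fintype.card α = 23)
    {B : Set (Finset α)} (hB : IsSteinerSystem 4 7 B) :
    IsM23 (setSystemAut B) ∧ MulAction.IsMultiplyPretransitive (setSystemAut B) α 4 := by
  classical
  obtain ⟨e, hinj, havoid, hsurj, hiff⟩ := embed23_pt hα hB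
  let Ex : α ≃ {p : GolayPt // p ≠ pt 23} :=
    Equiv.ofBijective (fun u => ⟨e u, havoid u⟩)
      ⟨fun u v h => hinj (congrArg Subtype.val h), fun p => by
        obtain ⟨u, hu⟩ := hsurj p.1 p.2
        exact ⟨u, Subtype.ext hu⟩⟩
  let ψ : Equiv.Perm α →* Equiv.Perm GolayPt :=
    (Equiv.Perm.ofSubtype).comp (Ex.permCongrHom.toMonoidHom)
  have hψx : ∀ h : Equiv.Perm α, ψ h (pt 23) = pt 23 := by
    intro h
    exact Equiv.Perm.ofSubtype_apply_of_not_mem (p := fun q : GolayPt => q ≠ pt 23)
      (Ex.permCongrHom h) (fun hc => hc rfl)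
  have hψe : ∀ (h : Equiv.Perm α) (u : α), ψ h (e u) = e (h u) := by
    intro h u
    have h1 : ψ h (e u) = (Ex.permCongrHom h) ⟨e u, havoid u⟩ :=
      Equiv.Perm.ofSubtype_apply_of_mem (p := fun q : GolayPt => q ≠ pt 23)
        (Ex.permCongrHom h) (havoid u)
    rw [h1]
    have h2 : Ex.permCongrHom h ⟨e u, havoid u⟩ = Ex (h (Ex.symm ⟨e u, havoid u⟩)) := rfl
    have h3 : Ex.symm ⟨e u, havoid u⟩ = u := Ex.symm_apply_apply u
    rw [h2, h3]
    rfl
  have hψinj : Function.Injective ψ := by
    intro h1 h2 h12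
    apply Equiv.ext
    intro u
    apply hinj
    rw [← hψe, ← hψe, h12]
  have hC1 : ∀ h : Equiv.Perm α, h ∈ setSystemAut B → ψ h ∈ M24 := by
    intro h hh
    rw [M24_eq_setSystemAut_octads]
    have hhiff := (mem_aut_iff B h).mp hh
    have hiff0 : ∀ s : Finset GolayPt, pt 23 ∉ s →
        (insert (pt 23) s ∈ octads ↔ {pt 23} ∪ s.image (ψ h) ∈ octads) := by
      intro s hs
      obtain ⟨s0, hs0⟩ : ∃ s0 : Finset α, s0.image e = s := by
        refine ⟨Finset.univ.filter (fun u => e u ∈ s), ?_⟩
        ext p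
        rw [Finset.mem_image]
        constructor
        · rintro ⟨u, hu, rfl⟩
          exact (Finset.mem_filter.mp hu).2
        · intro hp
          have hp23 : p ≠ pt 23 := fun h => hs (h ▸ hp)
          obtain ⟨u, rfl⟩ := hsurj p hp23
          exact ⟨u, Finset.mem_filter.mpr ⟨Finset.mem_univ _, hp⟩, rfl⟩
      have h1 : s.image (ψ h) = (s0.image h).image e := by
        rw [← hs0, Finset.image_image, Finset.image_image]
        apply Finset.image_congr
        intro u _
        exact hψe h u
      rw [h1, ← hiff, ← hhiff, hiff, hs0, Finset.insert_eq]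
    apply mem_aut_of_forall
    intro t ht
    by_cases hxt : pt 23 ∈ t
    · have hw' : pt 23 ∉ t.erase (pt 23) := Finset.notMem_erase _ _
      have h1 : insert (pt 23) (t.erase (pt 23)) ∈ octads := by
        rw [Finset.insert_erase hxt]; exact ht
      have h2 := (hiff0 _ hw').mp h1
      have h3 : t.image (ψ h) = {pt 23} ∪ (t.erase (pt 23)).image (ψ h) := by
        conv_lhs => rw [← Finset.insert_erase hxt, Finset.image_insert, hψx]
        rw [Finset.insert_eq]
      rw [h3]; exact h2
    · exact octad_type (by rw [Fintype.card_option, ZMod.card]) octads_isSteinerSystem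
        (w := pt 23) (x := pt 23) (e0 := ψ h)
        (fun u v _ _ huv => (ψ h).injective huv)
        (fun u hu huv => hu ((ψ h).injective (huv.trans (hψx h).symm)))
        (fun p hp => ⟨(ψ h).symm p,
          fun hc => hp (by rw [← hψx h, ← hc, Equiv.apply_symm_apply]),
          Equiv.apply_symm_apply _ p⟩)
        hiff0 ht hxt
  have hC2 : ∀ g : Equiv.Perm GolayPt, g ∈ M24 → g (pt 23) = pt 23 →
      ∃ h : Equiv.Perm α, h ∈ setSystemAut B ∧ ψ h = g := by
    intro g hg hgx
    have hex : ∀ u : α, ∃ v : α, e v = g (e u) := by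
      intro u
      apply hsurj
      rw [← hgx]
      exact fun h => havoid u (g.injective h)
    choose f hf using hex
    have hfinj : Function.Injective f := by
      intro u v h
      have h1 : g (e u) = g (e v) := by rw [← hf u, ← hf v, h]
      exact hinj (g.injective h1)
    have hfbij : Function.Bijective f := Finite.injective_iff_bijective.mp hfinj
    let h : Equiv.Perm α := Equiv.ofBijective f hfbij
    have hsm : ∀ S : Finset GolayPt, g • S = S.image g := fun S => rfl
    have hmem : h ∈ setSystemAut B := by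
      rw [mem_aut_iff]
      intro s
      rw [hiff, hiff (s.image h), ← smul_mem_octads_iff hg]
      have h1 : g • (({pt 23} : Finset GolayPt) ∪ s.image e) =
          {pt 23} ∪ (s.image h).image e := by
        rw [hsm, Finset.image_union, Finset.image_singleton, hgx, Finset.image_image,
          Finset.image_image]
        congr 1
        apply Finset.image_congr
        intro u _
        exact (hf u).symm
      rw [h1]
    refine ⟨h, hmem, ?_⟩
    apply Equiv.ext
    intro p
    by_cases hp : p = pt 23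
    · rw [hp, hψx, hgx]
    · obtain ⟨u, rfl⟩ := hsurj p hp
      rw [hψe]
      exact hf u
  have hstab : ∀ g : Equiv.Perm GolayPt,
      g ∈ stabM [2 ^ 23] ↔ g ∈ M24 ∧ g (pt 23) = pt 23 := by
    intro g
    rw [mem_stabM_cons_pt (by norm_num), stabM_nil]
  have hmap : (setSystemAut B).map ψ = stabM [2 ^ 23] := by
    ext g
    rw [hstab]
    constructor
    · rintro ⟨h, hh, rfl⟩
      exact ⟨hC1 h hh, hψx h⟩
    · rintro ⟨hg, hgx⟩
      obtain ⟨h, hh, hψ⟩ := hC2 g hg hgx
      exact ⟨h, hh, hψ⟩
  let Φ : setSystemAut B ≃* stabM [2 ^ 23] :=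
    ((setSystemAut B).equivMapOfInjective ψ hψinj).trans (MulEquiv.subgroupCongr hmap)
  have hsimple : IsSimpleGroup (setSystemAut B) :=
    (MulEquiv.isSimpleGroup_congr Φ).mpr m23_simple
  have hcard : Nat.card (setSystemAut B) = 10200960 := by
    rw [Nat.card_congr Φ.toEquiv, card_stabM_pt23]
  refine ⟨⟨hsimple, hcard⟩, ?_⟩
  rw [MulAction.isMultiplyPretransitive_iff]
  intro x y
  have hnd : ∀ z : Fin 4 ↪ α, (pt 23 :: List.ofFn (fun i => e (z i))).Nodup := by
    intro z
    rw [List.nodup_cons]
    constructor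
    · intro h
      rw [List.mem_ofFn] at h
      obtain ⟨i, hi⟩ := h
      exact havoid _ hi
    · rw [List.nodup_ofFn]
      exact fun i j h => z.injective (hinj h)
  obtain ⟨g, hg, hmapg⟩ := map_list5 _ _ (hnd x) (hnd y) (by simp) (by simp)
  rw [List.map_cons, List.map_ofFn] at hmapg
  have h1 := (List.cons.inj hmapg).1
  have h2 := List.ofFn_injective (List.cons.inj hmapg).2
  obtain ⟨h, hh, hψ⟩ := hC2 g hg h1
  refine ⟨⟨h, hh⟩, ?_⟩
  apply Function.Embedding.ext
  intro i
  rw [Function.Embedding.smul_apply]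
  show h (x i) = y i
  apply hinj
  rw [← hψe, hψ]
  exact congrFun h2 i

end Cfsg.Agent.Lib.helper28.S23
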