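import Cfsg.Agent.Lib.helper28.Steiner23

set_option autoImplicit false
set_option linter.unusedSectionVars false

namespace Cfsg.Agent.Lib.helper28.S24

open Cfsg
open scoped Pointwise
open Cfsg.Agent.Lib.helper28.S22 Cfsg.Agent.Lib.helper28.S23

theorem block_unique5 {α : Type*} [DecidableEq α] {B : Set (Finset α)}
    (hB : IsSteinerSystem 5 8 B) {b c : Finset α} (hb : b ∈ B) (hc : c ∈ B)
    (h : 5 ≤ (b ∩ c).card) : b = c := by
  obtain ⟨s, hs, hs5⟩ := Finset.exists_subset_card_eq h
  obtain ⟨d, _, hd⟩ := hB.2 s hs5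
  rw [hd b ⟨hb, hs.trans Finset.inter_subset_left⟩, hd c ⟨hc, hs.trans Finset.inter_subset_right⟩]

theorem derived_embed24 {α : Type*} [Fintype α] [DecidableEq α] (hα : Fintype.card α = 24)
    {B : Set (Finset α)} (hB : IsSteinerSystem 5 8 B) (w : α) :
    ∃ (x : GolayPt) (e0 : α → GolayPt),
      (∀ u v, u ≠ w → v ≠ w → e0 u = e0 v → u = v) ∧
      (∀ u, u ≠ w → e0 u ≠ x) ∧
      (∀ p, p ≠ x → ∃ u, u ≠ w ∧ e0 u = p) ∧
      (∀ s : Finset α, w ∉ s → (insert w s ∈ B ↔ {x} ∪ s.image e0 ∈ octads)) := by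
  classical
  let K : Finset α := {w}
  have hK : K.card = 1 := Finset.card_singleton w
  have hD : IsSteinerSystem 4 7 {l : Finset {p : α // p ∉ K} | K ∪ l.image Subtype.val ∈ B} :=
    derived_steiner 4 7 1 K hK hB
  have hα' : Fintype.card {p : α // p ∉ K} = 23 := by
    rw [Fintype.card_subtype_compl, Fintype.card_coe, hK, hα]
  obtain ⟨x, e1, he1, he1a, he1s, he1D⟩ := embed23 hα' hD
  let e0 : α → GolayPt := fun u => if h : u ∈ K then pt 0 else e1 ⟨u, h⟩
  have he0 : ∀ (u : α) (h : u ∉ K), e0 u = e1 ⟨u, h⟩ := fun u h => dif_neg h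
  have hmemK : ∀ u, u ∈ K ↔ u = w := fun u => Finset.mem_singleton
  have himg : ∀ s : Finset α, w ∉ s → (s.subtype (· ∉ K)).image e1 = s.image e0 := by
    intro s hws
    ext p
    rw [Finset.mem_image, Finset.mem_image]
    constructor
    · rintro ⟨u, hu, rfl⟩
      exact ⟨u.1, Finset.mem_subtype.mp hu, he0 u.1 u.2⟩
    · rintro ⟨u, hu, rfl⟩
      have huK : u ∉ K := fun h => hws ((hmemK u).mp h ▸ hu)
      exact ⟨⟨u, huK⟩, Finset.mem_subtype.mpr hu, (he0 u huK).symm⟩
  have hval : ∀ s : Finset α, w ∉ s → (s.subtype (· ∉ K)).image Subtype.val = s := by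
    intro s hws
    ext p
    rw [Finset.mem_image]
    constructor
    · rintro ⟨u, hu, rfl⟩; exact Finset.mem_subtype.mp hu
    · intro hp
      have hpK : p ∉ K := fun h => hws ((hmemK p).mp h ▸ hp)
      exact ⟨⟨p, hpK⟩, Finset.mem_subtype.mpr hp, rfl⟩
  refine ⟨x, e0, ?_, ?_, ?_, ?_⟩
  · intro u v hu hv h
    have huK : u ∉ K := fun h => hu ((hmemK u).mp h)
    have hvK : v ∉ K := fun h => hv ((hmemK v).mp h)
    rw [he0 u huK, he0 v hvK] at h
    exact congrArg Subtype.val (he1 h)
  · intro u hu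
    have huK : u ∉ K := fun h => hu ((hmemK u).mp h)
    rw [he0 u huK]; exact he1a _
  · intro p hpx
    obtain ⟨u, rfl⟩ := he1s p hpx
    exact ⟨u.1, fun h => u.2 ((hmemK _).mpr h), he0 u.1 u.2⟩
  · intro s hws
    rw [← himg s hws, ← he1D]
    show insert w s ∈ B ↔ K ∪ (s.subtype (· ∉ K)).image Subtype.val ∈ B
    rw [hval s hws]
    have h1 : K ∪ s = insert w s := by
      show {w} ∪ s = insert w s
      rw [← Finset.insert_eq]
    rw [h1]

theorem octad_type {α : Type*} [Fintype α] [DecidableEq α] (hα : Fintype.card α = 24)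
    {B : Set (Finset α)} (hB : IsSteinerSystem 5 8 B) {w : α} {x : GolayPt}
    {e0 : α → GolayPt}
    (hinj0 : ∀ u v, u ≠ w → v ≠ w → e0 u = e0 v → u = v)
    (havoid0 : ∀ u, u ≠ w → e0 u ≠ x)
    (hsurj0 : ∀ p, p ≠ x → ∃ u, u ≠ w ∧ e0 u = p)
    (hiff0 : ∀ s : Finset α, w ∉ s → (insert w s ∈ B ↔ {x} ∪ s.image e0 ∈ octads))
    {b : Finset α} (hb : b ∈ B) (hwb : w ∉ b) : b.image e0 ∈ octads := by
  classical
  have hb8 := hB.1 b hb
  obtain ⟨u, hu, u', hu', huu'⟩ := Finset.one_lt_card.mp (by omega : 1 < b.card)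
  have huw : u ≠ w := fun h => hwb (h ▸ hu)
  have hu'w : u' ≠ w := fun h => hwb (h ▸ hu')
  have hzx : e0 u ≠ x := havoid0 u huw
  have hz'x : e0 u' ≠ x := havoid0 u' hu'w
  have hzz' : e0 u ≠ e0 u' := fun h => huu' (hinj0 u u' huw hu'w h)
  let K : Finset GolayPt := {x, e0 u, e0 u'}
  have hKc : K.card = 3 :=
    Finset.card_eq_three.mpr ⟨x, e0 u, e0 u', Ne.symm hzx, Ne.symm hz'x, hzz', rfl⟩
  have hKm : ∀ p, p ∈ K ↔ p = x ∨ p = e0 u ∨ p = e0 u' := by
    intro p
    show p ∈ ({x, e0 u, e0 u'} : Finset GolayPt) ↔ _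
    rw [Finset.mem_insert, Finset.mem_insert, Finset.mem_singleton]
  let K2 : Finset α := {w, u, u'}
  have hK2c : K2.card = 3 :=
    Finset.card_eq_three.mpr ⟨w, u, u', Ne.symm huw, Ne.symm hu'w, huu', rfl⟩
  have hK2m : ∀ v, v ∈ K2 ↔ v = w ∨ v = u ∨ v = u' := by
    intro v
    show v ∈ ({w, u, u'} : Finset α) ↔ _
    rw [Finset.mem_insert, Finset.mem_insert, Finset.mem_singleton]
  have hL : IsSteinerSystem 2 5
      {l : Finset {p : α // p ∉ K2} | K2 ∪ l.image Subtype.val ∈ B} :=
    derived_steiner 2 5 3 K2 hK2c hB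
  have hα' : Fintype.card {p : α // p ∉ K2} = 21 := by
    rw [Fintype.card_subtype_compl, Fintype.card_coe, hK2c, hα]
  let e2 : {p : α // p ∉ K2} → GolayPt := fun p => e0 p.1
  have hpw : ∀ p : {p : α // p ∉ K2}, p.1 ≠ w := fun p h => p.2 ((hK2m _).mpr (Or.inl h))
  have hpu : ∀ p : {p : α // p ∉ K2}, p.1 ≠ u :=
    fun p h => p.2 ((hK2m _).mpr (Or.inr (Or.inl h)))
  have hpu' : ∀ p : {p : α // p ∉ K2}, p.1 ≠ u' :=
    fun p h => p.2 ((hK2m _).mpr (Or.inr (Or.inr h)))
  have hnotK2 : ∀ v, v ≠ w → v ≠ u → v ≠ u' → v ∉ K2 := by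
    intro v hvw hvu hvu' h
    rcases (hK2m v).mp h with h | h | h
    · exact hvw h
    · exact hvu h
    · exact hvu' h
  have he2inj : Function.Injective e2 :=
    fun p q h => Subtype.ext (hinj0 p.1 q.1 (hpw p) (hpw q) h)
  have he2K : ∀ p, e2 p ∉ K := by
    intro p hp
    rcases (hKm _).mp hp with h | h | h
    · exact havoid0 p.1 (hpw p) h
    · exact hpu p (hinj0 p.1 u (hpw p) huw h)
    · exact hpu' p (hinj0 p.1 u' (hpw p) hu'w h)
  have he2s : ∀ q, q ∉ K → ∃ p, e2 p = q := by
    intro q hq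
    have hqx : q ≠ x := fun h => hq ((hKm q).mpr (Or.inl h))
    have hqz : q ≠ e0 u := fun h => hq ((hKm q).mpr (Or.inr (Or.inl h)))
    have hqz' : q ≠ e0 u' := fun h => hq ((hKm q).mpr (Or.inr (Or.inr h)))
    obtain ⟨v, hvw, hv⟩ := hsurj0 q hqx
    have hvu : v ≠ u := fun h => hqz (by rw [← hv, h])
    have hvu' : v ≠ u' := fun h => hqz' (by rw [← hv, h])
    exact ⟨⟨v, hnotK2 v hvw hvu hvu'⟩, hv⟩
  have hline : ∀ l : Finset {p : α // p ∉ K2},
      l ∈ {l : Finset {p : α // p ∉ K2} | K2 ∪ l.image Subtype.val ∈ B} ↔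
        K ∪ l.image e2 ∈ octads := by
    intro l
    have hwl : w ∉ insert u (insert u' (l.image Subtype.val)) := by
      intro h
      rw [Finset.mem_insert, Finset.mem_insert, Finset.mem_image] at h
      rcases h with h | h | ⟨p, _, hp⟩
      · exact huw h.symm
      · exact hu'w h.symm
      · exact hpw p hp
    have h1 : K2 ∪ l.image Subtype.val =
        insert w (insert u (insert u' (l.image Subtype.val))) := by
      ext v
      simp only [Finset.mem_union, hK2m, Finset.mem_insert]
      tauto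
    have h2 : K ∪ l.image e2 =
        {x} ∪ (insert u (insert u' (l.image Subtype.val))).image e0 := by
      rw [Finset.image_insert, Finset.image_insert, Finset.image_image]
      show ({x, e0 u, e0 u'} : Finset GolayPt) ∪ l.image e2 =
        {x} ∪ insert (e0 u) (insert (e0 u') (l.image e2))
      ext q
      simp only [Finset.mem_union, Finset.mem_insert, Finset.mem_singleton]
      tauto
    show K2 ∪ l.image Subtype.val ∈ B ↔ _
    rw [h1, h2]
    exact hiff0 _ hwl
  let R : Finset α := (b.erase u).erase u'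
  have hRm : ∀ v, v ∈ R ↔ v ≠ u' ∧ v ≠ u ∧ v ∈ b := by
    intro v
    show v ∈ (b.erase u).erase u' ↔ _
    rw [Finset.mem_erase, Finset.mem_erase]
  have hu'1 : u' ∈ b.erase u := Finset.mem_erase.mpr ⟨Ne.symm huu', hu'⟩
  have hR6 : R.card = 6 := by
    show ((b.erase u).erase u').card = 6
    rw [Finset.card_erase_of_mem hu'1, Finset.card_erase_of_mem hu, hb8]
  have hbe : b.erase u = insert u' R := (Finset.insert_erase hu'1).symm
  have hbb : b = insert u (insert u' R) := by rw [← hbe, Finset.insert_erase hu]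
  have hbe' : b.erase u' = insert u R := by
    ext v
    rw [Finset.mem_erase, Finset.mem_insert, hRm]
    constructor
    · rintro ⟨h1, h2⟩
      by_cases hvu : v = u
      · exact Or.inl hvu
      · exact Or.inr ⟨h1, hvu, h2⟩
    · rintro (h | ⟨h1, _, h2⟩)
      · rw [h]; exact ⟨huu', hu⟩
      · exact ⟨h1, h2⟩
  let Hb : Finset {p : α // p ∉ K2} := R.subtype (· ∉ K2)
  have hHbval : Hb.image Subtype.val = R := by
    ext v
    rw [Finset.mem_image]
    constructor
    · rintro ⟨p, hp, rfl⟩; exact Finset.mem_subtype.mp hp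
    · intro hv
      have hv' := (hRm v).mp hv
      have hvw : v ≠ w := fun h => hwb (h ▸ hv'.2.2)
      exact ⟨⟨v, hnotK2 v hvw hv'.2.1 hv'.1⟩, Finset.mem_subtype.mpr hv, rfl⟩
  have hHb6 : Hb.card = 6 := by
    rw [← Finset.card_image_of_injective _ Subtype.val_injective, hHbval, hR6]
  have hHbI : ∀ l ∈ {l : Finset {p : α // p ∉ K2} | K2 ∪ l.image Subtype.val ∈ B},
      (l ∩ Hb).card ≤ 2 := by
    intro l hl
    by_contra hcon
    rw [not_le] at hcon
    have hsub : insert u (insert u' ((l ∩ Hb).image Subtype.val)) ⊆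
        (K2 ∪ l.image Subtype.val) ∩ b := by
      intro v hv
      rw [Finset.mem_insert, Finset.mem_insert] at hv
      rcases hv with h | h | hv
      · rw [h]
        exact Finset.mem_inter.mpr
          ⟨Finset.mem_union_left _ ((hK2m _).mpr (Or.inr (Or.inl rfl))), hu⟩
      · rw [h]
        exact Finset.mem_inter.mpr
          ⟨Finset.mem_union_left _ ((hK2m _).mpr (Or.inr (Or.inr rfl))), hu'⟩
      · rw [Finset.mem_image] at hv
        obtain ⟨p, hp, rfl⟩ := hv
        rw [Finset.mem_inter] at hp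
        exact Finset.mem_inter.mpr ⟨Finset.mem_union_right _ (Finset.mem_image_of_mem _ hp.1),
          ((hRm _).mp (Finset.mem_subtype.mp hp.2)).2.2⟩
    have hnot' : u' ∉ (l ∩ Hb).image Subtype.val := by
      intro h
      rw [Finset.mem_image] at h
      obtain ⟨p, _, hp⟩ := h
      exact hpu' p hp
    have hnot : u ∉ insert u' ((l ∩ Hb).image Subtype.val) := by
      intro h
      rw [Finset.mem_insert, Finset.mem_image] at h
      rcases h with h | ⟨p, _, hp⟩
      · exact huu' h
      · exact hpu p hp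
    have h5 := Finset.card_le_card hsub
    rw [Finset.card_insert_of_notMem hnot, Finset.card_insert_of_notMem hnot',
      Finset.card_image_of_injective _ Subtype.val_injective] at h5
    have hcb := block_unique5 hB hl hb (by omega)
    apply hwb
    rw [← hcb]
    exact Finset.mem_union_left _ ((hK2m w).mpr (Or.inl rfl))
  obtain ⟨O, hO, h2, hOH⟩ :=
    hyp_octad_gen K hKc hα' hL e2 he2inj he2K he2s hline Hb ⟨hHb6, hHbI⟩
  have hOH' : R.image e0 = O \ K := by
    have h5 : (Hb.image Subtype.val).image e0 = Hb.image e2 := Finset.image_image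
    rw [hHbval] at h5
    rw [h5]; exact hOH
  rcases two_of_three (Ne.symm hzx) (Ne.symm hz'x) hzz' h2 with
    ⟨hx, hz, hz'⟩ | ⟨hx, hz', hz⟩ | ⟨hz, hz', hx⟩
  · exfalso
    have hOeq : O = {x, e0 u} ∪ R.image e0 := oct_eq hKm hx hz hz' hOH'
    have hw' : w ∉ b.erase u' := fun h => hwb (Finset.mem_of_mem_erase h)
    have h3 : ({x} : Finset GolayPt) ∪ (b.erase u').image e0 = O := by
      rw [hOeq, hbe', Finset.image_insert]
      ext q
      simp only [Finset.mem_union, Finset.mem_insert, Finset.mem_singleton]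
      tauto
    have hin : insert w (b.erase u') ∈ B := (hiff0 _ hw').mpr (by rw [h3]; exact hO)
    have hsub : b.erase u' ⊆ insert w (b.erase u') ∩ b := fun v hv =>
      Finset.mem_inter.mpr ⟨Finset.mem_insert_of_mem hv, Finset.mem_of_mem_erase hv⟩
    have h7 := Finset.card_le_card hsub
    rw [Finset.card_erase_of_mem hu', hb8] at h7
    have hbb' := block_unique5 hB hin hb (by omega)
    exact hwb (hbb' ▸ Finset.mem_insert_self w _)
  · exfalso
    have hOeq : O = {x, e0 u'} ∪ R.image e0 :=
      oct_eq (K := K) (by intro p; rw [hKm]; tauto) hx hz' hz hOH'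
    have hw' : w ∉ b.erase u := fun h => hwb (Finset.mem_of_mem_erase h)
    have h3 : ({x} : Finset GolayPt) ∪ (b.erase u).image e0 = O := by
      rw [hOeq, hbe, Finset.image_insert]
      ext q
      simp only [Finset.mem_union, Finset.mem_insert, Finset.mem_singleton]
      tauto
    have hin : insert w (b.erase u) ∈ B := (hiff0 _ hw').mpr (by rw [h3]; exact hO)
    have hsub : b.erase u ⊆ insert w (b.erase u) ∩ b := fun v hv =>
      Finset.mem_inter.mpr ⟨Finset.mem_insert_of_mem hv, Finset.mem_of_mem_erase hv⟩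
    have h7 := Finset.card_le_card hsub
    rw [Finset.card_erase_of_mem hu, hb8] at h7
    have hbb' := block_unique5 hB hin hb (by omega)
    exact hwb (hbb' ▸ Finset.mem_insert_self w _)
  · have hOeq : O = {e0 u, e0 u'} ∪ R.image e0 :=
      oct_eq (K := K) (by intro p; rw [hKm]; tauto) hz hz' hx hOH'
    have h3 : b.image e0 = O := by
      rw [hOeq]
      conv_lhs => rw [hbb, Finset.image_insert, Finset.image_insert]
      ext q
      simp only [Finset.mem_union, Finset.mem_insert, Finset.mem_singleton]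
      tauto
    rw [h3]; exact hO

theorem embed24 {α : Type*} [Fintype α] [DecidableEq α] (hα : Fintype.card α = 24)
    {B : Set (Finset α)} (hB : IsSteinerSystem 5 8 B) :
    ∃ e : α → GolayPt, Function.Bijective e ∧ ∀ s : Finset α, s ∈ B ↔ s.image e ∈ octads := by
  classical
  have hne : Nonempty α := Fintype.card_pos_iff.mp (by omega)
  obtain ⟨w⟩ := hne
  obtain ⟨x, e0, hinj0, havoid0, hsurj0, hiff0⟩ := derived_embed24 hα hB w
  let e : α → GolayPt := fun u => if u = w then x else e0 u
  have hew : e w = x := if_pos rfl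
  have heu : ∀ u, u ≠ w → e u = e0 u := fun u hu => if_neg hu
  have hinj : Function.Injective e := by
    intro u v h
    by_cases hu : u = w
    · by_cases hv : v = w
      · rw [hu, hv]
      · rw [hu, hew, heu v hv] at h
        exact absurd h.symm (havoid0 v hv)
    · by_cases hv : v = w
      · rw [hv, hew, heu u hu] at h
        exact absurd h (havoid0 u hu)
      · rw [heu u hu, heu v hv] at h
        exact hinj0 u v hu hv h
  have hbij : Function.Bijective e :=
    (Fintype.bijective_iff_injective_and_card e).mpr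
      ⟨hinj, by rw [hα, Fintype.card_option, ZMod.card]⟩
  have himg : ∀ s : Finset α, w ∉ s → s.image e = s.image e0 := by
    intro s hws
    apply Finset.image_congr
    intro u hu
    exact heu u (fun h => hws (h ▸ hu))
  have hfwd : ∀ s : Finset α, s ∈ B → s.image e ∈ octads := by
    intro s hs
    by_cases hws : w ∈ s
    · have hw' : w ∉ s.erase w := Finset.notMem_erase w s
      have h1 : insert w (s.erase w) ∈ B := by rw [Finset.insert_erase hws]; exact hs
      have h2 := (hiff0 _ hw').mp h1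
      have h3 : s.image e = {x} ∪ (s.erase w).image e0 := by
        rw [← himg _ hw']
        conv_lhs => rw [← Finset.insert_erase hws, Finset.image_insert, hew]
        rw [Finset.insert_eq]
      rw [h3]; exact h2
    · rw [himg s hws]
      exact octad_type hα hB hinj0 havoid0 hsurj0 hiff0 hs hws
  refine ⟨e, hbij, fun s => ⟨hfwd s, fun hs => ?_⟩⟩
  have hs8 : s.card = 8 := by
    have h8 := card_of_mem_octads hs
    rwa [Finset.card_image_of_injective _ hinj] at h8
  obtain ⟨s0, hs0, hs05⟩ := Finset.exists_subset_card_eq (s := s) (n := 5) (by omega)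
  obtain ⟨b, ⟨hb, hs0b⟩, _⟩ := hB.2 s0 hs05
  have hOb := hfwd b hb
  have himeq : s.image e = b.image e := by
    by_contra hne
    have h4 := card_inter_le_of_octads hs hOb hne
    have hsub : s0.image e ⊆ s.image e ∩ b.image e :=
      Finset.subset_inter (Finset.image_subset_image hs0) (Finset.image_subset_image hs0b)
    have h5 := Finset.card_le_card hsub
    rw [Finset.card_image_of_injective _ hinj, hs05] at h5
    omega
  have hsb : s = b := Finset.image_injective hinj himeq
  rw [hsb]; exact hb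

/-- Uniqueness of the Steiner system S(5, 8, 24). -/
theorem steiner24_unique {α β : Type*} [Fintype α] [DecidableEq α] [Fintype β] [DecidableEq β]
    (hα : Fintype.card α = 24) (hβ : Fintype.card β = 24) {B : Set (Finset α)}
    {B' : Set (Finset β)} (hB : IsSteinerSystem 5 8 B) (hB' : IsSteinerSystem 5 8 B') :
    SetSystemIso B B' := by
  classical
  obtain ⟨e, hbij, hiff⟩ := embed24 hα hB
  obtain ⟨e', hbij', hiff'⟩ := embed24 hβ hB'
  let E : α ≃ β := (Equiv.ofBijective e hbij).trans (Equiv.ofBijective e' hbij').symm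
  have hE : ∀ u, e' (E u) = e u := fun u =>
    Equiv.ofBijective_apply_symm_apply e' hbij' (e u)
  have hkey : ∀ s : Finset α, s ∈ B ↔ s.image E ∈ B' := by
    intro s
    rw [hiff, hiff']
    have h1 : (s.image E).image e' = s.image e := by
      rw [Finset.image_image]
      apply Finset.image_congr
      intro u _
      exact hE u
    rw [h1]
  refine ⟨E, ?_⟩
  ext t
  constructor
  · rintro ⟨s, hs, rfl⟩
    exact (hkey s).mp hs
  · intro ht
    have h2 : (t.image E.symm).image E = t := by
      rw [Finset.image_image]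
      have h3 : (E ∘ E.symm) = id := by
        funext v; exact E.apply_symm_apply v
      rw [h3, Finset.image_id]
    refine ⟨t.image E.symm, ?_, h2⟩
    rw [hkey, h2]; exact ht

end Cfsg.Agent.Lib.helper28.S24
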