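import Cfsg.Agent.Lib.helper28.Steiner24
import Cfsg.Agent.Lib.helper28.GolayAut
import Cfsg.Agent.Lib.helper28.GolayOrder
import Cfsg.Agent.Lib.helper28.GolaySimpleC
import Cfsg.Prelude.Def_Sporadic

set_option autoImplicit false
set_option linter.unusedSectionVars false

namespace Cfsg.Agent.Lib.helper28.S24

open Cfsg
open scoped Pointwise

theorem mem_aut_iff {α : Type*} [DecidableEq α] (B : Set (Finset α)) (g : Equiv.Perm α) :
    g ∈ setSystemAut B ↔ ∀ s : Finset α, s ∈ B ↔ s.image g ∈ B := by
  have hsm : ∀ s : Finset α, g • s = s.image g := fun s => rfl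
  rw [MulAction.mem_stabilizer_iff]
  constructor
  · intro h s
    constructor
    · intro hs
      rw [← hsm, ← h]
      exact Set.smul_mem_smul_set hs
    · intro hs
      rw [← hsm, ← h] at hs
      obtain ⟨s', hs', heq⟩ := hs
      have : s' = s := MulAction.injective g heq
      rw [← this]; exact hs'
  · intro hiff
    ext t
    constructor
    · rintro ⟨s, hs, rfl⟩
      exact (hiff s).mp hs
    · intro ht
      refine ⟨g⁻¹ • t, ?_, smul_inv_smul g t⟩
      apply (hiff _).mpr
      rw [← hsm, smul_inv_smul]
      exact ht

theorem aut24 {α : Type*} [Fintype α] [DecidableEq α] (hα : Fintype.card α = 24)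
    {B : Set (Finset α)} (hB : IsSteinerSystem 5 8 B) :
    IsM24 (setSystemAut B) ∧ MulAction.IsMultiplyPretransitive (setSystemAut B) α 5 := by
  classical
  obtain ⟨e, hbij, hiff⟩ := embed24 hα hB
  let E : α ≃ GolayPt := Equiv.ofBijective e hbij
  have hE : ∀ s : Finset α, s ∈ B ↔ s.image E ∈ octads := hiff
  have happ : ∀ (g : Equiv.Perm α) (v : GolayPt), E.permCongrHom g v = E (g (E.symm v)) :=
    fun g v => rfl
  have hconj : ∀ g : Equiv.Perm α,
      g ∈ setSystemAut B ↔ E.permCongrHom g ∈ setSystemAut octads := by
    intro g
    rw [mem_aut_iff, mem_aut_iff]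
    constructor
    · intro h t
      have ht : (t.image E.symm).image E = t := by
        rw [Finset.image_image]
        have h3 : (E ∘ E.symm) = id := by
          funext v; exact E.apply_symm_apply v
        rw [h3, Finset.image_id]
      have h1 := h (t.image E.symm)
      rw [hE, hE, ht] at h1
      have h2 : ((t.image E.symm).image g).image E = t.image (E.permCongrHom g) := by
        rw [Finset.image_image, Finset.image_image]
        apply Finset.image_congr
        intro v _
        exact (happ g v).symm
      rw [h2] at h1
      exact h1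
    · intro h s
      have h1 := h (s.image E)
      rw [hE, hE]
      have h2 : (s.image E).image (E.permCongrHom g) = (s.image g).image E := by
        rw [Finset.image_image, Finset.image_image]
        apply Finset.image_congr
        intro v _
        show E.permCongrHom g (E v) = E (g v)
        rw [happ, E.symm_apply_apply]
      rw [h2] at h1
      exact h1
  have hmap : (setSystemAut B).map (E.permCongrHom : Equiv.Perm α →* Equiv.Perm GolayPt) =
      M24 := by
    ext g'
    rw [M24_eq_setSystemAut_octads]
    constructor
    · rintro ⟨g, hg, rfl⟩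
      exact (hconj g).mp hg
    · intro hg'
      refine ⟨E.permCongrHom.symm g', ?_, E.permCongrHom.apply_symm_apply g'⟩
      apply (hconj _).mpr
      rw [MulEquiv.apply_symm_apply]
      exact hg'
  let Φ : setSystemAut B ≃* M24 :=
    (E.permCongrHom.subgroupMap (setSystemAut B)).trans (MulEquiv.subgroupCongr hmap)
  have hsimple : IsSimpleGroup (setSystemAut B) :=
    (MulEquiv.isSimpleGroup_congr Φ).mpr m24_simple
  have hcard : Nat.card (setSystemAut B) = 244823040 := by
    rw [Nat.card_congr Φ.toEquiv, card_M24]
  refine ⟨⟨hsimple, hcard⟩, ?_⟩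
  rw [MulAction.isMultiplyPretransitive_iff]
  intro x y
  obtain ⟨g, hg, hgxy⟩ := exists_mem_M24_map (x.trans E.toEmbedding) (y.trans E.toEmbedding)
  have hh : E.permCongrHom.symm g ∈ setSystemAut B := by
    rw [hconj, MulEquiv.apply_symm_apply, ← M24_eq_setSystemAut_octads]
    exact hg
  refine ⟨⟨E.permCongrHom.symm g, hh⟩, ?_⟩
  apply Function.Embedding.ext
  intro i
  rw [Function.Embedding.smul_apply]
  have h1 : g (E (x i)) = E (y i) := hgxy i
  have h2 : E.permCongrHom.symm g (x i) = E.symm (g (E (x i))) := rfl
  show E.permCongrHom.symm g (x i) = y i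
  rw [h2, h1, E.symm_apply_apply]

end Cfsg.Agent.Lib.helper28.S24
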