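import Cfsg.Agent.Lib.helper2.Steiner

set_option autoImplicit false

namespace Cfsg.Agent.Lib.helper28.SteinerThree

open Finset Cfsg Cfsg.Agent.Lib.helper2.Steiner

variable {α : Type*} [Fintype α] [DecidableEq α]

theorem sum_by_inter (B : Set (Finset α)) (Y : Finset α) (hY : Y.card = 3) (f : ℕ → ℕ) :
    ∑ c ∈ Bf B, f (Y ∩ c).card =
      ∑ m ∈ range 4, ((Bf B).filter (fun c => (Y ∩ c).card = m)).card * f m := by
  rw [← Finset.sum_fiberwise_of_maps_to (g := fun c => (Y ∩ c).card) (t := range 4) (by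
    intro c _
    rw [mem_range]
    have := card_le_card (inter_subset_left : Y ∩ c ⊆ Y)
    omega)]
  apply sum_congr rfl
  intro m _
  rw [sum_congr rfl (fun c hc => by rw [(mem_filter.mp hc).2] : ∀ c ∈ (Bf B).filter
    (fun c => (Y ∩ c).card = m), f (Y ∩ c).card = f m), sum_const, smul_eq_mul]

theorem ncard_inter_eq (B : Set (Finset α)) (Y : Finset α) (m : ℕ) :
    {b : Finset α | b ∈ B ∧ (b ∩ Y).card = m}.ncard =
      ((Bf B).filter (fun c => (Y ∩ c).card = m)).card := by
  rw [← Set.ncard_coe_finset]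
  congr 1
  ext b
  rw [mem_coe, mem_filter, mem_Bf, inter_comm]
  rfl

/-- S5625. -/
theorem blocks_vs_three (hα : Fintype.card α = 24) (B : Set (Finset α))
    (hB : IsSteinerSystem 5 8 B) (Y : Finset α) (hY : Y.card = 3) :
    {b : Finset α | b ∈ B ∧ (b ∩ Y).card = 3}.ncard = 21 ∧
    {b : Finset α | b ∈ B ∧ (b ∩ Y).card = 2}.ncard = 168 ∧
    {b : Finset α | b ∈ B ∧ (b ∩ Y).card = 1}.ncard = 360 ∧
    {b : Finset α | b ∈ B ∧ (b ∩ Y).card = 0}.ncard = 210 := by
  have e0 := sum_choose_inter hB Y 0 (by norm_num)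
  have e1 := sum_choose_inter hB Y 1 (by norm_num)
  have e2 := sum_choose_inter hB Y 2 (by norm_num)
  have e3 := sum_choose_inter hB Y 3 (by norm_num)
  rw [sum_by_inter B Y hY (fun n => Nat.choose n 0), hα, hY] at e0
  rw [sum_by_inter B Y hY (fun n => Nat.choose n 1), hα, hY] at e1
  rw [sum_by_inter B Y hY (fun n => Nat.choose n 2), hα, hY] at e2
  rw [sum_by_inter B Y hY (fun n => Nat.choose n 3), hα, hY] at e3
  simp only [sum_range_succ, sum_range_zero] at e0 e1 e2 e3
  rw [ncard_inter_eq, ncard_inter_eq, ncard_inter_eq, ncard_inter_eq]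
  generalize ((Bf B).filter (fun c => (Y ∩ c).card = 0)).card = n0 at *
  generalize ((Bf B).filter (fun c => (Y ∩ c).card = 1)).card = n1 at *
  generalize ((Bf B).filter (fun c => (Y ∩ c).card = 2)).card = n2 at *
  generalize ((Bf B).filter (fun c => (Y ∩ c).card = 3)).card = n3 at *
  have c1 : Nat.choose 8 5 = 56 := by decide
  have c2 : Nat.choose 24 5 = 42504 := by decide +kernel
  have c3 : Nat.choose 7 4 = 35 := by decide
  have c4 : Nat.choose 23 4 = 8855 := by decide +kernel
  have c5 : Nat.choose 6 3 = 20 := by decide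
  have c6 : Nat.choose 22 3 = 1540 := by decide +kernel
  have c7 : Nat.choose 5 2 = 10 := by decide
  have c8 : Nat.choose 21 2 = 210 := by decide +kernel
  norm_num [Nat.choose] at e0 e1 e2 e3
  omega

end Cfsg.Agent.Lib.helper28.SteinerThree
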