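import Mathlib
import Cfsg.Prelude.Def_SporadicCombinatorics

set_option autoImplicit false

namespace Cfsg.Agent.Lib.helper28.TG

open Cfsg

/-- The word with given information coordinates. -/
def enc6 (a b c d e f : ZMod 3) : ArrayPt → ZMod 3 := fun p =>
  ([a, b, c, d, e, a + b + c - d - e, f, -b + c - d + e + f, a - b + d - e + f,
    a - b - c - d - f, a + c + d + e - f, -a - b + c - e - f] : List (ZMod 3)).getD
      (3 * p.1.val + ZMod.val p.2) 0

theorem enc6_tetra : ∀ a b c d e f α β : ZMod 3,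
    ∑ i : Fin 4, enc6 a b c d e f (i, (α • ![0, 1, 1, 1] + β • ![1, 0, 1, 2] : Fin 4 → ZMod 3) i) =
      -(a + b + c) := by
  decide +kernel

theorem enc6_col : ∀ a b c d e f : ZMod 3, ∀ i : Fin 4,
    ∑ r : ZMod 3, enc6 a b c d e f (i, r) = -(-(a + b + c)) := by
  decide +kernel

theorem enc6_mem (a b c d e f : ZMod 3) : enc6 a b c d e f ∈ ternaryGolayCode := by
  refine ⟨-(a + b + c), fun i => enc6_col a b c d e f i, fun t ht => ?_⟩
  obtain ⟨α, β, rfl⟩ := Submodule.mem_span_pair.mp ht
  exact enc6_tetra a b c d e f α β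

theorem h3 : (3 : ZMod 3) = 0 := by decide

theorem word_eq {x : ArrayPt → ZMod 3} (hx : x ∈ ternaryGolayCode) :
    x = enc6 (x (0, 0)) (x (0, 1)) (x (0, 2)) (x (1, 0)) (x (1, 1)) (x (2, 0)) := by
  obtain ⟨s, hcol, htet⟩ := hx
  have tmem : ∀ α β : ZMod 3,
      (α • ![0, 1, 1, 1] + β • ![1, 0, 1, 2] : Fin 4 → ZMod 3) ∈ tetracode := by
    intro α β
    exact Submodule.mem_span_pair.mpr ⟨α, β, rfl⟩
  have hc0 : x (0, 0) + x (0, 1) + x (0, 2) = -s :=
    (Fin.sum_univ_three (fun r : ZMod 3 => x (0, r))).symm.trans (hcol 0)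
  have hc1 : x (1, 0) + x (1, 1) + x (1, 2) = -s :=
    (Fin.sum_univ_three (fun r : ZMod 3 => x (1, r))).symm.trans (hcol 1)
  have hc3 : x (3, 0) + x (3, 1) + x (3, 2) = -s :=
    (Fin.sum_univ_three (fun r : ZMod 3 => x (3, r))).symm.trans (hcol 3)
  have ht0 : x (0, 0) + x (1, 0) + x (2, 0) + x (3, 0) = s := by
    have := htet _ (tmem 0 0)
    rw [Fin.sum_univ_four] at this
    exact this
  have ht1 : x (0, 1) + x (1, 0) + x (2, 1) + x (3, 2) = s := by
    have := htet _ (tmem 0 1)
    rw [Fin.sum_univ_four] at this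
    exact this
  have ht4 : x (0, 1) + x (1, 1) + x (2, 2) + x (3, 0) = s := by
    have := htet _ (tmem 1 1)
    rw [Fin.sum_univ_four] at this
    exact this
  have ht5 : x (0, 2) + x (1, 1) + x (2, 0) + x (3, 2) = s := by
    have := htet _ (tmem 1 2)
    rw [Fin.sum_univ_four] at this
    exact this
  have h5 : x (1, 2) = x (0, 0) + x (0, 1) + x (0, 2) - x (1, 0) - x (1, 1) := by
    linear_combination 2 * hc0 + hc1 + (-x (0, 0) - x (0, 1) - x (0, 2) - s) * h3
  have h7 : x (2, 1) = -x (0, 1) + x (0, 2) - x (1, 0) + x (1, 1) + x (2, 0) := by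
    linear_combination ht1 + 2 * ht5 + (-x (0, 2) - x (1, 1) - x (2, 0) - x (3, 2) + s) * h3
  have h8 : x (2, 2) = x (0, 0) - x (0, 1) + x (1, 0) - x (1, 1) + x (2, 0) := by
    linear_combination 2 * ht0 + ht4 + (-x (0, 0) - x (1, 0) - x (2, 0) - x (3, 0) + s) * h3
  have h9 : x (3, 0) = x (0, 0) - x (0, 1) - x (0, 2) - x (1, 0) - x (2, 0) := by
    linear_combination hc0 + ht0 + (-x (0, 0)) * h3
  have h10 : x (3, 1) = x (0, 0) + x (0, 2) + x (1, 0) + x (1, 1) - x (2, 0) := by
    linear_combination hc3 + 2 * ht0 + 2 * ht5 + (-x (0, 0) - x (0, 2) - x (1, 0) - x (1, 1) - x (2, 0) - x (3, 0) - x (3, 2) + s) * h3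
  have h11 : x (3, 2) = -x (0, 0) - x (0, 1) + x (0, 2) - x (1, 1) - x (2, 0) := by
    linear_combination hc0 + ht5 + (-x (0, 2)) * h3
  funext p
  obtain ⟨i, r⟩ := p
  fin_cases i <;> fin_cases r
  · rfl
  · rfl
  · rfl
  · rfl
  · rfl
  · exact h5
  · rfl
  · exact h7
  · exact h8
  · exact h9
  · exact h10
  · exact h11

/-- The parameter type. -/
abbrev P6 : Type := ZMod 3 × ZMod 3 × ZMod 3 × ZMod 3 × ZMod 3 × ZMod 3

/-- The word with given parameters. -/
def encP (p : P6) : ArrayPt → ZMod 3 :=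
  enc6 p.1 p.2.1 p.2.2.1 p.2.2.2.1 p.2.2.2.2.1 p.2.2.2.2.2

theorem encP_injective : Function.Injective encP := by
  rintro ⟨a, b, c, d, e, f⟩ ⟨a', b', c', d', e', f'⟩ h
  have h0 : a = a' := congrFun h (0, 0)
  have h1 : b = b' := congrFun h (0, 1)
  have h2 : c = c' := congrFun h (0, 2)
  have h3 : d = d' := congrFun h (1, 0)
  have h4 : e = e' := congrFun h (1, 1)
  have h5 : f = f' := congrFun h (2, 0)
  rw [h0, h1, h2, h3, h4, h5]

theorem mem_code_iff (x : ArrayPt → ZMod 3) : x ∈ ternaryGolayCode ↔ ∃ p : P6, encP p = x := by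
  constructor
  · intro hx
    exact ⟨(x (0, 0), x (0, 1), x (0, 2), x (1, 0), x (1, 1), x (2, 0)), (word_eq hx).symm⟩
  · rintro ⟨p, rfl⟩
    exact enc6_mem _ _ _ _ _ _

theorem code_eq_range : (ternaryGolayCode : Set (ArrayPt → ZMod 3)) = Set.range encP := by
  ext x
  exact mem_code_iff x

theorem card_P6 : Nat.card P6 = 729 := by
  rw [Nat.card_eq_fintype_card]
  simp only [Fintype.card_prod, ZMod.card]

theorem card_code : Nat.card ↥ternaryGolayCode = 729 := by
  have h1 : Nat.card ↥(ternaryGolayCode : Set (ArrayPt → ZMod 3)) = Nat.card ↥(Set.range encP) :=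
    Nat.card_congr (Equiv.setCongr code_eq_range)
  have h2 : Nat.card ↥(Set.range encP) = Nat.card P6 :=
    Nat.card_congr (Equiv.ofInjective encP encP_injective).symm
  exact h1.trans (h2.trans card_P6)

theorem wt_cases : ∀ a b c d e f : ZMod 3,
    (ternarySupport (enc6 a b c d e f)).card = 0 ∨ (ternarySupport (enc6 a b c d e f)).card = 6 ∨
      (ternarySupport (enc6 a b c d e f)).card = 9 ∨
        (ternarySupport (enc6 a b c d e f)).card = 12 := by
  decide +kernel

theorem wt_code (x : ArrayPt → ZMod 3) (hx : x ∈ ternaryGolayCode) :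
    (ternarySupport x).card = 0 ∨ (ternarySupport x).card = 6 ∨
      (ternarySupport x).card = 9 ∨ (ternarySupport x).card = 12 := by
  obtain ⟨p, rfl⟩ := (mem_code_iff x).mp hx
  exact wt_cases _ _ _ _ _ _

theorem eq_zero_of_wt {x : ArrayPt → ZMod 3} (h : (ternarySupport x).card = 0) : x = 0 := by
  unfold ternarySupport at h
  rw [Finset.card_eq_zero, Finset.filter_eq_empty_iff] at h
  funext a
  have := h (Finset.mem_univ a)
  exact not_not.mp this

theorem ncard_wt (n : ℕ) :
    {x : ArrayPt → ZMod 3 | x ∈ ternaryGolayCode ∧ (ternarySupport x).card = n}.ncard =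
      (Finset.univ.filter (fun p : P6 => (ternarySupport (encP p)).card = n)).card := by
  have : {x : ArrayPt → ZMod 3 | x ∈ ternaryGolayCode ∧ (ternarySupport x).card = n} =
      encP '' ↑(Finset.univ.filter (fun p : P6 => (ternarySupport (encP p)).card = n)) := by
    ext x
    constructor
    · rintro ⟨hx, hn⟩
      obtain ⟨p, rfl⟩ := (mem_code_iff x).mp hx
      refine ⟨p, ?_, rfl⟩
      rw [Finset.mem_coe, Finset.mem_filter]
      exact ⟨Finset.mem_univ _, hn⟩
    · rintro ⟨p, hp, rfl⟩
      rw [Finset.mem_coe, Finset.mem_filter] at hp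
      exact ⟨(mem_code_iff _).mpr ⟨p, rfl⟩, hp.2⟩
  rw [this, Set.ncard_image_of_injective _ encP_injective, Set.ncard_coe_finset]

theorem count6 : (Finset.univ.filter (fun p : P6 => (ternarySupport (encP p)).card = 6)).card = 264 := by
  decide +kernel

theorem count9 : (Finset.univ.filter (fun p : P6 => (ternarySupport (encP p)).card = 9)).card = 440 := by
  decide +kernel

theorem count12 : (Finset.univ.filter (fun p : P6 => (ternarySupport (encP p)).card = 12)).card = 24 := by
  decide +kernel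

/-- Statement S1590. -/
theorem card_weights : Nat.card ↥ternaryGolayCode = 729 ∧
    (∀ x ∈ ternaryGolayCode, x ≠ 0 → (ternarySupport x).card = 6 ∨
      (ternarySupport x).card = 9 ∨ (ternarySupport x).card = 12) ∧
    {x : ArrayPt → ZMod 3 | x ∈ ternaryGolayCode ∧ (ternarySupport x).card = 6}.ncard = 264 ∧
    {x : ArrayPt → ZMod 3 | x ∈ ternaryGolayCode ∧ (ternarySupport x).card = 9}.ncard = 440 ∧
    {x : ArrayPt → ZMod 3 | x ∈ ternaryGolayCode ∧ (ternarySupport x).card = 12}.ncard = 24 := by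
  refine ⟨card_code, ?_, ?_, ?_, ?_⟩
  · intro x hx h0
    rcases wt_code x hx with h | h
    · exact absurd (eq_zero_of_wt h) h0
    · exact h
  · rw [ncard_wt, count6]
  · rw [ncard_wt, count9]
  · rw [ncard_wt, count12]

theorem self_dot : ∀ a b c d e f : ZMod 3,
    ∑ p : ArrayPt, enc6 a b c d e f p * enc6 a b c d e f p = 0 := by
  decide +kernel

/-- Statement S1591. -/
theorem dot_zero (x y : ArrayPt → ZMod 3) (hx : x ∈ ternaryGolayCode)
    (hy : y ∈ ternaryGolayCode) : ∑ p, x p * y p = 0 := by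
  have sd : ∀ z ∈ ternaryGolayCode, ∑ p, z p * z p = 0 := by
    intro z hz
    obtain ⟨p, rfl⟩ := (mem_code_iff z).mp hz
    exact self_dot _ _ _ _ _ _
  have h1 := sd (x + y) (add_mem hx hy)
  have h2 : ∑ p, (x + y) p * (x + y) p =
      ∑ p, x p * x p + 2 * ∑ p, x p * y p + ∑ p, y p * y p := by
    rw [Finset.mul_sum, ← Finset.sum_add_distrib, ← Finset.sum_add_distrib]
    apply Finset.sum_congr rfl
    intro p _
    simp only [Pi.add_apply]
    ring
  rw [h2, sd x hx, sd y hy, zero_add, add_zero] at h1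
  have key : ∀ t : ZMod 3, 2 * t = 0 → t = 0 := by decide
  exact key _ h1

theorem pair_cover : ∀ p q : ArrayPt, ∃ a b c d e f : ZMod 3,
    (ternarySupport (enc6 a b c d e f)).card = 6 ∧ enc6 a b c d e f p ≠ 0 ∧
      enc6 a b c d e f q ≠ 0 := by
  decide +kernel

theorem unit_cases (u : (ZMod 3)ˣ) : u = 1 ∨ u = -1 := by
  have h : ∀ v : ZMod 3, v ≠ 0 → v = 1 ∨ v = -1 := by decide
  rcases h (u : ZMod 3) u.ne_zero with h1 | h1
  · left
    exact Units.ext h1
  · right
    apply Units.ext
    rw [h1]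
    rfl

/-- Statement S1593. -/
theorem sign_const (c : ArrayPt → (ZMod 3)ˣ)
    (h : ∀ x ∈ ternaryGolayCode, monomialMap 1 c x ∈ ternaryGolayCode) :
    (∀ p, c p = 1) ∨ (∀ p, c p = -1) := by
  have key : ∀ g ∈ ternaryGolayCode, (ternarySupport g).card = 6 →
      ∀ p q, g p ≠ 0 → g q ≠ 0 → c p = c q := by
    intro g hg hw p q hp hq
    have hyc : monomialMap 1 c g ∈ ternaryGolayCode := h g hg
    have hd : monomialMap 1 c g - g ∈ ternaryGolayCode := sub_mem hyc hg
    have hyr : ∀ r, (monomialMap 1 c g - g) r = (c r : ZMod 3) * g r - g r := fun r => rfl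
    have hsub : ternarySupport (monomialMap 1 c g - g) ⊆ ternarySupport g := by
      intro r hr
      unfold ternarySupport at hr ⊢
      rw [Finset.mem_filter] at hr ⊢
      refine ⟨Finset.mem_univ _, fun h0 => hr.2 ?_⟩
      rw [hyr, h0, mul_zero, sub_zero]
    have hmem : ∀ r, r ∈ ternarySupport g ↔ g r ≠ 0 := by
      intro r
      unfold ternarySupport
      rw [Finset.mem_filter]
      exact ⟨fun hh => hh.2, fun hh => ⟨Finset.mem_univ _, hh⟩⟩
    have hmem' : ∀ r, r ∈ ternarySupport (monomialMap 1 c g - g) ↔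
        (c r : ZMod 3) * g r - g r ≠ 0 := by
      intro r
      unfold ternarySupport
      rw [Finset.mem_filter, hyr]
      exact ⟨fun hh => hh.2, fun hh => ⟨Finset.mem_univ _, hh⟩⟩
    have hle := Finset.card_le_card hsub
    rcases wt_code _ hd with h0 | h6 | h9 | h12
    · have hz := eq_zero_of_wt h0
      have h1 : ∀ r, g r ≠ 0 → c r = 1 := by
        intro r hr
        have := congrFun hz r
        rw [hyr, Pi.zero_apply] at this
        have h2 : ((c r : ZMod 3) - 1) * g r = 0 := by linear_combination this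
        rcases mul_eq_zero.mp h2 with h3 | h3
        · exact Units.ext (sub_eq_zero.mp h3)
        · exact absurd h3 hr
      rw [h1 p hp, h1 q hq]
    · have heq : ternarySupport (monomialMap 1 c g - g) = ternarySupport g :=
        Finset.eq_of_subset_of_card_le hsub (by rw [h6, hw])
      have h1 : ∀ r, g r ≠ 0 → c r = -1 := by
        intro r hr
        have hr' : r ∈ ternarySupport (monomialMap 1 c g - g) := by
          rw [heq]; exact (hmem r).mpr hr
        have h2 := (hmem' r).mp hr'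
        rcases unit_cases (c r) with h3 | h3
        · exfalso
          apply h2
          rw [h3]
          simp
        · exact h3
      rw [h1 p hp, h1 q hq]
    · omega
    · omega
  have hall : ∀ p q, c p = c q := by
    intro p q
    obtain ⟨a, b, c', d, e, f, hw, hp, hq⟩ := pair_cover p q
    exact key _ (enc6_mem a b c' d e f) hw p q hp hq
  rcases unit_cases (c (0, 0)) with h1 | h1
  · left
    intro p
    rw [hall p (0, 0), h1]
  · right
    intro p
    rw [hall p (0, 0), h1]

end Cfsg.Agent.Lib.helper28.TG
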